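import Mathlib
import Cfsg.Prelude.Def_ChevStructure
import Cfsg.Prelude.Def_ChevG2
import Cfsg.Prelude.Def_ChevB2
import Cfsg.Prelude.Def_ChevD4
import Cfsg.Prelude.Def_ChevF4
import Cfsg.Prelude.Def_ChevE6
import Cfsg.Prelude.Def_ChevE7
import Cfsg.Prelude.Def_ChevE8

set_option autoImplicit false

/-!
# Reachability of all roots from the fundamental roots by fundamental reflections

`reach_induction`: a predicate on root indices that holds on the fundamental roots and is preserved
by every `reflectRoot i` holds on all roots (for the seven concrete data, by a kernel-checked table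
test `reachChk`).  `reach_path`: every root is a `reflectRoot`-path applied to a fundamental root.
`reflect_lt`: `reflectRoot i s < nroots`.
-/

namespace Cfsg.Agent.Helper14

open Cfsg.Lie

/-- coroot height -/
def crHt (D : ChevalleyDatum) (r : ℕ) : ℤ := ((D.coroot.getD r #[]).toList).sum

/-- measure for the reachability induction -/
def reachMu (D : ChevalleyDatum) (r : ℕ) : ℕ :=
  if 0 < crHt D r then (crHt D r).toNat else 1000 + (- crHt D r).toNat

def reachChkRoot (D : ChevalleyDatum) (r : ℕ) : Bool :=
  ((List.range D.rank).any fun j => decide (D.simple j = r)) ||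
  ((List.range D.rank).any fun i =>
     decide (reachMu D (D.reflectRoot i r) < reachMu D r) &&
     (decide (D.reflectRoot i (D.reflectRoot i r) = r) && decide (D.reflectRoot i r < D.nroots)))

def reachChk (D : ChevalleyDatum) : Bool := (List.range D.nroots).all fun r => reachChkRoot D r

def reflChk (D : ChevalleyDatum) : Bool :=
  (List.range D.nroots).all fun r => (List.range D.rank).all fun i =>
    decide (D.reflectRoot i r < D.nroots)

def reflInvChk (D : ChevalleyDatum) : Bool :=
  ((List.range D.rank).all fun j => decide (D.simple j < D.nroots)) &&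
  (List.range D.nroots).all fun r => (List.range D.rank).all fun i =>
    decide (D.reflectRoot i (D.reflectRoot i r) = r)

theorem reach_induction_of_chk (D : ChevalleyDatum) (h : reachChk D = true) (P : ℕ → Prop)
    (hbase : ∀ j < D.rank, P (D.simple j))
    (hstep : ∀ i < D.rank, ∀ s < D.nroots, P s → P (D.reflectRoot i s)) :
    ∀ r < D.nroots, P r := by
  have key : ∀ n : ℕ, ∀ r < D.nroots, reachMu D r = n → P r := by
    intro n
    induction n using Nat.strong_induction_on with
    | _ n ih =>
      intro r hr hn
      have hr' := List.all_eq_true.mp h r (List.mem_range.mpr hr)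
      unfold reachChkRoot at hr'
      rw [Bool.or_eq_true] at hr'
      rcases hr' with h1 | h1
      · rw [List.any_eq_true] at h1
        obtain ⟨j, hj, hj'⟩ := h1
        rw [decide_eq_true_eq] at hj'
        rw [← hj']
        exact hbase j (List.mem_range.mp hj)
      · rw [List.any_eq_true] at h1
        obtain ⟨i, hi, hi'⟩ := h1
        simp only [Bool.and_eq_true, decide_eq_true_eq] at hi'
        obtain ⟨h1, h2, h3⟩ := hi'
        have := hstep i (List.mem_range.mp hi) _ h3 (ih _ (hn ▸ h1) _ h3 rfl)
        rw [h2] at this
        exact this
  intro r hr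
  exact key _ r hr rfl

theorem reflect_lt_of_chk (D : ChevalleyDatum) (h : reflChk D = true) (i : ℕ) (hi : i < D.rank)
    (s : ℕ) (hs : s < D.nroots) : D.reflectRoot i s < D.nroots := by
  have h1 := List.all_eq_true.mp (List.all_eq_true.mp h s (List.mem_range.mpr hs)) i
    (List.mem_range.mpr hi)
  exact of_decide_eq_true h1

set_option maxRecDepth 100000 in
theorem reachChk_G2 : reachChk chevG2 = true := by decide +kernel

set_option maxRecDepth 100000 in
theorem reachChk_B2 : reachChk chevB2 = true := by decide +kernel

set_option maxRecDepth 100000 in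
theorem reachChk_D4 : reachChk chevD4 = true := by decide +kernel

set_option maxRecDepth 100000 in
theorem reachChk_F4 : reachChk chevF4 = true := by decide +kernel

set_option maxRecDepth 100000 in
theorem reachChk_E6 : reachChk chevE6 = true := by decide +kernel

set_option maxRecDepth 100000 in
theorem reachChk_E7 : reachChk chevE7 = true := by decide +kernel

set_option maxRecDepth 100000 in
theorem reachChk_E8 : reachChk chevE8 = true := by decide +kernel

set_option maxRecDepth 100000 in
theorem reflChk_G2 : reflChk chevG2 = true := by decide +kernel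

set_option maxRecDepth 100000 in
theorem reflChk_B2 : reflChk chevB2 = true := by decide +kernel

set_option maxRecDepth 100000 in
theorem reflChk_D4 : reflChk chevD4 = true := by decide +kernel

set_option maxRecDepth 100000 in
theorem reflChk_F4 : reflChk chevF4 = true := by decide +kernel

set_option maxRecDepth 100000 in
theorem reflChk_E6 : reflChk chevE6 = true := by decide +kernel

set_option maxRecDepth 100000 in
theorem reflChk_E7 : reflChk chevE7 = true := by decide +kernel

set_option maxRecDepth 100000 in
theorem reflChk_E8 : reflChk chevE8 = true := by decide +kernel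

set_option maxRecDepth 100000 in
theorem reflInvChk_G2 : reflInvChk chevG2 = true := by decide +kernel

set_option maxRecDepth 100000 in
theorem reflInvChk_B2 : reflInvChk chevB2 = true := by decide +kernel

set_option maxRecDepth 100000 in
theorem reflInvChk_D4 : reflInvChk chevD4 = true := by decide +kernel

set_option maxRecDepth 100000 in
theorem reflInvChk_F4 : reflInvChk chevF4 = true := by decide +kernel

set_option maxRecDepth 100000 in
theorem reflInvChk_E6 : reflInvChk chevE6 = true := by decide +kernel

set_option maxRecDepth 100000 in
theorem reflInvChk_E7 : reflInvChk chevE7 = true := by decide +kernel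

set_option maxRecDepth 100000 in
theorem reflInvChk_E8 : reflInvChk chevE8 = true := by decide +kernel

theorem reflInvChk_all (D : ChevalleyDatum)
    (hD : D ∈ [chevG2, chevB2, chevD4, chevF4, chevE6, chevE7, chevE8]) : reflInvChk D = true := by
  simp only [List.mem_cons, List.mem_nil_iff, or_false] at hD
  rcases hD with rfl | rfl | rfl | rfl | rfl | rfl | rfl
  · exact reflInvChk_G2
  · exact reflInvChk_B2
  · exact reflInvChk_D4
  · exact reflInvChk_F4
  · exact reflInvChk_E6
  · exact reflInvChk_E7
  · exact reflInvChk_E8

/-- the fundamental roots are in range -/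
theorem simple_lt (D : ChevalleyDatum)
    (hD : D ∈ [chevG2, chevB2, chevD4, chevF4, chevE6, chevE7, chevE8]) (j : ℕ) (hj : j < D.rank) :
    D.simple j < D.nroots := by
  have h := reflInvChk_all D hD
  unfold reflInvChk at h
  rw [Bool.and_eq_true] at h
  exact of_decide_eq_true (List.all_eq_true.mp h.1 j (List.mem_range.mpr hj))

/-- fundamental reflections are involutions on root indices -/
theorem reflect_reflect (D : ChevalleyDatum)
    (hD : D ∈ [chevG2, chevB2, chevD4, chevF4, chevE6, chevE7, chevE8]) (i : ℕ) (hi : i < D.rank)
    (s : ℕ) (hs : s < D.nroots) : D.reflectRoot i (D.reflectRoot i s) = s := by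
  have h := reflInvChk_all D hD
  unfold reflInvChk at h
  rw [Bool.and_eq_true] at h
  exact of_decide_eq_true (List.all_eq_true.mp (List.all_eq_true.mp h.2 s (List.mem_range.mpr hs)) i
    (List.mem_range.mpr hi))

theorem reachChk_all (D : ChevalleyDatum)
    (hD : D ∈ [chevG2, chevB2, chevD4, chevF4, chevE6, chevE7, chevE8]) : reachChk D = true := by
  simp only [List.mem_cons, List.mem_nil_iff, or_false] at hD
  rcases hD with rfl | rfl | rfl | rfl | rfl | rfl | rfl
  · exact reachChk_G2
  · exact reachChk_B2
  · exact reachChk_D4
  · exact reachChk_F4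
  · exact reachChk_E6
  · exact reachChk_E7
  · exact reachChk_E8

theorem reflChk_all (D : ChevalleyDatum)
    (hD : D ∈ [chevG2, chevB2, chevD4, chevF4, chevE6, chevE7, chevE8]) : reflChk D = true := by
  simp only [List.mem_cons, List.mem_nil_iff, or_false] at hD
  rcases hD with rfl | rfl | rfl | rfl | rfl | rfl | rfl
  · exact reflChk_G2
  · exact reflChk_B2
  · exact reflChk_D4
  · exact reflChk_F4
  · exact reflChk_E6
  · exact reflChk_E7
  · exact reflChk_E8

/-- **Reachability induction**: for the seven concrete data, a predicate on root indices that holds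
on the fundamental roots and is preserved by the fundamental reflections holds on all roots. -/
theorem reach_induction (D : ChevalleyDatum)
    (hD : D ∈ [chevG2, chevB2, chevD4, chevF4, chevE6, chevE7, chevE8]) (P : ℕ → Prop)
    (hbase : ∀ j < D.rank, P (D.simple j))
    (hstep : ∀ i < D.rank, ∀ s < D.nroots, P s → P (D.reflectRoot i s)) :
    ∀ r < D.nroots, P r :=
  reach_induction_of_chk D (reachChk_all D hD) P hbase hstep

/-- fundamental reflections preserve the index range -/
theorem reflect_lt (D : ChevalleyDatum)
    (hD : D ∈ [chevG2, chevB2, chevD4, chevF4, chevE6, chevE7, chevE8]) (i : ℕ) (hi : i < D.rank)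
    (s : ℕ) (hs : s < D.nroots) : D.reflectRoot i s < D.nroots :=
  reflect_lt_of_chk D (reflChk_all D hD) i hi s hs

/-- every root is obtained from a fundamental root by a path of fundamental reflections -/
theorem reach_path (D : ChevalleyDatum)
    (hD : D ∈ [chevG2, chevB2, chevD4, chevF4, chevE6, chevE7, chevE8]) :
    ∀ r < D.nroots, ∃ j < D.rank, ∃ path : List ℕ, (∀ i ∈ path, i < D.rank) ∧
      r = path.foldr (fun i s => D.reflectRoot i s) (D.simple j) := by
  apply reach_induction D hD
  · intro j hj
    exact ⟨j, hj, [], by simp, rfl⟩
  · rintro i hi s _ ⟨j, hj, path, hpath, rfl⟩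
    refine ⟨j, hj, i :: path, ?_, rfl⟩
    intro i' hi'
    rcases List.mem_cons.mp hi' with rfl | h
    · exact hi
    · exact hpath i' h

end Cfsg.Agent.Helper14
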