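import Mathlib
import Cfsg.Prelude
import Cfsg.Agent.S1023
import Cfsg.Agent.S1024
import Cfsg.Agent.S1031
import Cfsg.Agent.Helper14.Reach

set_option autoImplicit false
open Cfsg

namespace Cfsg.Agent.Helper14.ChevGen

open Cfsg.Lie Cfsg.Agent.Helper14
open scoped Matrix MatrixGroups

variable {F : Type*} [Field F]

theorem x_inv (D : ChevalleyDatum)
    (hD : D ∈ [chevG2, chevB2, chevD4, chevF4, chevE6, chevE7, chevE8]) (r : ℕ) (t : F) :
    D.x F r t * D.x F r (-t) = 1 := by
  by_cases hr : r < D.nroots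
  · rw [Cfsg.Agent.S1023.result D hD r hr, add_neg_cancel]
    exact (Cfsg.Agent.S1024.result D hD r hr 0).mpr rfl
  · unfold ChevalleyDatum.x
    rw [dif_neg hr, dif_neg hr, one_mul]

theorem exists_gl (D : ChevalleyDatum)
    (hD : D ∈ [chevG2, chevB2, chevD4, chevF4, chevE6, chevE7, chevE8]) (r : ℕ) (t : F) :
    ∃ g : GL D.Idx F, (g : Matrix D.Idx D.Idx F) = D.x F r t := by
  refine ⟨⟨D.x F r t, D.x F r (-t), x_inv D hD r t, ?_⟩, rfl⟩
  have := x_inv D hD r (-t)
  rwa [neg_neg] at this

/-- the root elements of the fundamental roots and of their negatives -/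
def simpleGens (D : ChevalleyDatum) (F : Type*) [Field F] : Set (GL D.Idx F) :=
  {g | ∃ i, i < D.rank ∧ ∃ t : F, (g : Matrix D.Idx D.Idx F) = D.x F (D.simple i) t ∨
    (g : Matrix D.Idx D.Idx F) = D.x F (D.neg (D.simple i)) t}

theorem nMat_eq (D : ChevalleyDatum) (r : ℕ) (t : F) :
    D.nMat F r t = D.x F r t * D.x F (D.neg r) (-t⁻¹) * D.x F r t := by
  unfold ChevalleyDatum.nMat ChevalleyDatum.wordMat ChevalleyDatum.nWord
  simp [mul_assoc]

theorem x_mem_closure (D : ChevalleyDatum)
    (hD : D ∈ [chevG2, chevB2, chevD4, chevF4, chevE6, chevE7, chevE8]) :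
    ∀ r < D.nroots, ∀ (t : F) (g : GL D.Idx F), (g : Matrix D.Idx D.Idx F) = D.x F r t →
      g ∈ Subgroup.closure (simpleGens D F) := by
  apply reach_induction D hD
  · intro j hj t g hg
    exact Subgroup.subset_closure ⟨j, hj, t, Or.inl hg⟩
  · intro i hi s hs ih t g hg
    obtain ⟨η, hη, hηeq⟩ := Cfsg.Agent.S1031.result (F := F) D hD i s hi hs
    have hηη : (η : F) * (η : F) = 1 := by rcases hη with rfl | rfl <;> simp
    obtain ⟨a, ha⟩ := exists_gl D hD (D.simple i) (1 : F)
    obtain ⟨b, hb⟩ := exists_gl D hD (D.neg (D.simple i)) (-(1 : F)⁻¹)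
    obtain ⟨gs, hgs⟩ := exists_gl D hD s ((η : F) * t)
    have haK : a ∈ Subgroup.closure (simpleGens D F) :=
      Subgroup.subset_closure ⟨i, hi, 1, Or.inl ha⟩
    have hbK : b ∈ Subgroup.closure (simpleGens D F) :=
      Subgroup.subset_closure ⟨i, hi, _, Or.inr hb⟩
    have hgsK := ih _ gs hgs
    obtain ⟨N, hNdef⟩ : ∃ N : GL D.Idx F, N = a * b * a := ⟨_, rfl⟩
    have hN : (N : Matrix D.Idx D.Idx F) = D.nMat F (D.simple i) 1 := by
      rw [hNdef, nMat_eq, Units.val_mul, Units.val_mul, ha, hb]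
    have hcomm : N * gs = g * N := by
      apply Units.ext
      rw [Units.val_mul, Units.val_mul, hN, hgs, hg, hηeq, ← mul_assoc, hηη, one_mul]
    have hNK : N ∈ Subgroup.closure (simpleGens D F) := by
      rw [hNdef]
      exact Subgroup.mul_mem _ (Subgroup.mul_mem _ haK hbK) haK
    have : g = N * gs * N⁻¹ := by rw [hcomm]; group
    rw [this]
    exact Subgroup.mul_mem _ (Subgroup.mul_mem _ hNK hgsK) (Subgroup.inv_mem _ hNK)

theorem neg_simple_lt (D : ChevalleyDatum)
    (hD : D ∈ [chevG2, chevB2, chevD4, chevF4, chevE6, chevE7, chevE8]) (i : ℕ) (hi : i < D.rank) :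
    D.neg (D.simple i) < D.nroots := by
  have := reflect_lt D hD i hi (D.simple i) (simple_lt D hD i hi)
  unfold ChevalleyDatum.reflectRoot at this
  simpa using this

/-- the Chevalley group is generated by the root elements of the fundamental roots and their
negatives -/
theorem group_eq_closure (D : ChevalleyDatum)
    (hD : D ∈ [chevG2, chevB2, chevD4, chevF4, chevE6, chevE7, chevE8]) :
    D.group F = Subgroup.closure (simpleGens D F) := by
  apply le_antisymm
  · unfold ChevalleyDatum.group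
    rw [Subgroup.closure_le]
    rintro g ⟨r, t, hg⟩
    apply x_mem_closure D hD r.val r.2 t g
    rw [hg]
    unfold ChevalleyDatum.x
    rw [dif_pos r.2]
  · rw [Subgroup.closure_le]
    rintro g ⟨i, hi, t, hg | hg⟩
    · apply Subgroup.subset_closure
      refine ⟨⟨D.simple i, simple_lt D hD i hi⟩, t, ?_⟩
      rw [hg]
      unfold ChevalleyDatum.x
      rw [dif_pos (simple_lt D hD i hi)]
    · apply Subgroup.subset_closure
      refine ⟨⟨D.neg (D.simple i), neg_simple_lt D hD i hi⟩, t, ?_⟩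
      rw [hg]
      unfold ChevalleyDatum.x
      rw [dif_pos (neg_simple_lt D hD i hi)]

theorem hom_ext_of_closure {G M : Type*} [Group G] [Monoid M] (H : Subgroup G) (S : Set G)
    (hS : H = Subgroup.closure S) (φ ψ : H →* M) (h : ∀ y : H, (y : G) ∈ S → φ y = ψ y) :
    φ = ψ := by
  subst hS
  exact MonoidHom.eq_of_eqOn_dense (Subgroup.closure_closure_coe_preimage) (fun y hy => h y hy)

end Cfsg.Agent.Helper14.ChevGen

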