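import Mathlib
import Cfsg.Prelude.Def_ChevAutomorphisms
import Cfsg.Prelude.Def_ChevD4
import Cfsg.Prelude.Def_ChevE6

set_option autoImplicit false

/-!
# Diagram symmetries of `D₄` and `E₆` and the induced permutation of roots

For a diagram symmetry `π`, `permRoot π` sends fundamental roots to fundamental roots and
commutes with the fundamental reflections (checked by kernel computation on the tables).
-/

namespace Cfsg.Agent.Helper14.ChevSym

open Cfsg.Lie

/-- `permRoot` with the permutation given as a list of images -/
def permRootL (D : ChevalleyDatum) (l : List ℕ) (r : ℕ) : ℕ :=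
  ((List.range D.nroots).find? fun s => (List.range D.rank).all fun i =>
      (D.coroot.getD s #[]).getD (l.getD i 0) 0 == (D.coroot.getD r #[]).getD i 0).getD r

theorem permRoot_eq (D : ChevalleyDatum) (π : Equiv.Perm (Fin D.rank)) (l : List ℕ)
    (hl : ∀ i : Fin D.rank, l.getD i.val 0 = (π i).val) (r : ℕ) :
    D.permRoot π r = permRootL D l r := by
  unfold ChevalleyDatum.permRoot permRootL
  congr 2
  funext s
  rw [Bool.eq_iff_iff, List.all_eq_true, List.all_eq_true]
  constructor
  · intro h i hi
    rw [List.mem_range] at hi
    have := h ⟨i, hi⟩ (List.mem_finRange _)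
    rw [hl ⟨i, hi⟩]
    exact this
  · intro h i _
    have := h i.val (List.mem_range.mpr i.2)
    rw [hl i] at this
    exact this

/-- the facts we need about the permutation of roots, as a Boolean check -/
def symChk (D : ChevalleyDatum) (l : List ℕ) : Bool :=
  ((List.range D.rank).all fun j =>
    decide (permRootL D l (D.simple j) = D.simple (l.getD j 0))) &&
  ((List.range D.nroots).all fun s => decide (permRootL D l s < D.nroots) &&
    (List.range D.rank).all fun i =>
      decide (D.reflectRoot (l.getD i 0) (permRootL D l s) = permRootL D l (D.reflectRoot i s)))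

theorem sym_facts (D : ChevalleyDatum) (π : Equiv.Perm (Fin D.rank)) (l : List ℕ)
    (hl : ∀ i : Fin D.rank, l.getD i.val 0 = (π i).val) (h : symChk D l = true) :
    (∀ j : Fin D.rank, D.permRoot π (D.simple j) = D.simple (π j)) ∧
    (∀ s < D.nroots, D.permRoot π s < D.nroots ∧ ∀ i : Fin D.rank,
      D.reflectRoot (π i) (D.permRoot π s) = D.permRoot π (D.reflectRoot i s)) := by
  unfold symChk at h
  rw [Bool.and_eq_true, List.all_eq_true, List.all_eq_true] at h
  obtain ⟨h1, h2⟩ := h
  constructor
  · intro j
    have := of_decide_eq_true (h1 j.val (List.mem_range.mpr j.2))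
    rw [permRoot_eq D π l hl, this, hl j]
  · intro s hs
    have := h2 s (List.mem_range.mpr hs)
    rw [Bool.and_eq_true, List.all_eq_true] at this
    obtain ⟨h3, h4⟩ := this
    constructor
    · rw [permRoot_eq D π l hl]
      exact of_decide_eq_true h3
    · intro i
      have := of_decide_eq_true (h4 i.val (List.mem_range.mpr i.2))
      rw [permRoot_eq D π l hl, permRoot_eq D π l hl, ← hl i]
      exact this

/-- depth-first search over the assignments compatible with the bond numbers -/
def search (D : ChevalleyDatum) : ℕ → List ℕ → Bool
  | 0, pre => symChk D pre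
  | k + 1, pre => (List.range D.rank).all fun v =>
      !((List.range pre.length).all fun j =>
          decide (D.bonds (pre.getD j 0) v = D.bonds j pre.length)) ||
        search D k (pre ++ [v])

theorem search_sound (D : ChevalleyDatum) : ∀ (k : ℕ) (pre l : List ℕ),
    search D k pre = true → l.length = k → (∀ v ∈ l, v < D.rank) →
    (∀ i j : ℕ, j < i → pre.length ≤ i → i < (pre ++ l).length →
      D.bonds ((pre ++ l).getD j 0) ((pre ++ l).getD i 0) = D.bonds j i) →
    symChk D (pre ++ l) = true := by
  intro k
  induction k with
  | zero =>
    intro pre l h hl _ _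
    rw [List.length_eq_zero_iff.mp hl, List.append_nil]
    exact h
  | succ k ih =>
    intro pre l h hl hlt hb
    obtain ⟨v, l', rfl⟩ : ∃ v l', l = v :: l' := by
      cases l with
      | nil => simp at hl
      | cons v l' => exact ⟨v, l', rfl⟩
    have hv : v < D.rank := hlt v (List.mem_cons_self)
    unfold search at h
    rw [List.all_eq_true] at h
    have h1 := h v (List.mem_range.mpr hv)
    rw [Bool.or_eq_true] at h1
    have hcompat : ((List.range pre.length).all fun j =>
        decide (D.bonds (pre.getD j 0) v = D.bonds j pre.length)) = true := by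
      rw [List.all_eq_true]
      intro j hj
      rw [List.mem_range] at hj
      have := hb pre.length j hj le_rfl (by simp)
      rw [List.getD_append _ _ _ _ hj, List.getD_append_right _ _ _ _ le_rfl] at this
      simp only [Nat.sub_self, List.getD_cons_zero] at this
      exact decide_eq_true this
    rcases h1 with h1 | h1
    · rw [hcompat] at h1
      simp at h1
    · have := ih (pre ++ [v]) l' h1 (by simpa using hl)
        (fun w hw => hlt w (List.mem_cons_of_mem _ hw))
        (by
          intro i j hji hi hilt
          have e : pre ++ [v] ++ l' = pre ++ v :: l' := by simp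
          rw [e] at hilt ⊢
          exact hb i j hji (by rw [List.length_append, List.length_singleton] at hi; omega) hilt)
      have e : pre ++ [v] ++ l' = pre ++ v :: l' := by simp
      rw [e] at this
      exact this

/-- for a datum passing the search, every diagram symmetry satisfies the facts of `sym_facts` -/
theorem sym_facts_of_search (D : ChevalleyDatum) (h : search D D.rank [] = true)
    (π : Equiv.Perm (Fin D.rank)) (hπ : D.IsDiagramSymmetry π) :
    (∀ j : Fin D.rank, D.permRoot π (D.simple j) = D.simple (π j)) ∧
    (∀ s < D.nroots, D.permRoot π s < D.nroots ∧ ∀ i : Fin D.rank,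
      D.reflectRoot (π i) (D.permRoot π s) = D.permRoot π (D.reflectRoot i s)) := by
  obtain ⟨l, hl⟩ : ∃ l : List ℕ, l = List.ofFn (fun i : Fin D.rank => (π i).val) := ⟨_, rfl⟩
  have hlen : l.length = D.rank := by rw [hl, List.length_ofFn]
  have hget : ∀ i : Fin D.rank, l.getD i.val 0 = (π i).val := by
    intro i
    rw [List.getD_eq_getElem _ _ (by rw [hlen]; exact i.2)]
    simp [hl]
  apply sym_facts D π l hget
  have := search_sound D D.rank [] l h hlen
    (by
      intro v hv
      rw [hl, List.mem_ofFn] at hv
      obtain ⟨i, rfl⟩ := hv
      exact (π i).2)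
    (by
      intro i j hji _ hilt
      rw [List.nil_append] at hilt ⊢
      rw [hlen] at hilt
      have hj : j < D.rank := lt_trans hji hilt
      have e1 := hget ⟨i, hilt⟩
      have e2 := hget ⟨j, hj⟩
      simp only at e1 e2
      rw [e1, e2]
      exact hπ ⟨j, hj⟩ ⟨i, hilt⟩ (by
        intro heq
        have := congrArg Fin.val heq
        simp only at this
        omega))
  rw [List.nil_append] at this
  exact this

set_option maxRecDepth 100000 in
theorem search_D4 : search chevD4 chevD4.rank [] = true := by decide +kernel

set_option maxRecDepth 100000 in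
theorem search_E6 : search chevE6 chevE6.rank [] = true := by decide +kernel

/-- the facts for `D₄` and `E₆` -/
theorem sym_facts_all (D : ChevalleyDatum) (hD : D ∈ [chevD4, chevE6])
    (π : Equiv.Perm (Fin D.rank)) (hπ : D.IsDiagramSymmetry π) :
    (∀ j : Fin D.rank, D.permRoot π (D.simple j) = D.simple (π j)) ∧
    (∀ s < D.nroots, D.permRoot π s < D.nroots ∧ ∀ i : Fin D.rank,
      D.reflectRoot (π i) (D.permRoot π s) = D.permRoot π (D.reflectRoot i s)) := by
  simp only [List.mem_cons, List.mem_nil_iff, or_false] at hD
  rcases hD with rfl | rfl
  · exact sym_facts_of_search _ search_D4 π hπ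
  · exact sym_facts_of_search _ search_E6 π hπ

end Cfsg.Agent.Helper14.ChevSym
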