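import Mathlib
import Cfsg.Prelude.Def_Characters
import Cfsg.Prelude.Def_Perm
import Cfsg.Agent.Helper2.CharExtra
import Cfsg.Agent.Helper25.CharMore

set_option autoImplicit false
set_option linter.unusedSectionVars false
set_option linter.style.haveILetI false

/-!
# The commutant of a complex representation of a finite group

* `retraction`: a nonzero intertwining map from an irreducible representation has an
  intertwining left inverse (Maschke).
* `finrank_le_one_of_comm`: if the commutant of `ρ` is commutative, every irreducible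
  representation occurs in `ρ` at most once.
* `comm_of_mult`: if every irreducible character occurs at most once in the character of `ρ`,
  the commutant of `ρ` is commutative (it is spanned by the orthogonal idempotents `idem`).
* `permRep_character`: the character of the permutation representation counts fixed points.
-/

namespace Cfsg.Agent.Helper14.Comm

open Cfsg Representation
open scoped ComplexConjugate

variable {G : Type*} [Group G] [Fintype G]
  {V : Type*} [AddCommGroup V] [Module ℂ V] {W : Type*} [AddCommGroup W] [Module ℂ W]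

/-- Maschke: a nonzero intertwining map out of an irreducible representation splits. -/
theorem retraction (ρ : Representation ℂ G V) (σ : Representation ℂ G W) [σ.IsIrreducible]
    (α : IntertwiningMap σ ρ) (hα : α ≠ 0) :
    ∃ β : IntertwiningMap ρ σ, β.comp α = IntertwiningMap.id σ := by
  have hinj : Function.Injective α :=
    (Representation.IsIrreducible.injective_or_eq_zero α).resolve_right hα
  obtain ⟨β₀, hβ₀⟩ := LinearMap.exists_leftInverse_of_injective α.toLinearMap
    (LinearMap.ker_eq_bot.mpr hinj)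
  have hβ₀' : ∀ w : W, β₀ (α w) = w := fun w => LinearMap.congr_fun hβ₀ w
  let βl : V →ₗ[ℂ] W := (Fintype.card G : ℂ)⁻¹ • ∑ g : G, σ g⁻¹ ∘ₗ β₀ ∘ₗ ρ g
  have hβl : ∀ v : V, βl v = (Fintype.card G : ℂ)⁻¹ • ∑ g : G, σ g⁻¹ (β₀ (ρ g v)) := by
    intro v
    simp [βl, LinearMap.sum_apply]
  have hint : ∀ h : G, βl ∘ₗ ρ h = σ h ∘ₗ βl := by
    intro h
    ext v
    rw [LinearMap.comp_apply, LinearMap.comp_apply, hβl, hβl, map_smul, map_sum]
    congr 1
    apply Fintype.sum_equiv (Equiv.mulRight h)
    intro g
    simp only [Equiv.coe_mulRight, mul_inv_rev, map_mul, Module.End.mul_apply]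
    rw [← Module.End.mul_apply (σ h) (σ h⁻¹), ← map_mul, mul_inv_cancel, map_one,
      Module.End.one_apply]
  refine ⟨⟨βl, hint⟩, ?_⟩
  apply IntertwiningMap.ext
  ext w
  show βl (α w) = w
  rw [hβl]
  have h1 : ∀ g : G, σ g⁻¹ (β₀ (ρ g (α w))) = w := by
    intro g
    rw [← IntertwiningMap.isIntertwining σ ρ α g w, hβ₀', ← Module.End.mul_apply, ← map_mul, inv_mul_cancel, map_one,
      Module.End.one_apply]
  rw [Finset.sum_congr rfl (fun g _ => h1 g), Finset.sum_const, Finset.card_univ, ← Nat.cast_smul_eq_nsmul ℂ,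
    smul_smul, inv_mul_cancel₀, one_smul]
  exact_mod_cast Fintype.card_ne_zero

theorem comp_apply' {U : Type*} [AddCommGroup U] [Module ℂ U] {ρ : Representation ℂ G V}
    {σ : Representation ℂ G W} {τ : Representation ℂ G U}
    (f : IntertwiningMap σ τ) (g : IntertwiningMap ρ σ) (v : V) : (f.comp g) v = f (g v) := rfl

/-- If the commutant of `ρ` is commutative then each irreducible occurs at most once. -/
theorem finrank_le_one_of_comm [FiniteDimensional ℂ V] [FiniteDimensional ℂ W]
    (ρ : Representation ℂ G V) (σ : Representation ℂ G W) [σ.IsIrreducible]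
    (hcomm : ∀ S T : IntertwiningMap ρ ρ, S.comp T = T.comp S) :
    Module.finrank ℂ (IntertwiningMap σ ρ) ≤ 1 := by
  by_contra hlt
  push Not at hlt
  have hpos : 0 < Module.finrank ℂ (IntertwiningMap σ ρ) := by omega
  obtain ⟨α₁, hα₁⟩ := Module.finrank_pos_iff_exists_ne_zero.mp hpos
  obtain ⟨β₁, hβ₁⟩ := retraction ρ σ α₁ hα₁
  let Φ : IntertwiningMap σ ρ →ₗ[ℂ] IntertwiningMap σ σ := IntertwiningMap.llcomp σ ρ σ β₁
  have h1 : Module.finrank ℂ (IntertwiningMap σ σ) < Module.finrank ℂ (IntertwiningMap σ ρ) := by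
    rw [Representation.IsIrreducible.finrank_intertwiningMap_self]
    exact hlt
  obtain ⟨α₂, hα₂ker, hα₂⟩ := (Submodule.ne_bot_iff _).mp
    (LinearMap.ker_ne_bot_of_finrank_lt (f := Φ) h1)
  have hβ₁α₂ : β₁.comp α₂ = 0 := LinearMap.mem_ker.mp hα₂ker
  obtain ⟨β₂, hβ₂⟩ := retraction ρ σ α₂ hα₂
  have e11 : ∀ w : W, β₁ (α₁ w) = w := fun w => DFunLike.congr_fun hβ₁ w
  have e22 : ∀ w : W, β₂ (α₂ w) = w := fun w => DFunLike.congr_fun hβ₂ w
  have e12 : ∀ w : W, β₁ (α₂ w) = 0 := fun w => DFunLike.congr_fun hβ₁α₂ w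
  have hc := hcomm (α₂.comp β₁) (α₁.comp β₂)
  have hzero : ∀ w : W, w = 0 := by
    intro w
    have h2 := DFunLike.congr_fun hc (α₁ w)
    simp only [comp_apply'] at h2
    have h3 := congrArg β₁ h2
    rw [e12] at h3
    rw [e11, e22, e11] at h3
    exact h3.symm
  apply hα₁
  apply IntertwiningMap.ext
  ext w
  have := hzero w
  subst this
  simp

/-- If every irreducible character occurs at most once in `ρ`, the commutant is commutative. -/
theorem comm_of_mult [FiniteDimensional ℂ V] (ρ : Representation ℂ G V)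
    (hm : ∀ χ : IrrCharacter G, classInner ρ.character (χ : G → ℂ) = 0 ∨
      classInner ρ.character (χ : G → ℂ) = 1) :
    ∀ S T : IntertwiningMap ρ ρ, S * T = T * S := by
  classical
  choose n σ hσirr hσchar using (fun χ : IrrCharacter G => χ.2)
  let ι := {χ : IrrCharacter G // classInner ρ.character (χ : G → ℂ) = 1}
  have hex : ∀ i : ι, ∃ (α : IntertwiningMap (σ i.1) ρ) (β : IntertwiningMap ρ (σ i.1)),
      α ≠ 0 ∧ β.comp α = IntertwiningMap.id (σ i.1) := by
    intro i
    haveI := hσirr i.1
    have h1 : (Module.finrank ℂ (IntertwiningMap (σ i.1) ρ) : ℂ) = 1 := by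
      rw [← Helper2.classInner_char_char_finrank ρ (σ i.1), hσchar]
      exact i.2
    have h2 : 0 < Module.finrank ℂ (IntertwiningMap (σ i.1) ρ) := by
      have : Module.finrank ℂ (IntertwiningMap (σ i.1) ρ) = 1 := by exact_mod_cast h1
      omega
    obtain ⟨α, hα⟩ := Module.finrank_pos_iff_exists_ne_zero.mp h2
    obtain ⟨β, hβ⟩ := retraction ρ (σ i.1) α hα
    exact ⟨α, β, hα, hβ⟩
  choose α β hα hβα using hex
  have e1 : ∀ (i : ι) (w : Fin (n i.1) → ℂ), β i (α i w) = w :=
    fun i w => DFunLike.congr_fun (hβα i) w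
  have horth : ∀ i j : ι, i ≠ j → (β i).comp (α j) = 0 := by
    intro i j hij
    haveI := hσirr i.1
    haveI := hσirr j.1
    have h1 : (Module.finrank ℂ (IntertwiningMap (σ j.1) (σ i.1)) : ℂ) = 0 := by
      rw [← Helper2.classInner_char_char_finrank (σ i.1) (σ j.1), hσchar, hσchar,
        Helper2.classInner_irr_irr, if_neg]
      intro h
      exact hij (Subtype.ext h)
    have h2 : Module.finrank ℂ (IntertwiningMap (σ j.1) (σ i.1)) = 0 := by exact_mod_cast h1
    haveI : Subsingleton (IntertwiningMap (σ j.1) (σ i.1)) := Module.finrank_zero_iff.mp h2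
    exact Subsingleton.elim _ _
  have e2 : ∀ (i j : ι), i ≠ j → ∀ w : Fin (n j.1) → ℂ, β i (α j w) = 0 :=
    fun i j hij w => DFunLike.congr_fun (horth i j hij) w
  let P : ι → IntertwiningMap ρ ρ := fun i => (α i).comp (β i)
  have hPv : ∀ (i : ι) (v : V), P i v = α i (β i v) := fun i v => rfl
  have hPP : ∀ i j : ι, P i * P j = if i = j then P i else 0 := by
    intro i j
    apply IntertwiningMap.ext
    ext v
    show P i (P j v) = _
    split_ifs with h
    · subst h
      rw [hPv, hPv, e1]
      rfl
    · rw [hPv, hPv, e2 i j h, map_zero]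
      rfl
  have hPne : ∀ i, P i ≠ 0 := by
    intro i h
    apply hα i
    apply IntertwiningMap.ext
    apply LinearMap.ext
    intro w
    have h1 : P i (α i w) = 0 := by rw [h]; rfl
    rw [hPv, e1] at h1
    exact h1
  have hli : LinearIndependent ℂ P := by
    rw [linearIndependent_iff']
    intro s c hc i hi
    have h1 := congrArg (fun X => P i * X) hc
    simp only [Finset.mul_sum, mul_smul_comm, hPP, mul_zero] at h1
    rw [Finset.sum_eq_single i] at h1
    · rw [if_pos rfl] at h1
      rcases smul_eq_zero.mp h1 with h | h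
      · exact h
      · exact absurd h (hPne i)
    · intro j _ hj
      rw [if_neg (Ne.symm hj), smul_zero]
    · intro h
      exact absurd hi h
  have hcard : Fintype.card ι = Module.finrank ℂ (IntertwiningMap ρ ρ) := by
    have h1 : (Module.finrank ℂ (IntertwiningMap ρ ρ) : ℂ) =
        classInner ρ.character ρ.character := (Helper2.classInner_char_char_finrank ρ ρ).symm
    have hcl : IsClassFunction G ρ.character :=
      Helper2.isClassFunction_of_isCharacter (Helper1.isCharacter_character ρ)
    rw [Helper2.classInner_eq_sum_mul hcl] at h1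
    have h2 : ∀ χ : IrrCharacter G, classInner ρ.character (χ : G → ℂ) *
        conj (classInner ρ.character (χ : G → ℂ)) =
        if classInner ρ.character (χ : G → ℂ) = 1 then 1 else 0 := by
      intro χ
      rcases hm χ with h | h <;> simp [h]
    rw [Finset.sum_congr rfl (fun χ _ => h2 χ), Finset.sum_boole] at h1
    rw [Fintype.card_subtype]
    exact_mod_cast h1.symm
  have hspan := hli.span_eq_top_of_card_eq_finrank' hcard
  intro S T
  have hS : S ∈ Submodule.span ℂ (Set.range P) := by
    rw [hspan]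
    trivial
  have hT : T ∈ Submodule.span ℂ (Set.range P) := by
    rw [hspan]
    trivial
  refine Submodule.span_induction₂ (p := fun x y _ _ => x * y = y * x) ?_ ?_ ?_ ?_ ?_ ?_ ?_ hS hT
  · rintro x y ⟨i, rfl⟩ ⟨j, rfl⟩
    rw [hPP, hPP]
    by_cases h : i = j
    · subst h
      rfl
    · rw [if_neg h, if_neg (Ne.symm h)]
  · intro y _
    rw [zero_mul, mul_zero]
  · intro x _
    rw [zero_mul, mul_zero]
  · intro x y z _ _ _ h1 h2
    rw [add_mul, mul_add, h1, h2]
  · intro x y z _ _ _ h1 h2
    rw [mul_add, add_mul, h1, h2]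
  · intro r x y _ _ h
    rw [smul_mul_assoc, mul_smul_comm, h]
  · intro r x y _ _ h
    rw [mul_smul_comm, smul_mul_assoc, h]

/-- The character of the permutation representation counts fixed points. -/
theorem permRep_character {Ω : Type*} [Fintype Ω] [MulAction G Ω] (g : G) :
    (permRep ℂ G Ω).character g = (Nat.card (MulAction.fixedBy Ω g) : ℂ) := by
  classical
  show LinearMap.trace ℂ (Ω → ℂ) (permRep ℂ G Ω g) = _
  rw [LinearMap.trace_eq_matrix_trace ℂ (Pi.basisFun ℂ Ω), Matrix.trace]
  have h1 : ∀ i : Ω, (LinearMap.toMatrix (Pi.basisFun ℂ Ω) (Pi.basisFun ℂ Ω) (permRep ℂ G Ω g)).diag i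
      = if g • i = i then 1 else 0 := by
    intro i
    rw [Matrix.diag_apply, LinearMap.toMatrix_apply, Pi.basisFun_apply, Pi.basisFun_repr]
    show (Pi.single i (1 : ℂ) : Ω → ℂ) (g⁻¹ • i) = _
    rw [Pi.single_apply]
    have : g⁻¹ • i = i ↔ g • i = i := by
      rw [inv_smul_eq_iff, eq_comm]
    simp only [this]
  rw [Finset.sum_congr rfl (fun i _ => h1 i), Finset.sum_boole, Nat.card_eq_fintype_card,
    Fintype.card_subtype]
  rfl

theorem mem_invariants_iff (ρ : Representation ℂ G V) (S : V →ₗ[ℂ] V) :
    S ∈ (ρ.linHom ρ).invariants ↔ ∀ g : G, S ∘ₗ ρ g = ρ g ∘ₗ S := by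
  rw [Representation.mem_invariants]
  constructor
  · intro h g
    have h1 := h g
    rw [Representation.linHom_apply] at h1
    apply LinearMap.ext
    intro v
    have h2 := LinearMap.congr_fun h1 (ρ g v)
    simp only [LinearMap.comp_apply] at h2 ⊢
    rw [Representation.inv_self_apply] at h2
    exact h2.symm
  · intro h g
    rw [Representation.linHom_apply]
    apply LinearMap.ext
    intro v
    have h2 := LinearMap.congr_fun (h g) (ρ g⁻¹ v)
    simp only [LinearMap.comp_apply] at h2 ⊢
    rw [Representation.self_inv_apply] at h2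
    exact h2.symm

/-- A complex representation of a finite group is multiplicity-free iff its commutant is
commutative. -/
theorem mult_free_iff [FiniteDimensional ℂ V] (ρ : Representation ℂ G V) :
    (∀ χ : G → ℂ, IsIrrCharacter G χ →
      classInner ρ.character χ = 0 ∨ classInner ρ.character χ = 1) ↔
    ∀ S T : V →ₗ[ℂ] V, S ∈ (ρ.linHom ρ).invariants → T ∈ (ρ.linHom ρ).invariants →
      S ∘ₗ T = T ∘ₗ S := by
  constructor
  · intro hm S T hS hT
    have hm' : ∀ χ : IrrCharacter G, classInner ρ.character (χ : G → ℂ) = 0 ∨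
        classInner ρ.character (χ : G → ℂ) = 1 := fun χ => hm χ.1 χ.2
    have key := comm_of_mult ρ hm' ⟨S, (mem_invariants_iff ρ S).mp hS⟩
      ⟨T, (mem_invariants_iff ρ T).mp hT⟩
    exact congrArg IntertwiningMap.toLinearMap key
  · intro hcomm χ hχ
    obtain ⟨n, σ, hσ, rfl⟩ := hχ
    haveI := hσ
    have hc : ∀ S T : IntertwiningMap ρ ρ, S.comp T = T.comp S := by
      intro S T
      apply IntertwiningMap.ext
      exact hcomm S.toLinearMap T.toLinearMap ((mem_invariants_iff ρ _).mpr S.isIntertwining')
        ((mem_invariants_iff ρ _).mpr T.isIntertwining')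
    have h1 := finrank_le_one_of_comm ρ σ hc
    rw [Helper2.classInner_char_char_finrank ρ σ]
    interval_cases (Module.finrank ℂ (IntertwiningMap σ ρ)) <;> simp

end Cfsg.Agent.Helper14.Comm
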