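import Mathlib
import Cfsg.Agent.Helper14.Commutant

set_option autoImplicit false
set_option linter.unusedSectionVars false
set_option linter.style.haveILetI false

/-!
# The commutant of a multiplicity-free representation is spanned by class-function averages

`avg ρ c = Σ_g c g • ρ g`.  For a multiplicity-free `ρ` every intertwining map `ρ → ρ` is a
linear combination of the `avg ρ (conj χ)`, `χ` an irreducible constituent (`span_avg`).
-/

namespace Cfsg.Agent.Helper14.Comm

open Cfsg Representation
open scoped ComplexConjugate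

variable {G : Type*} [Group G] [Fintype G]
  {V : Type*} [AddCommGroup V] [Module ℂ V] {W : Type*} [AddCommGroup W] [Module ℂ W]

/-- `Σ_g c g • ρ g`. -/
noncomputable def avg (ρ : Representation ℂ G V) (c : G → ℂ) : V →ₗ[ℂ] V := ∑ g : G, c g • ρ g

theorem avg_apply (ρ : Representation ℂ G V) (c : G → ℂ) (v : V) :
    avg ρ c v = ∑ g : G, c g • ρ g v := by
  simp [avg, LinearMap.sum_apply]

theorem avg_comm (ρ : Representation ℂ G V) {c : G → ℂ} (hc : IsClassFunction G c) (h : G) :
    avg ρ c ∘ₗ ρ h = ρ h ∘ₗ avg ρ c := by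
  apply LinearMap.ext
  intro v
  rw [LinearMap.comp_apply, LinearMap.comp_apply, avg_apply, avg_apply, map_sum]
  symm
  apply Fintype.sum_equiv (MulAut.conj h).toEquiv
  intro g
  simp only [MulEquiv.toEquiv_eq_coe, EquivLike.coe_coe, MulAut.conj_apply, map_smul, hc g h]
  rw [← Module.End.mul_apply, ← Module.End.mul_apply, ← map_mul, ← map_mul]
  congr 3
  group

theorem avg_intertwine (ρ : Representation ℂ G V) (σ : Representation ℂ G W)
    (α : IntertwiningMap σ ρ) (c : G → ℂ) (w : W) : avg ρ c (α w) = α (avg σ c w) := by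
  rw [avg_apply, avg_apply, map_sum]
  apply Finset.sum_congr rfl
  intro g _
  rw [map_smul, IntertwiningMap.isIntertwining σ ρ α g w]

theorem avg_trace [FiniteDimensional ℂ W] (σ : Representation ℂ G W) (c : G → ℂ) :
    LinearMap.trace ℂ W (avg σ c) = ∑ g : G, c g * σ.character g := by
  simp [avg, map_sum, Representation.character]

theorem avg_irr [FiniteDimensional ℂ W] (σ : Representation ℂ G W) [σ.IsIrreducible]
    {c : G → ℂ} (hc : IsClassFunction G c) :
    ∃ z : ℂ, avg σ c = z • LinearMap.id ∧
      z * (Module.finrank ℂ W : ℂ) = ∑ g : G, c g * σ.character g := by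
  let f : IntertwiningMap σ σ := ⟨avg σ c, avg_comm σ hc⟩
  obtain ⟨z, hz⟩ :=
    (Representation.IsIrreducible.algebraMap_intertwiningMap_bijective_of_isAlgClosed
      (ρ := σ)).2 f
  have h1 : avg σ c = z • LinearMap.id := by
    have h2 := congrArg IntertwiningMap.toLinearMap hz
    exact h2.symm
  refine ⟨z, h1, ?_⟩
  rw [← avg_trace, h1, map_smul, LinearMap.trace_id, smul_eq_mul]

/-- The orthogonal idempotents of the commutant of a multiplicity-free representation. -/
theorem exists_idem [FiniteDimensional ℂ V] (ρ : Representation ℂ G V)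
    (hm : ∀ χ : IrrCharacter G, classInner ρ.character (χ : G → ℂ) = 0 ∨
      classInner ρ.character (χ : G → ℂ) = 1) :
    ∃ P : {χ : IrrCharacter G // classInner ρ.character (χ : G → ℂ) = 1} → IntertwiningMap ρ ρ,
      Submodule.span ℂ (Set.range P) = ⊤ ∧
      (∀ i j, P i * P j = if i = j then P i else 0) ∧ (∀ i, P i ≠ 0) ∧
      ∀ j (c : G → ℂ), IsClassFunction G c → ∃ z : ℂ,
        avg ρ c ∘ₗ (P j).toLinearMap = z • (P j).toLinearMap ∧
        z * (j.1 : G → ℂ) 1 = ∑ g : G, c g * (j.1 : G → ℂ) g := by
  classical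
  choose n σ hσirr hσchar using (fun χ : IrrCharacter G => χ.2)
  let ι := {χ : IrrCharacter G // classInner ρ.character (χ : G → ℂ) = 1}
  have hex : ∀ i : ι, ∃ (α : IntertwiningMap (σ i.1) ρ) (β : IntertwiningMap ρ (σ i.1)),
      α ≠ 0 ∧ β.comp α = IntertwiningMap.id (σ i.1) := by
    intro i
    haveI := hσirr i.1
    have h1 : (Module.finrank ℂ (IntertwiningMap (σ i.1) ρ) : ℂ) = 1 := by
      rw [← Helper2.classInner_char_char_finrank ρ (σ i.1), hσchar]
      exact i.2
    have h2 : 0 < Module.finrank ℂ (IntertwiningMap (σ i.1) ρ) := by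
      have : Module.finrank ℂ (IntertwiningMap (σ i.1) ρ) = 1 := by exact_mod_cast h1
      omega
    obtain ⟨α, hα⟩ := Module.finrank_pos_iff_exists_ne_zero.mp h2
    obtain ⟨β, hβ⟩ := retraction ρ (σ i.1) α hα
    exact ⟨α, β, hα, hβ⟩
  choose α β hα hβα using hex
  have e1 : ∀ (i : ι) (w : Fin (n i.1) → ℂ), β i (α i w) = w :=
    fun i w => DFunLike.congr_fun (hβα i) w
  have horth : ∀ i j : ι, i ≠ j → (β i).comp (α j) = 0 := by
    intro i j hij
    haveI := hσirr i.1
    haveI := hσirr j.1
    have h1 : (Module.finrank ℂ (IntertwiningMap (σ j.1) (σ i.1)) : ℂ) = 0 := by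
      rw [← Helper2.classInner_char_char_finrank (σ i.1) (σ j.1), hσchar, hσchar,
        Helper2.classInner_irr_irr, if_neg]
      intro h
      exact hij (Subtype.ext h)
    have h2 : Module.finrank ℂ (IntertwiningMap (σ j.1) (σ i.1)) = 0 := by exact_mod_cast h1
    haveI : Subsingleton (IntertwiningMap (σ j.1) (σ i.1)) := Module.finrank_zero_iff.mp h2
    exact Subsingleton.elim _ _
  have e2 : ∀ (i j : ι), i ≠ j → ∀ w : Fin (n j.1) → ℂ, β i (α j w) = 0 :=
    fun i j hij w => DFunLike.congr_fun (horth i j hij) w
  let P : ι → IntertwiningMap ρ ρ := fun i => (α i).comp (β i)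
  have hPv : ∀ (i : ι) (v : V), P i v = α i (β i v) := fun i v => rfl
  have hPP : ∀ i j : ι, P i * P j = if i = j then P i else 0 := by
    intro i j
    apply IntertwiningMap.ext
    ext v
    show P i (P j v) = _
    split_ifs with h
    · subst h
      rw [hPv, hPv, e1]
      rfl
    · rw [hPv, hPv, e2 i j h, map_zero]
      rfl
  have hPne : ∀ i, P i ≠ 0 := by
    intro i h
    apply hα i
    apply IntertwiningMap.ext
    apply LinearMap.ext
    intro w
    have h1 : P i (α i w) = 0 := by rw [h]; rfl
    rw [hPv, e1] at h1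
    exact h1
  have hli : LinearIndependent ℂ P := by
    rw [linearIndependent_iff']
    intro s c hc i hi
    have h1 := congrArg (fun X => P i * X) hc
    simp only [Finset.mul_sum, mul_smul_comm, hPP, mul_zero] at h1
    rw [Finset.sum_eq_single i] at h1
    · rw [if_pos rfl] at h1
      rcases smul_eq_zero.mp h1 with h | h
      · exact h
      · exact absurd h (hPne i)
    · intro j _ hj
      rw [if_neg (Ne.symm hj), smul_zero]
    · intro h
      exact absurd hi h
  have hcard : Fintype.card ι = Module.finrank ℂ (IntertwiningMap ρ ρ) := by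
    have h1 : (Module.finrank ℂ (IntertwiningMap ρ ρ) : ℂ) =
        classInner ρ.character ρ.character := (Helper2.classInner_char_char_finrank ρ ρ).symm
    have hcl : IsClassFunction G ρ.character :=
      Helper2.isClassFunction_of_isCharacter (Helper1.isCharacter_character ρ)
    rw [Helper2.classInner_eq_sum_mul hcl] at h1
    have h2 : ∀ χ : IrrCharacter G, classInner ρ.character (χ : G → ℂ) *
        conj (classInner ρ.character (χ : G → ℂ)) =
        if classInner ρ.character (χ : G → ℂ) = 1 then 1 else 0 := by
      intro χ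
      rcases hm χ with h | h <;> simp [h]
    rw [Finset.sum_congr rfl (fun χ _ => h2 χ), Finset.sum_boole] at h1
    rw [Fintype.card_subtype]
    exact_mod_cast h1.symm
  have hspan := hli.span_eq_top_of_card_eq_finrank' hcard
  refine ⟨P, hspan, hPP, hPne, ?_⟩
  intro j c hc
  haveI := hσirr j.1
  obtain ⟨z, hz1, hz2⟩ := avg_irr (σ j.1) hc
  refine ⟨z, ?_, ?_⟩
  · apply LinearMap.ext
    intro v
    show avg ρ c (P j v) = z • P j v
    rw [hPv, avg_intertwine ρ (σ j.1) (α j) c, hz1, LinearMap.smul_apply, LinearMap.id_apply,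
      map_smul]
  · have hj := hσchar j.1
    have h1 : ∀ g : G, (j.1 : G → ℂ) g = (σ j.1).character g := fun g => by rw [hj]
    rw [Finset.sum_congr rfl (fun g _ => by rw [h1 g]), ← hz2, h1]
    congr 1
    simp [Representation.character]

/-- In a multiplicity-free representation every intertwining endomorphism is a combination of the
class-function averages `avg ρ (conj χ)` over the constituents `χ`. -/
theorem span_avg [FiniteDimensional ℂ V] (ρ : Representation ℂ G V)
    (hm : ∀ χ : IrrCharacter G, classInner ρ.character (χ : G → ℂ) = 0 ∨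
      classInner ρ.character (χ : G → ℂ) = 1)
    (S : IntertwiningMap ρ ρ) :
    ∃ c : {χ : IrrCharacter G // classInner ρ.character (χ : G → ℂ) = 1} → ℂ,
      S.toLinearMap = ∑ i, c i • avg ρ (fun g => conj ((i.1 : G → ℂ) g)) := by
  classical
  obtain ⟨P, hspan, hPP, hPne, havg⟩ := exists_idem ρ hm
  have hG : (Nat.card G : ℂ) ≠ 0 := by
    exact_mod_cast Nat.card_pos.ne'
  -- the sum of the idempotents is `1`
  have hone : ∑ i, P i = 1 := by
    have h1 : (1 : IntertwiningMap ρ ρ) ∈ Submodule.span ℂ (Set.range P) := by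
      rw [hspan]
      trivial
    obtain ⟨d, hd⟩ := (Submodule.mem_span_range_iff_exists_fun ℂ).mp h1
    have hd1 : ∀ k, d k = 1 := by
      intro k
      have h2 := congrArg (fun X => P k * X) hd
      simp only [Finset.mul_sum, mul_smul_comm, hPP, mul_one] at h2
      rw [Finset.sum_eq_single k] at h2
      · rw [if_pos rfl] at h2
        have h3 : (d k - 1) • P k = 0 := by rw [sub_smul, h2, one_smul, sub_self]
        rcases smul_eq_zero.mp h3 with h | h
        · exact sub_eq_zero.mp h
        · exact absurd h (hPne k)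
      · intro j _ hj
        rw [if_neg (Ne.symm hj), smul_zero]
      · intro h
        exact absurd (Finset.mem_univ k) h
    rw [← hd]
    apply Finset.sum_congr rfl
    intro i _
    rw [hd1, one_smul]
  -- each idempotent is a multiple of an average
  have hclass : ∀ i : {χ : IrrCharacter G // classInner ρ.character (χ : G → ℂ) = 1},
      IsClassFunction G (fun g => conj ((i.1 : G → ℂ) g)) := by
    intro i g h
    show conj _ = conj _
    rw [Helper2.isClassFunction_of_isCharacter (Helper2.isCharacter_of_isIrrCharacter i.1.2) g h]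
  have hP : ∀ i, ∃ z : ℂ, (P i).toLinearMap = z • avg ρ (fun g => conj ((i.1 : G → ℂ) g)) := by
    intro i
    choose z hz1 hz2 using fun j => havg j _ (hclass i)
    have horth : ∀ j, ∑ g : G, conj ((i.1 : G → ℂ) g) * (j.1 : G → ℂ) g =
        if j = i then (Nat.card G : ℂ) else 0 := by
      intro j
      have h1 := Helper2.classInner_irr_irr j.1 i.1
      unfold classInner at h1
      have h2 : ∑ g : G, conj ((i.1 : G → ℂ) g) * (j.1 : G → ℂ) g =
          ∑ g : G, (j.1 : G → ℂ) g * conj ((i.1 : G → ℂ) g) :=
        Finset.sum_congr rfl (fun g _ => mul_comm _ _)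
      rw [h2]
      by_cases hji : j = i
      · rw [if_pos hji]
        rw [if_pos (congrArg Subtype.val hji)] at h1
        field_simp at h1
        linear_combination h1
      · rw [if_neg hji]
        rw [if_neg (fun h => hji (Subtype.ext h))] at h1
        rcases mul_eq_zero.mp h1 with h | h
        · exact absurd (inv_eq_zero.mp h) hG
        · exact h
    have hzi : z i ≠ 0 := by
      intro h
      have := hz2 i
      rw [h, zero_mul, horth i, if_pos rfl] at this
      exact hG this.symm
    have hzj : ∀ j, j ≠ i → z j = 0 := by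
      intro j hj
      have h1 := hz2 j
      rw [horth j, if_neg hj] at h1
      rcases mul_eq_zero.mp h1 with h | h
      · exact h
      · exfalso
        have h2 := hz2 j
        -- degree of `j` is nonzero
        exact Helper25.irr_one_ne_zero j.1 h
    have h3 : avg ρ (fun g => conj ((i.1 : G → ℂ) g)) = z i • (P i).toLinearMap := by
      have h4 : avg ρ (fun g => conj ((i.1 : G → ℂ) g)) =
          avg ρ (fun g => conj ((i.1 : G → ℂ) g)) ∘ₗ (∑ j, P j).toLinearMap := by
        rw [hone]
        rfl
      have h5 : avg ρ (fun g => conj ((i.1 : G → ℂ) g)) ∘ₗ (∑ j, P j).toLinearMap =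
          ∑ j, avg ρ (fun g => conj ((i.1 : G → ℂ) g)) ∘ₗ (P j).toLinearMap := by
        rw [IntertwiningMap.toLinearMap_sum]
        apply LinearMap.ext
        intro v
        simp only [LinearMap.comp_apply, LinearMap.sum_apply, map_sum]
      rw [h4, h5, Finset.sum_congr rfl (fun j _ => hz1 j), Finset.sum_eq_single i]
      · intro j _ hj
        rw [hzj j hj, zero_smul]
      · intro h
        exact absurd (Finset.mem_univ i) h
    refine ⟨(z i)⁻¹, ?_⟩
    rw [h3, smul_smul, inv_mul_cancel₀ hzi, one_smul]
  choose z hz using hP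
  have hS : S ∈ Submodule.span ℂ (Set.range P) := by
    rw [hspan]
    trivial
  obtain ⟨d, hd⟩ := (Submodule.mem_span_range_iff_exists_fun ℂ).mp hS
  refine ⟨fun i => d i * z i, ?_⟩
  rw [← hd, IntertwiningMap.toLinearMap_sum]
  apply Finset.sum_congr rfl
  intro i _
  rw [IntertwiningMap.toLinearMap_smul, hz i, smul_smul]

end Cfsg.Agent.Helper14.Comm
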