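import Mathlib
set_option autoImplicit false
set_option linter.style.haveILetI false
open scoped MatrixGroups
open Polynomial

namespace Cfsg.Agent.Helper14.PGLInv

variable {F : Type*} [Field F]

/-- eigenspace decomposition of an involution. -/
theorem invol_isCompl {V : Type*} [AddCommGroup V] [Module F V]
    (h2 : (2 : F) ≠ 0) (c : V →ₗ[F] V) (hc : ∀ v, c (c v) = v) :
    IsCompl (LinearMap.ker (c - 1)) (LinearMap.ker (c + 1)) := by
  constructor
  · rw [Submodule.disjoint_def]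
    intro x hx1 hx2
    rw [LinearMap.mem_ker, LinearMap.sub_apply, Module.End.one_apply, sub_eq_zero] at hx1
    rw [LinearMap.mem_ker, LinearMap.add_apply, Module.End.one_apply] at hx2
    rw [hx1] at hx2
    have : (2 : F) • x = 0 := by rw [two_smul]; exact hx2
    rcases smul_eq_zero.mp this with h | h
    · exact absurd h h2
    · exact h
  · rw [codisjoint_iff, Submodule.eq_top_iff']
    intro x
    rw [Submodule.mem_sup]
    refine ⟨(2 : F)⁻¹ • (x + c x), ?_, (2 : F)⁻¹ • (x - c x), ?_, ?_⟩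
    · rw [LinearMap.mem_ker, LinearMap.sub_apply, Module.End.one_apply, map_smul, map_add, hc]
      module
    · rw [LinearMap.mem_ker, LinearMap.add_apply, Module.End.one_apply, map_smul, map_sub, hc]
      module
    · have : (2 : F)⁻¹ • (x + c x) + (2 : F)⁻¹ • (x - c x) = ((2 : F)⁻¹ * 2) • x := by module
      rw [this, inv_mul_cancel₀ h2, one_smul]


/-- involutions with equal fixed spaces dimension are conjugate. -/
theorem invol_conj {V : Type*} [AddCommGroup V] [Module F V] [FiniteDimensional F V]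
    (h2 : (2 : F) ≠ 0) (a b : V →ₗ[F] V) (ha : ∀ v, a (a v) = v) (hb : ∀ v, b (b v) = v)
    (hr : Module.finrank F (LinearMap.ker (a - 1)) = Module.finrank F (LinearMap.ker (b - 1))) :
    ∃ e : V ≃ₗ[F] V, ∀ v, e (a v) = b (e v) := by
  have key : ∀ c : V →ₗ[F] V, (∀ v, c (c v) = v) →
      IsCompl (LinearMap.ker (c - 1)) (LinearMap.ker (c + 1)) := by
    intro c hc
    constructor
    · rw [Submodule.disjoint_def]
      intro x hx1 hx2
      rw [LinearMap.mem_ker, LinearMap.sub_apply, Module.End.one_apply, sub_eq_zero] at hx1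
      rw [LinearMap.mem_ker, LinearMap.add_apply, Module.End.one_apply] at hx2
      rw [hx1] at hx2
      have : (2 : F) • x = 0 := by rw [two_smul]; exact hx2
      rcases smul_eq_zero.mp this with h | h
      · exact absurd h h2
      · exact h
    · rw [codisjoint_iff, Submodule.eq_top_iff']
      intro x
      rw [Submodule.mem_sup]
      refine ⟨(2 : F)⁻¹ • (x + c x), ?_, (2 : F)⁻¹ • (x - c x), ?_, ?_⟩
      · rw [LinearMap.mem_ker, LinearMap.sub_apply, Module.End.one_apply, map_smul, map_add, hc]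
        module
      · rw [LinearMap.mem_ker, LinearMap.add_apply, Module.End.one_apply, map_smul, map_sub, hc]
        module
      · have : (2 : F)⁻¹ • (x + c x) + (2 : F)⁻¹ • (x - c x) = ((2 : F)⁻¹ * 2) • x := by module
        rw [this, inv_mul_cancel₀ h2, one_smul]
  have hCa := key a ha
  have hCb := key b hb
  have hr2 : Module.finrank F (LinearMap.ker (a + 1)) = Module.finrank F (LinearMap.ker (b + 1)) := by
    have h1 := Submodule.finrank_add_eq_of_isCompl hCa
    have h3 := Submodule.finrank_add_eq_of_isCompl hCb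
    omega
  let e1 : LinearMap.ker (a - 1) ≃ₗ[F] LinearMap.ker (b - 1) := LinearEquiv.ofFinrankEq _ _ hr
  let e2 : LinearMap.ker (a + 1) ≃ₗ[F] LinearMap.ker (b + 1) := LinearEquiv.ofFinrankEq _ _ hr2
  let Ea := Submodule.prodEquivOfIsCompl _ _ hCa
  let Eb := Submodule.prodEquivOfIsCompl _ _ hCb
  refine ⟨Ea.symm ≪≫ₗ (e1.prodCongr e2) ≪≫ₗ Eb, ?_⟩
  intro v
  obtain ⟨⟨x1, x2⟩, rfl⟩ := Ea.surjective v
  have hx1 : a x1.1 = x1.1 := by
    have := x1.2
    rw [LinearMap.mem_ker, LinearMap.sub_apply, Module.End.one_apply, sub_eq_zero] at this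
    exact this
  have hx2 : a x2.1 = -x2.1 := by
    have := x2.2
    rw [LinearMap.mem_ker, LinearMap.add_apply, Module.End.one_apply] at this
    exact eq_neg_of_add_eq_zero_left this
  have hy1 : b (e1 x1).1 = (e1 x1).1 := by
    have := (e1 x1).2
    rw [LinearMap.mem_ker, LinearMap.sub_apply, Module.End.one_apply, sub_eq_zero] at this
    exact this
  have hy2 : b (e2 x2).1 = -(e2 x2).1 := by
    have := (e2 x2).2
    rw [LinearMap.mem_ker, LinearMap.add_apply, Module.End.one_apply] at this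
    exact eq_neg_of_add_eq_zero_left this
  have h1 : a (Ea (x1, x2)) = Ea (x1, -x2) := by
    simp only [Ea, Submodule.coe_prodEquivOfIsCompl', map_add, hx1, hx2]
    simp
  rw [h1]
  simp only [LinearEquiv.trans_apply, LinearEquiv.symm_apply_apply, LinearEquiv.prodCongr_apply,
    Eb, Submodule.coe_prodEquivOfIsCompl', map_add, hy1, hy2, map_neg]
  simp


theorem irr_of_nonsq (lam : F) (hlam : ¬ IsSquare lam) : Irreducible (X ^ 2 - C lam : F[X]) := by
  have hm : (X ^ 2 - C lam : F[X]).Monic := monic_X_pow_sub_C lam (by norm_num)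
  have hd : (X ^ 2 - C lam : F[X]).natDegree = 2 := natDegree_X_pow_sub_C
  rw [Polynomial.Monic.irreducible_iff_roots_eq_zero_of_degree_le_three hm (by omega) (by omega)]
  rw [Multiset.eq_zero_iff_forall_notMem]
  intro x hx
  rw [mem_roots hm.ne_zero] at hx
  simp only [IsRoot, eval_sub, eval_pow, eval_X, eval_C, sub_eq_zero] at hx
  exact hlam ⟨x, by rw [← hx]; ring⟩

/-- structure of a square root of a non-square scalar. -/
theorem nonsq_struct {V : Type*} [AddCommGroup V] [Module F V] [FiniteDimensional F V]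
    (lam : F) [hirr : Fact (Irreducible (X ^ 2 - C lam : F[X]))] (g : V →ₗ[F] V)
    (hg : ∀ v, g (g v) = lam • v) :
    ∃ m : ℕ, ∃ e : V ≃ₗ[F] (Fin m → AdjoinRoot (X ^ 2 - C lam : F[X])),
      (∀ v, e (g v) = AdjoinRoot.root (X ^ 2 - C lam : F[X]) • e v) ∧ 2 * m = Module.finrank F V := by
  have hgg : aeval g (X ^ 2 - C lam : F[X]) = 0 := by
    rw [map_sub, map_pow, aeval_X, aeval_C, sub_eq_zero]
    apply LinearMap.ext
    intro v
    rw [pow_two, Module.End.mul_apply, hg]
    simp [Algebra.algebraMap_eq_smul_one]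
  let φ : AdjoinRoot (X ^ 2 - C lam : F[X]) →ₐ[F] Module.End F V :=
    Ideal.Quotient.liftₐ (Ideal.span {(X ^ 2 - C lam : F[X])}) (aeval g) (by
      intro a ha
      obtain ⟨c, rfl⟩ := Ideal.mem_span_singleton.mp ha
      rw [map_mul, hgg, zero_mul])
  have hroot : φ (AdjoinRoot.root (X ^ 2 - C lam : F[X])) = g := by
    change aeval g (X : F[X]) = g
    exact aeval_X g
  letI : Module (AdjoinRoot (X ^ 2 - C lam : F[X])) V := Module.compHom V (φ : _ →+* Module.End F V)
  have hsm : ∀ (a : AdjoinRoot (X ^ 2 - C lam : F[X])) (v : V), a • v = φ a v := fun a v => rfl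
  haveI : IsScalarTower F (AdjoinRoot (X ^ 2 - C lam : F[X])) V := ⟨fun c a v => by
    rw [hsm, hsm, map_smul, LinearMap.smul_apply]⟩
  haveI : Module.Finite (AdjoinRoot (X ^ 2 - C lam : F[X])) V :=
    Module.Finite.of_restrictScalars_finite F _ V
  have hne : (X ^ 2 - C lam : F[X]) ≠ 0 := hirr.out.ne_zero
  have hK : Module.finrank F (AdjoinRoot (X ^ 2 - C lam : F[X])) = 2 := by
    rw [(AdjoinRoot.powerBasis hne).finrank, AdjoinRoot.powerBasis_dim, natDegree_X_pow_sub_C]
  haveI : Module.Finite F (AdjoinRoot (X ^ 2 - C lam : F[X])) := (AdjoinRoot.powerBasis hne).finite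
  have hmul := Module.finrank_mul_finrank F (AdjoinRoot (X ^ 2 - C lam : F[X])) V
  rw [hK] at hmul
  let b := Module.finBasis (AdjoinRoot (X ^ 2 - C lam : F[X])) V
  refine ⟨_, b.equivFun.restrictScalars F, ?_, hmul⟩
  intro v
  have h1 : g v = AdjoinRoot.root (X ^ 2 - C lam : F[X]) • v := by
    rw [hsm, hroot]
  rw [h1]
  simp only [LinearEquiv.restrictScalars_apply, map_smul]

/-- square roots of a non-square scalar are conjugate. -/
theorem nonsq_conj {V : Type*} [AddCommGroup V] [Module F V] [FiniteDimensional F V]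
    (lam : F) (hlam : ¬ IsSquare lam) (g g' : V →ₗ[F] V)
    (hg : ∀ v, g (g v) = lam • v) (hg' : ∀ v, g' (g' v) = lam • v) :
    ∃ e : V ≃ₗ[F] V, ∀ v, e (g v) = g' (e v) := by
  have : Fact (Irreducible (X ^ 2 - C lam : F[X])) := ⟨irr_of_nonsq lam hlam⟩
  obtain ⟨m, e, he, hm⟩ := nonsq_struct lam g hg
  obtain ⟨m', e', he', hm'⟩ := nonsq_struct lam g' hg'
  have : m = m' := by omega
  subst this
  refine ⟨e ≪≫ₗ e'.symm, ?_⟩
  intro v
  rw [LinearEquiv.trans_apply, LinearEquiv.trans_apply, he]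
  apply e'.injective
  rw [LinearEquiv.apply_symm_apply, he', LinearEquiv.apply_symm_apply]

/-- dimension is even. -/
theorem nonsq_even {V : Type*} [AddCommGroup V] [Module F V] [FiniteDimensional F V]
    (lam : F) (hlam : ¬ IsSquare lam) (g : V →ₗ[F] V)
    (hg : ∀ v, g (g v) = lam • v) : Even (Module.finrank F V) := by
  have : Fact (Irreducible (X ^ 2 - C lam : F[X])) := ⟨irr_of_nonsq lam hlam⟩
  obtain ⟨m, e, he, hm⟩ := nonsq_struct lam g hg
  exact ⟨m, by omega⟩

/-- from linear conjugacy to matrix conjugacy. -/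
theorem mat_conj_of_lin {n : ℕ} (A B : Matrix (Fin n) (Fin n) F)
    (e : (Fin n → F) ≃ₗ[F] (Fin n → F))
    (he : ∀ v, e (Matrix.toLin' A v) = Matrix.toLin' B (e v)) :
    ∃ x : GL (Fin n) F, (x : Matrix (Fin n) (Fin n) F) * A = B * x := by
  refine ⟨⟨LinearMap.toMatrix' e.toLinearMap, LinearMap.toMatrix' e.symm.toLinearMap, ?_, ?_⟩, ?_⟩
  · rw [← LinearMap.toMatrix'_comp]
    have : e.toLinearMap ∘ₗ e.symm.toLinearMap = LinearMap.id := LinearMap.ext fun v => by simp
    rw [this, LinearMap.toMatrix'_id]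
  · rw [← LinearMap.toMatrix'_comp]
    have : e.symm.toLinearMap ∘ₗ e.toLinearMap = LinearMap.id := LinearMap.ext fun v => by simp
    rw [this, LinearMap.toMatrix'_id]
  · change LinearMap.toMatrix' e.toLinearMap * A = B * LinearMap.toMatrix' e.toLinearMap
    have h1 : LinearMap.toMatrix' e.toLinearMap * A =
        LinearMap.toMatrix' (e.toLinearMap ∘ₗ Matrix.toLin' A) := by
      rw [LinearMap.toMatrix'_comp, LinearMap.toMatrix'_toLin']
    have h2 : B * LinearMap.toMatrix' e.toLinearMap =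
        LinearMap.toMatrix' (Matrix.toLin' B ∘ₗ e.toLinearMap) := by
      rw [LinearMap.toMatrix'_comp, LinearMap.toMatrix'_toLin']
    rw [h1, h2]
    congr 1
    apply LinearMap.ext
    intro v
    exact he v


/-- kernel dimension in terms of the rank. -/
theorem finrank_ker_toLin' {n : ℕ} (M : Matrix (Fin n) (Fin n) F) :
    M.rank + Module.finrank F (LinearMap.ker (Matrix.toLin' M)) = n := by
  have h := LinearMap.finrank_range_add_finrank_ker (Matrix.toLin' M)
  rw [Module.finrank_fintype_fun_eq_card, Fintype.card_fin] at h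
  rw [Matrix.toLin'_apply'] at h
  exact h

theorem toLin'_sub_one {n : ℕ} (A : Matrix (Fin n) (Fin n) F) :
    Matrix.toLin' A - 1 = Matrix.toLin' (A - 1) := by
  rw [map_sub, Matrix.toLin'_one]; rfl

theorem toLin'_add_one {n : ℕ} (A : Matrix (Fin n) (Fin n) F) :
    Matrix.toLin' A + 1 = Matrix.toLin' (A + 1) := by
  rw [map_add, Matrix.toLin'_one]; rfl

theorem toLin'_sq {n : ℕ} (A : Matrix (Fin n) (Fin n) F) (lam : F) (hA : A * A = lam • 1)
    (v : Fin n → F) : Matrix.toLin' A (Matrix.toLin' A v) = lam • v := by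
  rw [← Matrix.toLin'_mul_apply, hA, map_smul, Matrix.toLin'_one]
  rfl

/-- matrix involutions with the same rank of `A - 1` are conjugate. -/
theorem mat_invol_conj {n : ℕ} (h2 : (2 : F) ≠ 0) (A B : Matrix (Fin n) (Fin n) F)
    (hA : A * A = 1) (hB : B * B = 1) (hr : (A - 1).rank = (B - 1).rank) :
    ∃ x : GL (Fin n) F, (x : Matrix (Fin n) (Fin n) F) * A = B * x := by
  have hA' : ∀ v, Matrix.toLin' A (Matrix.toLin' A v) = v := fun v => by
    have := toLin'_sq A 1 (by rw [hA, one_smul]) v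
    rwa [one_smul] at this
  have hB' : ∀ v, Matrix.toLin' B (Matrix.toLin' B v) = v := fun v => by
    have := toLin'_sq B 1 (by rw [hB, one_smul]) v
    rwa [one_smul] at this
  have h1 := finrank_ker_toLin' (A - 1)
  have h3 := finrank_ker_toLin' (B - 1)
  obtain ⟨e, he⟩ := invol_conj h2 (Matrix.toLin' A) (Matrix.toLin' B) hA' hB' (by
    rw [toLin'_sub_one, toLin'_sub_one]; omega)
  exact mat_conj_of_lin A B e he

/-- rank identity for an involution. -/
theorem mat_invol_rank {n : ℕ} (h2 : (2 : F) ≠ 0) (A : Matrix (Fin n) (Fin n) F)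
    (hA : A * A = 1) : (A - 1).rank + (A + 1).rank = n := by
  have hA' : ∀ v, Matrix.toLin' A (Matrix.toLin' A v) = v := fun v => by
    have := toLin'_sq A 1 (by rw [hA, one_smul]) v
    rwa [one_smul] at this
  have h1 := finrank_ker_toLin' (A - 1)
  have h3 := finrank_ker_toLin' (A + 1)
  have h4 := Submodule.finrank_add_eq_of_isCompl (invol_isCompl h2 (Matrix.toLin' A) hA')
  rw [toLin'_sub_one, toLin'_add_one, Module.finrank_fintype_fun_eq_card, Fintype.card_fin] at h4
  omega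

/-- matrix square roots of a non-square scalar are conjugate. -/
theorem mat_nonsq_conj {n : ℕ} (lam : F) (hlam : ¬ IsSquare lam) (A B : Matrix (Fin n) (Fin n) F)
    (hA : A * A = lam • 1) (hB : B * B = lam • 1) :
    ∃ x : GL (Fin n) F, (x : Matrix (Fin n) (Fin n) F) * A = B * x := by
  obtain ⟨e, he⟩ := nonsq_conj lam hlam (Matrix.toLin' A) (Matrix.toLin' B)
    (toLin'_sq A lam hA) (toLin'_sq B lam hB)
  exact mat_conj_of_lin A B e he

theorem mat_nonsq_even {n : ℕ} (lam : F) (hlam : ¬ IsSquare lam) (A : Matrix (Fin n) (Fin n) F)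
    (hA : A * A = lam • 1) : Even n := by
  have := nonsq_even lam hlam (Matrix.toLin' A) (toLin'_sq A lam hA)
  rwa [Module.finrank_fintype_fun_eq_card, Fintype.card_fin] at this

/-- a matrix of rank zero vanishes. -/
theorem mat_eq_zero_of_rank {n : ℕ} (M : Matrix (Fin n) (Fin n) F) (h : M.rank = 0) : M = 0 := by
  have h1 : LinearMap.range M.mulVecLin = ⊥ := Submodule.finrank_eq_zero.mp h
  have h2 : M.mulVecLin = 0 := LinearMap.range_eq_bot.mp h1
  have h3 : Matrix.toLin' M = 0 := by rw [Matrix.toLin'_apply']; exact h2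
  exact (LinearEquiv.map_eq_zero_iff _).mp h3

/-- a square root of `ν` in even dimension. -/
theorem exists_sqrt_mat {n : ℕ} (ν : F) (hn : Even n) :
    ∃ B : Matrix (Fin n) (Fin n) F, B * B = ν • 1 := by
  obtain ⟨m, rfl⟩ := hn
  refine ⟨Matrix.reindexAlgEquiv F F finSumFinEquiv
    (Matrix.fromBlocks 0 1 (ν • (1 : Matrix (Fin m) (Fin m) F)) 0), ?_⟩
  rw [← map_mul, Matrix.fromBlocks_multiply]
  have : Matrix.fromBlocks ((0 : Matrix (Fin m) (Fin m) F) * 0 + 1 * ν • (1 : Matrix (Fin m) (Fin m) F))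
      ((0 : Matrix (Fin m) (Fin m) F) * 1 + 1 * 0)
      (ν • (1 : Matrix (Fin m) (Fin m) F) * 0 + 0 * ν • (1 : Matrix (Fin m) (Fin m) F))
      (ν • (1 : Matrix (Fin m) (Fin m) F) * 1 + 0 * 0) =
      ν • (1 : Matrix (Fin m ⊕ Fin m) (Fin m ⊕ Fin m) F) := by
    rw [← Matrix.fromBlocks_one, Matrix.fromBlocks_smul]
    simp
  rw [this, map_smul, map_one]


section grp

variable {n : ℕ}

/-- projective conjugacy, in matrix form. -/
def PC (g g' : GL (Fin n) F) : Prop :=
  ∃ x : GL (Fin n) F, ∃ c : F, c ≠ 0 ∧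
    (g' : Matrix (Fin n) (Fin n) F) * (x : Matrix (Fin n) (Fin n) F) =
      c • ((x : Matrix (Fin n) (Fin n) F) * (g : Matrix (Fin n) (Fin n) F))

theorem scalar_comm' (c : Fˣ) (x : GL (Fin n) F) :
    Matrix.GeneralLinearGroup.scalar (Fin n) c * x =
      x * Matrix.GeneralLinearGroup.scalar (Fin n) c := by
  have h : Matrix.GeneralLinearGroup.scalar (Fin n) c ∈ Subgroup.center (GL (Fin n) F) := by
    rw [Matrix.GeneralLinearGroup.center_eq_range_scalar]; exact ⟨c, rfl⟩
  exact (Subgroup.mem_center_iff.mp h x).symm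

theorem coe_scalar' (c : Fˣ) :
    ((Matrix.GeneralLinearGroup.scalar (Fin n) c : GL (Fin n) F) : Matrix (Fin n) (Fin n) F) =
      (c : F) • 1 := by
  rw [Matrix.GeneralLinearGroup.coe_scalar, Matrix.scalar_apply, Matrix.smul_one_eq_diagonal]

theorem mk_eq_iff (g g' : GL (Fin n) F) :
    ConjClasses.mk (QuotientGroup.mk g : GL (Fin n) F ⧸ Subgroup.center (GL (Fin n) F)) =
      ConjClasses.mk (QuotientGroup.mk g') ↔ PC g g' := by
  rw [ConjClasses.mk_eq_mk_iff_isConj, isConj_iff]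
  constructor
  · rintro ⟨y, hy⟩
    obtain ⟨x, rfl⟩ := QuotientGroup.mk_surjective y
    rw [← QuotientGroup.mk_inv, ← QuotientGroup.mk_mul, ← QuotientGroup.mk_mul, QuotientGroup.eq,
      Matrix.GeneralLinearGroup.center_eq_range_scalar] at hy
    obtain ⟨c, hc⟩ := hy
    have h0 : g' = x * g * x⁻¹ * Matrix.GeneralLinearGroup.scalar (Fin n) c := by
      rw [hc]; group
    have h1 : g' * x = x * g * Matrix.GeneralLinearGroup.scalar (Fin n) c := by
      rw [h0, mul_assoc, scalar_comm', ← mul_assoc]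
      group
    refine ⟨x, c, c.ne_zero, ?_⟩
    have h2 := congrArg Units.val h1
    rw [Units.val_mul, Units.val_mul, Units.val_mul, coe_scalar', Matrix.mul_smul,
      Matrix.mul_one] at h2
    exact h2
  · rintro ⟨x, c, hc, h⟩
    refine ⟨QuotientGroup.mk x, ?_⟩
    rw [← QuotientGroup.mk_inv, ← QuotientGroup.mk_mul, ← QuotientGroup.mk_mul, QuotientGroup.eq,
      Matrix.GeneralLinearGroup.center_eq_range_scalar]
    refine ⟨Units.mk0 c hc, ?_⟩
    have h1 : g' * x = x * g * Matrix.GeneralLinearGroup.scalar (Fin n) (Units.mk0 c hc) := by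
      apply Units.ext
      rw [Units.val_mul, Units.val_mul, Units.val_mul, coe_scalar', Matrix.mul_smul,
        Matrix.mul_one]
      exact h
    have h2 : g' = x * g * x⁻¹ * Matrix.GeneralLinearGroup.scalar (Fin n) (Units.mk0 c hc) := by
      have h3 : g' = g' * x * x⁻¹ := by group
      rw [h3, h1, mul_assoc (x * g), scalar_comm', ← mul_assoc]
    rw [h2]; group

theorem order_two_iff (g : GL (Fin n) F) :
    orderOf (QuotientGroup.mk g : GL (Fin n) F ⧸ Subgroup.center (GL (Fin n) F)) = 2 ↔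
      (¬ ∃ c : F, (g : Matrix (Fin n) (Fin n) F) = c • 1) ∧
        ∃ c : F, (g : Matrix (Fin n) (Fin n) F) * (g : Matrix (Fin n) (Fin n) F) = c • 1 := by
  have : Fact (Nat.Prime 2) := ⟨Nat.prime_two⟩
  rw [orderOf_eq_prime_iff, ← QuotientGroup.mk_pow, ne_eq, QuotientGroup.eq_one_iff,
    QuotientGroup.eq_one_iff, Matrix.GeneralLinearGroup.mem_center_iff_val_mem_range_scalar,
    Matrix.GeneralLinearGroup.mem_center_iff_val_mem_range_scalar, pow_two, Units.val_mul]
  constructor
  · rintro ⟨⟨c, hc⟩, h2⟩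
    refine ⟨fun ⟨c', hc'⟩ => h2 ⟨c', ?_⟩, c, ?_⟩
    · rw [hc', Matrix.scalar_apply, Matrix.smul_one_eq_diagonal]
    · rw [← hc, Matrix.scalar_apply, Matrix.smul_one_eq_diagonal]
  · rintro ⟨h2, c, hc⟩
    refine ⟨⟨c, ?_⟩, fun ⟨c', hc'⟩ => h2 ⟨c', ?_⟩⟩
    · rw [hc, Matrix.scalar_apply, Matrix.smul_one_eq_diagonal]
    · rw [← hc', Matrix.scalar_apply, Matrix.smul_one_eq_diagonal]

/-- the diagonal involution with `k` entries `-1`. -/
def dmat (F : Type*) [Field F] (n k : ℕ) : Matrix (Fin n) (Fin n) F :=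
  Matrix.diagonal (fun i : Fin n => if i.val < k then (-1 : F) else 1)

theorem dmat_sq (n k : ℕ) : dmat F n k * dmat F n k = 1 := by
  unfold dmat
  rw [Matrix.diagonal_mul_diagonal, ← Matrix.diagonal_one]
  congr 1
  funext i
  split_ifs <;> simp

/-- the diagonal involution as a group element. -/
def D (F : Type*) [Field F] (n k : ℕ) : GL (Fin n) F :=
  ⟨dmat F n k, dmat F n k, dmat_sq n k, dmat_sq n k⟩

theorem rank_dmat_sub (h2 : (2 : F) ≠ 0) {k : ℕ} (hk : k ≤ n) : (dmat F n k - 1).rank = k := by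
  classical
  have h1 : dmat F n k - 1 =
      Matrix.diagonal (fun i : Fin n => if i.val < k then (-2 : F) else 0) := by
    unfold dmat
    rw [← Matrix.diagonal_one, Matrix.diagonal_sub]
    congr 1
    funext i
    split_ifs <;> ring
  rw [h1, Matrix.rank_diagonal, Fintype.card_subtype]
  have h3 : (Finset.univ.filter fun i : Fin n => (if i.val < k then (-2 : F) else 0) ≠ 0) =
      Finset.univ.filter fun i : Fin n => i.val < k := by
    apply Finset.filter_congr
    intro i _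
    split_ifs with h <;> simp [h, h2]
  rw [h3, Fin.card_filter_val_lt]
  omega

theorem rank_dmat_add (h2 : (2 : F) ≠ 0) {k : ℕ} (hk : k ≤ n) :
    (dmat F n k + 1).rank = n - k := by
  have h1 := mat_invol_rank h2 (dmat F n k) (dmat_sq n k)
  rw [rank_dmat_sub h2 hk] at h1
  omega

theorem dmat_not_scalar (h2 : (2 : F) ≠ 0) {k : ℕ} (hk1 : 1 ≤ k) (hkn : k < n) :
    ¬ ∃ c : F, dmat F n k = c • 1 := by
  rintro ⟨c, hc⟩
  have e0 := congrFun (congrFun hc ⟨0, by omega⟩) ⟨0, by omega⟩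
  have e1 := congrFun (congrFun hc ⟨n - 1, by omega⟩) ⟨n - 1, by omega⟩
  simp only [dmat, Matrix.diagonal_apply_eq, Matrix.smul_apply, Matrix.one_apply_eq,
    smul_eq_mul, mul_one] at e0 e1
  rw [if_pos (by omega)] at e0
  rw [if_neg (by omega)] at e1
  apply h2
  have : (1 : F) = -1 := e1.trans e0.symm
  linear_combination this

theorem rank_neg' (M : Matrix (Fin n) (Fin n) F) : (-M).rank = M.rank := by
  have h1 : -M = (-1 : Matrix (Fin n) (Fin n) F) * M := by rw [neg_one_mul]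
  rw [h1]
  apply Matrix.rank_mul_eq_right_of_isUnit_det
  rw [Matrix.det_neg, Matrix.det_one, mul_one]
  exact (isUnit_neg_one (α := F)).pow _

theorem rank_conj (x : GL (Fin n) F) (M N : Matrix (Fin n) (Fin n) F)
    (h : M * (x : Matrix (Fin n) (Fin n) F) = (x : Matrix (Fin n) (Fin n) F) * N) :
    M.rank = N.rank := by
  have hx : IsUnit (x : Matrix (Fin n) (Fin n) F).det :=
    (Matrix.isUnit_iff_isUnit_det _).mp x.isUnit
  rw [← Matrix.rank_mul_eq_left_of_isUnit_det _ M hx, h,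
    Matrix.rank_mul_eq_right_of_isUnit_det _ N hx]

/-- relation between the squares of projectively conjugate elements. -/
theorem sq_rel (hn : 1 ≤ n) (g g' : GL (Fin n) F) (a a' : F)
    (hg : (g : Matrix (Fin n) (Fin n) F) * (g : Matrix (Fin n) (Fin n) F) = a • 1)
    (hg' : (g' : Matrix (Fin n) (Fin n) F) * (g' : Matrix (Fin n) (Fin n) F) = a' • 1)
    (x : GL (Fin n) F) (c : F)
    (h : (g' : Matrix (Fin n) (Fin n) F) * (x : Matrix (Fin n) (Fin n) F) =
      c • ((x : Matrix (Fin n) (Fin n) F) * (g : Matrix (Fin n) (Fin n) F))) :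
    a' = c * c * a := by
  have e : a' • (x : Matrix (Fin n) (Fin n) F) = (c * c * a) • (x : Matrix (Fin n) (Fin n) F) := by
    calc a' • (x : Matrix (Fin n) (Fin n) F)
        = ((g' : Matrix (Fin n) (Fin n) F) * (g' : Matrix (Fin n) (Fin n) F)) *
            (x : Matrix (Fin n) (Fin n) F) := by rw [hg', Matrix.smul_mul, Matrix.one_mul]
      _ = (g' : Matrix (Fin n) (Fin n) F) * (c • ((x : Matrix (Fin n) (Fin n) F) *
            (g : Matrix (Fin n) (Fin n) F))) := by rw [Matrix.mul_assoc, h]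
      _ = c • (((g' : Matrix (Fin n) (Fin n) F) * (x : Matrix (Fin n) (Fin n) F)) *
            (g : Matrix (Fin n) (Fin n) F)) := by rw [Matrix.mul_smul, Matrix.mul_assoc]
      _ = c • (c • ((x : Matrix (Fin n) (Fin n) F) * ((g : Matrix (Fin n) (Fin n) F) *
            (g : Matrix (Fin n) (Fin n) F)))) := by rw [h, Matrix.smul_mul, Matrix.mul_assoc]
      _ = (c * c * a) • (x : Matrix (Fin n) (Fin n) F) := by
          rw [hg, Matrix.mul_smul, Matrix.mul_one, smul_smul, smul_smul]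
  have e2 := congrArg (fun M => M * ((x⁻¹ : GL (Fin n) F) : Matrix (Fin n) (Fin n) F)) e
  simp only [Matrix.smul_mul, Units.mul_inv] at e2
  have e3 := congrFun (congrFun e2 ⟨0, by omega⟩) ⟨0, by omega⟩
  simpa using e3

theorem sq_ne_zero (hn : 1 ≤ n) (g : GL (Fin n) F) (a : F)
    (hg : (g : Matrix (Fin n) (Fin n) F) * (g : Matrix (Fin n) (Fin n) F) = a • 1) : a ≠ 0 := by
  rintro rfl
  rw [zero_smul] at hg
  have e2 := congrArg (fun M => ((g⁻¹ : GL (Fin n) F) : Matrix (Fin n) (Fin n) F) * M) hg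
  simp only [← Matrix.mul_assoc, Units.inv_mul, Matrix.one_mul, Matrix.mul_zero] at e2
  have e3 : (1 : Matrix (Fin n) (Fin n) F) = 0 := by
    rw [← Units.inv_mul g, e2, Matrix.mul_zero]
  have e4 := congrFun (congrFun e3 ⟨0, by omega⟩) ⟨0, by omega⟩
  simp at e4

/-- distinct diagonal representatives are not projectively conjugate. -/
theorem inj_DD (h2 : (2 : F) ≠ 0) (hn : 1 ≤ n) {k k' : ℕ} (hk : k ≤ n / 2) (hk' : k' ≤ n / 2)
    (h : PC (D F n k) (D F n k')) : k = k' := by
  obtain ⟨x, c, hc, hx⟩ := h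
  have hkn : k ≤ n := le_trans hk (Nat.div_le_self _ _)
  have hkn' : k' ≤ n := le_trans hk' (Nat.div_le_self _ _)
  have hsq := sq_rel hn (D F n k) (D F n k') 1 1 (by rw [one_smul]; exact dmat_sq n k)
    (by rw [one_smul]; exact dmat_sq n k') x c hx
  have hc2 : c = 1 ∨ c = -1 := by
    have : (c - 1) * (c + 1) = 0 := by linear_combination -hsq
    rcases mul_eq_zero.mp this with h | h
    · left; linear_combination h
    · right; linear_combination h
  change dmat F n k' * (x : Matrix (Fin n) (Fin n) F) =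
    c • ((x : Matrix (Fin n) (Fin n) F) * dmat F n k) at hx
  rcases hc2 with rfl | rfl
  · rw [one_smul] at hx
    have h3 : (dmat F n k' - 1) * (x : Matrix (Fin n) (Fin n) F) =
        (x : Matrix (Fin n) (Fin n) F) * (dmat F n k - 1) := by
      rw [Matrix.sub_mul, Matrix.mul_sub, hx, Matrix.one_mul, Matrix.mul_one]
    have h4 := rank_conj x _ _ h3
    rw [rank_dmat_sub h2 hkn', rank_dmat_sub h2 hkn] at h4
    exact h4.symm
  · have h3 : (dmat F n k' - 1) * (x : Matrix (Fin n) (Fin n) F) =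
        (x : Matrix (Fin n) (Fin n) F) * (-(dmat F n k + 1)) := by
      rw [Matrix.sub_mul, Matrix.mul_neg, Matrix.mul_add, hx, Matrix.one_mul, Matrix.mul_one]
      simp
      abel
    have h4 := rank_conj x _ _ h3
    rw [rank_dmat_sub h2 hkn', rank_neg', rank_dmat_add h2 hkn] at h4
    omega

/-- every involution of square type is projectively conjugate to a diagonal representative. -/
theorem surj_sq (h2 : (2 : F) ≠ 0) (g : GL (Fin n) F) (μ : F) (hμ : μ ≠ 0)
    (hns : ¬ ∃ c : F, (g : Matrix (Fin n) (Fin n) F) = c • 1)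
    (hg : (g : Matrix (Fin n) (Fin n) F) * (g : Matrix (Fin n) (Fin n) F) = (μ * μ) • 1) :
    ∃ k, 1 ≤ k ∧ k ≤ n / 2 ∧ PC g (D F n k) := by
  have hH : (μ⁻¹ • (g : Matrix (Fin n) (Fin n) F)) * (μ⁻¹ • (g : Matrix (Fin n) (Fin n) F)) = 1 := by
    rw [Matrix.smul_mul, Matrix.mul_smul, hg, smul_smul, smul_smul]
    have : μ⁻¹ * μ⁻¹ * (μ * μ) = 1 := by field_simp
    rw [this, one_smul]
  have hrank := mat_invol_rank h2 _ hH
  have hr0 : (μ⁻¹ • (g : Matrix (Fin n) (Fin n) F) - 1).rank ≠ 0 := by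
    intro h0
    have h1 := mat_eq_zero_of_rank _ h0
    apply hns
    refine ⟨μ, ?_⟩
    have h3 : μ⁻¹ • (g : Matrix (Fin n) (Fin n) F) = 1 := sub_eq_zero.mp h1
    have h4 := congrArg (fun M => μ • M) h3
    simp only [smul_smul, mul_inv_cancel₀ hμ, one_smul] at h4
    exact h4
  have hs0 : (μ⁻¹ • (g : Matrix (Fin n) (Fin n) F) + 1).rank ≠ 0 := by
    intro h0
    have h1 := mat_eq_zero_of_rank _ h0
    apply hns
    refine ⟨-μ, ?_⟩
    have h3 : μ⁻¹ • (g : Matrix (Fin n) (Fin n) F) = -1 := eq_neg_of_add_eq_zero_left h1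
    have h4 := congrArg (fun M => μ • M) h3
    simp only [smul_smul, mul_inv_cancel₀ hμ, one_smul] at h4
    rw [h4]
    simp
  by_cases hle : (μ⁻¹ • (g : Matrix (Fin n) (Fin n) F) - 1).rank ≤ n / 2
  · refine ⟨_, by omega, hle, ?_⟩
    obtain ⟨x, hx⟩ := mat_invol_conj h2 _ (dmat F n _) hH (dmat_sq n _)
      (rank_dmat_sub h2 (show (μ⁻¹ • (g : Matrix (Fin n) (Fin n) F) - 1).rank ≤ n by omega)).symm
    refine ⟨x, μ⁻¹, inv_ne_zero hμ, ?_⟩
    change dmat F n _ * (x : Matrix (Fin n) (Fin n) F) = _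
    rw [← hx, Matrix.mul_smul]
  · have hH' : ((-μ⁻¹) • (g : Matrix (Fin n) (Fin n) F)) * ((-μ⁻¹) • (g : Matrix (Fin n) (Fin n) F)) = 1 := by
      rw [neg_smul, neg_mul_neg]; exact hH
    have hr' : ((-μ⁻¹) • (g : Matrix (Fin n) (Fin n) F) - 1).rank =
        (μ⁻¹ • (g : Matrix (Fin n) (Fin n) F) + 1).rank := by
      rw [← rank_neg']
      congr 1
      rw [neg_smul]
      abel
    refine ⟨(μ⁻¹ • (g : Matrix (Fin n) (Fin n) F) + 1).rank, by omega, by omega, ?_⟩
    obtain ⟨x, hx⟩ := mat_invol_conj h2 _ (dmat F n _) hH' (dmat_sq n _)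
      (hr'.trans (rank_dmat_sub h2 (show (μ⁻¹ • (g : Matrix (Fin n) (Fin n) F) + 1).rank ≤ n by omega)).symm)
    refine ⟨x, -μ⁻¹, neg_ne_zero.mpr (inv_ne_zero hμ), ?_⟩
    change dmat F n _ * (x : Matrix (Fin n) (Fin n) F) = _
    rw [← hx, Matrix.mul_smul]

/-- involutions of non-square type are projectively conjugate. -/
theorem surj_nonsq [Fintype F] (hchar : ringChar F ≠ 2) (g B : GL (Fin n) F) (c ν : F)
    (hc : ¬ IsSquare c) (hν : ¬ IsSquare ν)
    (hg : (g : Matrix (Fin n) (Fin n) F) * (g : Matrix (Fin n) (Fin n) F) = c • 1)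
    (hB : (B : Matrix (Fin n) (Fin n) F) * (B : Matrix (Fin n) (Fin n) F) = ν • 1) :
    PC g B := by
  have hc0 : c ≠ 0 := fun h => hc (h ▸ ⟨0, by simp⟩)
  have hν0 : ν ≠ 0 := fun h => hν (h ▸ ⟨0, by simp⟩)
  have h1 : c ^ (Fintype.card F / 2) = -1 :=
    (FiniteField.pow_dichotomy hchar hc0).resolve_left
      (fun h => hc ((FiniteField.isSquare_iff hchar hc0).mpr h))
  have h3 : ν ^ (Fintype.card F / 2) = -1 :=
    (FiniteField.pow_dichotomy hchar hν0).resolve_left
      (fun h => hν ((FiniteField.isSquare_iff hchar hν0).mpr h))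
  have h4 : IsSquare (c * ν⁻¹) := by
    rw [FiniteField.isSquare_iff hchar (mul_ne_zero hc0 (inv_ne_zero hν0)), mul_pow, inv_pow, h1, h3]
    norm_num
  obtain ⟨d, hd⟩ := h4
  have hd0 : d ≠ 0 := by
    rintro rfl
    rw [mul_zero] at hd
    exact mul_ne_zero hc0 (inv_ne_zero hν0) hd
  have hA : (d⁻¹ • (g : Matrix (Fin n) (Fin n) F)) * (d⁻¹ • (g : Matrix (Fin n) (Fin n) F)) = ν • 1 := by
    rw [Matrix.smul_mul, Matrix.mul_smul, hg, smul_smul, smul_smul]
    congr 1
    have : c = d * d * ν := by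
      field_simp at hd
      linear_combination hd
    rw [this]
    field_simp
  obtain ⟨x, hx⟩ := mat_nonsq_conj ν hν _ _ hA hB
  refine ⟨x, d⁻¹, inv_ne_zero hd0, ?_⟩
  rw [← hx, Matrix.mul_smul]

end grp

/-- the number of classes of involutions of `PGL_n(q)`, `q` odd. -/
theorem count [Fintype F] (hq : Odd (Fintype.card F)) {n : ℕ} (hn : 2 ≤ n) :
    Nat.card {C : ConjClasses (GL (Fin n) F ⧸ Subgroup.center (GL (Fin n) F)) //
      ∃ g : GL (Fin n) F ⧸ Subgroup.center (GL (Fin n) F), ConjClasses.mk g = C ∧ orderOf g = 2} =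
      n / 2 + (if Even n then 1 else 0) := by
  classical
  have hchar : ringChar F ≠ 2 := by
    intro h
    have h2 := FiniteField.even_card_of_char_two h
    have h3 := Nat.odd_iff.mp hq
    omega
  have h2 : (2 : F) ≠ 0 := Ring.two_ne_zero hchar
  obtain ⟨ν, hν⟩ := FiniteField.exists_nonsquare hchar
  have hν0 : ν ≠ 0 := fun h => hν (h ▸ ⟨0, by simp⟩)
  have hBex : Even n → ∃ B : GL (Fin n) F,
      (B : Matrix (Fin n) (Fin n) F) * (B : Matrix (Fin n) (Fin n) F) = ν • 1 := by
    intro he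
    obtain ⟨B, hB⟩ := exists_sqrt_mat ν he
    refine ⟨⟨B, ν⁻¹ • B, ?_, ?_⟩, hB⟩
    · rw [Matrix.mul_smul, hB, smul_smul, inv_mul_cancel₀ hν0, one_smul]
    · rw [Matrix.smul_mul, hB, smul_smul, inv_mul_cancel₀ hν0, one_smul]
  let R : ℕ → GL (Fin n) F := fun k =>
    if h : Even n ∧ k = 0 then Classical.choose (hBex h.1) else D F n k
  have hR0 : Even n → ((R 0 : GL (Fin n) F) : Matrix (Fin n) (Fin n) F) *
      ((R 0 : GL (Fin n) F) : Matrix (Fin n) (Fin n) F) = ν • 1 := by
    intro he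
    have : R 0 = Classical.choose (hBex he) := dif_pos ⟨he, rfl⟩
    rw [this]
    exact Classical.choose_spec (hBex he)
  have hRk : ∀ k, 1 ≤ k → R k = D F n k := by
    intro k hk
    exact dif_neg (by rintro ⟨_, h⟩; omega)
  have hord : ∀ k : ℕ, ((1 ≤ k ∧ k ≤ n / 2) ∨ (k = 0 ∧ Even n)) →
      orderOf (QuotientGroup.mk (R k) : GL (Fin n) F ⧸ Subgroup.center (GL (Fin n) F)) = 2 := by
    intro k hk
    rw [order_two_iff]
    rcases hk with ⟨h1, h3⟩ | ⟨rfl, he⟩
    · rw [hRk k h1]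
      refine ⟨dmat_not_scalar h2 h1 (by omega), 1, ?_⟩
      rw [one_smul]; exact dmat_sq n k
    · refine ⟨?_, ν, hR0 he⟩
      rintro ⟨c, hc⟩
      have h5 := hR0 he
      rw [hc, Matrix.smul_mul, Matrix.mul_smul, Matrix.one_mul, smul_smul] at h5
      have e := congrFun (congrFun h5 ⟨0, by omega⟩) ⟨0, by omega⟩
      simp only [Matrix.smul_apply, Matrix.one_apply_eq, smul_eq_mul, mul_one] at e
      exact hν ⟨c, e.symm⟩
  let Ψ : {k : ℕ // (1 ≤ k ∧ k ≤ n / 2) ∨ (k = 0 ∧ Even n)} →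
      {C : ConjClasses (GL (Fin n) F ⧸ Subgroup.center (GL (Fin n) F)) //
        ∃ g : GL (Fin n) F ⧸ Subgroup.center (GL (Fin n) F),
          ConjClasses.mk g = C ∧ orderOf g = 2} :=
    fun k => ⟨ConjClasses.mk (QuotientGroup.mk (R k.1)), QuotientGroup.mk (R k.1), rfl,
      hord k.1 k.2⟩
  have hinj : Function.Injective Ψ := by
    rintro ⟨k, hk⟩ ⟨k', hk'⟩ h
    have h1 : PC (R k) (R k') := (mk_eq_iff _ _).mp (congrArg Subtype.val h)
    apply Subtype.ext
    change k = k'
    rcases hk with ⟨ha, hb⟩ | ⟨rfl, he⟩ <;> rcases hk' with ⟨ha', hb'⟩ | ⟨rfl, he'⟩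
    · rw [hRk k ha, hRk k' ha'] at h1
      exact inj_DD h2 (by omega) hb hb' h1
    · exfalso
      rw [hRk k ha] at h1
      obtain ⟨x, c, hc, hx⟩ := h1
      have h5 := sq_rel (by omega) (D F n k) (R 0) 1 ν (by rw [one_smul]; exact dmat_sq n k)
        (hR0 he') x c hx
      exact hν ⟨c, by rw [h5]; ring⟩
    · exfalso
      rw [hRk k' ha'] at h1
      obtain ⟨x, c, hc, hx⟩ := h1
      have h5 := sq_rel (by omega) (R 0) (D F n k') ν 1 (hR0 he)
        (by rw [one_smul]; exact dmat_sq n k') x c hx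
      refine hν ⟨c⁻¹, ?_⟩
      calc ν = c⁻¹ * c⁻¹ * (c * c * ν) := by field_simp
        _ = c⁻¹ * c⁻¹ := by rw [← h5, mul_one]
    · rfl
  have hsurj : Function.Surjective Ψ := by
    rintro ⟨C, gbar, rfl, ho⟩
    obtain ⟨g, rfl⟩ := QuotientGroup.mk_surjective gbar
    rw [order_two_iff] at ho
    obtain ⟨hns, c, hc⟩ := ho
    have hc0 := sq_ne_zero (by omega) g c hc
    by_cases hsq : IsSquare c
    · obtain ⟨μ, rfl⟩ := hsq
      have hμ : μ ≠ 0 := fun h => hc0 (by rw [h, mul_zero])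
      obtain ⟨k, hk1, hk2, hPC⟩ := surj_sq h2 g μ hμ hns hc
      refine ⟨⟨k, Or.inl ⟨hk1, hk2⟩⟩, ?_⟩
      apply Subtype.ext
      change ConjClasses.mk (QuotientGroup.mk (R k)) = ConjClasses.mk (QuotientGroup.mk g)
      rw [hRk k hk1, eq_comm, mk_eq_iff]
      exact hPC
    · have he : Even n := mat_nonsq_even c hsq _ hc
      refine ⟨⟨0, Or.inr ⟨rfl, he⟩⟩, ?_⟩
      apply Subtype.ext
      change ConjClasses.mk (QuotientGroup.mk (R 0)) = ConjClasses.mk (QuotientGroup.mk g)
      rw [eq_comm, mk_eq_iff]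
      exact surj_nonsq hchar g (R 0) c ν hsq hν hc (hR0 he)
  rw [← Nat.card_congr (Equiv.ofBijective Ψ ⟨hinj, hsurj⟩)]
  rw [Nat.subtype_card (Finset.Icc 1 (n / 2) ∪ (if Even n then {0} else ∅)) (by
    intro k
    simp only [Finset.mem_union, Finset.mem_Icc]
    by_cases he : Even n
    · simp [he]
    · simp [he])]
  rw [Finset.card_union_of_disjoint (by
    rw [Finset.disjoint_left]
    intro k hk hk'
    rw [Finset.mem_Icc] at hk
    split_ifs at hk' with he
    · rw [Finset.mem_singleton] at hk'; omega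
    · exact absurd hk' (Finset.notMem_empty k)), Nat.card_Icc]
  split_ifs <;> simp

end Cfsg.Agent.Helper14.PGLInv
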