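import Mathlib
set_option autoImplicit false
open Polynomial

namespace Cfsg.Agent.Helper14.SemiConj

variable {F : Type*} [Field F]

/-- module structure over `AdjoinRoot f` when `f(g) = 0`. -/
theorem irr_struct {V : Type*} [AddCommGroup V] [Module F V] [FiniteDimensional F V]
    (f : F[X]) [hirr : Fact (Irreducible f)] (g : V →ₗ[F] V) (hgg : aeval g f = 0) :
    ∃ m : ℕ, ∃ e : V ≃ₗ[F] (Fin m → AdjoinRoot f),
      (∀ v, e (g v) = AdjoinRoot.root f • e v) ∧ f.natDegree * m = Module.finrank F V := by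
  let φ : AdjoinRoot f →ₐ[F] Module.End F V :=
    Ideal.Quotient.liftₐ (Ideal.span {f}) (aeval g) (by
      intro a ha
      obtain ⟨c, rfl⟩ := Ideal.mem_span_singleton.mp ha
      rw [map_mul, hgg, zero_mul])
  have hroot : φ (AdjoinRoot.root f) = g := by
    change aeval g (X : F[X]) = g
    exact aeval_X g
  let : Module (AdjoinRoot f) V := Module.compHom V (φ : _ →+* Module.End F V)
  have hsm : ∀ (a : AdjoinRoot f) (v : V), a • v = φ a v := fun a v => rfl
  have : IsScalarTower F (AdjoinRoot f) V := ⟨fun c a v => by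
    rw [hsm, hsm, map_smul, LinearMap.smul_apply]⟩
  have : Module.Finite (AdjoinRoot f) V :=
    Module.Finite.of_restrictScalars_finite F _ V
  have hne : f ≠ 0 := hirr.out.ne_zero
  have hK : Module.finrank F (AdjoinRoot f) = f.natDegree := by
    rw [(AdjoinRoot.powerBasis hne).finrank, AdjoinRoot.powerBasis_dim]
  have : Module.Finite F (AdjoinRoot f) := (AdjoinRoot.powerBasis hne).finite
  have hmul := Module.finrank_mul_finrank F (AdjoinRoot f) V
  rw [hK] at hmul
  let b := Module.finBasis (AdjoinRoot f) V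
  refine ⟨_, b.equivFun.restrictScalars F, ?_, hmul⟩
  intro v
  have h1 : g v = AdjoinRoot.root f • v := by
    rw [hsm, hroot]
  rw [h1]
  simp only [LinearEquiv.restrictScalars_apply, map_smul]

/-- two endomorphisms killed by the same irreducible polynomial on spaces of equal dimension
are conjugate. -/
theorem irr_conj {V V' : Type*} [AddCommGroup V] [Module F V] [FiniteDimensional F V]
    [AddCommGroup V'] [Module F V'] [FiniteDimensional F V']
    (f : F[X]) (hf : Irreducible f) (g : V →ₗ[F] V) (g' : V' →ₗ[F] V')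
    (hg : aeval g f = 0) (hg' : aeval g' f = 0)
    (hdim : Module.finrank F V = Module.finrank F V') :
    ∃ e : V ≃ₗ[F] V', ∀ v, e (g v) = g' (e v) := by
  have : Fact (Irreducible f) := ⟨hf⟩
  obtain ⟨m, e, he, hm⟩ := irr_struct f g hg
  obtain ⟨m', e', he', hm'⟩ := irr_struct f g' hg'
  have hpos : 0 < f.natDegree := hf.natDegree_pos
  have : m = m' := by
    rw [hdim, ← hm'] at hm
    exact Nat.eq_of_mul_eq_mul_left hpos hm
  subst this
  refine ⟨e ≪≫ₗ e'.symm, ?_⟩
  intro v
  rw [LinearEquiv.trans_apply, LinearEquiv.trans_apply, he]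
  apply e'.injective
  rw [LinearEquiv.apply_symm_apply, he', LinearEquiv.apply_symm_apply]

/-- intertwiners intertwine polynomials. -/
theorem aeval_intertwine {V V' : Type*} [AddCommGroup V] [Module F V]
    [AddCommGroup V'] [Module F V'] (e : V →ₗ[F] V') (ψ : V →ₗ[F] V) (φ : V' →ₗ[F] V')
    (h : ∀ v, e (ψ v) = φ (e v)) (P : F[X]) (v : V) :
    e (aeval ψ P v) = aeval φ P (e v) := by
  have hpow : ∀ n : ℕ, ∀ v, e ((ψ ^ n) v) = (φ ^ n) (e v) := by
    intro n
    induction n with
    | zero => intro v; simp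
    | succ n ih =>
      intro v
      rw [pow_succ, pow_succ, Module.End.mul_apply, Module.End.mul_apply, ih, h]
  induction P using Polynomial.induction_on' with
  | add p q hp hq =>
    rw [map_add, map_add, LinearMap.add_apply, LinearMap.add_apply, map_add, hp, hq]
  | monomial n a =>
    rw [aeval_monomial, aeval_monomial, Module.End.mul_apply, Module.End.mul_apply,
      Module.algebraMap_end_apply, Module.algebraMap_end_apply, map_smul, hpow]

variable {V : Type*} [AddCommGroup V] [Module F V]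

theorem ker_mono_of_dvd (φ : V →ₗ[F] V) {f g : F[X]} (h : f ∣ g) :
    LinearMap.ker (aeval φ f) ≤ LinearMap.ker (aeval φ g) := by
  obtain ⟨c, rfl⟩ := h
  intro v hv
  rw [LinearMap.mem_ker] at hv ⊢
  rw [mul_comm, map_mul, Module.End.mul_apply, hv, map_zero]

theorem ker_invariant (φ : V →ₗ[F] V) (f : F[X]) :
    ∀ w ∈ LinearMap.ker (aeval φ f), φ w ∈ LinearMap.ker (aeval φ f) := by
  intro w hw
  rw [LinearMap.mem_ker] at hw ⊢
  have := aeval_intertwine φ φ φ (fun v => rfl) f w
  rw [← this, hw, map_zero]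

theorem ker_indep (φ : V →ₗ[F] V) (T : Finset F[X]) (hT : (T : Set F[X]).Pairwise IsCoprime) :
    iSupIndep (fun f : ↥T => LinearMap.ker (aeval φ f.1)) := by
  classical
  intro f
  have h1 : (⨆ (j : ↥T) (_ : j ≠ f), LinearMap.ker (aeval φ j.1)) ≤
      LinearMap.ker (aeval φ (∏ g ∈ T.erase f.1, g)) := by
    apply iSup₂_le
    intro j hj
    apply ker_mono_of_dvd
    apply Finset.dvd_prod_of_mem
    exact Finset.mem_erase.mpr ⟨fun h => hj (Subtype.ext h), j.2⟩
  have h2 : IsCoprime f.1 (∏ g ∈ T.erase f.1, g) := by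
    apply IsCoprime.prod_right
    intro g hg
    have := Finset.mem_erase.mp hg
    exact hT f.2 this.2 (Ne.symm this.1)
  exact (disjoint_ker_aeval_of_isCoprime φ h2).mono_right h1

theorem ker_prod (φ : V →ₗ[F] V) (T : Finset F[X]) (hT : (T : Set F[X]).Pairwise IsCoprime) :
    LinearMap.ker (aeval φ (∏ f ∈ T, f)) = ⨆ f ∈ T, LinearMap.ker (aeval φ f) := by
  classical
  induction T using Finset.induction_on with
  | empty =>
    simp only [Finset.prod_empty, map_one, Finset.notMem_empty, iSup_false, iSup_bot]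
    exact LinearMap.ker_id
  | insert f₀ T hf₀ ih =>
    rw [Finset.prod_insert hf₀, Finset.iSup_insert,
      ← ih (hT.mono (by simp))]
    have hc : IsCoprime f₀ (∏ f ∈ T, f) := by
      apply IsCoprime.prod_right
      intro g hg
      exact hT (Finset.mem_coe.mpr (Finset.mem_insert_self _ _))
        (Finset.mem_coe.mpr (Finset.mem_insert_of_mem hg)) (fun h => hf₀ (h ▸ hg))
    exact (sup_ker_aeval_eq_ker_aeval_mul_of_coprime φ hc).symm

theorem ker_internal (φ : V →ₗ[F] V) (T : Finset F[X]) (hT : (T : Set F[X]).Pairwise IsCoprime)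
    (hφ : aeval φ (∏ f ∈ T, f) = 0) [DecidableEq (↥T)] :
    DirectSum.IsInternal (fun f : ↥T => LinearMap.ker (aeval φ f.1)) := by
  apply DirectSum.isInternal_submodule_of_iSupIndep_of_iSup_eq_top (ker_indep φ T hT)
  have h1 := ker_prod φ T hT
  rw [hφ, LinearMap.ker_zero, iSup_subtype'] at h1
  exact h1.symm

/-- gluing intertwiners along internal direct sums. -/
theorem glue {V' : Type*} [AddCommGroup V'] [Module F V']
    {ι : Type*} [DecidableEq ι] (W : ι → Submodule F V) (W' : ι → Submodule F V')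
    (hW : DirectSum.IsInternal W) (hW' : DirectSum.IsInternal W')
    (φ : V →ₗ[F] V) (φ' : V' →ₗ[F] V')
    (hinv : ∀ i, ∀ w ∈ W i, φ w ∈ W i)
    (e : ∀ i, W i ≃ₗ[F] W' i)
    (he : ∀ i (w : W i) (h : φ w.1 ∈ W i), ((e i ⟨φ w.1, h⟩ : W' i) : V') = φ' (e i w).1) :
    ∃ E : V ≃ₗ[F] V', ∀ v, E (φ v) = φ' (E v) := by
  let c := LinearEquiv.ofBijective (DirectSum.coeLinearMap W) hW
  let c' := LinearEquiv.ofBijective (DirectSum.coeLinearMap W') hW'
  let E : V ≃ₗ[F] V' := c.symm ≪≫ₗ (DFinsupp.mapRange.linearEquiv e) ≪≫ₗ c'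
  have hE : ∀ i (w : W i), E w.1 = (e i w).1 := by
    intro i w
    have h1 : c.symm w.1 = DirectSum.lof F ι (fun i => W i) i w := by
      apply c.injective
      rw [LinearEquiv.apply_symm_apply]
      exact (DirectSum.coeLinearMap_of W i w).symm
    have h2 : DFinsupp.mapRange.linearEquiv e (DirectSum.lof F ι (fun i => W i) i w) =
        DirectSum.lof F ι (fun i => W' i) i (e i w) := by
      exact DFinsupp.mapRange_single (hf := fun i => map_zero (e i))
    change c' (DFinsupp.mapRange.linearEquiv e (c.symm w.1)) = _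
    rw [h1, h2]
    exact DirectSum.coeLinearMap_of W' i (e i w)
  refine ⟨E, ?_⟩
  intro v
  have hv : v ∈ ⨆ i, W i := by
    rw [hW.submodule_iSup_eq_top]
    trivial
  refine Submodule.iSup_induction W (motive := fun v => E (φ v) = φ' (E v)) hv ?_ ?_ ?_
  · intro i x hx
    have h3 := hinv i x hx
    have h4 := hE i ⟨φ x, h3⟩
    have h5 := hE i ⟨x, hx⟩
    simp only at h4 h5
    rw [h4, h5]
    exact he i ⟨x, hx⟩ h3
  · simp
  · intro x y hx hy
    rw [map_add, map_add, hx, hy, map_add, map_add]

/-- endomorphisms killed by a squarefree product of irreducibles with equal kernel dimensions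
are conjugate. -/
theorem conj_of_ker_dims {V' : Type*} [AddCommGroup V'] [Module F V']
    [FiniteDimensional F V] [FiniteDimensional F V']
    (T : Finset F[X]) (hirr : ∀ f ∈ T, Irreducible f) (hT : (T : Set F[X]).Pairwise IsCoprime)
    (φ : V →ₗ[F] V) (φ' : V' →ₗ[F] V')
    (hφ : aeval φ (∏ f ∈ T, f) = 0) (hφ' : aeval φ' (∏ f ∈ T, f) = 0)
    (hdim : ∀ f ∈ T, Module.finrank F (LinearMap.ker (aeval φ f)) =
      Module.finrank F (LinearMap.ker (aeval φ' f))) :
    ∃ E : V ≃ₗ[F] V', ∀ v, E (φ v) = φ' (E v) := by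
  classical
  have key : ∀ f : ↥T, ∃ e : LinearMap.ker (aeval φ f.1) ≃ₗ[F] LinearMap.ker (aeval φ' f.1),
      ∀ (w : LinearMap.ker (aeval φ f.1)) (h : φ w.1 ∈ LinearMap.ker (aeval φ f.1)),
        ((e ⟨φ w.1, h⟩ : LinearMap.ker (aeval φ' f.1)) : V') = φ' (e w).1 := by
    intro f
    let ψ : LinearMap.ker (aeval φ f.1) →ₗ[F] LinearMap.ker (aeval φ f.1) :=
      φ.restrict (ker_invariant φ f.1)
    let ψ' : LinearMap.ker (aeval φ' f.1) →ₗ[F] LinearMap.ker (aeval φ' f.1) :=
      φ'.restrict (ker_invariant φ' f.1)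
    have hψ : aeval ψ f.1 = 0 := by
      apply LinearMap.ext
      intro w
      apply Subtype.ext
      have := aeval_intertwine (LinearMap.ker (aeval φ f.1)).subtype ψ φ (fun v => rfl) f.1 w
      rw [Submodule.subtype_apply, Submodule.subtype_apply] at this
      rw [this]
      exact w.2
    have hψ' : aeval ψ' f.1 = 0 := by
      apply LinearMap.ext
      intro w
      apply Subtype.ext
      have := aeval_intertwine (LinearMap.ker (aeval φ' f.1)).subtype ψ' φ' (fun v => rfl) f.1 w
      rw [Submodule.subtype_apply, Submodule.subtype_apply] at this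
      rw [this]
      exact w.2
    obtain ⟨e, he⟩ := irr_conj f.1 (hirr f.1 f.2) ψ ψ' hψ hψ' (hdim f.1 f.2)
    refine ⟨e, ?_⟩
    intro w h
    exact congrArg Subtype.val (he w)
  choose e he using key
  exact glue _ _ (ker_internal φ T hT hφ) (ker_internal φ' T hT hφ') φ φ'
    (fun f w hw => ker_invariant φ f.1 w hw) e he

/-- the dimensions of the kernels add up. -/
theorem finrank_eq_sum_ker [FiniteDimensional F V]
    (T : Finset F[X]) (hT : (T : Set F[X]).Pairwise IsCoprime)
    (φ : V →ₗ[F] V) (hφ : aeval φ (∏ f ∈ T, f) = 0) :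
    Module.finrank F V = ∑ f ∈ T, Module.finrank F (LinearMap.ker (aeval φ f)) := by
  classical
  have h := ker_internal φ T hT hφ
  have e := LinearEquiv.ofBijective (DirectSum.coeLinearMap _) h
  rw [← e.finrank_eq, Module.finrank_directSum]
  exact Finset.sum_coe_sort T (fun f => Module.finrank F (LinearMap.ker (aeval φ f)))

/-- conjugate endomorphisms have kernels of the same dimension. -/
theorem finrank_ker_of_conj {V' : Type*} [AddCommGroup V'] [Module F V']
    (φ : V →ₗ[F] V) (φ' : V' →ₗ[F] V') (E : V ≃ₗ[F] V') (hE : ∀ v, E (φ v) = φ' (E v))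
    (P : F[X]) :
    Module.finrank F (LinearMap.ker (aeval φ P)) = Module.finrank F (LinearMap.ker (aeval φ' P)) := by
  have hmap : (LinearMap.ker (aeval φ P)).map E.toLinearMap = LinearMap.ker (aeval φ' P) := by
    ext w
    rw [Submodule.mem_map, LinearMap.mem_ker]
    constructor
    · rintro ⟨v, hv, rfl⟩
      rw [LinearMap.mem_ker] at hv
      have := aeval_intertwine E.toLinearMap φ φ' hE P v
      rw [LinearEquiv.coe_coe] at this ⊢
      rw [← this, hv, map_zero]
    · intro hw
      refine ⟨E.symm w, ?_, by simp⟩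
      rw [LinearMap.mem_ker]
      have := aeval_intertwine E.toLinearMap φ φ' hE P (E.symm w)
      rw [LinearEquiv.coe_coe, LinearEquiv.apply_symm_apply, hw] at this
      exact E.injective (by rw [this, map_zero])
  rw [← hmap]
  exact (LinearEquiv.finrank_map_eq E _).symm

/-- the restriction of an endomorphism to the kernel of `f` is killed by `f`. -/
theorem aeval_restrict_ker (φ : V →ₗ[F] V) (f : F[X]) :
    aeval (φ.restrict (ker_invariant φ f)) f = 0 := by
  apply LinearMap.ext
  intro w
  apply Subtype.ext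
  have := aeval_intertwine (LinearMap.ker (aeval φ f)).subtype (φ.restrict (ker_invariant φ f)) φ
    (fun v => rfl) f w
  rw [Submodule.subtype_apply, Submodule.subtype_apply] at this
  rw [this]
  exact w.2

/-- the degree of an irreducible polynomial divides the dimension of its kernel. -/
theorem natDegree_dvd_finrank_ker [FiniteDimensional F V] (f : F[X]) (hf : Irreducible f)
    (φ : V →ₗ[F] V) : f.natDegree ∣ Module.finrank F (LinearMap.ker (aeval φ f)) := by
  have : Fact (Irreducible f) := ⟨hf⟩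
  obtain ⟨m, e, he, hm⟩ := irr_struct f (φ.restrict (ker_invariant φ f)) (aeval_restrict_ker φ f)
  exact ⟨m, hm.symm⟩

section Exist

variable (T : Finset F[X]) (b : ↥T → ℕ)

/-- the model space. -/
abbrev Model (T : Finset F[X]) (b : ↥T → ℕ) : Type _ := ∀ f : ↥T, Fin (b f) → AdjoinRoot f.1

/-- multiplication by the roots. -/
noncomputable def modelMap : Model T b →ₗ[F] Model T b where
  toFun v := fun f => AdjoinRoot.root f.1 • v f
  map_add' v w := by
    funext f
    simp only [Pi.add_apply, smul_add]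
  map_smul' c v := by
    funext f
    simp only [Pi.smul_apply, RingHom.id_apply]
    rw [smul_comm]

theorem modelMap_aeval (P : F[X]) (v : Model T b) (f : ↥T) :
    aeval (modelMap T b) P v f = AdjoinRoot.mk f.1 P • v f := by
  let π : Model T b →ₗ[F] (Fin (b f) → AdjoinRoot f.1) := LinearMap.proj f
  let μ : (Fin (b f) → AdjoinRoot f.1) →ₗ[F] (Fin (b f) → AdjoinRoot f.1) :=
    Algebra.lsmul F F (Fin (b f) → AdjoinRoot f.1) (AdjoinRoot.root f.1)
  have h1 := aeval_intertwine π (modelMap T b) μ (fun v => rfl) P v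
  have h2 : aeval μ P = Algebra.lsmul F F (Fin (b f) → AdjoinRoot f.1) (AdjoinRoot.mk f.1 P) := by
    rw [← AdjoinRoot.aeval_eq]
    exact aeval_algHom_apply _ _ _
  change π (aeval (modelMap T b) P v) = _
  rw [h1, h2]
  rfl

theorem modelMap_ker (hT : (T : Set F[X]).Pairwise IsCoprime) (f₀ : ↥T) [DecidableEq ↥T] :
    LinearMap.ker (aeval (modelMap T b) f₀.1) =
      LinearMap.range (LinearMap.single F (fun f : ↥T => Fin (b f) → AdjoinRoot f.1) f₀) := by
  ext v
  rw [LinearMap.mem_ker, LinearMap.mem_range]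
  constructor
  · intro hv
    refine ⟨v f₀, ?_⟩
    funext f
    by_cases hf : f = f₀
    · subst hf
      simp
    · rw [LinearMap.single_apply, Pi.single_eq_of_ne hf]
      have h1 := congrFun hv f
      rw [modelMap_aeval] at h1
      obtain ⟨u, w, huw⟩ := hT f.2 f₀.2 (fun h => hf (Subtype.ext h))
      have h2 : AdjoinRoot.mk f.1 w * AdjoinRoot.mk f.1 f₀.1 = 1 := by
        rw [← map_mul, ← map_one (AdjoinRoot.mk f.1), ← huw, map_add,
          map_mul (AdjoinRoot.mk f.1) u, AdjoinRoot.mk_self, mul_zero, zero_add]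
      have h3 : v f = (AdjoinRoot.mk f.1 w * AdjoinRoot.mk f.1 f₀.1) • v f := by
        rw [h2, one_smul]
      rw [h3, mul_smul, h1]
      simp
  · rintro ⟨w, rfl⟩
    funext f
    rw [modelMap_aeval]
    by_cases hf : f = f₀
    · subst hf
      rw [AdjoinRoot.mk_self, zero_smul]
      rfl
    · rw [LinearMap.single_apply, Pi.single_eq_of_ne hf, smul_zero]
      rfl

theorem modelMap_finrank_ker (hne : ∀ f ∈ T, f ≠ 0) (hT : (T : Set F[X]).Pairwise IsCoprime)
    (f₀ : ↥T) :
    Module.finrank F (LinearMap.ker (aeval (modelMap T b) f₀.1)) = b f₀ * f₀.1.natDegree := by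
  classical
  have hfin : Module.Finite F (AdjoinRoot f₀.1) := (AdjoinRoot.powerBasis (hne f₀.1 f₀.2)).finite
  have hinj : Function.Injective
      (LinearMap.single F (fun f : ↥T => Fin (b f) → AdjoinRoot f.1) f₀) := by
    intro x y h
    have := congrFun h f₀
    rw [LinearMap.single_apply, LinearMap.single_apply, Pi.single_eq_same,
      Pi.single_eq_same] at this
    exact this
  rw [modelMap_ker T b hT f₀, LinearMap.finrank_range_of_inj hinj,
    Module.finrank_pi_fintype, Finset.sum_const, Finset.card_univ, Fintype.card_fin, smul_eq_mul,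
    (AdjoinRoot.powerBasis (hne f₀.1 f₀.2)).finrank, AdjoinRoot.powerBasis_dim]

theorem model_finrank (hne : ∀ f ∈ T, f ≠ 0) :
    Module.finrank F (Model T b) = ∑ f : ↥T, b f * f.1.natDegree := by
  have hfin : ∀ f : ↥T, Module.Finite F (AdjoinRoot f.1) :=
    fun f => (AdjoinRoot.powerBasis (hne f.1 f.2)).finite
  rw [Module.finrank_pi_fintype]
  apply Finset.sum_congr rfl
  intro f _
  rw [Module.finrank_pi_fintype, Finset.sum_const, Finset.card_univ, Fintype.card_fin, smul_eq_mul,
    (AdjoinRoot.powerBasis (hne f.1 f.2)).finrank, AdjoinRoot.powerBasis_dim]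

/-- existence of an endomorphism with prescribed kernel dimensions. -/
theorem exists_endo (hne : ∀ f ∈ T, f ≠ 0) (hT : (T : Set F[X]).Pairwise IsCoprime)
    (n : ℕ) (hn : ∑ f : ↥T, b f * f.1.natDegree = n) :
    ∃ φ : (Fin n → F) →ₗ[F] (Fin n → F), aeval φ (∏ f ∈ T, f) = 0 ∧
      ∀ f : ↥T, Module.finrank F (LinearMap.ker (aeval φ f.1)) = b f * f.1.natDegree := by
  classical
  have hfin : ∀ f : ↥T, Module.Finite F (AdjoinRoot f.1) :=
    fun f => (AdjoinRoot.powerBasis (hne f.1 f.2)).finite
  have hdim : Module.finrank F (Model T b) = Module.finrank F (Fin n → F) := by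
    rw [model_finrank T b hne, hn, Module.finrank_fin_fun]
  let E : Model T b ≃ₗ[F] (Fin n → F) := LinearEquiv.ofFinrankEq _ _ hdim
  let φ : (Fin n → F) →ₗ[F] (Fin n → F) :=
    E.toLinearMap ∘ₗ modelMap T b ∘ₗ E.symm.toLinearMap
  have hE : ∀ v, E (modelMap T b v) = φ (E v) := by
    intro v
    simp [φ]
  refine ⟨φ, ?_, ?_⟩
  · apply LinearMap.ext
    intro w
    have h1 := aeval_intertwine E.toLinearMap (modelMap T b) φ hE (∏ f ∈ T, f) (E.symm w)
    rw [LinearEquiv.coe_coe, LinearEquiv.apply_symm_apply] at h1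
    rw [← h1]
    have h2 : aeval (modelMap T b) (∏ f ∈ T, f) (E.symm w) = 0 := by
      funext f
      rw [modelMap_aeval]
      have : AdjoinRoot.mk f.1 (∏ g ∈ T, g) = 0 := by
        rw [AdjoinRoot.mk_eq_zero]
        exact Finset.dvd_prod_of_mem _ f.2
      rw [this, zero_smul]
      rfl
    rw [h2, map_zero]
    rfl
  · intro f
    rw [← finrank_ker_of_conj (modelMap T b) φ E hE f.1]
    exact modelMap_finrank_ker T b hne hT f

end Exist

end Cfsg.Agent.Helper14.SemiConj
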