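import Mathlib
import Cfsg.Agent.Helper14.SemiConj
import Cfsg.Agent.Helper14.PGLInv
set_option autoImplicit false
open Polynomial

namespace Cfsg.Agent.Helper14.GLPrimeOrd

variable {F : Type*} [Field F]

/-- the irreducible factors of the cyclotomic polynomial over a finite field. -/
theorem exists_factor_set [Fintype F] {p q : ℕ} [Fact p.Prime] [CharP F p]
    (hF : Fintype.card F = q) (r i t : ℕ) (hr : r.Prime) (hrp : r ≠ p)
    (hi : i = orderOf (q : ZMod r)) (ht : t * i = r - 1) :
    ∃ S : Finset F[X], S.card = t ∧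
      (∀ f ∈ S, Irreducible f ∧ f.Monic ∧ f.natDegree = i ∧ f ∣ cyclotomic r F) ∧
      ∏ f ∈ S, f = cyclotomic r F := by
  classical
  obtain ⟨k, hk⟩ := FiniteField.card F p
  have hK : Fintype.card F = p ^ (k : ℕ) := hk.2
  have hp : p.Prime := Fact.out
  have hn : p.Coprime r := (Nat.coprime_primes hp hr).mpr (Ne.symm hrp)
  have hne : NeZero (r : F) := ⟨fun h => by
    rw [CharP.cast_eq_zero_iff F p] at h
    exact hrp ((Nat.prime_dvd_prime_iff_eq hp hr).mp h).symm⟩
  have : Fact r.Prime := ⟨hr⟩
  have hc0 : cyclotomic r F ≠ 0 := cyclotomic_ne_zero r F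
  have hnd : (UniqueFactorizationMonoid.normalizedFactors (cyclotomic r F)).Nodup :=
    (UniqueFactorizationMonoid.squarefree_iff_nodup_normalizedFactors hc0).mp
      (squarefree_cyclotomic r F)
  have hord : orderOf (ZMod.unitOfCoprime (p ^ (k : ℕ)) (hn.pow_left k)) = i := by
    rw [hi, ← orderOf_units, ZMod.coe_unitOfCoprime, ← hK, hF]
  have hipos : 0 < i := by
    rw [← hord]
    exact orderOf_pos _
  refine ⟨(UniqueFactorizationMonoid.normalizedFactors (cyclotomic r F)).toFinset, ?_, ?_, ?_⟩
  · rw [Polynomial.normalizedFactors_cyclotomic_card hK hn, hord, Nat.totient_prime hr, ← ht]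
    exact Nat.mul_div_cancel _ hipos
  · intro f hf
    rw [Multiset.mem_toFinset] at hf
    have hirr := UniqueFactorizationMonoid.irreducible_of_normalized_factor f hf
    refine ⟨hirr, ?_, ?_, UniqueFactorizationMonoid.dvd_of_mem_normalizedFactors hf⟩
    · have := UniqueFactorizationMonoid.normalize_normalized_factor f hf
      exact (Polynomial.normalize_eq_self_iff_monic hirr.ne_zero).mp this
    · rw [Polynomial.natDegree_of_mem_normalizedFactors_cyclotomic hK hn hf, hord]
  · have h1 : ∏ f ∈ (UniqueFactorizationMonoid.normalizedFactors (cyclotomic r F)).toFinset, f =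
        (UniqueFactorizationMonoid.normalizedFactors (cyclotomic r F)).prod := by
      rw [Finset.prod_eq_multiset_prod, Multiset.toFinset_val, hnd.dedup, Multiset.map_id']
    rw [h1]
    have hm : ((UniqueFactorizationMonoid.normalizedFactors (cyclotomic r F)).map id).prod.Monic :=
      Polynomial.monic_multiset_prod_of_monic _ _ (fun f hf => by
        have hirr := UniqueFactorizationMonoid.irreducible_of_normalized_factor f hf
        have := UniqueFactorizationMonoid.normalize_normalized_factor f hf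
        exact (Polynomial.normalize_eq_self_iff_monic hirr.ne_zero).mp this)
    rw [Multiset.map_id] at hm
    exact Polynomial.eq_of_monic_of_associated hm (cyclotomic.monic r F)
      (UniqueFactorizationMonoid.prod_normalizedFactors hc0)

/-- the full set of factors of `X ^ r - 1`. -/
theorem T_props [DecidableEq F[X]] (r : ℕ) (hr : r.Prime) (hrne : (r : F) ≠ 0) (S : Finset F[X])
    (hS : ∀ f ∈ S, Irreducible f ∧ f.Monic ∧ f ∣ cyclotomic r F)
    (hprod : ∏ f ∈ S, f = cyclotomic r F) :
    (X - 1 : F[X]) ∉ S ∧ (∀ f ∈ insert (X - 1 : F[X]) S, Irreducible f) ∧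
      ((insert (X - 1 : F[X]) S : Finset F[X]) : Set F[X]).Pairwise IsCoprime ∧
      ∏ f ∈ insert (X - 1 : F[X]) S, f = X ^ r - 1 := by
  have : Fact r.Prime := ⟨hr⟩
  have hX : Irreducible (X - 1 : F[X]) := by
    have := Polynomial.irreducible_X_sub_C (1 : F)
    rwa [map_one] at this
  have hXm : (X - 1 : F[X]).Monic := by
    have := Polynomial.monic_X_sub_C (1 : F)
    rwa [map_one] at this
  have hnot : (X - 1 : F[X]) ∉ S := by
    intro h
    have h1 := (hS _ h).2.2
    have h2 : (cyclotomic r F).eval 1 = 0 := by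
      obtain ⟨c, hc⟩ := h1
      rw [hc, eval_mul, eval_sub, eval_X, eval_one, sub_self, zero_mul]
    rw [Polynomial.eval_one_cyclotomic_prime] at h2
    exact hrne h2
  have hall : ∀ f ∈ insert (X - 1 : F[X]) S, Irreducible f ∧ f.Monic := by
    intro f hf
    rcases Finset.mem_insert.mp hf with rfl | hf
    · exact ⟨hX, hXm⟩
    · exact ⟨(hS f hf).1, (hS f hf).2.1⟩
  refine ⟨hnot, fun f hf => (hall f hf).1, ?_, ?_⟩
  · intro f hf g hg hfg
    rw [(hall f hf).1.coprime_iff_not_dvd]
    intro hdvd
    exact hfg (Polynomial.eq_of_monic_of_associated (hall f hf).2 (hall g hg).2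
      ((hall f hf).1.associated_of_dvd (hall g hg).1 hdvd))
  · rw [Finset.prod_insert hnot, hprod, mul_comm]
    exact Polynomial.cyclotomic_prime_mul_X_sub_one F r

variable {n : ℕ}

theorem aeval_toLin' (A : Matrix (Fin n) (Fin n) F) (P : F[X]) :
    aeval (Matrix.toLin' A) P = Matrix.toLin' (aeval A P) :=
  aeval_algHom_apply (Matrix.toLinAlgEquiv' : Matrix (Fin n) (Fin n) F ≃ₐ[F] _).toAlgHom A P

theorem pow_eq_one_iff (g : GL (Fin n) F) (r : ℕ) :
    g ^ r = 1 ↔ aeval (Matrix.toLin' g.1) (X ^ r - 1 : F[X]) = 0 := by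
  rw [aeval_toLin', map_sub, map_pow, aeval_X, map_one, LinearEquiv.map_eq_zero_iff, sub_eq_zero,
    Units.ext_iff, Units.val_pow_eq_pow_val, Units.val_one]

/-- conjugate elements have kernels of the same dimension. -/
theorem finrank_of_isConj (g g' : GL (Fin n) F) (h : IsConj g g') (P : F[X]) :
    Module.finrank F (LinearMap.ker (aeval (Matrix.toLin' g.1) P)) =
      Module.finrank F (LinearMap.ker (aeval (Matrix.toLin' g'.1) P)) := by
  obtain ⟨c, hc⟩ := isConj_iff.mp h
  have hc' : c * g = g' * c := by rw [← hc]; group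
  let E : (Fin n → F) ≃ₗ[F] (Fin n → F) :=
    LinearEquiv.ofLinear (Matrix.toLin' c.1) (Matrix.toLin' (c⁻¹).1)
      (by rw [← Matrix.toLin'_mul, ← Units.val_mul, mul_inv_cancel, Units.val_one,
            Matrix.toLin'_one])
      (by rw [← Matrix.toLin'_mul, ← Units.val_mul, inv_mul_cancel, Units.val_one,
            Matrix.toLin'_one])
  apply SemiConj.finrank_ker_of_conj _ _ E
  intro v
  change Matrix.toLin' c.1 (Matrix.toLin' g.1 v) = Matrix.toLin' g'.1 (Matrix.toLin' c.1 v)
  rw [← Matrix.toLin'_mul_apply, ← Matrix.toLin'_mul_apply, ← Units.val_mul, ← Units.val_mul, hc']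

/-- elements killed by a squarefree product with equal kernel dimensions are conjugate. -/
theorem isConj_of_finrank (T : Finset F[X]) (hirr : ∀ f ∈ T, Irreducible f)
    (hT : (T : Set F[X]).Pairwise IsCoprime) (g g' : GL (Fin n) F)
    (hg : aeval (Matrix.toLin' g.1) (∏ f ∈ T, f) = 0)
    (hg' : aeval (Matrix.toLin' g'.1) (∏ f ∈ T, f) = 0)
    (hdim : ∀ f ∈ T, Module.finrank F (LinearMap.ker (aeval (Matrix.toLin' g.1) f)) =
      Module.finrank F (LinearMap.ker (aeval (Matrix.toLin' g'.1) f))) : IsConj g g' := by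
  obtain ⟨E, hE⟩ := SemiConj.conj_of_ker_dims T hirr hT _ _ hg hg' hdim
  obtain ⟨x, hx⟩ := PGLInv.mat_conj_of_lin g.1 g'.1 E hE
  rw [isConj_iff]
  refine ⟨x, ?_⟩
  have : x * g = g' * x := Units.ext hx
  rw [this]
  group

/-- the sum of the kernel dimensions. -/
theorem finrank_sum [DecidableEq F[X]] (S : Finset F[X]) (hnot : (X - 1 : F[X]) ∉ S)
    (hT : ((insert (X - 1 : F[X]) S : Finset F[X]) : Set F[X]).Pairwise IsCoprime)
    (g : GL (Fin n) F) (hg : aeval (Matrix.toLin' g.1) (∏ f ∈ insert (X - 1 : F[X]) S, f) = 0) :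
    n = Module.finrank F (LinearMap.ker (aeval (Matrix.toLin' g.1) (X - 1 : F[X]))) +
      ∑ f ∈ S, Module.finrank F (LinearMap.ker (aeval (Matrix.toLin' g.1) f)) := by
  have h := SemiConj.finrank_eq_sum_ker _ hT _ hg
  rw [Module.finrank_fin_fun, Finset.sum_insert hnot] at h
  exact h

/-- the identity is detected by the kernels. -/
theorem eq_one_iff [DecidableEq F[X]] (S : Finset F[X]) (hnot : (X - 1 : F[X]) ∉ S)
    (hS : ∀ f ∈ S, f.eval 1 ≠ 0)
    (hT : ((insert (X - 1 : F[X]) S : Finset F[X]) : Set F[X]).Pairwise IsCoprime)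
    (g : GL (Fin n) F) (hg : aeval (Matrix.toLin' g.1) (∏ f ∈ insert (X - 1 : F[X]) S, f) = 0) :
    g = 1 ↔ ∀ f ∈ S, Module.finrank F (LinearMap.ker (aeval (Matrix.toLin' g.1) f)) = 0 := by
  constructor
  · rintro rfl f hf
    have h1 : aeval (Matrix.toLin' (1 : GL (Fin n) F).1) f =
        algebraMap F (Module.End F (Fin n → F)) (f.eval 1) := by
      rw [Units.val_one, Matrix.toLin'_one]
      have hid : (LinearMap.id : (Fin n → F) →ₗ[F] (Fin n → F)) =
          algebraMap F (Module.End F (Fin n → F)) 1 := by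
        rw [map_one]
        rfl
      rw [hid, Polynomial.aeval_algebraMap_apply, Polynomial.coe_aeval_eq_eval]
    have h2 : LinearMap.ker (aeval (Matrix.toLin' (1 : GL (Fin n) F).1) f) = ⊥ := by
      rw [h1, LinearMap.ker_eq_bot']
      intro v hv
      rw [Module.algebraMap_end_apply] at hv
      exact (smul_eq_zero.mp hv).resolve_left (hS f hf)
    rw [h2, finrank_bot]
  · intro h
    have h1 := finrank_sum S hnot hT g hg
    rw [Finset.sum_eq_zero h, add_zero] at h1
    have h2 : LinearMap.ker (aeval (Matrix.toLin' g.1) (X - 1 : F[X])) = ⊤ := by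
      apply Submodule.eq_top_of_finrank_eq
      rw [← h1, Module.finrank_fin_fun]
    have h3 : Matrix.toLin' g.1 = 1 := by
      apply LinearMap.ext
      intro v
      have hv : v ∈ LinearMap.ker (aeval (Matrix.toLin' g.1) (X - 1 : F[X])) := by
        rw [h2]; trivial
      rw [LinearMap.mem_ker, map_sub, aeval_X, map_one, LinearMap.sub_apply, sub_eq_zero] at hv
      exact hv
    apply Units.ext
    rw [Units.val_one]
    apply Matrix.toLin'.injective
    rw [h3, Matrix.toLin'_one]
    rfl

/-- existence of elements with prescribed kernel dimensions. -/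
theorem exists_elt [DecidableEq F[X]] (r i : ℕ) (hr : 0 < r) (S : Finset F[X])
    (hdeg : ∀ f ∈ S, f.natDegree = i) (hnot : (X - 1 : F[X]) ∉ S)
    (hne : ∀ f ∈ insert (X - 1 : F[X]) S, f ≠ 0)
    (hT : ((insert (X - 1 : F[X]) S : Finset F[X]) : Set F[X]).Pairwise IsCoprime)
    (hprod : ∏ f ∈ insert (X - 1 : F[X]) S, f = X ^ r - 1)
    (a : ↥S → ℕ) (ha : i * ∑ f, a f ≤ n) :
    ∃ g : GL (Fin n) F, g ^ r = 1 ∧ ∀ f : ↥S,
      Module.finrank F (LinearMap.ker (aeval (Matrix.toLin' g.1) f.1)) = i * a f := by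
  let abar : F[X] → ℕ := fun f => if h : f ∈ S then a ⟨f, h⟩ else 0
  let b : ↥(insert (X - 1 : F[X]) S) → ℕ :=
    fun f => if f.1 = X - 1 then n - i * ∑ f, a f else abar f.1
  have hsum : ∑ f : ↥(insert (X - 1 : F[X]) S), b f * f.1.natDegree = n := by
    rw [Finset.sum_coe_sort (insert (X - 1 : F[X]) S)
      (fun f => (if f = X - 1 then n - i * ∑ f, a f else abar f) * f.natDegree)]
    rw [Finset.sum_insert hnot, if_pos rfl]
    have h1 : (X - 1 : F[X]).natDegree = 1 := by
      have := natDegree_X_sub_C (1 : F)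
      rwa [map_one] at this
    have h2 : ∑ f ∈ S, (if f = X - 1 then n - i * ∑ f, a f else abar f) * f.natDegree =
        i * ∑ f, a f := by
      rw [Finset.mul_sum, ← Finset.sum_coe_sort S]
      apply Finset.sum_congr rfl
      intro f _
      rw [if_neg (fun h : (f : F[X]) = X - 1 => hnot (by rw [← h]; exact f.2)), hdeg f.1 f.2]
      simp only [abar]
      rw [dif_pos f.2, mul_comm]
    rw [h1, h2, mul_one]
    omega
  obtain ⟨φ, hφ, hker⟩ := SemiConj.exists_endo _ b hne hT n hsum
  let A : Matrix (Fin n) (Fin n) F := LinearMap.toMatrix' φ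
  have hA : Matrix.toLin' A = φ := Matrix.toLin'_toMatrix' φ
  have hAr : A ^ r = 1 := by
    rw [hprod, ← hA, aeval_toLin', map_sub, map_pow, aeval_X, map_one,
      LinearEquiv.map_eq_zero_iff, sub_eq_zero] at hφ
    exact hφ
  let g : GL (Fin n) F := ⟨A, A ^ (r - 1), by rw [mul_pow_sub_one hr.ne' A, hAr],
    by rw [pow_sub_one_mul hr.ne' A, hAr]⟩
  refine ⟨g, Units.ext (by rw [Units.val_pow_eq_pow_val, Units.val_one]; exact hAr), ?_⟩
  intro f
  have h3 := hker ⟨f.1, Finset.mem_insert_of_mem f.2⟩
  change Module.finrank F (LinearMap.ker (aeval (Matrix.toLin' A) f.1)) = i * a f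
  rw [hA, h3]
  simp only [b]
  rw [if_neg (fun h : (f : F[X]) = X - 1 => hnot (by rw [← h]; exact f.2)), hdeg f.1 f.2]
  simp only [abar]
  rw [dif_pos f.2, mul_comm]

/-- stars and bars. -/
theorem card_tuples_le (ι : Type*) [Fintype ι] (N : ℕ) :
    Nat.card {a : ι → ℕ // ∑ x, a x ≤ N} =
      Nat.choose (N + Fintype.card ι) (Fintype.card ι) := by
  classical
  have e : {a : ι → ℕ // ∑ x, a x ≤ N} ≃ {a' : Option ι → ℕ // ∑ o, a' o = N} :=
    { toFun := fun a => ⟨fun o => o.elim (N - ∑ x, a.1 x) a.1, by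
        rw [Fintype.sum_option]
        simp only [Option.elim]
        have := a.2
        omega⟩
      invFun := fun a' => ⟨fun x => a'.1 (some x), by
        have := a'.2
        rw [Fintype.sum_option] at this
        change ∑ x, a'.1 (some x) ≤ N
        omega⟩
      left_inv := fun a => by
        apply Subtype.ext
        rfl
      right_inv := fun a' => by
        apply Subtype.ext
        funext o
        cases o with
        | none =>
          have := a'.2
          rw [Fintype.sum_option] at this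
          simp only [Option.elim]
          omega
        | some x => rfl }
  rw [Nat.card_congr e, Nat.subtype_card (Finset.piAntidiag Finset.univ N) (by
    intro a'
    rw [Finset.mem_piAntidiag]
    simp)]
  have h1 : (Finset.piAntidiag (Finset.univ : Finset (Option ι)) N).card =
      (Finset.finsuppAntidiag (Finset.univ : Finset (Option ι)) N).card := by
    unfold Finset.finsuppAntidiag
    rw [Finset.card_map, Finset.card_attach]
  rw [h1, Finset.card_finsuppAntidiag_nat_eq_choose, Finset.card_univ, Fintype.card_option]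
  have : Fintype.card ι + 1 + N - 1 = N + Fintype.card ι := by omega
  rw [this, Nat.choose_symm_add]

theorem card_tuples (ι : Type*) [Fintype ι] (i n : ℕ) (hi : 0 < i) :
    Nat.card {a : ι → ℕ // a ≠ 0 ∧ i * ∑ x, a x ≤ n} =
      Nat.choose (n / i + Fintype.card ι) (Fintype.card ι) - 1 := by
  rw [← card_tuples_le ι (n / i)]
  change Nat.card ↥{a : ι → ℕ | a ≠ 0 ∧ i * ∑ x, a x ≤ n} =
    Nat.card ↥{a : ι → ℕ | ∑ x, a x ≤ n / i} - 1
  rw [Nat.card_coe_set_eq, Nat.card_coe_set_eq]
  have h1 : {a : ι → ℕ | a ≠ 0 ∧ i * ∑ x, a x ≤ n} = {a : ι → ℕ | ∑ x, a x ≤ n / i} \ {0} := by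
    ext a
    simp only [Set.mem_ofPred_eq, Set.mem_sdiff, Set.mem_singleton_iff]
    rw [Nat.le_div_iff_mul_le hi, mul_comm]
    tauto
  rw [h1]
  apply Set.ncard_sdiff_singleton_of_mem
  simp

/-- the number of classes of elements of prime order `r` in `GL_n(q)`. -/
theorem card_classes [Fintype F] {p q : ℕ} [Fact p.Prime] [CharP F p]
    (hF : Fintype.card F = q) (n r i t : ℕ) (hr : r.Prime) (hrp : r ≠ p)
    (hi : i = orderOf (q : ZMod r)) (ht : t * i = r - 1) :
    Nat.card {C : ConjClasses (GL (Fin n) F) //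
      ∃ g : GL (Fin n) F, ConjClasses.mk g = C ∧ orderOf g = r} =
    Nat.choose (n / i + t) t - 1 := by
  classical
  obtain ⟨S, hcard, hS, hprodS⟩ := exists_factor_set hF r i t hr hrp hi ht
  have hp : p.Prime := Fact.out
  have hrne : (r : F) ≠ 0 := by
    intro h
    rw [CharP.cast_eq_zero_iff F p] at h
    exact hrp ((Nat.prime_dvd_prime_iff_eq hp hr).mp h).symm
  obtain ⟨hnot, hirr, hT, hprod⟩ := T_props r hr hrne S
    (fun f hf => ⟨(hS f hf).1, (hS f hf).2.1, (hS f hf).2.2.2⟩) hprodS
  have : Fact r.Prime := ⟨hr⟩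
  have hipos : 0 < i := by
    have := hr.two_le
    rcases Nat.eq_zero_or_pos i with h | h
    · rw [h, mul_zero] at ht
      omega
    · exact h
  have heval : ∀ f ∈ S, f.eval 1 ≠ 0 := by
    intro f hf h0
    obtain ⟨c, hc⟩ := (hS f hf).2.2.2
    have h2 : (cyclotomic r F).eval 1 = 0 := by
      rw [hc, eval_mul, h0, zero_mul]
    rw [Polynomial.eval_one_cyclotomic_prime] at h2
    exact hrne h2
  have hdeg : ∀ f ∈ S, f.natDegree = i := fun f hf => (hS f hf).2.2.1
  have hne : ∀ f ∈ insert (X - 1 : F[X]) S, f ≠ 0 := fun f hf => (hirr f hf).ne_zero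
  have hpow : ∀ g : GL (Fin n) F, g ^ r = 1 →
      aeval (Matrix.toLin' g.1) (∏ f ∈ insert (X - 1 : F[X]) S, f) = 0 := by
    intro g hg
    rw [hprod]
    exact (pow_eq_one_iff g r).mp hg
  have hconj : ∀ g g' : GL (Fin n) F, g ^ r = 1 → g' ^ r = 1 →
      (∀ f ∈ S, Module.finrank F (LinearMap.ker (aeval (Matrix.toLin' g.1) f)) =
        Module.finrank F (LinearMap.ker (aeval (Matrix.toLin' g'.1) f))) → IsConj g g' := by
    intro g g' hg hg' hdim
    apply isConj_of_finrank _ hirr hT g g' (hpow g hg) (hpow g' hg')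
    intro f hf
    rcases Finset.mem_insert.mp hf with rfl | hf
    · have h1 := finrank_sum S hnot hT g (hpow g hg)
      have h2 := finrank_sum S hnot hT g' (hpow g' hg')
      rw [Finset.sum_congr rfl hdim] at h1
      omega
    · exact hdim f hf
  have hex := fun (a : ↥S → ℕ) (ha : i * ∑ f, a f ≤ n) =>
    exists_elt (n := n) r i hr.pos S hdeg hnot hne hT hprod a ha
  let Ξ : {a : ↥S → ℕ // a ≠ 0 ∧ i * ∑ f, a f ≤ n} →
      {C : ConjClasses (GL (Fin n) F) //
        ∃ g : GL (Fin n) F, ConjClasses.mk g = C ∧ orderOf g = r} :=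
    fun a => ⟨ConjClasses.mk (Classical.choose (hex a.1 a.2.2)),
      Classical.choose (hex a.1 a.2.2), rfl, by
        have hspec := Classical.choose_spec (hex a.1 a.2.2)
        rw [orderOf_eq_prime_iff]
        refine ⟨hspec.1, ?_⟩
        intro h1
        have h2 := (eq_one_iff S hnot heval hT _ (hpow _ hspec.1)).mp h1
        apply a.2.1
        funext f
        have h3 := hspec.2 f
        rw [h2 f.1 f.2] at h3
        rcases Nat.mul_eq_zero.mp h3.symm with h | h
        · omega
        · exact h⟩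
  have hΞ : Function.Bijective Ξ := by
    constructor
    · intro a a' h
      have h1 := congrArg Subtype.val h
      simp only [Ξ] at h1
      rw [ConjClasses.mk_eq_mk_iff_isConj] at h1
      apply Subtype.ext
      funext f
      have hs := (Classical.choose_spec (hex a.1 a.2.2)).2 f
      have hs' := (Classical.choose_spec (hex a'.1 a'.2.2)).2 f
      have h2 := finrank_of_isConj _ _ h1 f.1
      rw [hs, hs'] at h2
      exact Nat.eq_of_mul_eq_mul_left hipos h2
    · rintro ⟨C, g, rfl, hg⟩
      rw [orderOf_eq_prime_iff] at hg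
      obtain ⟨hg1, hg2⟩ := hg
      have hdvd : ∀ f : ↥S,
          i ∣ Module.finrank F (LinearMap.ker (aeval (Matrix.toLin' g.1) f.1)) := by
        intro f
        have := SemiConj.natDegree_dvd_finrank_ker f.1 (hS f.1 f.2).1 (Matrix.toLin' g.1)
        rwa [hdeg f.1 f.2] at this
      let a : ↥S → ℕ :=
        fun f => Module.finrank F (LinearMap.ker (aeval (Matrix.toLin' g.1) f.1)) / i
      have ha : ∀ f : ↥S,
          i * a f = Module.finrank F (LinearMap.ker (aeval (Matrix.toLin' g.1) f.1)) :=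
        fun f => Nat.mul_div_cancel' (hdvd f)
      have ha0 : a ≠ 0 := by
        intro h0
        apply hg2
        rw [eq_one_iff S hnot heval hT g (hpow g hg1)]
        intro f hf
        have := ha ⟨f, hf⟩
        rw [h0] at this
        simpa using this.symm
      have hale : i * ∑ f, a f ≤ n := by
        have h1 := finrank_sum S hnot hT g (hpow g hg1)
        rw [Finset.mul_sum]
        have : ∑ f : ↥S, i * a f =
            ∑ f ∈ S, Module.finrank F (LinearMap.ker (aeval (Matrix.toLin' g.1) f)) := by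
          rw [← Finset.sum_coe_sort S]
          exact Finset.sum_congr rfl (fun f _ => ha f)
        omega
      refine ⟨⟨a, ha0, hale⟩, ?_⟩
      apply Subtype.ext
      simp only [Ξ]
      rw [ConjClasses.mk_eq_mk_iff_isConj]
      have hspec := Classical.choose_spec (hex a hale)
      apply hconj _ _ hspec.1 hg1
      intro f hf
      rw [hspec.2 ⟨f, hf⟩, ha ⟨f, hf⟩]
  rw [← Nat.card_congr (Equiv.ofBijective Ξ hΞ), card_tuples ↥S i n hipos, Fintype.card_coe, hcard]

end Cfsg.Agent.Helper14.GLPrimeOrd
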