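import Mathlib
import Cfsg.Prelude.Def_JordanBlocks
import Cfsg.Agent.Helper14.ParabIdx
set_option autoImplicit false
open scoped MatrixGroups

namespace Cfsg.Agent.Helper14.JordanCent

variable {F : Type*} [Field F] {t : ℕ} (d : Fin t → ℕ)

/-- the nilpotent part of the Jordan type matrix. -/
def Nm (F : Type*) [Field F] {t : ℕ} (d : Fin t → ℕ) :
    Matrix ((k : Fin t) × Fin (d k)) ((k : Fin t) × Fin (d k)) F :=
  Matrix.of fun x y => if x.1 = y.1 ∧ x.2.val = y.2.val + 1 then 1 else 0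

theorem jordan_eq : Cfsg.jordanTypeMatrix d F = 1 + Nm F d := by
  ext ⟨k, i⟩ ⟨l, j⟩
  simp only [Cfsg.jordanTypeMatrix, Matrix.blockDiagonal'_apply, Matrix.add_apply, Nm,
    Matrix.of_apply, Matrix.one_apply]
  by_cases h : k = l
  · subst h
    simp only [dif_pos, true_and, cast_eq, Cfsg.jordanBlock, Matrix.of_apply]
    by_cases h1 : i = j
    · subst h1
      simp
    · have h2 : ¬ (i.val = j.val) := fun h => h1 (Fin.ext h)
      have h3 : ¬ ((⟨k, i⟩ : (k : Fin t) × Fin (d k)) = ⟨k, j⟩) := by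
        intro h
        rw [Sigma.mk.injEq] at h
        exact h1 (eq_of_heq h.2)
      rw [if_neg h2, if_neg h3, zero_add]
  · have h3 : ¬ ((⟨k, i⟩ : (k : Fin t) × Fin (d k)) = ⟨l, j⟩) := by
      intro h'
      rw [Sigma.mk.injEq] at h'
      exact h h'.1
    rw [dif_neg h, if_neg h3, if_neg (fun h' => h h'.1), zero_add]

theorem comm_iff_N (X : Matrix ((k : Fin t) × Fin (d k)) ((k : Fin t) × Fin (d k)) F) :
    X * Cfsg.jordanTypeMatrix d F = Cfsg.jordanTypeMatrix d F * X ↔ X * Nm F d = Nm F d * X := by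
  rw [jordan_eq, mul_add, add_mul, mul_one, one_mul]
  exact add_right_inj X

/-- entries extended by zero. -/
def xf (X : Matrix ((k : Fin t) × Fin (d k)) ((k : Fin t) × Fin (d k)) F)
    (k : Fin t) (i : ℕ) (l : Fin t) (j : ℕ) : F :=
  if h : i < d k ∧ j < d l then X ⟨k, ⟨i, h.1⟩⟩ ⟨l, ⟨j, h.2⟩⟩ else 0

theorem xf_eq (X : Matrix ((k : Fin t) × Fin (d k)) ((k : Fin t) × Fin (d k)) F)
    (x y : (k : Fin t) × Fin (d k)) : X x y = xf d X x.1 x.2.val y.1 y.2.val := by
  obtain ⟨k, i⟩ := x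
  obtain ⟨l, j⟩ := y
  simp only [xf]
  rw [dif_pos ⟨i.isLt, j.isLt⟩]

theorem mul_N (X : Matrix ((k : Fin t) × Fin (d k)) ((k : Fin t) × Fin (d k)) F)
    (x y : (k : Fin t) × Fin (d k)) :
    (X * Nm F d) x y = if y.2.val + 1 < d y.1 then xf d X x.1 x.2.val y.1 (y.2.val + 1) else 0 := by
  rw [Matrix.mul_apply]
  split_ifs with h
  · rw [Finset.sum_eq_single ⟨y.1, ⟨y.2.val + 1, h⟩⟩]
    · simp only [Nm, Matrix.of_apply, and_self, if_true, mul_one]
      exact xf_eq d X x _
    · rintro ⟨l, j⟩ _ hne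
      have : ¬ (l = y.1 ∧ j.val = y.2.val + 1) := by
        rintro ⟨h1, h2⟩
        subst h1
        exact hne (by congr 1; exact Fin.ext h2)
      simp only [Nm, Matrix.of_apply]
      rw [if_neg this, mul_zero]
    · intro h'
      exact absurd (Finset.mem_univ _) h'
  · apply Finset.sum_eq_zero
    rintro ⟨l, j⟩ _
    have : ¬ (l = y.1 ∧ j.val = y.2.val + 1) := by
      rintro ⟨h1, h2⟩
      subst h1
      exact h (by have := j.isLt; omega)
    simp only [Nm, Matrix.of_apply]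
    rw [if_neg this, mul_zero]

theorem N_mul (X : Matrix ((k : Fin t) × Fin (d k)) ((k : Fin t) × Fin (d k)) F)
    (x y : (k : Fin t) × Fin (d k)) :
    (Nm F d * X) x y = if 1 ≤ x.2.val then xf d X x.1 (x.2.val - 1) y.1 y.2.val else 0 := by
  rw [Matrix.mul_apply]
  split_ifs with h
  · rw [Finset.sum_eq_single ⟨x.1, ⟨x.2.val - 1, by have := x.2.isLt; omega⟩⟩]
    · simp only [Nm, Matrix.of_apply]
      rw [if_pos ⟨trivial, by omega⟩, one_mul]
      exact xf_eq d X _ y
    · rintro ⟨l, j⟩ _ hne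
      have : ¬ (x.1 = l ∧ x.2.val = j.val + 1) := by
        rintro ⟨h1, h2⟩
        subst h1
        exact hne (by congr 1; exact Fin.ext (by simp only; omega))
      simp only [Nm, Matrix.of_apply]
      rw [if_neg this, zero_mul]
    · intro h'
      exact absurd (Finset.mem_univ _) h'
  · apply Finset.sum_eq_zero
    rintro ⟨l, j⟩ _
    have : ¬ (x.1 = l ∧ x.2.val = j.val + 1) := by
      rintro ⟨h1, h2⟩
      exact h (by omega)
    simp only [Nm, Matrix.of_apply]
    rw [if_neg this, zero_mul]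

theorem comm_iff_xf (X : Matrix ((k : Fin t) × Fin (d k)) ((k : Fin t) × Fin (d k)) F) :
    X * Nm F d = Nm F d * X ↔ ∀ k l i j, i < d k → j < d l →
      (if j + 1 < d l then xf d X k i l (j + 1) else 0) =
        (if 1 ≤ i then xf d X k (i - 1) l j else 0) := by
  constructor
  · intro h k l i j hi hj
    have := congrFun (congrFun h ⟨k, ⟨i, hi⟩⟩) ⟨l, ⟨j, hj⟩⟩
    rw [mul_N, N_mul] at this
    exact this
  · intro h
    ext ⟨k, i⟩ ⟨l, j⟩
    rw [mul_N, N_mul]
    exact h k l i j i.isLt j.isLt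

theorem nf_of_comm (hd : ∀ k, 1 ≤ d k)
    (X : Matrix ((k : Fin t) × Fin (d k)) ((k : Fin t) × Fin (d k)) F)
    (h : ∀ k l i j, i < d k → j < d l →
      (if j + 1 < d l then xf d X k i l (j + 1) else 0) =
        (if 1 ≤ i then xf d X k (i - 1) l j else 0)) :
    ∀ k l i j, i < d k → j < d l → xf d X k i l j =
      if j ≤ i ∧ d k ≤ (i - j) + d l then xf d X k (i - j) l 0 else 0 := by
  intro k l
  have h1 : ∀ j i, i < d k → j < d l →
      xf d X k i l j = if j ≤ i then xf d X k (i - j) l 0 else 0 := by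
    intro j
    induction j with
    | zero => intro i _ _; simp
    | succ j ih =>
      intro i hi hj
      have e := h k l i j hi (by omega)
      rw [if_pos hj] at e
      rw [e]
      by_cases h1 : 1 ≤ i
      · rw [if_pos h1, ih (i - 1) (by omega) (by omega)]
        by_cases h2 : j ≤ i - 1
        · rw [if_pos h2, if_pos (by omega)]
          congr 1
          omega
        · rw [if_neg h2, if_neg (by omega)]
      · rw [if_neg h1, if_neg (by omega)]
  have h2 : ∀ c, c + d l < d k → xf d X k c l 0 = 0 := by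
    intro c hc
    have hl := hd l
    have e := h k l (c + d l) (d l - 1) (by omega) (by omega)
    rw [if_neg (by omega), if_pos (by omega)] at e
    have e2 := h1 (d l - 1) (c + d l - 1) (by omega) (by omega)
    rw [if_pos (by omega)] at e2
    have e3 : c + d l - 1 - (d l - 1) = c := by omega
    rw [e3] at e2
    rw [← e2]
    exact e.symm
  intro i j hi hj
  rw [h1 j i hi hj]
  by_cases hji : j ≤ i
  · by_cases h3 : d k ≤ (i - j) + d l
    · rw [if_pos hji, if_pos ⟨hji, h3⟩]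
    · rw [if_pos hji, if_neg (fun h => h3 h.2)]
      exact h2 _ (by omega)
  · rw [if_neg hji, if_neg (fun h => hji h.1)]

theorem comm_of_nf
    (X : Matrix ((k : Fin t) × Fin (d k)) ((k : Fin t) × Fin (d k)) F)
    (h : ∀ k l i j, i < d k → j < d l → xf d X k i l j =
      if j ≤ i ∧ d k ≤ (i - j) + d l then xf d X k (i - j) l 0 else 0) :
    ∀ k l i j, i < d k → j < d l →
      (if j + 1 < d l then xf d X k i l (j + 1) else 0) =
        (if 1 ≤ i then xf d X k (i - 1) l j else 0) := by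
  intro k l i j hi hj
  by_cases h1 : j + 1 < d l
  · rw [if_pos h1, h k l i (j + 1) hi h1]
    by_cases h2 : 1 ≤ i
    · rw [if_pos h2, h k l (i - 1) j (by omega) hj]
      by_cases h3 : j + 1 ≤ i ∧ d k ≤ i - (j + 1) + d l
      · rw [if_pos h3, if_pos (by omega)]
        congr 1
        omega
      · rw [if_neg h3, if_neg (by omega)]
    · rw [if_neg h2, if_neg (by omega)]
  · rw [if_neg h1]
    by_cases h2 : 1 ≤ i
    · rw [if_pos h2, h k l (i - 1) j (by omega) hj, if_neg (by omega)]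
    · rw [if_neg h2]

/-- the commuting matrix with given parameters. -/
def mat (a : Fin t → ℕ → Fin t → F) : Matrix ((k : Fin t) × Fin (d k)) ((k : Fin t) × Fin (d k)) F :=
  Matrix.of fun x y => if y.2.val ≤ x.2.val ∧ d x.1 ≤ (x.2.val - y.2.val) + d y.1
    then a x.1 (x.2.val - y.2.val) y.1 else 0

theorem xf_mat (a : Fin t → ℕ → Fin t → F) (k : Fin t) (i : ℕ) (l : Fin t) (j : ℕ)
    (hi : i < d k) (hj : j < d l) :
    xf d (mat d a) k i l j = if j ≤ i ∧ d k ≤ (i - j) + d l then a k (i - j) l else 0 := by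
  unfold xf
  rw [dif_pos ⟨hi, hj⟩]
  rfl

theorem xf_mat0 (hd : ∀ k, 1 ≤ d k) (a : Fin t → ℕ → Fin t → F) (k : Fin t) (c : ℕ) (l : Fin t)
    (hc : c < d k) (h : d k ≤ c + d l) : xf d (mat d a) k c l 0 = a k c l := by
  rw [xf_mat d a k c l 0 hc (hd l), if_pos ⟨Nat.zero_le _, by simpa using h⟩]
  rfl

theorem mat_congr (a a' : Fin t → ℕ → Fin t → F)
    (h : ∀ k c l, c < d k → d k ≤ c + d l → a k c l = a' k c l) : mat d a = mat d a' := by
  ext x y
  simp only [mat, Matrix.of_apply]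
  by_cases hc : y.2.val ≤ x.2.val ∧ d x.1 ≤ (x.2.val - y.2.val) + d y.1
  · rw [if_pos hc, if_pos hc]
    exact h _ _ _ (by have := x.2.isLt; omega) hc.2
  · rw [if_neg hc, if_neg hc]

theorem mat_comm (hd : ∀ k, 1 ≤ d k) (a : Fin t → ℕ → Fin t → F) :
    mat d a * Cfsg.jordanTypeMatrix d F = Cfsg.jordanTypeMatrix d F * mat d a := by
  rw [comm_iff_N, comm_iff_xf]
  apply comm_of_nf
  intro k l i j hi hj
  rw [xf_mat d a k i l j hi hj]
  by_cases hc : j ≤ i ∧ d k ≤ (i - j) + d l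
  · rw [if_pos hc, if_pos hc, xf_mat0 d hd a k (i - j) l (by omega) hc.2]
  · rw [if_neg hc, if_neg hc]

theorem eq_mat_of_comm (hd : ∀ k, 1 ≤ d k)
    (X : Matrix ((k : Fin t) × Fin (d k)) ((k : Fin t) × Fin (d k)) F)
    (h : X * Cfsg.jordanTypeMatrix d F = Cfsg.jordanTypeMatrix d F * X) :
    X = mat d (fun k c l => xf d X k c l 0) := by
  rw [comm_iff_N, comm_iff_xf] at h
  have h2 := nf_of_comm d hd X h
  ext x y
  rw [xf_eq d X x y, h2 x.1 y.1 x.2.val y.2.val x.2.isLt y.2.isLt]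
  rfl

/-- the block label. -/
def lbl (x : (k : Fin t) × Fin (d k)) : ℕᵒᵈ ×ₗ ℕ :=
  toLex (OrderDual.toDual x.2.val, d x.1 - x.2.val)

theorem lbl_eq_iff (x y : (k : Fin t) × Fin (d k)) :
    lbl d x = lbl d y ↔ x.2.val = y.2.val ∧ d x.1 = d y.1 := by
  unfold lbl
  rw [toLex_inj, Prod.mk.injEq, OrderDual.toDual_inj]
  have := x.2.isLt
  have := y.2.isLt
  constructor
  · rintro ⟨h1, h2⟩
    exact ⟨h1, by omega⟩
  · rintro ⟨h1, h2⟩
    exact ⟨h1, by omega⟩

theorem mat_BT (a : Fin t → ℕ → Fin t → F) : (mat d a).BlockTriangular (lbl d) := by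
  intro x y hlt
  simp only [mat, Matrix.of_apply]
  rw [if_neg]
  rintro ⟨h1, h2⟩
  unfold lbl at hlt
  rw [Prod.Lex.toLex_lt_toLex] at hlt
  have := x.2.isLt
  have := y.2.isLt
  rcases hlt with h | ⟨h3, h4⟩
  · have h5 : x.2.val < y.2.val := OrderDual.toDual_lt_toDual.mp h
    omega
  · have h5 : y.2.val = x.2.val := OrderDual.toDual_inj.mp h3
    simp only at h4
    omega

/-- the diagonal blocks. -/
def Am (a : Fin t → ℕ → Fin t → F) (m : ℕ) : Matrix {k // d k = m} {k // d k = m} F :=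
  Matrix.of fun k l => a k.1 0 l.1

theorem det_block (a : Fin t → ℕ → Fin t → F) (x₀ : (k : Fin t) × Fin (d k)) :
    ((mat d a).toSquareBlock (lbl d) (lbl d x₀)).det = (Am d a (d x₀.1)).det := by
  let e : {k // d k = d x₀.1} ≃ {x // lbl d x = lbl d x₀} :=
    { toFun := fun k => ⟨⟨k.1, ⟨x₀.2.val, by rw [k.2]; exact x₀.2.isLt⟩⟩, by
        rw [lbl_eq_iff]; exact ⟨rfl, k.2⟩⟩
      invFun := fun x => ⟨x.1.1, ((lbl_eq_iff d _ _).mp x.2).2⟩
      left_inv := fun k => rfl
      right_inv := fun x => by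
        obtain ⟨⟨k, i⟩, hx⟩ := x
        have hi : i.val = x₀.2.val := ((lbl_eq_iff d _ _).mp hx).1
        apply Subtype.ext
        simp only
        congr 1
        exact Fin.ext hi.symm }
  rw [← Matrix.det_submatrix_equiv_self e]
  congr 1
  ext k l
  change mat d a ⟨k.1, ⟨x₀.2.val, _⟩⟩ ⟨l.1, ⟨x₀.2.val, _⟩⟩ = a k.1 0 l.1
  simp only [mat, Matrix.of_apply]
  rw [if_pos ⟨le_refl _, by rw [k.2, l.2]; omega⟩, Nat.sub_self]

theorem det_ne_zero_iff (hd : ∀ k, 1 ≤ d k) (a : Fin t → ℕ → Fin t → F) :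
    (mat d a).det ≠ 0 ↔ ∀ m, (Am d a m).det ≠ 0 := by
  rw [(mat_BT d a).det, Finset.prod_ne_zero_iff]
  constructor
  · intro h m
    by_cases hm : ∃ k, d k = m
    · obtain ⟨k, rfl⟩ := hm
      have := h (lbl d ⟨k, ⟨0, hd k⟩⟩) (Finset.mem_image_of_mem _ (Finset.mem_univ _))
      rwa [det_block] at this
    · have : IsEmpty {k // d k = m} := ⟨fun k => hm ⟨k.1, k.2⟩⟩
      rw [Matrix.det_isEmpty]
      exact one_ne_zero
  · intro h ℓ hℓ
    obtain ⟨x₀, _, rfl⟩ := Finset.mem_image.mp hℓ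
    rw [det_block]
    exact h _

/-- the off-diagonal parameters. -/
def S1 (d : Fin t → ℕ) : Finset (Σ _ : Fin t × Fin t, ℕ) :=
  Finset.univ.sigma (fun kl => (Finset.range (d kl.1)).filter
    (fun c => d kl.1 ≤ c + d kl.2 ∧ (d kl.1 = d kl.2 → 1 ≤ c)))

theorem mem_S1 (k l : Fin t) (c : ℕ) : (⟨(k, l), c⟩ : Σ _ : Fin t × Fin t, ℕ) ∈ S1 d ↔
    c < d k ∧ d k ≤ c + d l ∧ (d k = d l → 1 ≤ c) := by
  simp [S1]

/-- invertible commuting matrices. -/
abbrev CT (F : Type*) [Field F] {t : ℕ} (d : Fin t → ℕ) : Type _ :=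
  {X : Matrix ((k : Fin t) × Fin (d k)) ((k : Fin t) × Fin (d k)) F //
    X * Cfsg.jordanTypeMatrix d F = Cfsg.jordanTypeMatrix d F * X ∧ X.det ≠ 0}

/-- invertible diagonal blocks. -/
abbrev DgM (F : Type*) [Field F] {t : ℕ} (d : Fin t → ℕ) (m : ℕ) : Type _ :=
  {A : Matrix {k // d k = m} {k // d k = m} F // A.det ≠ 0}

noncomputable def Psi (hd : ∀ k, 1 ≤ d k) (X : CT F d) :
    (∀ m : Fin (Finset.univ.sup d + 1), DgM F d m.val) × (↥(S1 d) → F) :=
  (fun m => ⟨Am d (fun k c l => xf d X.1 k c l 0) m.val, by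
      have h1 := eq_mat_of_comm d hd X.1 X.2.1
      have h2 := X.2.2
      rw [h1, det_ne_zero_iff d hd] at h2
      exact h2 m.val⟩,
   fun s => xf d X.1 s.1.1.1 s.1.2 s.1.1.2 0)

theorem Psi_inj (hd : ∀ k, 1 ≤ d k) : Function.Injective (Psi (F := F) d hd) := by
  intro X Y h
  apply Subtype.ext
  refine (eq_mat_of_comm d hd X.1 X.2.1).trans (Eq.trans ?_ (eq_mat_of_comm d hd Y.1 Y.2.1).symm)
  apply mat_congr
  intro k c l hc hkl
  by_cases hdiag : d k = d l → 1 ≤ c
  · have h2 := congrFun (congrArg Prod.snd h) ⟨⟨(k, l), c⟩, (mem_S1 d k l c).mpr ⟨hc, hkl, hdiag⟩⟩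
    exact h2
  · push Not at hdiag
    obtain ⟨h3, h4⟩ := hdiag
    have hc0 : c = 0 := by omega
    subst hc0
    have hm : d k < Finset.univ.sup d + 1 :=
      Nat.lt_succ_of_le (Finset.le_sup (Finset.mem_univ k))
    have h2 := congrFun (congrArg Prod.fst h) ⟨d k, hm⟩
    have h5 := congrArg Subtype.val h2
    have h6 := congrFun (congrFun h5 ⟨k, rfl⟩) ⟨l, h3.symm⟩
    exact h6

theorem Psi_surj (hd : ∀ k, 1 ≤ d k) : Function.Surjective (Psi (F := F) d hd) := by
  rintro ⟨A, u⟩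
  let a : Fin t → ℕ → Fin t → F := fun k c l =>
    if h : c = 0 ∧ d k = d l then
      (A ⟨d k, Nat.lt_succ_of_le (Finset.le_sup (Finset.mem_univ k))⟩).1 ⟨k, rfl⟩ ⟨l, h.2.symm⟩
    else if h' : (⟨(k, l), c⟩ : Σ _ : Fin t × Fin t, ℕ) ∈ S1 d then u ⟨_, h'⟩ else 0
  have hA : ∀ m : Fin (Finset.univ.sup d + 1), Am d a m.val = (A m).1 := by
    intro m
    ext k l
    obtain ⟨k, hk⟩ := k
    obtain ⟨l, hl⟩ := l
    obtain ⟨m, hm⟩ := m
    simp only at hk hl
    subst hk
    simp only [Am, Matrix.of_apply, a]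
    rw [dif_pos ⟨trivial, hl.symm⟩]
  have hdet : (mat d a).det ≠ 0 := by
    rw [det_ne_zero_iff d hd]
    intro m
    by_cases hm : m < Finset.univ.sup d + 1
    · rw [hA ⟨m, hm⟩]
      exact (A ⟨m, hm⟩).2
    · have : IsEmpty {k // d k = m} := ⟨fun k => hm (by
        rw [← k.2]
        exact Nat.lt_succ_of_le (Finset.le_sup (Finset.mem_univ k.1)))⟩
      rw [Matrix.det_isEmpty]
      exact one_ne_zero
  refine ⟨⟨mat d a, mat_comm d hd a, hdet⟩, ?_⟩
  apply Prod.ext
  · funext m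
    apply Subtype.ext
    rw [← hA m]
    ext k l
    simp only [Psi, Am, Matrix.of_apply]
    exact xf_mat0 d hd a k.1 0 l.1 (hd k.1) (by rw [k.2, l.2]; omega)
  · funext s
    obtain ⟨⟨⟨k, l⟩, c⟩, hs⟩ := s
    have hs' := (mem_S1 d k l c).mp hs
    simp only [Psi]
    rw [xf_mat0 d hd a k c l hs'.1 hs'.2.1]
    simp only [a]
    rw [dif_neg (by rintro ⟨h1, h2⟩; have := hs'.2.2 h2; omega), dif_pos hs]

variable [Fintype F]

theorem card_CT (hd : ∀ k, 1 ≤ d k) : Nat.card (CT F d) =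
    (∏ m : Fin (Finset.univ.sup d + 1), Nat.card (GL {k // d k = m.val} F)) *
      Fintype.card F ^ (S1 d).card := by
  rw [Nat.card_congr (Equiv.ofBijective (Psi (F := F) d hd) ⟨Psi_inj d hd, Psi_surj d hd⟩),
    Nat.card_prod, Nat.card_pi, Nat.card_fun, Nat.card_eq_fintype_card (α := F)]
  congr 1
  · apply Finset.prod_congr rfl
    intro m _
    exact (Nat.card_congr (ParabIdx.glEquiv (F := F) {k // d k = m.val})).symm
  · congr 1
    rw [Nat.card_eq_fintype_card, Fintype.card_coe]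

/-- the number of parameters for a pair of blocks. -/
def gfun (i j : ℕ) : ℕ := if i < j then i else if j < i then j else i - 1

theorem card_filter_g (dk dl : ℕ) (h1 : 1 ≤ dk) (h2 : 1 ≤ dl) :
    ((Finset.range dk).filter (fun c => dk ≤ c + dl ∧ (dk = dl → 1 ≤ c))).card = gfun dk dl := by
  have : (Finset.range dk).filter (fun c => dk ≤ c + dl ∧ (dk = dl → 1 ≤ c)) =
      Finset.Ico (if dk = dl then 1 else dk - dl) dk := by
    ext c
    simp only [Finset.mem_filter, Finset.mem_range, Finset.mem_Ico]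
    split_ifs with h <;> omega
  rw [this, Nat.card_Ico]
  unfold gfun
  split_ifs <;> omega

theorem card_S1 (hd : ∀ k, 1 ≤ d k) :
    (S1 d).card = ∑ kl : Fin t × Fin t, gfun (d kl.1) (d kl.2) := by
  rw [S1, Finset.card_sigma]
  apply Finset.sum_congr rfl
  intro kl _
  exact card_filter_g _ _ (hd _) (hd _)

/-- the multiplicities. -/
def cnt (d : Fin t → ℕ) (i : ℕ) : ℕ := (Finset.univ.filter (fun k : Fin t => d k = i)).card

theorem sum_comp_d (g : ℕ → ℕ) :
    ∑ k : Fin t, g (d k) = ∑ i ∈ Finset.range (Finset.univ.sup d + 1), cnt d i * g i := by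
  rw [← Finset.sum_fiberwise_of_maps_to (s := Finset.univ)
    (t := Finset.range (Finset.univ.sup d + 1)) (g := d)
    (fun k _ => Finset.mem_range.mpr (Nat.lt_succ_of_le (Finset.le_sup (Finset.mem_univ k))))]
  apply Finset.sum_congr rfl
  intro i _
  rw [Finset.sum_congr rfl (fun k hk => by rw [(Finset.mem_filter.mp hk).2] :
    ∀ k ∈ Finset.univ.filter (fun k => d k = i), g (d k) = g i), Finset.sum_const, smul_eq_mul]
  rfl

theorem sum_pairs (f : ℕ → ℕ → ℕ) : ∑ kl : Fin t × Fin t, f (d kl.1) (d kl.2) =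
    ∑ i ∈ Finset.range (Finset.univ.sup d + 1), ∑ j ∈ Finset.range (Finset.univ.sup d + 1),
      cnt d i * cnt d j * f i j := by
  rw [Fintype.sum_prod_type]
  refine (sum_comp_d d (fun i => ∑ l, f i (d l))).trans ?_
  apply Finset.sum_congr rfl
  intro i _
  rw [sum_comp_d d (fun j => f i j), Finset.mul_sum]
  apply Finset.sum_congr rfl
  intro j _
  ring

theorem gamma_id (c : ℕ → ℕ) (n : ℕ) :
    ∑ i ∈ Finset.range n, ∑ j ∈ Finset.range n, c i * c j * gfun i j =
      2 * (∑ i ∈ Finset.range n, ∑ j ∈ Finset.range n, if i < j then i * c i * c j else 0) +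
        ∑ i ∈ Finset.range n, (i - 1) * c i ^ 2 := by
  have key : ∀ i j, c i * c j * gfun i j = (if i < j then i * c i * c j else 0) +
      (if j < i then j * c j * c i else 0) + (if i = j then (i - 1) * c i ^ 2 else 0) := by
    intro i j
    unfold gfun
    rcases lt_trichotomy i j with h | h | h
    · rw [if_pos h, if_pos h, if_neg (by omega), if_neg (by omega)]
      ring
    · subst h
      simp
      ring
    · rw [if_neg (by omega), if_pos h, if_neg (by omega), if_pos h, if_neg (by omega)]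
      ring
  simp only [key, Finset.sum_add_distrib]
  rw [Finset.sum_comm (f := fun i j => if j < i then j * c j * c i else 0)]
  have : ∑ i ∈ Finset.range n, ∑ j ∈ Finset.range n, (if i = j then (i - 1) * c i ^ 2 else 0) =
      ∑ i ∈ Finset.range n, (i - 1) * c i ^ 2 := by
    apply Finset.sum_congr rfl
    intro i hi
    rw [Finset.sum_ite_eq, if_pos hi]
  rw [this]
  ring

theorem prod_fin_congr (q n n' : ℕ) (h : n = n') :
    ∏ j : Fin n, (q ^ n - q ^ (j : ℕ)) = ∏ j : Fin n', (q ^ n' - q ^ (j : ℕ)) := by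
  subst h
  rfl

theorem card_GL_block (m : ℕ) : Nat.card (GL {k // d k = m} F) =
    ∏ j : Fin (cnt d m), (Fintype.card F ^ cnt d m - Fintype.card F ^ (j : ℕ)) := by
  rw [ParabIdx.card_GL_general]
  exact prod_fin_congr _ _ _ (Fintype.card_subtype _)

/-- commuting invertible matrices as a subtype of matrices. -/
noncomputable def toCT : {g : GL ((k : Fin t) × Fin (d k)) F //
    (g : Matrix ((k : Fin t) × Fin (d k)) ((k : Fin t) × Fin (d k)) F) * Cfsg.jordanTypeMatrix d F =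
      Cfsg.jordanTypeMatrix d F * (g : Matrix ((k : Fin t) × Fin (d k)) ((k : Fin t) × Fin (d k)) F)} ≃
    CT F d where
  toFun g := ⟨g.1.1, g.2, by
    have := (Matrix.isUnit_iff_isUnit_det _).mp g.1.isUnit
    exact this.ne_zero⟩
  invFun X := ⟨Matrix.GeneralLinearGroup.mkOfDetNeZero X.1 X.2.2, X.2.1⟩
  left_inv g := by
    apply Subtype.ext
    apply Units.ext
    rfl
  right_inv X := by
    apply Subtype.ext
    rfl

theorem card_cent (hd : ∀ k, 1 ≤ d k) :
    Nat.card {g : GL ((k : Fin t) × Fin (d k)) F //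
      (g : Matrix ((k : Fin t) × Fin (d k)) ((k : Fin t) × Fin (d k)) F) *
        Cfsg.jordanTypeMatrix d F = Cfsg.jordanTypeMatrix d F *
          (g : Matrix ((k : Fin t) × Fin (d k)) ((k : Fin t) × Fin (d k)) F)} =
    Fintype.card F ^ (2 * (∑ i ∈ Finset.range (Finset.univ.sup d + 1),
        ∑ j ∈ Finset.range (Finset.univ.sup d + 1), if i < j then i * cnt d i * cnt d j else 0) +
        ∑ i ∈ Finset.range (Finset.univ.sup d + 1), (i - 1) * cnt d i ^ 2) *
      ∏ i ∈ Finset.range (Finset.univ.sup d + 1), ∏ j : Fin (cnt d i),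
        (Fintype.card F ^ cnt d i - Fintype.card F ^ (j : ℕ)) := by
  rw [Nat.card_congr (toCT d), card_CT d hd, card_S1 d hd, sum_pairs d gfun, gamma_id, mul_comm]
  congr 1
  rw [← Fin.prod_univ_eq_prod_range (fun i => ∏ j : Fin (cnt d i),
    (Fintype.card F ^ cnt d i - Fintype.card F ^ (j : ℕ)))]
  apply Finset.prod_congr rfl
  intro m _
  exact card_GL_block d m

end Cfsg.Agent.Helper14.JordanCent
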