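import Mathlib

set_option autoImplicit false
set_option linter.unusedSectionVars false
set_option linter.style.haveILetI false

/-!
# The number of nilpotent endomorphisms of a finite vector space (Fine–Herstein)

`card_nilpotent`: an `n`-dimensional space over a field with `q` elements has exactly
`q ^ (n * (n - 1))` nilpotent endomorphisms.

The proof counts, for a linearly independent chain `e 0, …, e (j-1)`, the nilpotent `T` with
`T (e i) = e (i+1)` (`card_chain`: there are `q ^ (n * (n - j))` of them), by downward induction
on `j`, splitting according to the value of `T (e (j-1))`.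
-/

namespace Cfsg.Agent.Helper14.NilCount

open Module

variable {F : Type*} [Field F] {V : Type*} [AddCommGroup V] [Module F V]

section Block

variable {W C : Submodule F V} (h : IsCompl W C) (S : Module.End F W)

/-- The block triangular endomorphism with diagonal blocks `S`, `B` and corner `A`. -/
noncomputable def blk (A : C →ₗ[F] W) (B : Module.End F C) : Module.End F V :=
  W.subtype ∘ₗ S ∘ₗ W.projectionOnto C h + W.subtype ∘ₗ A ∘ₗ C.projectionOnto W h.symm
    + C.subtype ∘ₗ B ∘ₗ C.projectionOnto W h.symm

theorem blk_apply (A : C →ₗ[F] W) (B : Module.End F C) (v : V) :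
    blk h S A B v = (S (W.projectionOnto C h v) : V) + (A (C.projectionOnto W h.symm v) : V)
      + (B (C.projectionOnto W h.symm v) : V) := rfl

theorem blk_W (A : C →ₗ[F] W) (B : Module.End F C) (w : W) :
    blk h S A B (w : V) = (S w : V) := by
  rw [blk_apply, Submodule.projectionOnto_apply_left, Submodule.projectionOnto_apply_right]
  simp

theorem blk_C (A : C →ₗ[F] W) (B : Module.End F C) (c : C) :
    blk h S A B (c : V) = (A c : V) + (B c : V) := by
  rw [blk_apply, Submodule.projectionOnto_apply_left, Submodule.projectionOnto_apply_right]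
  simp

theorem projC_blk (A : C →ₗ[F] W) (B : Module.End F C) (v : V) :
    C.projectionOnto W h.symm (blk h S A B v) = B (C.projectionOnto W h.symm v) := by
  rw [blk_apply, map_add, map_add, Submodule.projectionOnto_apply_right,
    Submodule.projectionOnto_apply_right, Submodule.projectionOnto_apply_left]
  simp

theorem projW_blk_C (A : C →ₗ[F] W) (B : Module.End F C) (c : C) :
    W.projectionOnto C h (blk h S A B (c : V)) = A c := by
  rw [blk_C, map_add, Submodule.projectionOnto_apply_right,
    Submodule.projectionOnto_apply_left]
  simp

theorem proj_add (v : V) :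
    (W.projectionOnto C h v : V) + (C.projectionOnto W h.symm v : V) = v :=
  Submodule.projection_add_projection_eq_self h v

theorem eq_blk (T : Module.End F V) (hT : ∀ w : W, T w = (S w : V)) :
    T = blk h S ((W.projectionOnto C h) ∘ₗ T ∘ₗ C.subtype)
      ((C.projectionOnto W h.symm) ∘ₗ T ∘ₗ C.subtype) := by
  apply LinearMap.ext
  intro v
  rw [blk_apply]
  simp only [LinearMap.comp_apply, Submodule.subtype_apply]
  rw [add_assoc, proj_add h (T _), ← hT, ← map_add, proj_add h v]

theorem projC_pow (A : C →ₗ[F] W) (B : Module.End F C) (k : ℕ) (v : V) :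
    C.projectionOnto W h.symm ((blk h S A B ^ k) v) = (B ^ k) (C.projectionOnto W h.symm v) := by
  induction k generalizing v with
  | zero => simp
  | succ k ih => rw [pow_succ', Module.End.mul_apply, projC_blk, ih, pow_succ', Module.End.mul_apply]

theorem blk_pow_W (A : C →ₗ[F] W) (B : Module.End F C) (k : ℕ) (w : W) :
    (blk h S A B ^ k) (w : V) = ((S ^ k) w : V) := by
  induction k generalizing w with
  | zero => simp
  | succ k ih => rw [pow_succ, Module.End.mul_apply, blk_W, ih, pow_succ, Module.End.mul_apply]

theorem blk_nilp_iff (hS : IsNilpotent S) (A : C →ₗ[F] W) (B : Module.End F C) :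
    IsNilpotent (blk h S A B) ↔ IsNilpotent B := by
  constructor
  · rintro ⟨m, hm⟩
    refine ⟨m, ?_⟩
    apply LinearMap.ext
    intro c
    have h1 := projC_pow h S A B m (c : V)
    rw [hm, Submodule.projectionOnto_apply_left] at h1
    simpa using h1.symm
  · rintro ⟨m, hm⟩
    obtain ⟨k, hk⟩ := hS
    refine ⟨k + m, ?_⟩
    apply LinearMap.ext
    intro v
    rw [pow_add, Module.End.mul_apply]
    have h1 := projC_pow h S A B m v
    rw [hm] at h1
    have h2 := proj_add h ((blk h S A B ^ m) v)
    rw [h1] at h2
    simp only [LinearMap.zero_apply, ZeroMemClass.coe_zero, add_zero] at h2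
    rw [← h2, blk_pow_W, hk]
    simp

/-- The nilpotent endomorphisms extending a nilpotent `S` on `W` correspond to pairs (corner,
nilpotent endomorphism of a complement). -/
noncomputable def blkEquiv (hS : IsNilpotent S) :
    {T : Module.End F V // IsNilpotent T ∧ ∀ w : W, T w = (S w : V)} ≃
      (C →ₗ[F] W) × {B : Module.End F C // IsNilpotent B} where
  toFun T := ((W.projectionOnto C h) ∘ₗ T.1 ∘ₗ C.subtype,
    ⟨(C.projectionOnto W h.symm) ∘ₗ T.1 ∘ₗ C.subtype, by
      have h1 := eq_blk h S T.1 T.2.2
      have h2 := T.2.1
      rw [h1] at h2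
      exact (blk_nilp_iff h S hS _ _).mp h2⟩)
  invFun p := ⟨blk h S p.1 p.2.1, (blk_nilp_iff h S hS _ _).mpr p.2.2, blk_W h S p.1 p.2.1⟩
  left_inv T := by
    apply Subtype.ext
    exact (eq_blk h S T.1 T.2.2).symm
  right_inv p := by
    apply Prod.ext
    · apply LinearMap.ext
      intro c
      simp only [LinearMap.comp_apply, Submodule.subtype_apply]
      exact projW_blk_C h S p.1 p.2.1 c
    · apply Subtype.ext
      apply LinearMap.ext
      intro c
      simp only [LinearMap.comp_apply, Submodule.subtype_apply]
      rw [projC_blk, Submodule.projectionOnto_apply_left]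

include h in
theorem card_block [Finite V] (hS : IsNilpotent S) :
    Nat.card {T : Module.End F V // IsNilpotent T ∧ ∀ w : W, T w = (S w : V)} =
      Nat.card (C →ₗ[F] W) * Nat.card {B : Module.End F C // IsNilpotent B} := by
  rw [Nat.card_congr (blkEquiv h S hS), Nat.card_prod]

end Block

section Chain

/-- `T` maps `e i` to `e (i+1)` along the first `j` terms. -/
def chain (T : Module.End F V) (e : ℕ → V) (j : ℕ) : Prop :=
  ∀ i, i + 1 < j → T (e i) = e (i + 1)

/-- The span of the chain. -/
abbrev spn (F : Type*) [Field F] {V : Type*} [AddCommGroup V] [Module F V] (e : ℕ → V) (j : ℕ) :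
    Submodule F V := Submodule.span F (Set.range (fun i : Fin j => e i))

variable (e : ℕ → V) (j : ℕ) (he : LinearIndependent F (fun i : Fin j => e i))

/-- The chain as a basis of its span. -/
noncomputable def bas : Basis (Fin j) F (spn F e j) := Basis.span he

theorem bas_apply (i : Fin j) : ((bas e j he i : spn F e j) : V) = e i :=
  congrArg Subtype.val (Basis.span_apply he i)

/-- The shift along the chain. -/
noncomputable def shift : Module.End F (spn F e j) :=
  (bas e j he).constr F (fun i => if h : i.1 + 1 < j then bas e j he ⟨i.1 + 1, h⟩ else 0)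

theorem shift_bas (i : Fin j) : shift e j he (bas e j he i) =
    if h : i.1 + 1 < j then bas e j he ⟨i.1 + 1, h⟩ else 0 :=
  Basis.constr_basis _ _ _ _

theorem shift_pow (k : ℕ) (i : Fin j) : (shift e j he ^ k) (bas e j he i) =
    if h : i.1 + k < j then bas e j he ⟨i.1 + k, h⟩ else 0 := by
  induction k with
  | zero => simp
  | succ k ih =>
    rw [pow_succ', Module.End.mul_apply, ih]
    by_cases h : i.1 + k < j
    · rw [dif_pos h, shift_bas]
      rfl
    · rw [dif_neg h, map_zero, dif_neg (by omega)]

theorem shift_nilp : IsNilpotent (shift e j he) := by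
  refine ⟨j, ?_⟩
  apply (bas e j he).ext
  intro i
  rw [shift_pow, dif_neg (by omega)]
  simp

theorem chain_zero_iff (hj : 1 ≤ j) (T : Module.End F V) :
    (chain T e j ∧ T (e (j - 1)) = 0) ↔ ∀ w : spn F e j, T w = (shift e j he w : V) := by
  constructor
  · rintro ⟨hc, h0⟩
    have h1 : T ∘ₗ (spn F e j).subtype = (spn F e j).subtype ∘ₗ shift e j he := by
      apply (bas e j he).ext
      intro i
      simp only [LinearMap.comp_apply, Submodule.subtype_apply]
      rw [bas_apply, shift_bas]
      by_cases h : i.1 + 1 < j
      · rw [dif_pos h, bas_apply]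
        exact hc i.1 h
      · rw [dif_neg h]
        have h2 : i.1 = j - 1 := by have := i.2; omega
        rw [h2, h0]
        simp
    intro w
    exact LinearMap.congr_fun h1 w
  · intro hw
    constructor
    · intro i hi
      have h1 := hw (bas e j he ⟨i, by omega⟩)
      rw [bas_apply, shift_bas, dif_pos hi, bas_apply] at h1
      exact h1
    · have h1 := hw (bas e j he ⟨j - 1, by omega⟩)
      rw [bas_apply, shift_bas, dif_neg (by simp; omega)] at h1
      simpa using h1

theorem chain_pow (T : Module.End F V) (hc : chain T e j) (i : ℕ) (hi : i < j) :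
    (T ^ i) (e 0) = e i := by
  induction i with
  | zero => simp
  | succ i ih => rw [pow_succ', Module.End.mul_apply, ih (by omega), hc i hi]

include he in
theorem chain_last_eq_zero [FiniteDimensional F V] (hj : 1 ≤ j) (T : Module.End F V)
    (hT : IsNilpotent T) (hc : chain T e j) (hw : T (e (j - 1)) ∈ spn F e j) :
    T (e (j - 1)) = 0 := by
  have hW : ∀ x ∈ spn F e j, T x ∈ spn F e j := by
    have h1 : (spn F e j).map T ≤ spn F e j := by
      rw [Submodule.map_span_le]
      rintro _ ⟨i, rfl⟩
      by_cases h : i.1 + 1 < j
      · show T (e i.1) ∈ _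
        rw [hc i.1 h]
        exact Submodule.subset_span ⟨⟨i.1 + 1, h⟩, rfl⟩
      · have h2 : i.1 = j - 1 := by have := i.2; omega
        show T (e i.1) ∈ _
        rw [h2]
        exact hw
    intro x hx
    exact h1 (Submodule.mem_map_of_mem hx)
  have hnil : IsNilpotent (T.restrict hW) := by
    obtain ⟨m, hm⟩ := hT
    refine ⟨m, ?_⟩
    rw [Module.End.pow_restrict m]
    ext x
    simp [hm]
  have hfr : finrank F (spn F e j) = j := by
    rw [finrank_span_eq_card he, Fintype.card_fin]
  have hpow : (T.restrict hW) ^ j = 0 := by
    have h1 := LinearMap.aeval_self_charpoly (T.restrict hW)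
    rw [hnil.charpoly_eq_X_pow_finrank, hfr] at h1
    simpa using h1
  have he0 : e 0 ∈ spn F e j := Submodule.subset_span ⟨⟨0, by omega⟩, rfl⟩
  have h2 : (T ^ j) (e 0) = 0 := by
    have h3 : (((T.restrict hW) ^ j) ⟨e 0, he0⟩ : V) = 0 := by rw [hpow]; rfl
    rw [Module.End.pow_restrict j] at h3
    simpa using h3
  have h4 : T (e (j - 1)) = (T ^ j) (e 0) := by
    obtain ⟨j', rfl⟩ : ∃ j', j = j' + 1 := ⟨j - 1, by omega⟩
    rw [pow_succ', Module.End.mul_apply, chain_pow e (j' + 1) T hc j' (by omega)]
    simp
  rw [h4, h2]

theorem chain_update (hj : 1 ≤ j) (T : Module.End F V) (w : V) :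
    chain T (Function.update e j w) (j + 1) ↔ chain T e j ∧ T (e (j - 1)) = w := by
  constructor
  · intro hc
    constructor
    · intro i hi
      have h1 := hc i (by omega)
      rw [Function.update_of_ne (by omega), Function.update_of_ne (by omega)] at h1
      exact h1
    · have h1 := hc (j - 1) (by omega)
      rw [Function.update_of_ne (by omega), show j - 1 + 1 = j by omega,
        Function.update_self] at h1
      exact h1
  · rintro ⟨hc, hw⟩ i hi
    by_cases h : i + 1 < j
    · rw [Function.update_of_ne (by omega), Function.update_of_ne (by omega)]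
      exact hc i h
    · have h1 : i = j - 1 := by omega
      subst h1
      rw [Function.update_of_ne (by omega), show j - 1 + 1 = j by omega, Function.update_self]
      exact hw

include he in
theorem li_update (w : V) (hw : w ∉ spn F e j) :
    LinearIndependent F (fun i : Fin (j + 1) => Function.update e j w i) := by
  have h1 : (fun i : Fin (j + 1) => Function.update e j w i) =
      Fin.snoc (fun i : Fin j => e i) w := by
    funext i
    refine Fin.lastCases ?_ (fun i => ?_) i
    · simp
    · simp [Function.update_of_ne (Nat.ne_of_lt i.2)]
  rw [h1, linearIndependent_finSnoc]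
  exact ⟨he, hw⟩

include he in
theorem card_step [Fintype F] [FiniteDimensional F V] (hj : 1 ≤ j) (hjn : j ≤ finrank F V)
    (IH : ∀ (C : Submodule F V), finrank F C < finrank F V →
      Nat.card {B : Module.End F C // IsNilpotent B} =
        Fintype.card F ^ (finrank F C * (finrank F C - 1)))
    (b : ℕ) (hb : ∀ w : V, w ∉ spn F e j →
      Nat.card {T : Module.End F V // IsNilpotent T ∧ chain T (Function.update e j w) (j + 1)}
        = b) :
    Nat.card {T : Module.End F V // IsNilpotent T ∧ chain T e j} =
      Fintype.card F ^ ((finrank F V - j) * j + (finrank F V - j) * (finrank F V - j - 1)) +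
        (Fintype.card F ^ finrank F V - Fintype.card F ^ j) * b := by
  classical
  haveI : Finite V := Module.finite_of_finite F
  haveI : Fintype V := Fintype.ofFinite V
  haveI : Finite (Module.End F V) :=
    Finite.of_injective (fun T : Module.End F V => (T : V → V)) DFunLike.coe_injective
  rw [← Nat.card_congr (Equiv.sigmaFiberEquiv
    (fun T : {T : Module.End F V // IsNilpotent T ∧ chain T e j} => T.1 (e (j - 1)))),
    Nat.card_sigma]
  have hfib : ∀ w : V, Nat.card {x : {T : Module.End F V // IsNilpotent T ∧ chain T e j} //
      x.1 (e (j - 1)) = w} =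
      (if w = 0 then Fintype.card F ^
        ((finrank F V - j) * j + (finrank F V - j) * (finrank F V - j - 1)) else 0) +
        (if w ∈ spn F e j then 0 else b) := by
    intro w
    by_cases hw : w ∈ spn F e j
    · rw [if_pos hw, add_zero]
      by_cases hw0 : w = 0
      · subst hw0
        rw [if_pos rfl]
        obtain ⟨C, hC⟩ := Submodule.exists_isCompl (spn F e j)
        have e1 : {x : {T : Module.End F V // IsNilpotent T ∧ chain T e j} //
            x.1 (e (j - 1)) = 0} ≃
            {T : Module.End F V // IsNilpotent T ∧ ∀ w : spn F e j, T w = (shift e j he w : V)} :=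
          (Equiv.subtypeSubtypeEquivSubtypeInter
            (fun T : Module.End F V => IsNilpotent T ∧ chain T e j)
            (fun T => T (e (j - 1)) = 0)).trans (Equiv.subtypeEquivRight (fun T => by
            rw [← chain_zero_iff e j he hj T]
            exact and_assoc))
        rw [Nat.card_congr e1, card_block hC (shift e j he) (shift_nilp e j he)]
        have hfW : finrank F (spn F e j) = j := by rw [finrank_span_eq_card he, Fintype.card_fin]
        have hfC : finrank F C = finrank F V - j := by
          have := Submodule.finrank_add_eq_of_isCompl hC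
          omega
        rw [IH C (by omega), Module.natCard_eq_pow_finrank (K := F), Module.finrank_linearMap,
          hfW, hfC, Nat.card_eq_fintype_card, ← pow_add]
      · rw [if_neg hw0, Nat.card_eq_zero]
        left
        constructor
        rintro ⟨⟨T, hT, hc⟩, hfw⟩
        have hfw' : T (e (j - 1)) = w := hfw
        apply hw0
        rw [← hfw']
        exact chain_last_eq_zero e j he hj T hT hc (by rw [hfw']; exact hw)
    · rw [if_neg hw, if_neg (by rintro rfl; exact hw (Submodule.zero_mem _)), zero_add,
        ← hb w hw]
      apply Nat.card_congr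
      exact (Equiv.subtypeSubtypeEquivSubtypeInter
        (fun T : Module.End F V => IsNilpotent T ∧ chain T e j)
        (fun T => T (e (j - 1)) = w)).trans (Equiv.subtypeEquivRight (fun T => by
        rw [chain_update e j hj T w]
        exact and_assoc))
  rw [Finset.sum_congr rfl (fun w _ => hfib w), Finset.sum_add_distrib, Finset.sum_ite_eq',
    if_pos (Finset.mem_univ _), Finset.sum_ite, Finset.sum_const_zero, zero_add,
    Finset.sum_const, smul_eq_mul]
  congr 2
  have h1 := Finset.card_filter_add_card_filter_not (s := (Finset.univ : Finset V))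
    (fun w => w ∈ spn F e j)
  have h2 : (Finset.univ.filter (fun w : V => w ∈ spn F e j)).card = Fintype.card F ^ j := by
    rw [← Fintype.card_subtype]
    have h4 := Module.card_eq_pow_finrank (K := F) (V := spn F e j)
    rw [finrank_span_eq_card he, Fintype.card_fin] at h4
    exact h4
  have h3 : (Finset.univ : Finset V).card = Fintype.card F ^ finrank F V := by
    rw [Finset.card_univ, Module.card_eq_pow_finrank (K := F)]
  omega

/-- The number of nilpotent endomorphisms extending a chain of length `j` in an `n`-dimensional
space is `q ^ (n * (n - j))`. -/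
theorem card_chain [Fintype F] [FiniteDimensional F V]
    (IH : ∀ (C : Submodule F V), finrank F C < finrank F V →
      Nat.card {B : Module.End F C // IsNilpotent B} =
        Fintype.card F ^ (finrank F C * (finrank F C - 1))) :
    ∀ (d j : ℕ) (e : ℕ → V), 1 ≤ j → j + d = finrank F V →
      LinearIndependent F (fun i : Fin j => e i) →
      Nat.card {T : Module.End F V // IsNilpotent T ∧ chain T e j} =
        Fintype.card F ^ (finrank F V * d) := by
  intro d
  induction d with
  | zero =>
    intro j e hj hjd he
    have htop : spn F e j = ⊤ := by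
      apply Submodule.eq_top_of_finrank_eq
      rw [finrank_span_eq_card he, Fintype.card_fin]
      omega
    rw [card_step e j he hj (by omega) IH 0
      (fun w hw => absurd (htop ▸ Submodule.mem_top) hw)]
    have h1 : finrank F V - j = 0 := by omega
    simp [h1]
  | succ d ih =>
    intro j e hj hjd he
    rw [card_step e j he hj (by omega) IH (Fintype.card F ^ (finrank F V * d))
      (fun w hw => ih (j + 1) (Function.update e j w) (by omega) (by omega)
        (li_update e j he w hw))]
    have h1 : finrank F V - j = d + 1 := by omega
    rw [h1]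
    have hn : finrank F V = j + (d + 1) := by omega
    have e1 : (d + 1) * j + (d + 1) * (d + 1 - 1) = j + finrank F V * d := by
      rw [hn]
      simp only [Nat.add_sub_cancel]
      ring
    have e2 : Fintype.card F ^ j * Fintype.card F ^ (finrank F V * d) ≤
        Fintype.card F ^ finrank F V * Fintype.card F ^ (finrank F V * d) := by
      apply Nat.mul_le_mul_right
      exact Nat.pow_le_pow_right Fintype.card_pos (by omega)
    rw [e1, Nat.sub_mul, pow_add, Nat.add_sub_cancel' e2, ← pow_add]
    congr 1
    ring

end Chain

universe v

/-- **Fine–Herstein**: an `n`-dimensional vector space over a field with `q` elements has exactly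
`q ^ (n * (n - 1))` nilpotent endomorphisms. -/
theorem card_nilpotent {F : Type*} [Field F] [Fintype F] :
    ∀ (n : ℕ) (V : Type v) [AddCommGroup V] [Module F V] [FiniteDimensional F V],
      finrank F V = n →
      Nat.card {T : Module.End F V // IsNilpotent T} = Fintype.card F ^ (n * (n - 1)) := by
  intro n
  induction n using Nat.strong_induction_on with
  | _ n IHn =>
    intro V _ _ _ hV
    rcases Nat.eq_zero_or_pos n with h0 | hpos
    · subst h0
      haveI : Subsingleton V := Module.finrank_zero_iff.mp hV
      haveI : Subsingleton (Module.End F V) :=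
        ⟨fun a b => LinearMap.ext fun v => Subsingleton.elim _ _⟩
      haveI : Unique {T : Module.End F V // IsNilpotent T} :=
        ⟨⟨⟨0, IsNilpotent.zero⟩⟩, fun a => Subtype.ext (Subsingleton.elim _ _)⟩
      simp
    · obtain ⟨v, hv⟩ := Module.finrank_pos_iff_exists_ne_zero.mp (hV ▸ hpos)
      have IH : ∀ (C : Submodule F V), finrank F C < finrank F V →
          Nat.card {B : Module.End F C // IsNilpotent B} =
            Fintype.card F ^ (finrank F C * (finrank F C - 1)) := by
        intro C hC
        exact IHn (finrank F C) (hV ▸ hC) C rfl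
      have key := card_chain IH (n - 1) 1 (fun _ => v) le_rfl (by omega)
        (LinearIndependent.of_subsingleton (0 : Fin 1) hv)
      rw [hV] at key
      rw [← key]
      apply Nat.card_congr
      exact Equiv.subtypeEquivRight
        (fun T => ⟨fun h => ⟨h, fun i hi => by omega⟩, fun h => h.1⟩)

end Cfsg.Agent.Helper14.NilCount
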