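import Mathlib
import Cfsg.Agent.Helper14.SpInv2
import Cfsg.Agent.Helper14.OInv
import Cfsg.Agent.Helper6.SpCard

set_option autoImplicit false

namespace Cfsg.Agent.Helper14.SpCent

open Matrix

variable {F : Type*} [Field F]

theorem neg_eq_self [CharP F 2] {a b : Type*} (M : Matrix a b F) : -M = M := by
  ext i j; exact CharTwo.neg_eq _

theorem add_self_zero [CharP F 2] {a b : Type*} (M : Matrix a b F) : M + M = 0 := by
  ext i j; exact CharTwo.add_self_eq_zero _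

theorem add_eq_zero_iff' [CharP F 2] {a b : Type*} (M N : Matrix a b F) : M + N = 0 ↔ M = N := by
  rw [add_eq_zero_iff_eq_neg, neg_eq_self]

theorem fromBlocks_eq_zero {a b c d : Type*} (A : Matrix a c F) (B : Matrix a d F)
    (C : Matrix b c F) (E : Matrix b d F) :
    Matrix.fromBlocks A B C E = 0 ↔ A = 0 ∧ B = 0 ∧ C = 0 ∧ E = 0 := by
  rw [← Matrix.fromBlocks_zero, Matrix.fromBlocks_inj]

theorem fromBlocks_eq_one {a b : Type*} [DecidableEq a] [DecidableEq b] (A : Matrix a a F)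
    (B : Matrix a b F) (C : Matrix b a F) (E : Matrix b b F) :
    Matrix.fromBlocks A B C E = 1 ↔ A = 1 ∧ B = 0 ∧ C = 0 ∧ E = 1 := by
  rw [← Matrix.fromBlocks_one, Matrix.fromBlocks_inj]

theorem mul_eq_zero_left {a b : Type*} [Fintype a] [DecidableEq a] (D : Matrix a a F)
    (hD : IsUnit D.det) (X : Matrix a b F) : D * X = 0 ↔ X = 0 := by
  constructor
  · intro h
    have : X = D⁻¹ * (D * X) := by rw [← Matrix.mul_assoc, Matrix.nonsing_inv_mul _ hD, Matrix.one_mul]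
    rw [this, h, Matrix.mul_zero]
  · rintro rfl; exact Matrix.mul_zero _

theorem mul_eq_zero_right {a b : Type*} [Fintype a] [DecidableEq a] (D : Matrix a a F)
    (hD : IsUnit D.det) (X : Matrix b a F) : X * D = 0 ↔ X = 0 := by
  constructor
  · intro h
    have : X = (X * D) * D⁻¹ := by rw [Matrix.mul_assoc, Matrix.mul_nonsing_inv _ hD, Matrix.mul_one]
    rw [this, h, Matrix.zero_mul]
  · rintro rfl; exact Matrix.zero_mul _

section blocks
variable {l : Type*} [Fintype l] [DecidableEq l]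

/-- membership in the symplectic group in block form, char 2 -/
theorem mem_sp_blocks [CharP F 2] (A B C E : Matrix l l F) :
    Matrix.fromBlocks A B C E ∈ Matrix.symplecticGroup l F ↔
      Aᵀ * C = Cᵀ * A ∧ Bᵀ * E = Eᵀ * B ∧ Aᵀ * E + Cᵀ * B = 1 := by
  rw [SymplecticGroup.mem_iff']
  have key : (Matrix.fromBlocks A B C E)ᵀ * Matrix.J l F * Matrix.fromBlocks A B C E
      = Matrix.fromBlocks (Cᵀ * A + Aᵀ * C) (Cᵀ * B + Aᵀ * E) (Eᵀ * A + Bᵀ * C)
          (Eᵀ * B + Bᵀ * E) := by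
    simp [Matrix.J, Matrix.fromBlocks_transpose, Matrix.fromBlocks_multiply, neg_eq_self]
  rw [key, Matrix.J, Matrix.fromBlocks_inj, neg_eq_self, add_eq_zero_iff', add_eq_zero_iff']
  constructor
  · rintro ⟨h1, h2, h3, h4⟩
    exact ⟨h1.symm, h4.symm, by rw [add_comm]; exact h2⟩
  · rintro ⟨h1, h2, h3⟩
    refine ⟨h1.symm, by rw [add_comm]; exact h3, ?_, h2.symm⟩
    have := congrArg Matrix.transpose h3
    simpa [Matrix.transpose_add, Matrix.transpose_mul, add_comm] using this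

theorem comm_TS_blocks (A B C E Δ : Matrix l l F) :
    Matrix.fromBlocks A B C E * Matrix.fromBlocks 1 Δ 0 1
      = Matrix.fromBlocks 1 Δ 0 1 * Matrix.fromBlocks A B C E ↔
      Δ * C = 0 ∧ C * Δ = 0 ∧ A * Δ = Δ * E := by
  rw [Matrix.fromBlocks_multiply, Matrix.fromBlocks_multiply, Matrix.fromBlocks_inj]
  simp only [Matrix.mul_one, Matrix.mul_zero, Matrix.one_mul, Matrix.zero_mul, add_zero, zero_add]
  constructor
  · rintro ⟨h1, h2, -, h4⟩
    refine ⟨by simpa using h1, by simpa using h4, ?_⟩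
    rw [add_comm] at h2
    exact add_left_cancel h2
  · rintro ⟨h1, h2, h3⟩
    refine ⟨by simp [h1], by rw [h3, add_comm], trivial, by simp [h2]⟩

end blocks

section G
variable {α β : Type*} [Fintype α] [DecidableEq α] [Fintype β] [DecidableEq β]

theorem comm16 (D₀ : Matrix α α F) (hD : IsUnit D₀.det)
    (A11 : Matrix α α F) (A12 : Matrix α β F) (A21 : Matrix β α F) (A22 : Matrix β β F)
    (B : Matrix (α ⊕ β) (α ⊕ β) F)
    (C11 : Matrix α α F) (C12 : Matrix α β F) (C21 : Matrix β α F) (C22 : Matrix β β F)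
    (E11 : Matrix α α F) (E12 : Matrix α β F) (E21 : Matrix β α F) (E22 : Matrix β β F) :
    Matrix.fromBlocks (Matrix.fromBlocks A11 A12 A21 A22) B (Matrix.fromBlocks C11 C12 C21 C22)
        (Matrix.fromBlocks E11 E12 E21 E22) * Matrix.fromBlocks 1 (Matrix.fromBlocks D₀ 0 0 0) 0 1
      = Matrix.fromBlocks 1 (Matrix.fromBlocks D₀ 0 0 0) 0 1 *
        Matrix.fromBlocks (Matrix.fromBlocks A11 A12 A21 A22) B (Matrix.fromBlocks C11 C12 C21 C22)
        (Matrix.fromBlocks E11 E12 E21 E22) ↔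
      C11 = 0 ∧ C12 = 0 ∧ C21 = 0 ∧ A21 = 0 ∧ E12 = 0 ∧ A11 * D₀ = D₀ * E11 := by
  rw [comm_TS_blocks]
  simp only [Matrix.fromBlocks_multiply, Matrix.mul_zero, Matrix.zero_mul, add_zero,
    fromBlocks_eq_zero, Matrix.fromBlocks_inj, mul_eq_zero_left D₀ hD, mul_eq_zero_right D₀ hD]
  constructor
  · rintro ⟨⟨h1, h2, -, -⟩, ⟨-, -, h3, -⟩, h4, h5, h6, -⟩
    exact ⟨h1, h2, h3, h6, (mul_eq_zero_left D₀ hD _).1 h5.symm, h4⟩
  · rintro ⟨h1, h2, h3, h4, h5, h6⟩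
    exact ⟨⟨h1, h2, trivial, trivial⟩, ⟨h1, trivial, h3, trivial⟩, h6, by simp [h5], h4, trivial⟩

theorem sp16 [CharP F 2]
    (A11 : Matrix α α F) (A12 : Matrix α β F) (A22 : Matrix β β F)
    (B11 : Matrix α α F) (B12 : Matrix α β F) (B21 : Matrix β α F) (B22 : Matrix β β F)
    (C22 : Matrix β β F)
    (E11 : Matrix α α F) (E21 : Matrix β α F) (E22 : Matrix β β F) :
    Matrix.fromBlocks (Matrix.fromBlocks A11 A12 0 A22) (Matrix.fromBlocks B11 B12 B21 B22)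
        (Matrix.fromBlocks 0 0 0 C22) (Matrix.fromBlocks E11 0 E21 E22)
      ∈ Matrix.symplecticGroup (α ⊕ β) F ↔
      A11ᵀ * E11 = 1 ∧ Matrix.fromBlocks A22 B22 C22 E22 ∈ Matrix.symplecticGroup β F ∧
      A12ᵀ * E11 + A22ᵀ * E21 + C22ᵀ * B21 = 0 ∧ B21ᵀ * E22 = E11ᵀ * B12 + E21ᵀ * B22 ∧
      B11ᵀ * E11 + B21ᵀ * E21 = E11ᵀ * B11 + E21ᵀ * B21 := by
  rw [mem_sp_blocks, mem_sp_blocks]
  simp only [Matrix.fromBlocks_transpose, Matrix.fromBlocks_multiply, Matrix.mul_zero,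
    Matrix.zero_mul, add_zero, zero_add, Matrix.transpose_zero, Matrix.fromBlocks_add,
    fromBlocks_eq_one, Matrix.fromBlocks_inj]
  constructor
  · rintro ⟨⟨-, -, -, h1⟩, ⟨h2, h3, h4, h5⟩, h6, -, h7, h8⟩
    exact ⟨h6, ⟨h1, h5, h8⟩, h7, h3, h2⟩
  · rintro ⟨h6, ⟨h1, h5, h8⟩, h7, h3, h2⟩
    refine ⟨⟨trivial, trivial, trivial, h1⟩, ⟨h2, h3, ?_, h5⟩, h6, trivial, h7, h8⟩
    have := congrArg Matrix.transpose h3
    simpa [Matrix.transpose_add, Matrix.transpose_mul] using this.symm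

theorem add_add_cancel' [CharP F 2] {a b : Type*} (X Y : Matrix a b F) : X + Y + Y = X := by
  rw [add_assoc, add_self_zero, add_zero]

/-- the commuting symplectic matrix attached to the parameters -/
noncomputable def Phi (D₀ R : Matrix α α F) (S : Matrix (β ⊕ β) (β ⊕ β) F)
    (Z₁ Z₂ : Matrix β α F) (U : Matrix α α F) :
    Matrix ((α ⊕ β) ⊕ (α ⊕ β)) ((α ⊕ β) ⊕ (α ⊕ β)) F :=
  Matrix.fromBlocks
    (Matrix.fromBlocks (D₀ * R * D₀⁻¹)
      (D₀ * R * D₀⁻¹ * (Z₂ᵀ * S.toBlocks₁₁ + Z₁ᵀ * S.toBlocks₂₁)) 0 S.toBlocks₁₁)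
    (Matrix.fromBlocks (D₀ * R * D₀⁻¹ * (Z₁ᵀ * Z₂ + U))
      (D₀ * R * D₀⁻¹ * (Z₁ᵀ * S.toBlocks₂₂ + Z₂ᵀ * S.toBlocks₁₂)) Z₁ S.toBlocks₁₂)
    (Matrix.fromBlocks 0 0 0 S.toBlocks₂₁)
    (Matrix.fromBlocks R 0 Z₂ S.toBlocks₂₂)

theorem P_props (D₀ R : Matrix α α F) (hD : D₀ᵀ = D₀) (hdet : IsUnit D₀.det)
    (hR : Rᵀ * D₀ * R = D₀) :
    (D₀ * R * D₀⁻¹)ᵀ * R = 1 ∧ Rᵀ * (D₀ * R * D₀⁻¹) = 1 ∧ (D₀ * R * D₀⁻¹) * Rᵀ = 1 ∧
      (D₀ * R * D₀⁻¹) * D₀ = D₀ * R := by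
  have h1 : (D₀ * R * D₀⁻¹)ᵀ * R = 1 := by
    rw [Matrix.transpose_mul, Matrix.transpose_mul, Matrix.transpose_nonsing_inv, hD,
      Matrix.mul_assoc, Matrix.mul_assoc, ← Matrix.mul_assoc Rᵀ, hR, Matrix.nonsing_inv_mul _ hdet]
  have h2 : Rᵀ * (D₀ * R * D₀⁻¹) = 1 := by
    have := congrArg Matrix.transpose h1
    rwa [Matrix.transpose_mul, Matrix.transpose_transpose, Matrix.transpose_one] at this
  refine ⟨h1, h2, mul_eq_one_comm.mp h2, ?_⟩
  rw [Matrix.mul_assoc, Matrix.nonsing_inv_mul _ hdet, Matrix.mul_one]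

theorem Phi_mem [CharP F 2] (D₀ R : Matrix α α F) (hD : D₀ᵀ = D₀) (hdet : IsUnit D₀.det)
    (hR : Rᵀ * D₀ * R = D₀) (S : Matrix (β ⊕ β) (β ⊕ β) F) (hS : S ∈ Matrix.symplecticGroup β F)
    (Z₁ Z₂ : Matrix β α F) (U : Matrix α α F) (hU : Uᵀ = U) :
    Phi D₀ R S Z₁ Z₂ U ∈ Matrix.symplecticGroup (α ⊕ β) F ∧
      Phi D₀ R S Z₁ Z₂ U * Matrix.fromBlocks 1 (Matrix.fromBlocks D₀ 0 0 0) 0 1
        = Matrix.fromBlocks 1 (Matrix.fromBlocks D₀ 0 0 0) 0 1 * Phi D₀ R S Z₁ Z₂ U := by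
  obtain ⟨p1, p2, p3, p4⟩ := P_props D₀ R hD hdet hR
  have tr : ∀ (W : Matrix α α F), (D₀ * R * D₀⁻¹ * W)ᵀ * R = Wᵀ := by
    intro W
    rw [Matrix.transpose_mul, Matrix.mul_assoc, p1, Matrix.mul_one]
  have tl : ∀ (W : Matrix α α F), Rᵀ * (D₀ * R * D₀⁻¹ * W) = W := by
    intro W
    rw [← Matrix.mul_assoc, p2, Matrix.one_mul]
  have tr' : ∀ (W : Matrix α β F), (D₀ * R * D₀⁻¹ * W)ᵀ * R = Wᵀ := by
    intro W
    rw [Matrix.transpose_mul, Matrix.mul_assoc, p1, Matrix.mul_one]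
  have tl' : ∀ (W : Matrix α β F), Rᵀ * (D₀ * R * D₀⁻¹ * W) = W := by
    intro W
    rw [← Matrix.mul_assoc, p2, Matrix.one_mul]
  constructor
  · rw [Phi, sp16]
    refine ⟨p1, ?_, ?_, ?_, ?_⟩
    · rw [Matrix.fromBlocks_toBlocks]; exact hS
    · rw [tr', Matrix.transpose_add, Matrix.transpose_mul, Matrix.transpose_mul,
        Matrix.transpose_transpose, Matrix.transpose_transpose, add_assoc, add_self_zero]
    · rw [tl', add_add_cancel']
    · rw [tr, tl, Matrix.transpose_add, Matrix.transpose_mul, Matrix.transpose_transpose, hU]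
      abel
  · rw [Phi, comm16 D₀ hdet]
    exact ⟨rfl, rfl, rfl, rfl, rfl, p4⟩

theorem Phi_inj (D₀ R R' : Matrix α α F) (hD : D₀ᵀ = D₀) (hdet : IsUnit D₀.det)
    (hR : Rᵀ * D₀ * R = D₀) (S S' : Matrix (β ⊕ β) (β ⊕ β) F)
    (Z₁ Z₂ Z₁' Z₂' : Matrix β α F) (U U' : Matrix α α F)
    (h : Phi D₀ R S Z₁ Z₂ U = Phi D₀ R' S' Z₁' Z₂' U') :
    R = R' ∧ S = S' ∧ Z₁ = Z₁' ∧ Z₂ = Z₂' ∧ U = U' := by
  obtain ⟨p1, p2, p3, p4⟩ := P_props D₀ R hD hdet hR
  simp only [Phi, Matrix.fromBlocks_inj] at h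
  obtain ⟨⟨h1, h2, -, h4⟩, ⟨h5, h6, h7, h8⟩, ⟨-, -, -, h12⟩, ⟨h13, -, h15, h16⟩⟩ := h
  subst h13 h7 h15
  refine ⟨rfl, Matrix.ext_iff_blocks.2 ⟨h4, h8, h12, h16⟩, rfl, rfl, ?_⟩
  have := congrArg (fun W => Rᵀ * W) h5
  simp only [← Matrix.mul_assoc, p2, Matrix.one_mul] at this
  exact add_left_cancel this

theorem Phi_surj [CharP F 2] (D₀ : Matrix α α F) (hD : D₀ᵀ = D₀) (hdet : IsUnit D₀.det)
    (M : Matrix ((α ⊕ β) ⊕ (α ⊕ β)) ((α ⊕ β) ⊕ (α ⊕ β)) F)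
    (hM1 : M ∈ Matrix.symplecticGroup (α ⊕ β) F)
    (hM2 : M * Matrix.fromBlocks 1 (Matrix.fromBlocks D₀ 0 0 0) 0 1
        = Matrix.fromBlocks 1 (Matrix.fromBlocks D₀ 0 0 0) 0 1 * M) :
    ∃ (R : Matrix α α F) (S : Matrix (β ⊕ β) (β ⊕ β) F) (Z₁ Z₂ : Matrix β α F) (U : Matrix α α F),
      Rᵀ * D₀ * R = D₀ ∧ S ∈ Matrix.symplecticGroup β F ∧ Uᵀ = U ∧ Phi D₀ R S Z₁ Z₂ U = M := by
  obtain ⟨A11, A12, A21, A22, B11, B12, B21, B22, C11, C12, C21, C22, E11, E12, E21, E22, rfl⟩ :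
      ∃ (A11 : Matrix α α F) (A12 : Matrix α β F) (A21 : Matrix β α F) (A22 : Matrix β β F)
        (B11 : Matrix α α F) (B12 : Matrix α β F) (B21 : Matrix β α F) (B22 : Matrix β β F)
        (C11 : Matrix α α F) (C12 : Matrix α β F) (C21 : Matrix β α F) (C22 : Matrix β β F)
        (E11 : Matrix α α F) (E12 : Matrix α β F) (E21 : Matrix β α F) (E22 : Matrix β β F),
        M = Matrix.fromBlocks (Matrix.fromBlocks A11 A12 A21 A22) (Matrix.fromBlocks B11 B12 B21 B22)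
          (Matrix.fromBlocks C11 C12 C21 C22) (Matrix.fromBlocks E11 E12 E21 E22) :=
    ⟨M.toBlocks₁₁.toBlocks₁₁, M.toBlocks₁₁.toBlocks₁₂, M.toBlocks₁₁.toBlocks₂₁,
      M.toBlocks₁₁.toBlocks₂₂, M.toBlocks₁₂.toBlocks₁₁, M.toBlocks₁₂.toBlocks₁₂,
      M.toBlocks₁₂.toBlocks₂₁, M.toBlocks₁₂.toBlocks₂₂, M.toBlocks₂₁.toBlocks₁₁,
      M.toBlocks₂₁.toBlocks₁₂, M.toBlocks₂₁.toBlocks₂₁, M.toBlocks₂₁.toBlocks₂₂,
      M.toBlocks₂₂.toBlocks₁₁, M.toBlocks₂₂.toBlocks₁₂, M.toBlocks₂₂.toBlocks₂₁,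
      M.toBlocks₂₂.toBlocks₂₂, by simp only [Matrix.fromBlocks_toBlocks]⟩
  rw [comm16 D₀ hdet] at hM2
  obtain ⟨rfl, rfl, rfl, rfl, rfl, h6⟩ := hM2
  rw [sp16] at hM1
  obtain ⟨s1, s2, s3, s4, s5⟩ := hM1
  have q1 : E11ᵀ * A11 = 1 := by
    have := congrArg Matrix.transpose s1
    rwa [Matrix.transpose_mul, Matrix.transpose_transpose, Matrix.transpose_one] at this
  have q2 : A11 * E11ᵀ = 1 := mul_eq_one_comm.mp q1
  have hR : E11ᵀ * D₀ * E11 = D₀ := by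
    rw [Matrix.mul_assoc, ← h6, ← Matrix.mul_assoc, q1, Matrix.one_mul]
  have hP : D₀ * E11 * D₀⁻¹ = A11 := by
    rw [← h6, Matrix.mul_assoc, Matrix.mul_nonsing_inv _ hdet, Matrix.mul_one]
  have hU : (E11ᵀ * B11 + B21ᵀ * E21)ᵀ = E11ᵀ * B11 + B21ᵀ * E21 := by
    rw [Matrix.transpose_add, Matrix.transpose_mul, Matrix.transpose_mul,
      Matrix.transpose_transpose, Matrix.transpose_transpose]
    have e1 : B11ᵀ * E11 = E11ᵀ * B11 + E21ᵀ * B21 + B21ᵀ * E21 := by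
      rw [← s5, add_add_cancel']
    rw [e1, add_assoc, add_assoc, add_comm (B21ᵀ * E21), ← add_assoc (E21ᵀ * B21), add_self_zero,
      zero_add]
  refine ⟨E11, Matrix.fromBlocks A22 B22 C22 E22, B21, E21, E11ᵀ * B11 + B21ᵀ * E21, hR, s2, hU, ?_⟩
  rw [Phi, hP]
  simp only [Matrix.toBlocks_fromBlocks₁₁, Matrix.toBlocks_fromBlocks₁₂,
    Matrix.toBlocks_fromBlocks₂₁, Matrix.toBlocks_fromBlocks₂₂]
  have e2 : A11 * (E21ᵀ * A22 + B21ᵀ * C22) = A12 := by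
    have e : A12ᵀ * E11 = A22ᵀ * E21 + C22ᵀ * B21 := by
      rw [add_assoc] at s3
      exact (add_eq_zero_iff' _ _).1 s3
    have e' := congrArg Matrix.transpose e
    simp only [Matrix.transpose_add, Matrix.transpose_mul, Matrix.transpose_transpose] at e'
    rw [← e', ← Matrix.mul_assoc, q2, Matrix.one_mul]
  have e3 : A11 * (B21ᵀ * E21 + (E11ᵀ * B11 + B21ᵀ * E21)) = B11 := by
    rw [add_comm (E11ᵀ * B11), ← add_assoc, add_self_zero, zero_add, ← Matrix.mul_assoc, q2,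
      Matrix.one_mul]
  have e4 : A11 * (B21ᵀ * E22 + E21ᵀ * B22) = B12 := by
    rw [s4, add_add_cancel', ← Matrix.mul_assoc, q2, Matrix.one_mul]
  rw [e2, e3, e4]

theorem card_symm [Fintype F] :
    Nat.card {U : Matrix α α F // Uᵀ = U} = Fintype.card F ^ ((Fintype.card α + 1).choose 2) := by
  classical
  have e : {U : Matrix α α F // Uᵀ = U} ≃ (Sym2 α → F) :=
    { toFun := fun U => Sym2.lift ⟨fun i j => U.1 i j, fun i j => by
        have := congrFun (congrFun U.2 i) j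
        rw [Matrix.transpose_apply] at this
        exact this.symm⟩
      invFun := fun V => ⟨Matrix.of fun i j => V s(i, j), by
        ext i j
        simp [Sym2.eq_swap]⟩
      left_inv := fun U => by
        apply Subtype.ext
        ext i j
        simp
      right_inv := fun V => by
        funext z
        induction z using Sym2.ind with
        | _ i j => simp }
  rw [Nat.card_congr e, Nat.card_eq_fintype_card, Fintype.card_fun, Sym2.card]

theorem card_mat [Fintype F] :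
    Nat.card (Matrix β α F) = Fintype.card F ^ (Fintype.card β * Fintype.card α) := by
  rw [Nat.card_eq_fintype_card]
  show Fintype.card (β → α → F) = _
  rw [Fintype.card_fun, Fintype.card_fun, ← pow_mul, mul_comm]

theorem card_X [Fintype F] [CharP F 2] (D₀ : Matrix α α F) (hD : D₀ᵀ = D₀) (hdet : IsUnit D₀.det) :
    Nat.card {M : Matrix ((α ⊕ β) ⊕ (α ⊕ β)) ((α ⊕ β) ⊕ (α ⊕ β)) F //
        M ∈ Matrix.symplecticGroup (α ⊕ β) F ∧
        M * Matrix.fromBlocks 1 (Matrix.fromBlocks D₀ 0 0 0) 0 1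
          = Matrix.fromBlocks 1 (Matrix.fromBlocks D₀ 0 0 0) 0 1 * M}
      = Nat.card {R : Matrix α α F // Rᵀ * D₀ * R = D₀} * Nat.card (Matrix.symplecticGroup β F)
        * Fintype.card F ^ (2 * (Fintype.card β * Fintype.card α))
        * Fintype.card F ^ ((Fintype.card α + 1).choose 2) := by
  classical
  let f : {R : Matrix α α F // Rᵀ * D₀ * R = D₀} × Matrix.symplecticGroup β F ×
      (Matrix β α F × Matrix β α F) × {U : Matrix α α F // Uᵀ = U} →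
      {M : Matrix ((α ⊕ β) ⊕ (α ⊕ β)) ((α ⊕ β) ⊕ (α ⊕ β)) F //
        M ∈ Matrix.symplecticGroup (α ⊕ β) F ∧
        M * Matrix.fromBlocks 1 (Matrix.fromBlocks D₀ 0 0 0) 0 1
          = Matrix.fromBlocks 1 (Matrix.fromBlocks D₀ 0 0 0) 0 1 * M} :=
    fun p => ⟨Phi D₀ p.1.1 p.2.1.1 p.2.2.1.1 p.2.2.1.2 p.2.2.2.1,
      Phi_mem D₀ p.1.1 hD hdet p.1.2 p.2.1.1 p.2.1.2 p.2.2.1.1 p.2.2.1.2 p.2.2.2.1 p.2.2.2.2⟩
  have hbij : Function.Bijective f := by
    constructor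
    · rintro ⟨⟨R, hR⟩, ⟨S, hS⟩, ⟨Z₁, Z₂⟩, ⟨U, hU⟩⟩ ⟨⟨R', hR'⟩, ⟨S', hS'⟩, ⟨Z₁', Z₂'⟩, ⟨U', hU'⟩⟩ h
      have h' := congrArg Subtype.val h
      obtain ⟨rfl, rfl, rfl, rfl, rfl⟩ := Phi_inj D₀ R R' hD hdet hR S S' Z₁ Z₂ Z₁' Z₂' U U' h'
      rfl
    · rintro ⟨M, hM1, hM2⟩
      obtain ⟨R, S, Z₁, Z₂, U, hR, hS, hU, hPhi⟩ := Phi_surj D₀ hD hdet M hM1 hM2
      exact ⟨⟨⟨R, hR⟩, ⟨S, hS⟩, ⟨Z₁, Z₂⟩, ⟨U, hU⟩⟩, Subtype.ext hPhi⟩
  rw [← Nat.card_congr (Equiv.ofBijective f hbij), Nat.card_prod, Nat.card_prod, Nat.card_prod,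
    Nat.card_prod, card_symm, card_mat, two_mul, pow_add]
  ring

end G

section transfer

theorem card_centralizer_of_isConj {G : Type*} [Group G] {a b : G} (h : IsConj a b) :
    Nat.card (Subgroup.centralizer ({a} : Set G)) = Nat.card (Subgroup.centralizer ({b} : Set G)) := by
  obtain ⟨c, hc⟩ := isConj_iff.1 h
  subst hc
  refine Nat.card_congr
    { toFun := fun g => ⟨c * g.1 * c⁻¹, ?_⟩
      invFun := fun g => ⟨c⁻¹ * g.1 * c, ?_⟩
      left_inv := fun g => Subtype.ext (by simp [mul_assoc])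
      right_inv := fun g => Subtype.ext (by simp [mul_assoc]) }
  · rw [Subgroup.mem_centralizer_singleton_iff]
    have h1 := Subgroup.mem_centralizer_singleton_iff.1 g.2
    calc c * g.1 * c⁻¹ * (c * a * c⁻¹) = c * (g.1 * a) * c⁻¹ := by group
      _ = c * (a * g.1) * c⁻¹ := by rw [h1]
      _ = _ := by group
  · rw [Subgroup.mem_centralizer_singleton_iff]
    have h1 := Subgroup.mem_centralizer_singleton_iff.1 g.2
    calc c⁻¹ * g.1 * c * a = c⁻¹ * (g.1 * (c * a * c⁻¹)) * c := by group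
      _ = c⁻¹ * (c * a * c⁻¹ * g.1) * c := by rw [h1]
      _ = _ := by group

open Cfsg.Agent.Helper14.SpInv2 Cfsg.Agent.Helper14.OInv Cfsg.Agent.Helper6 in
theorem alt_of_conj_TS' {m : ℕ} (t : Matrix.symplecticGroup (Fin m) F)
    (S : Matrix (Fin m) (Fin m) F) (hS : Sᵀ = S) (h : IsConj t (TS S))
    (ha : ∀ x : Fin m ⊕ Fin m → F,
      Cfsg.sympForm m F x ((t : Matrix (Fin m ⊕ Fin m) (Fin m ⊕ Fin m) F) *ᵥ x) = 0)
    (b : Fin m → F) : b ⬝ᵥ S *ᵥ b = 0 := by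
  obtain ⟨c, hmat⟩ := mat_of_conj_TS t S hS h
  have h1 : b ⬝ᵥ S *ᵥ b = Cfsg.sympForm m F (Sum.elim 0 b)
      ((Matrix.fromBlocks 1 S 0 1 : Matrix (Fin m ⊕ Fin m) (Fin m ⊕ Fin m) F) *ᵥ Sum.elim 0 b) := by
    rw [TS_form]; simp
  have hcc : (c : Matrix (Fin m ⊕ Fin m) (Fin m ⊕ Fin m) F) *
      ((c⁻¹ : Matrix.symplecticGroup (Fin m) F) : Matrix (Fin m ⊕ Fin m) (Fin m ⊕ Fin m) F) = 1 := by
    rw [← sp_coe_mul, mul_inv_cancel, sp_coe_one]
  obtain ⟨x, hx⟩ : ∃ x : Fin m ⊕ Fin m → F,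
      (c : Matrix (Fin m ⊕ Fin m) (Fin m ⊕ Fin m) F) *ᵥ x = Sum.elim (0 : Fin m → F) b :=
    ⟨((c⁻¹ : Matrix.symplecticGroup (Fin m) F) : Matrix (Fin m ⊕ Fin m) (Fin m ⊕ Fin m) F) *ᵥ
      Sum.elim (0 : Fin m → F) b, by rw [Matrix.mulVec_mulVec, hcc, Matrix.one_mulVec]⟩
  rw [h1, ← hx, Matrix.mulVec_mulVec, ← hmat, ← Matrix.mulVec_mulVec, sp_preserves]
  exact ha x

open Cfsg.Agent.Helper14.SpInv2 Cfsg.Agent.Helper14.OInv Cfsg.Agent.Helper6 in
theorem conj_of_invariants [Finite F] [CharP F 2] {m : ℕ} (t t' : Matrix.symplecticGroup (Fin m) F)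
    (ht : t * t = 1) (ht1 : t ≠ 1) (ht' : t' * t' = 1) (ht1' : t' ≠ 1)
    (hrank : ((t : Matrix (Fin m ⊕ Fin m) (Fin m ⊕ Fin m) F) - 1).rank
      = ((t' : Matrix (Fin m ⊕ Fin m) (Fin m ⊕ Fin m) F) - 1).rank)
    (htype : (∀ x : Fin m ⊕ Fin m → F,
        Cfsg.sympForm m F x ((t : Matrix (Fin m ⊕ Fin m) (Fin m ⊕ Fin m) F) *ᵥ x) = 0) ↔
      (∀ x : Fin m ⊕ Fin m → F,
        Cfsg.sympForm m F x ((t' : Matrix (Fin m ⊕ Fin m) (Fin m ⊕ Fin m) F) *ᵥ x) = 0)) :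
    IsConj t t' := by
  obtain ⟨a, ha⟩ := exists_repS t ht ht1
  obtain ⟨a', ha'⟩ := exists_repS t' ht' ht1'
  have hm : 1 ≤ m := by
    rcases a with i | j
    · have := i.2; omega
    · have := j.2; omega
  have r1 := rank_of_conj_TS t _ (repS_transpose a) ha
  have r2 := rank_of_conj_TS t' _ (repS_transpose a') ha'
  have hr : (repS F m a).rank = (repS F m a').rank := by rw [← r1, ← r2, hrank]
  have haa : a = a' := by
    rcases a with i | j <;> rcases a' with i' | j'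
    · simp only [repS, Sum.elim_inl] at hr
      rw [rank_Dn (by omega), rank_Dn (by omega)] at hr
      congr 1; ext; omega
    · exfalso
      refine Dn_nalt (F := F) hm (i.val + 1) (by omega) ?_
      exact alt_of_conj_TS' t _ (repS_transpose (Sum.inl i)) ha
        (htype.2 (alt_of_conj_TS t' _ (repS_transpose (Sum.inr j')) ha' (Da_alt m _)))
    · exfalso
      refine Dn_nalt (F := F) hm (i'.val + 1) (by omega) ?_
      exact alt_of_conj_TS' t' _ (repS_transpose (Sum.inl i')) ha'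
        (htype.1 (alt_of_conj_TS t _ (repS_transpose (Sum.inr j)) ha (Da_alt m _)))
    · simp only [repS, Sum.elim_inr] at hr
      have h1 : 2 * (j.val + 1) ≤ m := by have := j.2; omega
      have h2 : 2 * (j'.val + 1) ≤ m := by have := j'.2; omega
      rw [rank_Da h1, rank_Da h2] at hr
      congr 1; ext; omega
  subst haa
  exact ha.trans ha'.symm

end transfer

section reindex
variable {ι : Type*} [Fintype ι] [DecidableEq ι]

theorem reindex_J {m : ℕ} (e : ι ≃ Fin m) :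
    Matrix.reindex (e.sumCongr e) (e.sumCongr e) (Matrix.J ι F) = Matrix.J (Fin m) F := by
  ext (i | i) (j | j) <;> simp [Matrix.J, Matrix.one_apply]

theorem reindex_mul' {m : ℕ} (e : ι ≃ Fin m) (A B : Matrix (ι ⊕ ι) (ι ⊕ ι) F) :
    Matrix.reindex (e.sumCongr e) (e.sumCongr e) (A * B)
      = Matrix.reindex (e.sumCongr e) (e.sumCongr e) A
        * Matrix.reindex (e.sumCongr e) (e.sumCongr e) B := by
  simp only [Matrix.reindex_apply]
  rw [Matrix.submatrix_mul_equiv]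

theorem reindex_mem_sp {m : ℕ} (e : ι ≃ Fin m) (M : Matrix (ι ⊕ ι) (ι ⊕ ι) F) :
    Matrix.reindex (e.sumCongr e) (e.sumCongr e) M ∈ Matrix.symplecticGroup (Fin m) F ↔
      M ∈ Matrix.symplecticGroup ι F := by
  rw [SymplecticGroup.mem_iff, SymplecticGroup.mem_iff, ← reindex_J e,
    show (Matrix.reindex (e.sumCongr e) (e.sumCongr e) M)ᵀ
      = Matrix.reindex (e.sumCongr e) (e.sumCongr e) Mᵀ from rfl,
    ← reindex_mul', ← reindex_mul', (Matrix.reindex _ _).injective.eq_iff]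

theorem reindex_TS {m : ℕ} (e : ι ≃ Fin m) (E' : Matrix ι ι F) :
    Matrix.reindex (e.sumCongr e) (e.sumCongr e) (Matrix.fromBlocks 1 E' 0 1)
      = Matrix.fromBlocks 1 (Matrix.reindex e e E') 0 1 := by
  ext (i | i) (j | j) <;> simp [Matrix.one_apply]

open Cfsg.Agent.Helper14.SpInv2 Cfsg.Agent.Helper6 in
theorem card_cent_TS {m : ℕ} (e : ι ≃ Fin m) (E' : Matrix ι ι F)
    (hE : (Matrix.reindex e e E')ᵀ = Matrix.reindex e e E') :
    Nat.card (Subgroup.centralizer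
        ({TS (Matrix.reindex e e E')} : Set (Matrix.symplecticGroup (Fin m) F)))
      = Nat.card {M : Matrix (ι ⊕ ι) (ι ⊕ ι) F // M ∈ Matrix.symplecticGroup ι F ∧
          M * Matrix.fromBlocks 1 E' 0 1 = Matrix.fromBlocks 1 E' 0 1 * M} := by
  symm
  refine Nat.card_congr (Equiv.ofBijective
    (fun M => ⟨⟨Matrix.reindex (e.sumCongr e) (e.sumCongr e) M.1,
      (reindex_mem_sp e M.1).2 M.2.1⟩, ?_⟩) ⟨?_, ?_⟩)
  · rw [Subgroup.mem_centralizer_singleton_iff]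
    apply Subtype.ext
    rw [sp_coe_mul, sp_coe_mul, coe_TS _ hE, ← reindex_TS, ← reindex_mul', ← reindex_mul', M.2.2]
  · intro M M' h
    have h1 := congrArg (fun g : Subgroup.centralizer
        ({TS (Matrix.reindex e e E')} : Set (Matrix.symplecticGroup (Fin m) F)) =>
      ((g : Matrix.symplecticGroup (Fin m) F) : Matrix (Fin m ⊕ Fin m) (Fin m ⊕ Fin m) F)) h
    exact Subtype.ext ((Matrix.reindex _ _).injective h1)
  · rintro ⟨g, hg⟩
    rw [Subgroup.mem_centralizer_singleton_iff] at hg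
    have hg' := congrArg (fun g : Matrix.symplecticGroup (Fin m) F =>
      (g : Matrix (Fin m ⊕ Fin m) (Fin m ⊕ Fin m) F)) hg
    simp only [sp_coe_mul, coe_TS _ hE] at hg'
    refine ⟨⟨(Matrix.reindex (e.sumCongr e) (e.sumCongr e)).symm
      (g : Matrix (Fin m ⊕ Fin m) (Fin m ⊕ Fin m) F), ?_, ?_⟩, ?_⟩
    · rw [← reindex_mem_sp e, Equiv.apply_symm_apply]; exact g.2
    · apply (Matrix.reindex (e.sumCongr e) (e.sumCongr e)).injective
      rw [reindex_mul', reindex_mul', Equiv.apply_symm_apply, reindex_TS]; exact hg'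
    · apply Subtype.ext; apply Subtype.ext
      exact (Matrix.reindex (e.sumCongr e) (e.sumCongr e)).apply_symm_apply _

theorem rank_blk' {α β : Type*} [Fintype α] [Fintype β] [DecidableEq α] [DecidableEq β]
    (D : Matrix α α F) :
    (Matrix.fromBlocks D 0 0 0 : Matrix (α ⊕ β) (α ⊕ β) F).rank = D.rank := by
  apply le_antisymm
  · have : (Matrix.fromBlocks D 0 0 0 : Matrix (α ⊕ β) (α ⊕ β) F)
        = (Matrix.fromRows (1 : Matrix α α F) (0 : Matrix β α F) * D)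
          * Matrix.fromCols (1 : Matrix α α F) (0 : Matrix α β F) := by
      rw [Matrix.fromRows_mul, Matrix.fromRows_mul_fromCols]
      simp
    rw [this]
    exact (Matrix.rank_mul_le_left _ _).trans (Matrix.rank_mul_le_right _ _)
  · have : D = (Matrix.fromBlocks D 0 0 0 : Matrix (α ⊕ β) (α ⊕ β) F).submatrix Sum.inl Sum.inl := by
      ext i j; simp
    conv_lhs => rw [this]
    exact Matrix.rank_submatrix_le _ _ _

theorem quad_reindex {m : ℕ} (e : ι ≃ Fin m) (E' : Matrix ι ι F) (b : Fin m → F) :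
    b ⬝ᵥ (Matrix.reindex e e E') *ᵥ b = (b ∘ e) ⬝ᵥ E' *ᵥ (b ∘ e) := by
  rw [Matrix.reindex_apply, Matrix.submatrix_mulVec_equiv, Equiv.symm_symm,
    dotProduct_comp_equiv_symm]

theorem quad_blk {α β : Type*} [Fintype α] [Fintype β] (D : Matrix α α F) (w : α ⊕ β → F) :
    w ⬝ᵥ (Matrix.fromBlocks D 0 0 0 : Matrix (α ⊕ β) (α ⊕ β) F) *ᵥ w
      = (w ∘ Sum.inl) ⬝ᵥ D *ᵥ (w ∘ Sum.inl) := by
  rw [Matrix.fromBlocks_mulVec, dotProduct, Fintype.sum_sum_type]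
  simp [dotProduct]

end reindex

section model
variable {α : Type*} [Fintype α] [DecidableEq α]

open Cfsg.Agent.Helper14.SpInv2 Cfsg.Agent.Helper14.OInv Cfsg.Agent.Helper6 in
/-- centralizer order of an involution of `Sp_2m(q)`, `q` even, in terms of a model form `D₀`
on the quotient `V / ker (t - 1)`. -/
theorem card_cent_model [Fintype F] [CharP F 2] {m : ℕ} (t : Matrix.symplecticGroup (Fin m) F)
    (ht : t * t = 1) (ht1 : t ≠ 1) (D₀ : Matrix α α F) (hD : D₀ᵀ = D₀) (hdet : IsUnit D₀.det)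
    (hα : Fintype.card α = ((t : Matrix (Fin m ⊕ Fin m) (Fin m ⊕ Fin m) F) - 1).rank)
    (htype : (∀ x : Fin m ⊕ Fin m → F,
        Cfsg.sympForm m F x ((t : Matrix (Fin m ⊕ Fin m) (Fin m ⊕ Fin m) F) *ᵥ x) = 0) ↔
      (∀ v : α → F, v ⬝ᵥ D₀ *ᵥ v = 0)) :
    Fintype.card α ≤ m ∧
    Nat.card (Subgroup.centralizer ({t} : Set (Matrix.symplecticGroup (Fin m) F)))
      = Nat.card {R : Matrix α α F // Rᵀ * D₀ * R = D₀}
        * Nat.card (Matrix.symplecticGroup (Fin (m - Fintype.card α)) F)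
        * Fintype.card F ^ (2 * ((m - Fintype.card α) * Fintype.card α))
        * Fintype.card F ^ ((Fintype.card α + 1).choose 2) := by
  classical
  obtain ⟨a, ha⟩ := exists_repS t ht ht1
  have r1 := rank_of_conj_TS t _ (repS_transpose a) ha
  have hle : Fintype.card α ≤ m := by
    rw [hα, r1]
    have := Matrix.rank_le_card_width (repS F m a)
    simpa using this
  have hpos : 1 ≤ Fintype.card α := by
    rw [hα, r1]
    rcases a with i | j
    · simp only [repS, Sum.elim_inl]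
      rw [rank_Dn (by have := i.2; omega)]; omega
    · simp only [repS, Sum.elim_inr]
      rw [rank_Da (by have := j.2; omega)]; omega
  refine ⟨hle, ?_⟩
  haveI : Nonempty α := Fintype.card_pos_iff.1 (by omega)
  have e : α ⊕ Fin (m - Fintype.card α) ≃ Fin m :=
    Fintype.equivFinOfCardEq (by rw [Fintype.card_sum, Fintype.card_fin]; omega)
  set E' : Matrix (α ⊕ Fin (m - Fintype.card α)) (α ⊕ Fin (m - Fintype.card α)) F :=
    Matrix.fromBlocks D₀ 0 0 0 with hE'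
  have hE'symm : E'ᵀ = E' := by
    rw [hE', Matrix.fromBlocks_transpose, hD]; simp
  have hE : (Matrix.reindex e e E')ᵀ = Matrix.reindex e e E' := by
    conv_rhs => rw [← hE'symm]
    rfl
  have hD0 : D₀ ≠ 0 := by
    rintro rfl
    rw [Matrix.det_zero] at hdet
    exact not_isUnit_zero hdet
  have hE0 : Matrix.reindex e e E' ≠ 0 := by
    intro h
    have h' : E' = 0 := (Matrix.reindex e e).injective (by rw [h]; rfl)
    rw [hE', fromBlocks_eq_zero] at h'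
    exact hD0 h'.1
  have hrank : ((t : Matrix (Fin m ⊕ Fin m) (Fin m ⊕ Fin m) F) - 1).rank
      = ((TS (Matrix.reindex e e E') : Matrix.symplecticGroup (Fin m) F).1 - 1).rank := by
    rw [rank_of_conj_TS (TS (Matrix.reindex e e E')) _ hE (IsConj.refl _), Matrix.rank_reindex,
      hE', rank_blk', Matrix.rank_of_isUnit _ ((Matrix.isUnit_iff_isUnit_det _).2 hdet), ← hα]
  have htype' : (∀ x : Fin m ⊕ Fin m → F,
        Cfsg.sympForm m F x ((t : Matrix (Fin m ⊕ Fin m) (Fin m ⊕ Fin m) F) *ᵥ x) = 0) ↔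
      (∀ x : Fin m ⊕ Fin m → F, Cfsg.sympForm m F x
        (((TS (Matrix.reindex e e E') : Matrix.symplecticGroup (Fin m) F) :
          Matrix (Fin m ⊕ Fin m) (Fin m ⊕ Fin m) F) *ᵥ x) = 0) := by
    rw [htype]
    constructor
    · intro h
      refine alt_of_conj_TS _ _ hE (IsConj.refl _) ?_
      intro b
      rw [quad_reindex, hE', quad_blk]
      exact h _
    · intro h v
      have h1 := alt_of_conj_TS' _ _ hE (IsConj.refl _) h ((Sum.elim v 0) ∘ e.symm)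
      rw [quad_reindex, hE', quad_blk] at h1
      have h2 : (((Sum.elim v 0 : α ⊕ Fin (m - Fintype.card α) → F) ∘ e.symm) ∘ e) ∘ Sum.inl = v := by
        funext i; simp
      rwa [h2] at h1
  have hconj := conj_of_invariants t (TS (Matrix.reindex e e E')) ht ht1 (TS_sq _ hE)
    (TS_ne_one _ hE hE0) hrank htype'
  rw [card_centralizer_of_isConj hconj, card_cent_TS e E' hE, hE', card_X D₀ hD hdet,
    Fintype.card_fin]

end model

end Cfsg.Agent.Helper14.SpCent
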