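import Mathlib
import Cfsg.Agent.Helper14.SpCent
import Cfsg.Agent.Helper6.SpFrames
import Cfsg.Agent.Helper6.SpCard

set_option autoImplicit false

namespace Cfsg.Agent.Helper14.SpCent

open Matrix

variable {F : Type*} [Field F]

section forms
variable {l : Type*} [Fintype l] [DecidableEq l]

theorem J_symm [CharP F 2] : (Matrix.J l F)ᵀ = Matrix.J l F := by
  rw [Matrix.J_transpose, neg_eq_self]

theorem J_alt (v : l ⊕ l → F) : v ⬝ᵥ (Matrix.J l F) *ᵥ v = 0 := by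
  rw [Matrix.J, Matrix.fromBlocks_mulVec, dotProduct, Fintype.sum_sum_type]
  simp only [Sum.elim_inl, Sum.elim_inr, Matrix.zero_mulVec, Matrix.neg_mulVec, Matrix.one_mulVec,
    zero_add, add_zero, Pi.neg_apply, Function.comp]
  rw [← Finset.sum_add_distrib]
  exact Finset.sum_eq_zero (fun i _ => by ring)

theorem J_diag (i : l ⊕ l) : (Matrix.J l F) i i = 0 := by
  rcases i with i | i <;> simp [Matrix.J]

theorem cong_J_diag {c : Type*} [Fintype c] (M : Matrix (l ⊕ l) c F) (j : c) :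
    (Mᵀ * Matrix.J l F * M) j j = 0 := by
  have : (Mᵀ * Matrix.J l F * M) j j = (fun a => M a j) ⬝ᵥ (Matrix.J l F) *ᵥ (fun a => M a j) := by
    simp only [Matrix.mul_apply, dotProduct, Matrix.mulVec, Matrix.transpose_apply, Finset.sum_mul,
      Finset.mul_sum]
    rw [Finset.sum_comm]
    refine Finset.sum_congr rfl fun a _ => Finset.sum_congr rfl fun b _ => by ring
  rw [this, J_alt]

/-- (a): the isometry group of `J` is the symplectic group -/
theorem card_O_J :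
    Nat.card {R : Matrix (l ⊕ l) (l ⊕ l) F // Rᵀ * Matrix.J l F * R = Matrix.J l F}
      = Nat.card (Matrix.symplecticGroup l F) :=
  Nat.card_congr (Equiv.subtypeEquivRight (fun _ => SymplecticGroup.mem_iff'.symm))

theorem sq_eq_zero' {a : F} (h : a * a = 0) : a = 0 := by
  rcases mul_eq_zero.1 h with h | h <;> exact h

theorem sq_eq_one' [CharP F 2] {a : F} (h : a * a = 1) : a = 1 := by
  have : (a + 1) * (a + 1) = 0 := by
    have h2 : (2 : F) = 0 := CharTwo.two_eq_zero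
    linear_combination h + a * h2 + h2
  have := sq_eq_zero' this
  have h3 : a = -1 := by linear_combination this
  rw [h3, CharTwo.neg_eq]

/-- (b): the isometry group of `1 ⊕ J` -/
theorem card_O_oneJ [CharP F 2] :
    Nat.card {R : Matrix (Unit ⊕ (l ⊕ l)) (Unit ⊕ (l ⊕ l)) F //
        Rᵀ * Matrix.fromBlocks 1 0 0 (Matrix.J l F) * R = Matrix.fromBlocks 1 0 0 (Matrix.J l F)}
      = Nat.card (Matrix.symplecticGroup l F) := by
  symm
  have key : ∀ (a : Matrix Unit Unit F) (u : Matrix Unit (l ⊕ l) F) (v : Matrix (l ⊕ l) Unit F)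
      (S : Matrix (l ⊕ l) (l ⊕ l) F),
      (Matrix.fromBlocks a u v S)ᵀ * Matrix.fromBlocks 1 0 0 (Matrix.J l F) * Matrix.fromBlocks a u v S
        = Matrix.fromBlocks (aᵀ * a + vᵀ * Matrix.J l F * v) (aᵀ * u + vᵀ * Matrix.J l F * S)
          (uᵀ * a + Sᵀ * Matrix.J l F * v) (uᵀ * u + Sᵀ * Matrix.J l F * S) := by
    intro a u v S
    simp [Matrix.fromBlocks_transpose, Matrix.fromBlocks_multiply]
  refine Nat.card_congr (Equiv.ofBijective
    (fun S : Matrix.symplecticGroup l F => ⟨Matrix.fromBlocks 1 0 0 S.1, ?_⟩) ⟨?_, ?_⟩)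
  · rw [key]
    simp [SymplecticGroup.mem_iff'.1 S.2]
  · intro S S' h
    have h' := congrArg Subtype.val h
    simp only [Matrix.fromBlocks_inj] at h'
    exact Subtype.ext h'.2.2.2
  · rintro ⟨R, hR⟩
    obtain ⟨a, u, v, S, rfl⟩ : ∃ (a : Matrix Unit Unit F) (u : Matrix Unit (l ⊕ l) F)
        (v : Matrix (l ⊕ l) Unit F) (S : Matrix (l ⊕ l) (l ⊕ l) F),
        R = Matrix.fromBlocks a u v S :=
      ⟨R.toBlocks₁₁, R.toBlocks₁₂, R.toBlocks₂₁, R.toBlocks₂₂, (Matrix.fromBlocks_toBlocks R).symm⟩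
    rw [key, Matrix.fromBlocks_inj] at hR
    obtain ⟨h1, h2, h3, h4⟩ := hR
    have hu : u = 0 := by
      ext x j
      have := congrFun (congrFun h4 j) j
      rw [Matrix.add_apply, cong_J_diag, add_zero, J_diag, Matrix.mul_apply] at this
      simp only [Matrix.transpose_apply, Finset.univ_unique, Finset.sum_singleton] at this
      exact sq_eq_zero' this
    subst hu
    have hS : Sᵀ * Matrix.J l F * S = Matrix.J l F := by simpa using h4
    have hSmem : S ∈ Matrix.symplecticGroup l F := SymplecticGroup.mem_iff'.2 hS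
    have hv : v = 0 := by
      have h2' : vᵀ * (Matrix.J l F * S) = 0 := by
        rw [← Matrix.mul_assoc]; simpa using h2
      have hdet : IsUnit (Matrix.J l F * S).det := by
        rw [Matrix.det_mul]
        exact (Matrix.isUnit_det_J l F).mul (SymplecticGroup.symplectic_det hSmem)
      have := (mul_eq_zero_right _ hdet _).1 h2'
      have h5 := congrArg Matrix.transpose this
      simpa using h5
    subst hv
    have ha : a = 1 := by
      ext x y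
      have := congrFun (congrFun h1 () ) ()
      simp only [Matrix.mul_zero, add_zero, Matrix.mul_apply, Matrix.transpose_apply,
        Finset.univ_unique, Finset.sum_singleton, Matrix.one_apply_eq] at this
      simpa using sq_eq_one' this
    subst ha
    exact ⟨⟨S, hSmem⟩, rfl⟩

end forms

section typeC
variable {n : ℕ}

/-- the model form of type c -/
def Dc (F : Type*) [Field F] (n : ℕ) (ℓ : Fin n ⊕ Fin n → F) :
    Matrix (Fin n ⊕ Fin n) (Fin n ⊕ Fin n) F :=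
  Matrix.J (Fin n) F + Matrix.vecMulVec ℓ ℓ

theorem Dc_quad (ℓ x : Fin n ⊕ Fin n → F) :
    x ⬝ᵥ (Dc F n ℓ) *ᵥ x = (ℓ ⬝ᵥ x) * (ℓ ⬝ᵥ x) := by
  have h1 : Matrix.vecMulVec ℓ ℓ *ᵥ x = (ℓ ⬝ᵥ x) • ℓ := by
    rw [Matrix.vecMulVec_mulVec]
    ext i
    simp [mul_comm]
  rw [Dc, Matrix.add_mulVec, dotProduct_add, J_alt, zero_add, h1, dotProduct_smul, smul_eq_mul,
    dotProduct_comm x ℓ]

theorem Dc_symm [CharP F 2] (ℓ : Fin n ⊕ Fin n → F) : (Dc F n ℓ)ᵀ = Dc F n ℓ := by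
  rw [Dc, Matrix.transpose_add, J_symm, Matrix.transpose_vecMulVec]

theorem Dc_det (ℓ : Fin n ⊕ Fin n → F) : IsUnit (Dc F n ℓ).det := by
  rw [← Matrix.isUnit_iff_isUnit_det, ← Matrix.mulVec_injective_iff_isUnit]
  intro x y hxy
  have hz : Dc F n ℓ *ᵥ (x - y) = 0 := by rw [Matrix.mulVec_sub, hxy, sub_self]
  have h1 : (ℓ ⬝ᵥ (x - y)) * (ℓ ⬝ᵥ (x - y)) = 0 := by
    rw [← Dc_quad, hz, dotProduct_zero]
  have h2 : ℓ ⬝ᵥ (x - y) = 0 := sq_eq_zero' h1
  have h3 : Matrix.J (Fin n) F *ᵥ (x - y) = 0 := by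
    have h4 : Matrix.vecMulVec ℓ ℓ *ᵥ (x - y) = 0 := by
      rw [Matrix.vecMulVec_mulVec, h2]
      ext i
      simp
    rw [Dc, Matrix.add_mulVec, h4, add_zero] at hz
    exact hz
  have h5 : (Matrix.J (Fin n) F * Matrix.J (Fin n) F) *ᵥ (x - y) = -(x - y) := by
    rw [Matrix.J_squared, Matrix.neg_mulVec, Matrix.one_mulVec]
  rw [← Matrix.mulVec_mulVec, h3, Matrix.mulVec_zero] at h5
  have h6 : x - y = 0 := by
    have := congrArg Neg.neg h5
    simpa using this.symm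
  exact sub_eq_zero.1 h6

theorem Dc_cong (R : Matrix (Fin n ⊕ Fin n) (Fin n ⊕ Fin n) F) (ℓ : Fin n ⊕ Fin n → F) :
    Rᵀ * Dc F n ℓ * R = Rᵀ * Matrix.J (Fin n) F * R + Matrix.vecMulVec (Rᵀ *ᵥ ℓ) (Rᵀ *ᵥ ℓ) := by
  rw [Dc, Matrix.mul_add, Matrix.add_mul, Matrix.mul_vecMulVec, Matrix.vecMulVec_mul,
    Matrix.mulVec_transpose]

theorem sq_inj' [CharP F 2] {a b : F} (h : a * a = b * b) : a = b := by
  have : (a + b) * (a + b) = 0 := by
    have h2 : (2 : F) = 0 := CharTwo.two_eq_zero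
    linear_combination h + (a * b + b * b) * h2
  have := sq_eq_zero' this
  have h3 : a = -b := by linear_combination this
  rw [h3, CharTwo.neg_eq]

theorem Dc_isom_iff [CharP F 2] (R : Matrix (Fin n ⊕ Fin n) (Fin n ⊕ Fin n) F)
    (ℓ : Fin n ⊕ Fin n → F) :
    Rᵀ * Dc F n ℓ * R = Dc F n ℓ ↔
      Rᵀ * Matrix.J (Fin n) F * R = Matrix.J (Fin n) F ∧ Rᵀ *ᵥ ℓ = ℓ := by
  constructor
  · intro h
    have hq : ∀ x : Fin n ⊕ Fin n → F, ℓ ⬝ᵥ R *ᵥ x = ℓ ⬝ᵥ x := by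
      intro x
      apply sq_inj'
      rw [← Dc_quad, ← Dc_quad]
      conv_rhs => rw [← h]
      rw [← Matrix.mulVec_mulVec, ← Matrix.mulVec_mulVec, Matrix.dotProduct_mulVec x Rᵀ,
        Matrix.vecMul_transpose]
    have hl : Rᵀ *ᵥ ℓ = ℓ := by
      ext i
      have := hq (Pi.single i 1)
      rw [Matrix.dotProduct_mulVec, ← Matrix.mulVec_transpose, dotProduct_single_one,
        dotProduct_single_one] at this
      exact this
    refine ⟨?_, hl⟩
    rw [Dc_cong, hl] at h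
    exact add_right_cancel h
  · rintro ⟨h1, h2⟩
    rw [Dc_cong, h1, h2, Dc]

open Cfsg.Agent.Helper6 in
theorem card_O_Dc [Fintype F] [CharP F 2] (ℓ : Fin n ⊕ Fin n → F) (hℓ : ℓ ≠ 0) :
    Nat.card {R : Matrix (Fin n ⊕ Fin n) (Fin n ⊕ Fin n) F // Rᵀ * Dc F n ℓ * R = Dc F n ℓ}
        * (Fintype.card F ^ (2 * n) - 1)
      = Nat.card (Matrix.symplecticGroup (Fin n) F) := by
  classical
  have e1 : {R : Matrix (Fin n ⊕ Fin n) (Fin n ⊕ Fin n) F // Rᵀ * Dc F n ℓ * R = Dc F n ℓ} ≃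
      {g : Matrix.symplecticGroup (Fin n) F //
        (g : Matrix (Fin n ⊕ Fin n) (Fin n ⊕ Fin n) F) *ᵥ ℓ = ℓ} :=
    { toFun := fun R => ⟨⟨R.1ᵀ, SymplecticGroup.transpose_mem
          (SymplecticGroup.mem_iff'.2 ((Dc_isom_iff R.1 ℓ).1 R.2).1)⟩, ((Dc_isom_iff R.1 ℓ).1 R.2).2⟩
      invFun := fun g => ⟨g.1.1ᵀ, (Dc_isom_iff _ ℓ).2 ⟨by
          rw [Matrix.transpose_transpose]; exact SymplecticGroup.mem_iff.1 g.1.2, by
          rw [Matrix.transpose_transpose]; exact g.2⟩⟩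
      left_inv := fun R => Subtype.ext (Matrix.transpose_transpose _)
      right_inv := fun g => Subtype.ext (Subtype.ext (Matrix.transpose_transpose _)) }
  letI := spActFr n 1 F
  have hsmul : ∀ (g : Matrix.symplecticGroup (Fin n) F) (v : Fin 1 → (Fin n ⊕ Fin n → F))
      (i : Fin 1), (g • v) i = (g : Matrix (Fin n ⊕ Fin n) (Fin n ⊕ Fin n) F) *ᵥ v i :=
    fun _ _ _ => rfl
  have hinj : ∀ g : Matrix.symplecticGroup (Fin n) F, Function.Injective
      (fun x : Fin n ⊕ Fin n → F => (g : Matrix (Fin n ⊕ Fin n) (Fin n ⊕ Fin n) F) *ᵥ x) :=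
    fun g => Function.LeftInverse.injective (sp_inv_mulVec g)
  have hinv : ∀ g : Matrix.symplecticGroup (Fin n) F, ∀ v ∈ tiFr n 1 F, g • v ∈ tiFr n 1 F := by
    intro g v hv
    refine ⟨?_, fun i j => ?_⟩
    · have := hv.1.map' (Matrix.toLin' (g : Matrix (Fin n ⊕ Fin n) (Fin n ⊕ Fin n) F))
        (LinearMap.ker_eq_bot.2 (by
          intro x y hxy
          rw [Matrix.toLin'_apply, Matrix.toLin'_apply] at hxy
          exact hinj g hxy))
      have h' : g • v = (Matrix.toLin' (g : Matrix (Fin n ⊕ Fin n) (Fin n ⊕ Fin n) F)) ∘ v := by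
        funext i
        rw [hsmul, Function.comp_apply, Matrix.toLin'_apply]
      rw [h']
      exact this
    · rw [hsmul, hsmul, sp_preserves]
      exact hv.2 i j
  have htr : ∀ v ∈ tiFr n 1 F, ∀ w ∈ tiFr n 1 F,
      ∃ g : Matrix.symplecticGroup (Fin n) F, g • v = w := by
    intro v hv w hw
    obtain ⟨A, hA⟩ := sp_frames_trans n v w hv.1 hw.1 hv.2 hw.2
    exact ⟨A, funext fun i => (hsmul A v i).trans (hA i)⟩
  set x0 : Fin 1 → (Fin n ⊕ Fin n → F) := fun _ => ℓ with hx0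
  have hx0mem : x0 ∈ tiFr n 1 F :=
    ⟨linearIndependent_unique_iff.2 (by simpa [hx0] using hℓ), fun i j => sf_self _⟩
  have key := orbit_preimage_card (G := Matrix.symplecticGroup (Fin n) F) (tiFr n 1 F) {x0}
    (Set.singleton_subset_iff.2 hx0mem) x0 hx0mem hinv htr
  have e2 : {g : Matrix.symplecticGroup (Fin n) F // g • x0 ∈ ({x0} : Set _)} ≃
      {g : Matrix.symplecticGroup (Fin n) F //
        (g : Matrix (Fin n ⊕ Fin n) (Fin n ⊕ Fin n) F) *ᵥ ℓ = ℓ} :=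
    Equiv.subtypeEquivRight (fun g => by
      rw [Set.mem_singleton_iff]
      constructor
      · intro h; exact congrFun h 0
      · intro h; funext i; exact h)
  rw [Nat.card_congr e2, tiFr_card, Finset.prod_range_one] at key
  simp only [Nat.sub_zero, pow_zero, Nat.card_unique, one_mul] at key
  rw [Nat.card_congr e1, key]

end typeC

section final

open Cfsg.Agent.Helper14.SpInv2 Cfsg.Agent.Helper14.OInv Cfsg.Agent.Helper6

theorem rank_pos [Finite F] [CharP F 2] {m : ℕ} (t : Matrix.symplecticGroup (Fin m) F)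
    (ht : t * t = 1) (ht1 : t ≠ 1) :
    1 ≤ ((t : Matrix (Fin m ⊕ Fin m) (Fin m ⊕ Fin m) F) - 1).rank := by
  obtain ⟨a, ha⟩ := exists_repS t ht ht1
  rw [rank_of_conj_TS t _ (repS_transpose a) ha]
  rcases a with i | j
  · simp only [repS, Sum.elim_inl]
    rw [rank_Dn (by have := i.2; omega)]; omega
  · simp only [repS, Sum.elim_inr]
    rw [rank_Da (by have := j.2; omega)]; omega

theorem odd_rank_nonalt [Finite F] [CharP F 2] {m : ℕ} (t : Matrix.symplecticGroup (Fin m) F)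
    (ht : t * t = 1) (ht1 : t ≠ 1)
    (hodd : Odd ((t : Matrix (Fin m ⊕ Fin m) (Fin m ⊕ Fin m) F) - 1).rank) :
    ¬ ∀ x : Fin m ⊕ Fin m → F,
      Cfsg.sympForm m F x ((t : Matrix (Fin m ⊕ Fin m) (Fin m ⊕ Fin m) F) *ᵥ x) = 0 := by
  intro halt
  obtain ⟨a, ha⟩ := exists_repS t ht ht1
  rw [rank_of_conj_TS t _ (repS_transpose a) ha] at hodd
  have h1 := alt_of_conj_TS' t _ (repS_transpose a) ha halt
  rcases a with i | j
  · exact Dn_nalt (F := F) (by have := i.2; omega) (i.val + 1) (by omega) h1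
  · simp only [repS, Sum.elim_inr] at hodd
    rw [rank_Da (by have := j.2; omega)] at hodd
    exact (Nat.not_odd_iff_even.2 (even_two_mul _)) hodd

theorem cent_a [Fintype F] [CharP F 2] {q : ℕ} (hF : Fintype.card F = q) {m s : ℕ}
    (t : Matrix.symplecticGroup (Fin m) F) (ht : t ^ 2 = 1) (ht1 : t ≠ 1)
    (hs : ((t : Matrix (Fin m ⊕ Fin m) (Fin m ⊕ Fin m) F) - 1).rank = s) (heven : Even s)
    (halt : ∀ v : Fin m ⊕ Fin m → F, Cfsg.sympForm m F v
      ((t : Matrix (Fin m ⊕ Fin m) (Fin m ⊕ Fin m) F).mulVec v) = 0) :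
    Nat.card ↥(Subgroup.centralizer ({t} : Set ↥(Matrix.symplecticGroup (Fin m) F)))
      = q ^ (2 * m * s - (3 * s ^ 2 - s) / 2)
        * ((q : ℕ) ^ ((s / 2) ^ 2) * ∏ i : Fin (s / 2), (q ^ (2 * ((i : ℕ) + 1)) - 1))
        * ((q : ℕ) ^ ((m - s) ^ 2) * ∏ i : Fin (m - s), (q ^ (2 * ((i : ℕ) + 1)) - 1)) := by
  have ht' : t * t = 1 := by rw [← pow_two]; exact ht
  obtain ⟨k, rfl⟩ : ∃ k, s = 2 * k := by obtain ⟨k, hk⟩ := heven; exact ⟨k, by omega⟩
  obtain ⟨hle, hcard⟩ := card_cent_model t ht' ht1 (Matrix.J (Fin k) F) J_symm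
    (Matrix.isUnit_det_J _ _) (by rw [hs, Fintype.card_sum, Fintype.card_fin]; omega)
    ⟨fun _ v => J_alt v, fun _ x => halt x⟩
  rw [Fintype.card_sum, Fintype.card_fin] at hle hcard
  obtain ⟨r, rfl⟩ : ∃ r, m = k + k + r := ⟨m - (k + k), by omega⟩
  have e1 : k + k + r - (k + k) = r := by omega
  have e2 : 2 * k / 2 = k := by omega
  have e3 : k + k + r - 2 * k = r := by omega
  rw [hcard, card_O_J, e1, e2, e3, sp_card hF k, sp_card hF r, hF,
    Fin.prod_univ_eq_prod_range (fun i => q ^ (2 * (i + 1)) - 1),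
    Fin.prod_univ_eq_prod_range (fun i => q ^ (2 * (i + 1)) - 1)]
  have hexp : 2 * (r * (k + k)) + (k + k + 1).choose 2
      = 2 * (k + k + r) * (2 * k) - (3 * (2 * k) ^ 2 - 2 * k) / 2 := by
    have h1 : 2 * (k + k + r) * (2 * k) = 8 * (k * k) + 4 * (r * k) := by ring
    have h2 : 3 * (2 * k) ^ 2 = 12 * (k * k) := by ring
    have h3 : (k + k + 1).choose 2 = 2 * (k * k) + k := by
      rw [Nat.choose_two_right]
      have : (k + k + 1) * (k + k + 1 - 1) = 2 * (2 * (k * k) + k) := by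
        rw [show k + k + 1 - 1 = k + k by omega]; ring
      rw [this, Nat.mul_div_cancel_left _ (by norm_num)]
    have h4 : r * (k + k) = 2 * (r * k) := by ring
    have h5 : k ≤ k * k := Nat.le_mul_self k
    rw [h1, h2, h3, h4]
    omega
  rw [← hexp, pow_add]
  ring

theorem cent_b [Fintype F] [CharP F 2] {q : ℕ} (hF : Fintype.card F = q) {m s : ℕ}
    (t : Matrix.symplecticGroup (Fin m) F) (ht : t ^ 2 = 1)
    (hs : ((t : Matrix (Fin m ⊕ Fin m) (Fin m ⊕ Fin m) F) - 1).rank = s) (hodd : Odd s) :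
    Nat.card ↥(Subgroup.centralizer ({t} : Set ↥(Matrix.symplecticGroup (Fin m) F)))
      = q ^ (2 * m * s - (3 * s ^ 2 - s) / 2)
        * ((q : ℕ) ^ (((s - 1) / 2) ^ 2) * ∏ i : Fin ((s - 1) / 2), (q ^ (2 * ((i : ℕ) + 1)) - 1))
        * ((q : ℕ) ^ ((m - s) ^ 2) * ∏ i : Fin (m - s), (q ^ (2 * ((i : ℕ) + 1)) - 1)) := by
  have ht' : t * t = 1 := by rw [← pow_two]; exact ht
  have ht1 : t ≠ 1 := by
    rintro rfl
    have : ((1 : Matrix.symplecticGroup (Fin m) F) : Matrix (Fin m ⊕ Fin m) (Fin m ⊕ Fin m) F) - 1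
        = 0 := by rw [sp_coe_one, sub_self]
    rw [this, Matrix.rank_zero] at hs
    subst hs
    exact (by decide : ¬ Odd 0) hodd
  obtain ⟨k, rfl⟩ : ∃ k, s = 2 * k + 1 := hodd
  have hna : ¬ ∀ x : Fin m ⊕ Fin m → F, Cfsg.sympForm m F x
      ((t : Matrix (Fin m ⊕ Fin m) (Fin m ⊕ Fin m) F) *ᵥ x) = 0 :=
    odd_rank_nonalt t ht' ht1 (by rw [hs]; exact ⟨k, rfl⟩)
  have hD0 : ¬ ∀ v : Unit ⊕ (Fin k ⊕ Fin k) → F,
      v ⬝ᵥ (Matrix.fromBlocks 1 0 0 (Matrix.J (Fin k) F) :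
        Matrix (Unit ⊕ (Fin k ⊕ Fin k)) (Unit ⊕ (Fin k ⊕ Fin k)) F) *ᵥ v = 0 := by
    intro h
    have := h (Sum.elim (fun _ => 1) 0)
    rw [Matrix.fromBlocks_mulVec, dotProduct, Fintype.sum_sum_type] at this
    simp at this
  obtain ⟨hle, hcard⟩ := card_cent_model t ht' ht1
    (Matrix.fromBlocks 1 0 0 (Matrix.J (Fin k) F) :
        Matrix (Unit ⊕ (Fin k ⊕ Fin k)) (Unit ⊕ (Fin k ⊕ Fin k)) F)
    (by rw [Matrix.fromBlocks_transpose, J_symm]; simp)
    (by rw [Matrix.det_fromBlocks_zero₂₁, Matrix.det_one, one_mul]; exact Matrix.isUnit_det_J _ _)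
    (by rw [hs]; simp only [Fintype.card_sum, Fintype.card_fin, Fintype.card_unit]; omega)
    (iff_of_false hna hD0)
  rw [Fintype.card_sum, Fintype.card_sum, Fintype.card_fin, Fintype.card_unit] at hle hcard
  obtain ⟨r, rfl⟩ : ∃ r, m = 1 + (k + k) + r := ⟨m - (1 + (k + k)), by omega⟩
  have e1 : 1 + (k + k) + r - (1 + (k + k)) = r := by omega
  have e2 : (2 * k + 1 - 1) / 2 = k := by omega
  have e3 : 1 + (k + k) + r - (2 * k + 1) = r := by omega
  rw [hcard, card_O_oneJ, e1, e2, e3, sp_card hF k, sp_card hF r, hF,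
    Fin.prod_univ_eq_prod_range (fun i => q ^ (2 * (i + 1)) - 1),
    Fin.prod_univ_eq_prod_range (fun i => q ^ (2 * (i + 1)) - 1)]
  have hexp : 2 * (r * (1 + (k + k))) + (1 + (k + k) + 1).choose 2
      = 2 * (1 + (k + k) + r) * (2 * k + 1) - (3 * (2 * k + 1) ^ 2 - (2 * k + 1)) / 2 := by
    have h1 : 2 * (1 + (k + k) + r) * (2 * k + 1)
        = 8 * (k * k) + 8 * k + 2 + 4 * (r * k) + 2 * r := by ring
    have h2 : 3 * (2 * k + 1) ^ 2 = 12 * (k * k) + 12 * k + 3 := by ring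
    have h3 : (1 + (k + k) + 1).choose 2 = 2 * (k * k) + 3 * k + 1 := by
      rw [Nat.choose_two_right]
      have : (1 + (k + k) + 1) * (1 + (k + k) + 1 - 1) = 2 * (2 * (k * k) + 3 * k + 1) := by
        rw [show 1 + (k + k) + 1 - 1 = 2 * k + 1 by omega]; ring
      rw [this, Nat.mul_div_cancel_left _ (by norm_num)]
    have h4 : r * (1 + (k + k)) = r + 2 * (r * k) := by ring
    rw [h1, h2, h3, h4]
    omega
  rw [← hexp, pow_add]
  ring

theorem cent_c [Fintype F] [CharP F 2] {q : ℕ} (hF : Fintype.card F = q) {m s : ℕ}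
    (t : Matrix.symplecticGroup (Fin m) F) (ht : t ^ 2 = 1)
    (hs : ((t : Matrix (Fin m ⊕ Fin m) (Fin m ⊕ Fin m) F) - 1).rank = s) (heven : Even s)
    (hna : ∃ v : Fin m ⊕ Fin m → F, Cfsg.sympForm m F v
      ((t : Matrix (Fin m ⊕ Fin m) (Fin m ⊕ Fin m) F).mulVec v) ≠ 0) :
    Nat.card ↥(Subgroup.centralizer ({t} : Set ↥(Matrix.symplecticGroup (Fin m) F)))
      = q ^ (2 * m * s - (3 * s ^ 2 - 3 * s) / 2 - 1)
        * ((q : ℕ) ^ (((s - 2) / 2) ^ 2) * ∏ i : Fin ((s - 2) / 2), (q ^ (2 * ((i : ℕ) + 1)) - 1))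
        * ((q : ℕ) ^ ((m - s) ^ 2) * ∏ i : Fin (m - s), (q ^ (2 * ((i : ℕ) + 1)) - 1)) := by
  have ht' : t * t = 1 := by rw [← pow_two]; exact ht
  have ht1 : t ≠ 1 := by
    rintro rfl
    obtain ⟨v, hv⟩ := hna
    rw [sp_coe_one, Matrix.one_mulVec, sf_self] at hv
    exact hv rfl
  have hpos := rank_pos t ht' ht1
  rw [hs] at hpos
  obtain ⟨k, rfl⟩ : ∃ k, s = 2 * (k + 1) := by
    obtain ⟨j, hj⟩ := heven; exact ⟨j - 1, by omega⟩
  obtain ⟨ℓ, hℓ⟩ : ∃ ℓ : Fin (k + 1) ⊕ Fin (k + 1) → F, ℓ = Pi.single (Sum.inl 0) 1 := ⟨_, rfl⟩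
  have hℓ0 : ℓ ≠ 0 := by
    intro h
    have := congrFun h (Sum.inl 0)
    simp [hℓ] at this
  have hD0 : ¬ ∀ v : Fin (k + 1) ⊕ Fin (k + 1) → F, v ⬝ᵥ (Dc F (k + 1) ℓ) *ᵥ v = 0 := by
    intro h
    have := h ℓ
    rw [Dc_quad, hℓ, single_dotProduct] at this
    simp at this
  obtain ⟨hle, hcard⟩ := card_cent_model t ht' ht1 (Dc F (k + 1) ℓ) (Dc_symm ℓ) (Dc_det ℓ)
    (by rw [hs, Fintype.card_sum, Fintype.card_fin]; omega)
    (iff_of_false (fun h => by obtain ⟨v, hv⟩ := hna; exact hv (h v)) hD0)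
  rw [Fintype.card_sum, Fintype.card_fin] at hle hcard
  obtain ⟨r, rfl⟩ : ∃ r, m = k + 1 + (k + 1) + r := ⟨m - (k + 1 + (k + 1)), by omega⟩
  have hO := card_O_Dc ℓ hℓ0
  rw [sp_card hF (k + 1), hF, Finset.prod_range_succ, ← mul_assoc] at hO
  have hq : 0 < q ^ (2 * (k + 1)) - 1 := by
    have h2 : 2 ≤ q := hF ▸ Fintype.one_lt_card
    have h3 : 2 ^ (2 * (k + 1)) ≤ q ^ (2 * (k + 1)) := Nat.pow_le_pow_left h2 _
    have h4 : 2 ^ 1 ≤ 2 ^ (2 * (k + 1)) := Nat.pow_le_pow_right (by norm_num) (by omega)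
    omega
  have hO' := Nat.eq_of_mul_eq_mul_right hq hO
  have e1 : k + 1 + (k + 1) + r - (k + 1 + (k + 1)) = r := by omega
  have e2 : (2 * (k + 1) - 2) / 2 = k := by omega
  have e3 : k + 1 + (k + 1) + r - 2 * (k + 1) = r := by omega
  rw [hcard, hO', e1, e2, e3, sp_card hF r, hF,
    Fin.prod_univ_eq_prod_range (fun i => q ^ (2 * (i + 1)) - 1),
    Fin.prod_univ_eq_prod_range (fun i => q ^ (2 * (i + 1)) - 1)]
  have hexp : (k + 1) ^ 2 + 2 * (r * (k + 1 + (k + 1))) + (k + 1 + (k + 1) + 1).choose 2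
      = 2 * (k + 1 + (k + 1) + r) * (2 * (k + 1)) - (3 * (2 * (k + 1)) ^ 2 - 3 * (2 * (k + 1))) / 2
        - 1 + k ^ 2 := by
    have h1 : 2 * (k + 1 + (k + 1) + r) * (2 * (k + 1))
        = 8 * (k * k) + 16 * k + 8 + 4 * (r * k) + 4 * r := by ring
    have h2 : 3 * (2 * (k + 1)) ^ 2 = 12 * (k * k) + 24 * k + 12 := by ring
    have h3 : (k + 1 + (k + 1) + 1).choose 2 = 2 * (k * k) + 5 * k + 3 := by
      rw [Nat.choose_two_right]
      have : (k + 1 + (k + 1) + 1) * (k + 1 + (k + 1) + 1 - 1) = 2 * (2 * (k * k) + 5 * k + 3) := by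
        rw [show k + 1 + (k + 1) + 1 - 1 = 2 * k + 2 by omega]; ring
      rw [this, Nat.mul_div_cancel_left _ (by norm_num)]
    have h4 : r * (k + 1 + (k + 1)) = 2 * (r * k) + 2 * r := by ring
    have h5 : (k + 1) ^ 2 = k * k + 2 * k + 1 := by ring
    have h6 : k ^ 2 = k * k := by ring
    rw [h1, h2, h3, h4, h5, h6]
    omega
  have hp : q ^ ((k + 1) ^ 2) * q ^ (2 * (r * (k + 1 + (k + 1)))) * q ^ ((k + 1 + (k + 1) + 1).choose 2)
      = q ^ (2 * (k + 1 + (k + 1) + r) * (2 * (k + 1))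
          - (3 * (2 * (k + 1)) ^ 2 - 3 * (2 * (k + 1))) / 2 - 1) * q ^ (k ^ 2) := by
    rw [← pow_add, ← pow_add, ← pow_add, hexp]
  calc (q ^ ((k + 1) ^ 2) * ∏ x ∈ Finset.range k, (q ^ (2 * (x + 1)) - 1))
          * (q ^ (r ^ 2) * ∏ i ∈ Finset.range r, (q ^ (2 * (i + 1)) - 1))
          * q ^ (2 * (r * (k + 1 + (k + 1)))) * q ^ ((k + 1 + (k + 1) + 1).choose 2)
      = (q ^ ((k + 1) ^ 2) * q ^ (2 * (r * (k + 1 + (k + 1))))
          * q ^ ((k + 1 + (k + 1) + 1).choose 2))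
          * ((∏ x ∈ Finset.range k, (q ^ (2 * (x + 1)) - 1))
            * (q ^ (r ^ 2) * ∏ i ∈ Finset.range r, (q ^ (2 * (i + 1)) - 1))) := by ring
    _ = _ := by rw [hp]; ring

end final

end Cfsg.Agent.Helper14.SpCent
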