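import Mathlib
import Cfsg.Agent.Helper14.SpCent2
import Cfsg.Agent.Helper14.OInv
import Cfsg.Agent.Helper16.Dickson
import Cfsg.Agent.Helper16.StdForms

set_option autoImplicit false

namespace Cfsg.Agent.Helper14.OCent

open Matrix Cfsg.Agent.Helper14.SpInv2 Cfsg.Agent.Helper14.OInv Cfsg.Agent.Helper6
  Cfsg.Agent.Helper14.SpCent

variable {F : Type*} [Field F]

/-- the Artin–Schreier map -/
def wp (F : Type*) [Field F] [CharP F 2] : F →+ F where
  toFun ν := ν ^ 2 + ν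
  map_zero' := by simp
  map_add' a b := by rw [CharTwo.add_sq]; ring

theorem wp_apply [CharP F 2] (ν : F) : wp F ν = ν ^ 2 + ν := rfl

theorem wp_range_index [Fintype F] [CharP F 2] : (wp F).range.index = 2 := by
  have h1 := AddSubgroup.card_mul_index (wp F).ker
  have h2 : (wp F).ker.index = Nat.card (wp F).range := AddSubgroup.index_ker (wp F)
  have h3 := AddSubgroup.card_mul_index (wp F).range
  have h4 : Nat.card (wp F).ker = 2 := by
    have hs : ((wp F).ker : Set F) = {0, 1} := by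
      ext ν
      simp only [SetLike.mem_coe, AddMonoidHom.mem_ker, wp_apply, Set.mem_insert_iff,
        Set.mem_singleton_iff]
      constructor
      · intro h
        have h' : ν * (ν + 1) = 0 := by linear_combination h
        rcases mul_eq_zero.1 h' with h0 | h0
        · exact Or.inl h0
        · right
          have : ν = -1 := by linear_combination h0
          rw [this, CharTwo.neg_eq]
      · rintro (rfl | rfl)
        · simp
        · simp [CharTwo.add_self_eq_zero]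
    have : Nat.card (wp F).ker = Set.ncard ((wp F).ker : Set F) := (Nat.card_coe_set_eq _)
    rw [this, hs, Set.ncard_pair zero_ne_one]
  rw [h2, h4] at h1
  have hpos : 0 < Nat.card (wp F).range := Nat.card_pos
  have : Nat.card (wp F).range * (wp F).range.index = Nat.card (wp F).range * 2 := by
    rw [h3, ← h1, mul_comm]
  exact Nat.eq_of_mul_eq_mul_left hpos this

theorem as_add [Fintype F] [CharP F 2] (c d : F) (hc : ¬ ∃ ν : F, c = ν ^ 2 + ν)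
    (hd : ¬ ∃ ν : F, d = ν ^ 2 + ν) : ∃ ν : F, c + d = ν ^ 2 + ν := by
  have h := (AddSubgroup.add_mem_iff_of_index_two (wp_range_index (F := F)) (a := c) (b := d)).2
    ⟨fun h => (hc (by obtain ⟨ν, hν⟩ := h; exact ⟨ν, hν.symm⟩)).elim,
     fun h => (hd (by obtain ⟨ν, hν⟩ := h; exact ⟨ν, hν.symm⟩)).elim⟩
  obtain ⟨ν, hν⟩ := h
  exact ⟨ν, hν.symm⟩

theorem as_mem_add [CharP F 2] (c d : F) (hc : ∃ ν : F, c = ν ^ 2 + ν)
    (hd : ∃ ν : F, d = ν ^ 2 + ν) : ∃ ν : F, c + d = ν ^ 2 + ν := by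
  obtain ⟨ν, rfl⟩ := hc
  obtain ⟨μ, rfl⟩ := hd
  exact ⟨ν + μ, by rw [CharTwo.add_sq]; ring⟩

theorem as_exists_not [Fintype F] [CharP F 2] : ∃ c : F, ¬ ∃ ν : F, c = ν ^ 2 + ν := by
  by_contra hall
  push Not at hall
  have : (wp F).range = ⊤ := by
    rw [eq_top_iff]
    intro c _
    obtain ⟨ν, hν⟩ := hall c
    exact ⟨ν, hν.symm⟩
  have h1 := wp_range_index (F := F)
  rw [this, AddSubgroup.index_top] at h1
  omega

section defect
variable {m : ℕ}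

theorem defect_unique [CharP F 2] (a a' : Fin m ⊕ Fin m → F)
    (h : ∀ x, (Cfsg.sympForm m F x a) ^ 2 = (Cfsg.sympForm m F x a') ^ 2) : a = a' := by
  by_contra hne
  have hne' : a - a' ≠ 0 := sub_ne_zero.mpr hne
  obtain ⟨z, hz⟩ := Cfsg.Agent.S0768.nondeg _ hne'
  apply hz
  have h1 : Cfsg.sympForm m F z a = Cfsg.sympForm m F z a' := by
    apply sq_inj'
    rw [← pow_two, ← pow_two]; exact h z
  rw [sf_sub_left, sf_symm a z, sf_symm a' z, h1, sub_self]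

theorem defect_fixed [CharP F 2] (t h : Matrix.symplecticGroup (Fin m) F)
    (ht : ∀ x, Cfsg.quadFormPlus m F ((t : Matrix (Fin m ⊕ Fin m) (Fin m ⊕ Fin m) F) *ᵥ x)
      = Cfsg.quadFormPlus m F x)
    (hh : h * t = t * h) (a : Fin m ⊕ Fin m → F)
    (ha : ∀ x, Cfsg.quadFormPlus m F ((h : Matrix (Fin m ⊕ Fin m) (Fin m ⊕ Fin m) F) *ᵥ x)
        = Cfsg.quadFormPlus m F x + (Cfsg.sympForm m F x a) ^ 2) :
    (t : Matrix (Fin m ⊕ Fin m) (Fin m ⊕ Fin m) F) *ᵥ a = a := by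
  have hmat : (h : Matrix (Fin m ⊕ Fin m) (Fin m ⊕ Fin m) F) * (t : Matrix _ _ F)
      = (t : Matrix (Fin m ⊕ Fin m) (Fin m ⊕ Fin m) F) * (h : Matrix _ _ F) := by
    rw [← sp_coe_mul, hh, sp_coe_mul]
  have hB : ∀ x, Cfsg.sympForm m F ((t : Matrix (Fin m ⊕ Fin m) (Fin m ⊕ Fin m) F) *ᵥ x) a
      = Cfsg.sympForm m F x a := by
    intro x
    have h1 := ha ((t : Matrix (Fin m ⊕ Fin m) (Fin m ⊕ Fin m) F) *ᵥ x)
    rw [Matrix.mulVec_mulVec, hmat, ← Matrix.mulVec_mulVec, ht, ha x, ht x] at h1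
    apply sq_inj'
    rw [← pow_two, ← pow_two]
    exact (add_left_cancel h1).symm
  by_contra hne
  have hne' : (t : Matrix (Fin m ⊕ Fin m) (Fin m ⊕ Fin m) F) *ᵥ a - a ≠ 0 := sub_ne_zero.mpr hne
  obtain ⟨z, hz⟩ := Cfsg.Agent.S0768.nondeg _ hne'
  apply hz
  obtain ⟨y, rfl⟩ : ∃ y, (t : Matrix (Fin m ⊕ Fin m) (Fin m ⊕ Fin m) F) *ᵥ y = z :=
    ⟨_, sp_mulVec_inv t z⟩
  rw [sf_sub_left, sp_preserves, sf_symm a ((t : Matrix (Fin m ⊕ Fin m) (Fin m ⊕ Fin m) F) *ᵥ y), hB,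
    sf_symm a y, sub_self]

theorem exists_tv [CharP F 2] (t : Matrix.symplecticGroup (Fin m) F) (a : Fin m ⊕ Fin m → F)
    (hta : (t : Matrix (Fin m ⊕ Fin m) (Fin m ⊕ Fin m) F) *ᵥ a = a)
    (hν : ∃ ν : F, Cfsg.quadFormPlus m F a = ν ^ 2 + ν) :
    ∃ k : Matrix.symplecticGroup (Fin m) F, k * t = t * k ∧
      ∀ x, Cfsg.quadFormPlus m F ((k : Matrix (Fin m ⊕ Fin m) (Fin m ⊕ Fin m) F) *ᵥ x)
        = Cfsg.quadFormPlus m F x + (Cfsg.sympForm m F x a) ^ 2 := by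
  obtain ⟨ν, hν⟩ := hν
  have h2 : (2 : F) = 0 := CharTwo.two_eq_zero
  obtain ⟨μ, hμ⟩ : ∃ μ : F, μ ^ 2 * Cfsg.quadFormPlus m F a + μ + 1 = 0 := by
    by_cases hQa : Cfsg.quadFormPlus m F a = 0
    · exact ⟨1, by rw [hQa]; simp [CharTwo.add_self_eq_zero]⟩
    · refine ⟨ν / Cfsg.quadFormPlus m F a, ?_⟩
      have : (ν / Cfsg.quadFormPlus m F a) ^ 2 * Cfsg.quadFormPlus m F a
          + ν / Cfsg.quadFormPlus m F a = 1 := by
        field_simp
        rw [hν]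
        ring
      rw [this]; exact CharTwo.add_self_eq_zero 1
  obtain ⟨k, hk⟩ : ∃ k : Matrix.symplecticGroup (Fin m) F,
      ∀ x, (k : Matrix (Fin m ⊕ Fin m) (Fin m ⊕ Fin m) F) *ᵥ x
        = x + (μ * Cfsg.sympForm m F x a) • a :=
    ⟨⟨Cfsg.sympTransvection m a μ, Cfsg.Agent.S0764.result m a μ⟩, fun x => tv_mulVec a μ x⟩
  have hB : ∀ x, Cfsg.sympForm m F ((t : Matrix (Fin m ⊕ Fin m) (Fin m ⊕ Fin m) F) *ᵥ x) a
      = Cfsg.sympForm m F x a := by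
    intro x
    conv_lhs => rw [← hta]
    exact sp_preserves t x a
  refine ⟨k, ?_, ?_⟩
  · apply Subtype.ext
    rw [sp_coe_mul, sp_coe_mul]
    apply Matrix.mulVec_injective
    funext x
    rw [← Matrix.mulVec_mulVec, ← Matrix.mulVec_mulVec, hk, hk, hB, Matrix.mulVec_add,
      Matrix.mulVec_smul, hta]
  · intro x
    rw [hk, Q_add, Q_smul, sf_smul_right]
    linear_combination (Cfsg.sympForm m F x a) ^ 2 * hμ - (Cfsg.sympForm m F x a) ^ 2 * h2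

theorem card_CSp [Fintype F] [CharP F 2] (t : Matrix.symplecticGroup (Fin m) F)
    (ht : ∀ x, Cfsg.quadFormPlus m F ((t : Matrix (Fin m ⊕ Fin m) (Fin m ⊕ Fin m) F) *ᵥ x)
      = Cfsg.quadFormPlus m F x) :
    Nat.card {h : Matrix.symplecticGroup (Fin m) F // h * t = t * h}
      = Nat.card {a : Fin m ⊕ Fin m → F //
          (t : Matrix (Fin m ⊕ Fin m) (Fin m ⊕ Fin m) F) *ᵥ a = a ∧
            ∃ ν : F, Cfsg.quadFormPlus m F a = ν ^ 2 + ν}
        * Nat.card {h : Matrix.symplecticGroup (Fin m) F // h * t = t * h ∧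
            ∀ x, Cfsg.quadFormPlus m F ((h : Matrix (Fin m ⊕ Fin m) (Fin m ⊕ Fin m) F) *ᵥ x)
              = Cfsg.quadFormPlus m F x} := by
  classical
  have hK : ∀ a : {a : Fin m ⊕ Fin m → F //
      (t : Matrix (Fin m ⊕ Fin m) (Fin m ⊕ Fin m) F) *ᵥ a = a ∧
        ∃ ν : F, Cfsg.quadFormPlus m F a = ν ^ 2 + ν},
      ∃ k : Matrix.symplecticGroup (Fin m) F, k * t = t * k ∧
        ∀ x, Cfsg.quadFormPlus m F ((k : Matrix (Fin m ⊕ Fin m) (Fin m ⊕ Fin m) F) *ᵥ x)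
          = Cfsg.quadFormPlus m F x + (Cfsg.sympForm m F x a.1) ^ 2 :=
    fun a => exists_tv t a.1 a.2.1 a.2.2
  choose K hK1 hK2 using hK
  let Ψ : {a : Fin m ⊕ Fin m → F //
        (t : Matrix (Fin m ⊕ Fin m) (Fin m ⊕ Fin m) F) *ᵥ a = a ∧
          ∃ ν : F, Cfsg.quadFormPlus m F a = ν ^ 2 + ν} ×
      {h : Matrix.symplecticGroup (Fin m) F // h * t = t * h ∧
        ∀ x, Cfsg.quadFormPlus m F ((h : Matrix (Fin m ⊕ Fin m) (Fin m ⊕ Fin m) F) *ᵥ x)
          = Cfsg.quadFormPlus m F x} →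
      {h : Matrix.symplecticGroup (Fin m) F // h * t = t * h} :=
    fun p => ⟨p.2.1 * K p.1,
      ((show Commute p.2.1 t from p.2.2.1).mul_left (show Commute (K p.1) t from hK1 p.1)).eq⟩
  have hdef : ∀ p x, Cfsg.quadFormPlus m F
      (((Ψ p).1 : Matrix (Fin m ⊕ Fin m) (Fin m ⊕ Fin m) F) *ᵥ x)
      = Cfsg.quadFormPlus m F x + (Cfsg.sympForm m F x p.1.1) ^ 2 := by
    intro p x
    show Cfsg.quadFormPlus m F
      (((p.2.1 * K p.1 : Matrix.symplecticGroup (Fin m) F) :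
        Matrix (Fin m ⊕ Fin m) (Fin m ⊕ Fin m) F) *ᵥ x) = _
    rw [sp_coe_mul, ← Matrix.mulVec_mulVec, p.2.2.2, hK2]
  have hbij : Function.Bijective Ψ := by
    constructor
    · intro p p' hpp
      have h1 : p.1 = p'.1 := by
        apply Subtype.ext
        apply defect_unique
        intro x
        have e1 := hdef p x
        have e2 := hdef p' x
        rw [hpp] at e1
        exact add_left_cancel (e1.symm.trans e2)
      have h2 : p.2 = p'.2 := by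
        apply Subtype.ext
        have h3 : p.2.1 * K p.1 = p'.2.1 * K p'.1 := congrArg Subtype.val hpp
        rw [h1] at h3
        exact mul_right_cancel h3
      exact Prod.ext h1 h2
    · rintro ⟨h, hh⟩
      obtain ⟨a, ha, hν⟩ := sp_defect h
      have hta := defect_fixed t h ht hh a ha
      refine ⟨(⟨a, hta, hν⟩, ⟨h * (K ⟨a, hta, hν⟩)⁻¹, ?_, ?_⟩), ?_⟩
      · exact ((show Commute h t from hh).mul_left
          (show Commute (K ⟨a, hta, hν⟩) t from hK1 _).inv_left).eq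
      · intro w
        rw [sp_coe_mul, ← Matrix.mulVec_mulVec, ha]
        have := hK2 ⟨a, hta, hν⟩ (((K ⟨a, hta, hν⟩)⁻¹ : Matrix.symplecticGroup (Fin m) F) *ᵥ w)
        rw [sp_mulVec_inv] at this
        exact this.symm
      · apply Subtype.ext
        show h * (K ⟨a, hta, hν⟩)⁻¹ * K ⟨a, hta, hν⟩ = h
        rw [inv_mul_cancel_right]
  rw [← Nat.card_congr (Equiv.ofBijective Ψ hbij), Nat.card_prod]

theorem card_fix [Fintype F] (A : Matrix (Fin m ⊕ Fin m) (Fin m ⊕ Fin m) F) :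
    Nat.card {a : Fin m ⊕ Fin m → F // A *ᵥ a = a} = Fintype.card F ^ (2 * m - (A - 1).rank) := by
  have e : {a : Fin m ⊕ Fin m → F // A *ᵥ a = a} ≃ ↥(LinearMap.ker (Matrix.mulVecLin (A - 1))) :=
    Equiv.subtypeEquivRight (fun a => by
      rw [LinearMap.mem_ker, Matrix.mulVecLin_apply, Matrix.sub_mulVec, Matrix.one_mulVec,
        sub_eq_zero])
  rw [Nat.card_congr e, Module.natCard_eq_pow_finrank (K := F), Nat.card_eq_fintype_card]
  congr 1
  have h := LinearMap.finrank_range_add_finrank_ker (Matrix.mulVecLin (A - 1))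
  rw [Module.finrank_fintype_fun_eq_card, Fintype.card_sum, Fintype.card_fin] at h
  have : (A - 1).rank = Module.finrank F (LinearMap.range (Matrix.mulVecLin (A - 1))) := rfl
  omega

theorem card_Y_nonalt [Fintype F] [CharP F 2] (t : Matrix.symplecticGroup (Fin m) F)
    (htt : t * t = 1)
    (ht : ∀ x, Cfsg.quadFormPlus m F ((t : Matrix (Fin m ⊕ Fin m) (Fin m ⊕ Fin m) F) *ᵥ x)
      = Cfsg.quadFormPlus m F x)
    (hna : ∃ v, Cfsg.sympForm m F v ((t : Matrix (Fin m ⊕ Fin m) (Fin m ⊕ Fin m) F) *ᵥ v) ≠ 0) :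
    2 * Nat.card {a : Fin m ⊕ Fin m → F //
          (t : Matrix (Fin m ⊕ Fin m) (Fin m ⊕ Fin m) F) *ᵥ a = a ∧
            ∃ ν : F, Cfsg.quadFormPlus m F a = ν ^ 2 + ν}
      = Fintype.card F ^ (2 * m - ((t : Matrix (Fin m ⊕ Fin m) (Fin m ⊕ Fin m) F) - 1).rank) := by
  classical
  obtain ⟨v, hv⟩ := hna
  obtain ⟨d, hd⟩ := as_exists_not (F := F)
  have h2 : (2 : F) = 0 := CharTwo.two_eq_zero
  obtain ⟨w, hw⟩ : ∃ w, w = (t : Matrix (Fin m ⊕ Fin m) (Fin m ⊕ Fin m) F) *ᵥ v + v := ⟨_, rfl⟩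
  have hQw : Cfsg.quadFormPlus m F w
      = Cfsg.sympForm m F v ((t : Matrix (Fin m ⊕ Fin m) (Fin m ⊕ Fin m) F) *ᵥ v) := by
    rw [hw, Q_add, ht, sf_symm, CharTwo.add_self_eq_zero, zero_add]
  have htw : (t : Matrix (Fin m ⊕ Fin m) (Fin m ⊕ Fin m) F) *ᵥ w = w := by
    rw [hw, Matrix.mulVec_add, Matrix.mulVec_mulVec, ← sp_coe_mul, htt, sp_coe_one,
      Matrix.one_mulVec, add_comm]
  have hQw0 : Cfsg.quadFormPlus m F w ≠ 0 := by rw [hQw]; exact hv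
  obtain ⟨c, hc⟩ := exists_sqrt (d / Cfsg.quadFormPlus m F w)
  obtain ⟨w₀, hw₀⟩ : ∃ w₀, w₀ = c • w := ⟨_, rfl⟩
  have hQw₀ : Cfsg.quadFormPlus m F w₀ = d := by
    rw [hw₀, Q_smul, pow_two, hc, div_mul_cancel₀ _ hQw0]
  have htw₀ : (t : Matrix (Fin m ⊕ Fin m) (Fin m ⊕ Fin m) F) *ᵥ w₀ = w₀ := by
    rw [hw₀, Matrix.mulVec_smul, htw]
  have hperp : ∀ a, (t : Matrix (Fin m ⊕ Fin m) (Fin m ⊕ Fin m) F) *ᵥ a = a →
      Cfsg.sympForm m F a w₀ = 0 := by
    intro a ha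
    have h1 : Cfsg.sympForm m F a ((t : Matrix (Fin m ⊕ Fin m) (Fin m ⊕ Fin m) F) *ᵥ v)
        = Cfsg.sympForm m F a v := by
      conv_lhs => rw [← ha]
      exact sp_preserves t a v
    rw [hw₀, sf_smul_right, hw, sf_add_right, h1, CharTwo.add_self_eq_zero, mul_zero]
  rw [← card_fix, two_mul, ← Nat.card_sum]
  let φ : {a : Fin m ⊕ Fin m → F //
        (t : Matrix (Fin m ⊕ Fin m) (Fin m ⊕ Fin m) F) *ᵥ a = a ∧
          ∃ ν : F, Cfsg.quadFormPlus m F a = ν ^ 2 + ν} ⊕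
      {a : Fin m ⊕ Fin m → F //
        (t : Matrix (Fin m ⊕ Fin m) (Fin m ⊕ Fin m) F) *ᵥ a = a ∧
          ∃ ν : F, Cfsg.quadFormPlus m F a = ν ^ 2 + ν} →
      {a : Fin m ⊕ Fin m → F // (t : Matrix (Fin m ⊕ Fin m) (Fin m ⊕ Fin m) F) *ᵥ a = a} :=
    Sum.elim (fun a => ⟨a.1, a.2.1⟩)
      (fun a => ⟨a.1 + w₀, by rw [Matrix.mulVec_add, a.2.1, htw₀]⟩)
  have hclash : ∀ a b : {a : Fin m ⊕ Fin m → F //
        (t : Matrix (Fin m ⊕ Fin m) (Fin m ⊕ Fin m) F) *ᵥ a = a ∧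
          ∃ ν : F, Cfsg.quadFormPlus m F a = ν ^ 2 + ν}, a.1 = b.1 + w₀ → False := by
    intro a b h1
    apply hd
    have h3 : Cfsg.quadFormPlus m F a.1 = Cfsg.quadFormPlus m F b.1 + d := by
      rw [h1, Q_add, hQw₀, hperp b.1 b.2.1, add_zero]
    obtain ⟨ν, hν⟩ := as_mem_add _ _ a.2.2 b.2.2
    refine ⟨ν, ?_⟩
    rw [← hν, h3]
    linear_combination (-(Cfsg.quadFormPlus m F b.1)) * h2
  refine Nat.card_congr (Equiv.ofBijective φ ⟨?_, ?_⟩)
  · rintro (a | a) (b | b) hab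
    · have h1 : (φ (Sum.inl a)).1 = (φ (Sum.inl b)).1 := congrArg Subtype.val hab
      exact congrArg Sum.inl (Subtype.ext h1)
    · have h1 : (φ (Sum.inl a)).1 = (φ (Sum.inr b)).1 := congrArg Subtype.val hab
      exact (hclash a b h1).elim
    · have h1 : (φ (Sum.inr a)).1 = (φ (Sum.inl b)).1 := congrArg Subtype.val hab
      exact (hclash b a h1.symm).elim
    · have h1 : (φ (Sum.inr a)).1 = (φ (Sum.inr b)).1 := congrArg Subtype.val hab
      exact congrArg Sum.inr (Subtype.ext (add_right_cancel h1))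
  · rintro ⟨b, hb⟩
    by_cases hQb : ∃ ν : F, Cfsg.quadFormPlus m F b = ν ^ 2 + ν
    · exact ⟨Sum.inl ⟨b, hb, hQb⟩, rfl⟩
    · have hfix : (t : Matrix (Fin m ⊕ Fin m) (Fin m ⊕ Fin m) F) *ᵥ (b + w₀) = b + w₀ := by
        rw [Matrix.mulVec_add, hb, htw₀]
      have hQ : ∃ ν : F, Cfsg.quadFormPlus m F (b + w₀) = ν ^ 2 + ν := by
        rw [Q_add, hQw₀, hperp b hb, add_zero]
        exact as_add _ _ hQb hd
      refine ⟨Sum.inr ⟨b + w₀, hfix, hQ⟩, ?_⟩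
      apply Subtype.ext
      show b + w₀ + w₀ = b
      funext i
      simp only [Pi.add_apply]
      rw [add_assoc, CharTwo.add_self_eq_zero, add_zero]

end defect

section omega

theorem card_COmega {G : Type*} [Group G] [Finite G] (Ω : Subgroup G) (hΩ : Ω.index = 2) (x g₀ : G)
    (hg₀ : g₀ * x = x * g₀) (hg₀' : g₀ ∉ Ω) :
    2 * Nat.card {g : Ω // (g : G) * x = x * (g : G)} = Nat.card {g : G // g * x = x * g} := by
  classical
  rw [two_mul, ← Nat.card_sum]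
  let φ : {g : Ω // (g : G) * x = x * (g : G)} ⊕ {g : Ω // (g : G) * x = x * (g : G)} →
      {g : G // g * x = x * g} :=
    Sum.elim (fun g => ⟨g.1.1, g.2⟩)
      (fun g => ⟨g₀ * g.1.1,
        ((show Commute g₀ x from hg₀).mul_left (show Commute g.1.1 x from g.2)).eq⟩)
  have hclash : ∀ a b : {g : Ω // (g : G) * x = x * (g : G)}, a.1.1 = g₀ * b.1.1 → False := by
    intro a b h
    apply hg₀'
    have h1 : g₀ = a.1.1 * (b.1.1)⁻¹ := by rw [h]; group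
    rw [h1]; exact Ω.mul_mem a.1.2 (Ω.inv_mem b.1.2)
  refine Nat.card_congr (Equiv.ofBijective φ ⟨?_, ?_⟩)
  · rintro (a | a) (b | b) hab
    · have h1 : (φ (Sum.inl a)).1 = (φ (Sum.inl b)).1 := congrArg Subtype.val hab
      exact congrArg Sum.inl (Subtype.ext (Subtype.ext h1))
    · have h1 : (φ (Sum.inl a)).1 = (φ (Sum.inr b)).1 := congrArg Subtype.val hab
      exact (hclash a b h1).elim
    · have h1 : (φ (Sum.inr a)).1 = (φ (Sum.inl b)).1 := congrArg Subtype.val hab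
      exact (hclash b a h1.symm).elim
    · have h1 : (φ (Sum.inr a)).1 = (φ (Sum.inr b)).1 := congrArg Subtype.val hab
      exact congrArg Sum.inr (Subtype.ext (Subtype.ext (mul_left_cancel h1)))
  · rintro ⟨g, hg⟩
    by_cases hgΩ : g ∈ Ω
    · exact ⟨Sum.inl ⟨⟨g, hgΩ⟩, hg⟩, rfl⟩
    · have h1 : g₀⁻¹ * g ∈ Ω := by
        rw [Subgroup.mul_mem_iff_of_index_two hΩ]
        constructor
        · intro h; exact (hg₀' (by simpa using Ω.inv_mem h)).elim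
        · intro h; exact (hgΩ h).elim
      refine ⟨Sum.inr ⟨⟨g₀⁻¹ * g, h1⟩, ?_⟩, ?_⟩
      · exact ((show Commute g₀ x from hg₀).inv_left.mul_left (show Commute g x from hg)).eq
      · apply Subtype.ext
        show g₀ * (g₀⁻¹ * g) = g
        rw [mul_inv_cancel_left]

open Cfsg.Agent.Helper16 in
theorem omega_facts [Fintype F] [CharP F 2] {m : ℕ} (Q₀ : (Fin m ⊕ Fin m → F) → F)
    (hQ₀ : Q₀ = Cfsg.quadFormPlus m F) (h : Fintype.card F ≠ 2 ∨ m ≠ 2) (hm : 1 ≤ m) :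
    (Cfsg.Omega F Q₀).index = 2 ∧
    (∀ g : ↥(Cfsg.isometryGroup F Q₀), g ∈ Cfsg.Omega F Q₀ ↔
      Even (((g : GL (Fin m ⊕ Fin m) F) : Matrix (Fin m ⊕ Fin m) (Fin m ⊕ Fin m) F) - 1).rank) ∧
    (∀ w : Fin m ⊕ Fin m → F, Q₀ w ≠ 0 → ∃ r : ↥(Cfsg.isometryGroup F Q₀), r ∉ Cfsg.Omega F Q₀ ∧
      ∀ y, ((r : GL (Fin m ⊕ Fin m) F) : Matrix (Fin m ⊕ Fin m) (Fin m ⊕ Fin m) F) *ᵥ y
        = y - ((Q₀ w)⁻¹ * (Q₀ (w + y) - Q₀ w - Q₀ y)) • w) := by
  obtain rfl : Q₀ = ⇑(qfPlus m F) := hQ₀.trans (coe_qfPlus m F).symm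
  have h' : Fintype.card F ≠ 2 ∨ Fintype.card (Fin m ⊕ Fin m) ≠ 4 := by
    rcases h with h | h
    · exact Or.inl h
    · right; rw [Fintype.card_sum, Fintype.card_fin]; omega
  have hn : 1 ≤ Fintype.card (Fin m ⊕ Fin m) := by
    rw [Fintype.card_sum, Fintype.card_fin]; omega
  refine ⟨Omega_index_char2 _ qfPlus_nondegenerate h' hn,
    fun g => mem_Omega_iff_rank _ qfPlus_nondegenerate h' hn g, ?_⟩
  intro w hw
  refine ⟨reflElt (qfPlus m F) w, ?_, ?_⟩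
  · rw [mem_Omega_iff_dickson _ qfPlus_nondegenerate h' hn, dicksonHom_refl _ _ _ w hw]
    decide
  · intro y
    rw [reflElt_mulVec _ w hw, qrefl_apply]
    rfl

theorem card_CO [CharP F 2] {m : ℕ} (x : ↥(Cfsg.isometryGroup F (Cfsg.quadFormPlus m F))) :
    Nat.card {g : ↥(Cfsg.isometryGroup F (Cfsg.quadFormPlus m F)) // g * x = x * g}
      = Nat.card {h : Matrix.symplecticGroup (Fin m) F // h * toSp m x = toSp m x * h ∧
          ∀ v, Cfsg.quadFormPlus m F ((h : Matrix (Fin m ⊕ Fin m) (Fin m ⊕ Fin m) F) *ᵥ v)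
            = Cfsg.quadFormPlus m F v} := by
  refine Nat.card_congr
    { toFun := fun g => ⟨toSp m g.1, by rw [← map_mul, g.2, map_mul], toSp_isom g.1⟩
      invFun := fun h => ⟨ofSp h.1 h.2.2, toSp_injective m (by
        rw [map_mul, map_mul, toSp_ofSp]; exact h.2.1)⟩
      left_inv := fun g => Subtype.ext (toSp_injective m (toSp_ofSp (toSp m g.1) (toSp_isom g.1)))
      right_inv := fun h => Subtype.ext (toSp_ofSp h.1 h.2.2) }

theorem rank_le [Finite F] [CharP F 2] {m : ℕ} (t : Matrix.symplecticGroup (Fin m) F)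
    (ht : t * t = 1) : ((t : Matrix (Fin m ⊕ Fin m) (Fin m ⊕ Fin m) F) - 1).rank ≤ m := by
  by_cases ht1 : t = 1
  · subst ht1
    rw [sp_coe_one, sub_self, Matrix.rank_zero]
    exact Nat.zero_le _
  · obtain ⟨a, ha⟩ := exists_repS t ht ht1
    rw [rank_of_conj_TS t _ (repS_transpose a) ha]
    simpa using Matrix.rank_le_card_width (repS F m a)

/-- centraliser in `Ω⁺` of a non-alternating involution of `O⁺`, `q` even, in terms of the
centraliser in `Sp` -/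
theorem omega_cent_nonalt [Fintype F] [CharP F 2] {m : ℕ} (h : Fintype.card F ≠ 2 ∨ m ≠ 2)
    (hm : 1 ≤ m) (x : ↥(Cfsg.isometryGroup F (Cfsg.quadFormPlus m F))) (hx : x ^ 2 = 1)
    (hna : ∃ v, Cfsg.sympForm m F v
      ((toSp m x : Matrix (Fin m ⊕ Fin m) (Fin m ⊕ Fin m) F) *ᵥ v) ≠ 0)
    (g₀ : ↥(Cfsg.isometryGroup F (Cfsg.quadFormPlus m F))) (hg₀ : g₀ * x = x * g₀)
    (hg₀' : g₀ ∉ Cfsg.Omega F (Cfsg.quadFormPlus m F)) :
    Nat.card {g : ↥(Cfsg.Omega F (Cfsg.quadFormPlus m F)) //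
        (g : ↥(Cfsg.isometryGroup F (Cfsg.quadFormPlus m F))) * x
          = x * (g : ↥(Cfsg.isometryGroup F (Cfsg.quadFormPlus m F)))}
      * Fintype.card F ^ (2 * m
        - ((toSp m x : Matrix (Fin m ⊕ Fin m) (Fin m ⊕ Fin m) F) - 1).rank)
      = Nat.card (Subgroup.centralizer ({toSp m x} : Set (Matrix.symplecticGroup (Fin m) F))) := by
  have htt : toSp m x * toSp m x = 1 := by rw [← map_mul, ← pow_two, hx, map_one]
  have h1 := card_CSp (toSp m x) (toSp_isom x)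
  have h2 := card_Y_nonalt (toSp m x) htt (toSp_isom x) hna
  have h3 := card_CO x
  have h4 := card_COmega (Cfsg.Omega F (Cfsg.quadFormPlus m F))
    (omega_facts (Cfsg.quadFormPlus m F) rfl h hm).1 x g₀ hg₀ hg₀'
  have h5 : Nat.card (Subgroup.centralizer ({toSp m x} : Set (Matrix.symplecticGroup (Fin m) F)))
      = Nat.card {h : Matrix.symplecticGroup (Fin m) F // h * toSp m x = toSp m x * h} :=
    Nat.card_congr (Equiv.subtypeEquivRight (fun h => Subgroup.mem_centralizer_singleton_iff))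
  rw [h5, h1, ← h3, ← h4, ← h2]
  ring

end omega

section finals

theorem omega_cent_b [Fintype F] [CharP F 2] {q : ℕ} (hF : Fintype.card F = q) {m s : ℕ}
    (h : Fintype.card F ≠ 2 ∨ m ≠ 2) (x : ↥(Cfsg.isometryGroup F (Cfsg.quadFormPlus m F)))
    (hx : x ^ 2 = 1)
    (hs : (((x : Matrix.GeneralLinearGroup (Fin m ⊕ Fin m) F) :
      Matrix (Fin m ⊕ Fin m) (Fin m ⊕ Fin m) F) - 1).rank = s) (hodd : Odd s) :
    Nat.card {g : ↥(Cfsg.Omega F (Cfsg.quadFormPlus m F)) //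
        (g : ↥(Cfsg.isometryGroup F (Cfsg.quadFormPlus m F))) * x
          = x * (g : ↥(Cfsg.isometryGroup F (Cfsg.quadFormPlus m F)))}
      = q ^ (2 * m * (s - 1) - (3 * s ^ 2 - 3 * s) / 2)
        * ((q : ℕ) ^ (((s - 1) / 2) ^ 2) * ∏ i : Fin ((s - 1) / 2), (q ^ (2 * ((i : ℕ) + 1)) - 1))
        * ((q : ℕ) ^ ((m - s) ^ 2) * ∏ i : Fin (m - s), (q ^ (2 * ((i : ℕ) + 1)) - 1)) := by
  have hx2 : toSp m x ^ 2 = 1 := by rw [← map_pow, hx, map_one]
  have htt : toSp m x * toSp m x = 1 := by rw [← pow_two]; exact hx2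
  have hs' : ((toSp m x : Matrix (Fin m ⊕ Fin m) (Fin m ⊕ Fin m) F) - 1).rank = s := hs
  have ht1 : toSp m x ≠ 1 := by
    intro h1
    rw [h1, sp_coe_one, sub_self, Matrix.rank_zero] at hs'
    subst hs'
    exact (by decide : ¬ Odd 0) hodd
  have hle : s ≤ m := hs' ▸ rank_le (toSp m x) htt
  have hpos : 1 ≤ s := hodd.pos
  have hm : 1 ≤ m := by omega
  have hna : ∃ v, Cfsg.sympForm m F v
      ((toSp m x : Matrix (Fin m ⊕ Fin m) (Fin m ⊕ Fin m) F) *ᵥ v) ≠ 0 := by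
    have := odd_rank_nonalt (toSp m x) htt ht1 (by rw [hs']; exact hodd)
    push Not at this
    exact this
  have hxΩ : x ∉ Cfsg.Omega F (Cfsg.quadFormPlus m F) := by
    rw [(omega_facts (Cfsg.quadFormPlus m F) rfl h hm).2.1 x, hs]
    exact Nat.not_even_iff_odd.2 hodd
  have key := omega_cent_nonalt h hm x hx hna x rfl hxΩ
  rw [hs', cent_b hF (toSp m x) hx2 hs' hodd, hF] at key
  obtain ⟨k, rfl⟩ : ∃ k, s = 2 * k + 1 := hodd
  obtain ⟨r, rfl⟩ : ∃ r, m = 2 * k + 1 + r := ⟨m - (2 * k + 1), by omega⟩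
  have hexp : 2 * (2 * k + 1 + r) * (2 * k + 1) - (3 * (2 * k + 1) ^ 2 - (2 * k + 1)) / 2
      = (2 * (2 * k + 1 + r) * (2 * k + 1 - 1) - (3 * (2 * k + 1) ^ 2 - 3 * (2 * k + 1)) / 2)
        + (2 * (2 * k + 1 + r) - (2 * k + 1)) := by
    have h1 : 2 * (2 * k + 1 + r) * (2 * k + 1)
        = 8 * (k * k) + 8 * k + 2 + 4 * (r * k) + 2 * r := by ring
    have h2 : 3 * (2 * k + 1) ^ 2 = 12 * (k * k) + 12 * k + 3 := by ring
    have h3 : 2 * (2 * k + 1 + r) * (2 * k + 1 - 1) = 8 * (k * k) + 4 * k + 4 * (r * k) := by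
      rw [show 2 * k + 1 - 1 = 2 * k by omega]; ring
    rw [h1, h2, h3]
    omega
  rw [hexp, pow_add] at key
  have hq : 0 < q ^ (2 * (2 * k + 1 + r) - (2 * k + 1)) := by
    have : 0 < q := by rw [← hF]; exact Fintype.card_pos
    positivity
  apply Nat.eq_of_mul_eq_mul_right hq
  rw [key]
  ring

theorem omega_cent_c [Fintype F] [CharP F 2] {q : ℕ} (hF : Fintype.card F = q) {m s : ℕ}
    (h : Fintype.card F ≠ 2 ∨ m ≠ 2) (x : ↥(Cfsg.isometryGroup F (Cfsg.quadFormPlus m F)))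
    (hx : x ^ 2 = 1)
    (hs : (((x : Matrix.GeneralLinearGroup (Fin m ⊕ Fin m) F) :
      Matrix (Fin m ⊕ Fin m) (Fin m ⊕ Fin m) F) - 1).rank = s) (heven : Even s)
    (hna : ∃ v : Fin m ⊕ Fin m → F, Cfsg.quadFormPlus m F
      ((((x : Matrix.GeneralLinearGroup (Fin m ⊕ Fin m) F) :
        Matrix (Fin m ⊕ Fin m) (Fin m ⊕ Fin m) F) - 1).mulVec v) ≠ 0) :
    Nat.card {g : ↥(Cfsg.Omega F (Cfsg.quadFormPlus m F)) //
        (g : ↥(Cfsg.isometryGroup F (Cfsg.quadFormPlus m F))) * x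
          = x * (g : ↥(Cfsg.isometryGroup F (Cfsg.quadFormPlus m F)))}
      = q ^ (2 * m * (s - 1) - (3 * s ^ 2 - 5 * s) / 2 - 1)
        * ((q : ℕ) ^ (((s - 2) / 2) ^ 2) * ∏ i : Fin ((s - 2) / 2), (q ^ (2 * ((i : ℕ) + 1)) - 1))
        * ((q : ℕ) ^ ((m - s) ^ 2) * ∏ i : Fin (m - s), (q ^ (2 * ((i : ℕ) + 1)) - 1)) := by
  have hx2 : toSp m x ^ 2 = 1 := by rw [← map_pow, hx, map_one]
  have htt : toSp m x * toSp m x = 1 := by rw [← pow_two]; exact hx2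
  have hs' : ((toSp m x : Matrix (Fin m ⊕ Fin m) (Fin m ⊕ Fin m) F) - 1).rank = s := hs
  obtain ⟨v, hv⟩ := hna
  obtain ⟨M, hM⟩ : ∃ M : Matrix (Fin m ⊕ Fin m) (Fin m ⊕ Fin m) F,
      M = ((x : Matrix.GeneralLinearGroup (Fin m ⊕ Fin m) F) :
        Matrix (Fin m ⊕ Fin m) (Fin m ⊕ Fin m) F) := ⟨_, rfl⟩
  have hMt : M = (toSp m x : Matrix (Fin m ⊕ Fin m) (Fin m ⊕ Fin m) F) := hM
  have hMM : M * M = 1 := by rw [hMt, ← sp_coe_mul, htt, sp_coe_one]
  have hQx : ∀ u, Cfsg.quadFormPlus m F (M *ᵥ u) = Cfsg.quadFormPlus m F u := by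
    intro u; rw [hMt]; exact toSp_isom x u
  obtain ⟨w, hw⟩ : ∃ w, w = (M - 1) *ᵥ v := ⟨_, rfl⟩
  have hw' : w = M *ᵥ v + v := by
    rw [hw, Matrix.sub_mulVec, Matrix.one_mulVec]
    funext i
    simp only [Pi.sub_apply, Pi.add_apply]
    rw [CharTwo.sub_eq_add]
  have hQw : Cfsg.quadFormPlus m F w = Cfsg.sympForm m F v (M *ᵥ v) := by
    rw [hw', Q_add, hQx, sf_symm, CharTwo.add_self_eq_zero, zero_add]
  have hQw0 : Cfsg.quadFormPlus m F w ≠ 0 := by rw [hw, hM]; exact hv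
  have hna' : ∃ v, Cfsg.sympForm m F v
      ((toSp m x : Matrix (Fin m ⊕ Fin m) (Fin m ⊕ Fin m) F) *ᵥ v) ≠ 0 :=
    ⟨v, by rw [← hMt, ← hQw]; exact hQw0⟩
  have hMw : M *ᵥ w = w := by
    rw [hw', Matrix.mulVec_add, Matrix.mulVec_mulVec, hMM, Matrix.one_mulVec, add_comm]
  have ht1 : toSp m x ≠ 1 := by
    intro h1
    obtain ⟨u, hu⟩ := hna'
    rw [h1, sp_coe_one, Matrix.one_mulVec, sf_self] at hu
    exact hu rfl
  have hle : s ≤ m := hs' ▸ rank_le (toSp m x) htt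
  have hpos : 1 ≤ s := hs' ▸ rank_pos (toSp m x) htt ht1
  have hm : 1 ≤ m := by omega
  obtain ⟨hidx, hmem, hrefl⟩ := omega_facts (Cfsg.quadFormPlus m F) rfl h hm
  obtain ⟨r₀, hr₀, hact⟩ := hrefl w hQw0
  have hcomm : r₀ * x = x * r₀ := by
    apply Subtype.ext
    apply Units.ext
    apply Matrix.mulVec_injective
    funext y
    simp only [Subgroup.coe_mul, Units.val_mul]
    rw [← Matrix.mulVec_mulVec, ← Matrix.mulVec_mulVec, hact, hact, ← hM, Matrix.mulVec_sub,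
      Matrix.mulVec_smul]
    have e1 : Cfsg.quadFormPlus m F (w + M *ᵥ y) = Cfsg.quadFormPlus m F (w + y) := by
      conv_lhs => rw [← hMw, ← Matrix.mulVec_add]
      exact hQx _
    rw [e1, hQx, hMw]
  have key := omega_cent_nonalt h hm x hx hna' r₀ hcomm hr₀
  rw [hs', cent_c hF (toSp m x) hx2 hs' heven hna', hF] at key
  obtain ⟨k, rfl⟩ : ∃ k, s = 2 * (k + 1) := by
    obtain ⟨j, hj⟩ := heven; exact ⟨j - 1, by omega⟩
  obtain ⟨r, rfl⟩ : ∃ r, m = 2 * (k + 1) + r := ⟨m - 2 * (k + 1), by omega⟩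
  have hexp : 2 * (2 * (k + 1) + r) * (2 * (k + 1))
        - (3 * (2 * (k + 1)) ^ 2 - 3 * (2 * (k + 1))) / 2 - 1
      = (2 * (2 * (k + 1) + r) * (2 * (k + 1) - 1)
          - (3 * (2 * (k + 1)) ^ 2 - 5 * (2 * (k + 1))) / 2 - 1)
        + (2 * (2 * (k + 1) + r) - 2 * (k + 1)) := by
    have h1 : 2 * (2 * (k + 1) + r) * (2 * (k + 1))
        = 8 * (k * k) + 16 * k + 8 + 4 * (r * k) + 4 * r := by ring
    have h2 : 3 * (2 * (k + 1)) ^ 2 = 12 * (k * k) + 24 * k + 12 := by ring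
    have h3 : 2 * (2 * (k + 1) + r) * (2 * (k + 1) - 1)
        = 8 * (k * k) + 12 * k + 4 + 4 * (r * k) + 2 * r := by
      rw [show 2 * (k + 1) - 1 = 2 * k + 1 by omega]; ring
    rw [h1, h2, h3]
    omega
  rw [hexp, pow_add] at key
  have hq : 0 < q ^ (2 * (2 * (k + 1) + r) - 2 * (k + 1)) := by
    have : 0 < q := by rw [← hF]; exact Fintype.card_pos
    positivity
  apply Nat.eq_of_mul_eq_mul_right hq
  rw [key]
  ring

end finals

end Cfsg.Agent.Helper14.OCent
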