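import Mathlib
import Cfsg.Agent.Helper14.OCent
import Cfsg.Agent.Helper16.GLEmbed3
import Cfsg.Agent.S0287

set_option autoImplicit false

namespace Cfsg.Agent.Helper14.OCentA

open Matrix Cfsg.Agent.Helper14.SpInv2 Cfsg.Agent.Helper14.OInv Cfsg.Agent.Helper6
  Cfsg.Agent.Helper14.SpCent Cfsg.Agent.Helper14.OCent

variable {F : Type*} [Field F]

/-- the model alternating symmetric matrix of rank `2k` -/
def EJ (F : Type*) [Field F] {m k r : ℕ} (e : (Fin k ⊕ Fin k) ⊕ Fin r ≃ Fin m) :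
    Matrix (Fin m) (Fin m) F :=
  Matrix.reindex e e (Matrix.fromBlocks (Matrix.J (Fin k) F) 0 0 0)

section EJ
variable {m k r : ℕ} (e : (Fin k ⊕ Fin k) ⊕ Fin r ≃ Fin m)

theorem EJ_symm [CharP F 2] : (EJ F e)ᵀ = EJ F e := by
  have h : (Matrix.fromBlocks (Matrix.J (Fin k) F) 0 0 0 :
      Matrix ((Fin k ⊕ Fin k) ⊕ Fin r) ((Fin k ⊕ Fin k) ⊕ Fin r) F)ᵀ
      = Matrix.fromBlocks (Matrix.J (Fin k) F) 0 0 0 := by
    rw [Matrix.fromBlocks_transpose, J_symm]; simp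
  unfold EJ
  conv_rhs => rw [← h]
  rfl

theorem EJ_alt (b : Fin m → F) : b ⬝ᵥ EJ F e *ᵥ b = 0 := by
  unfold EJ
  rw [quad_reindex, quad_blk]
  exact J_alt _

theorem EJ_rank : (EJ F e).rank = 2 * k := by
  unfold EJ
  rw [Matrix.rank_reindex, rank_blk',
    Matrix.rank_of_isUnit _ ((Matrix.isUnit_iff_isUnit_det _).2 (Matrix.isUnit_det_J _ _)),
    Fintype.card_sum, Fintype.card_fin, two_mul]

theorem EJ_mulVec_eq_zero (b : Fin m → F) :
    EJ F e *ᵥ b = 0 ↔ ∀ i : Fin k ⊕ Fin k, b (e (Sum.inl i)) = 0 := by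
  unfold EJ
  rw [Matrix.reindex_apply, Matrix.submatrix_mulVec_equiv, Equiv.symm_symm]
  constructor
  · intro h i
    have h1 : (Matrix.fromBlocks (Matrix.J (Fin k) F) 0 0 0 :
        Matrix ((Fin k ⊕ Fin k) ⊕ Fin r) ((Fin k ⊕ Fin k) ⊕ Fin r) F) *ᵥ (b ∘ e) = 0 := by
      funext j
      have := congrFun h (e j)
      simpa using this
    rw [Matrix.fromBlocks_mulVec] at h1
    have h2 : Matrix.J (Fin k) F *ᵥ ((b ∘ e) ∘ Sum.inl) = 0 := by
      funext j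
      have := congrFun h1 (Sum.inl j)
      simpa using this
    have h3 := congrArg (fun v => (Matrix.J (Fin k) F)⁻¹ *ᵥ v) h2
    simp only [Matrix.mulVec_mulVec, Matrix.mulVec_zero] at h3
    rw [Matrix.nonsing_inv_mul _ (Matrix.isUnit_det_J _ _), Matrix.one_mulVec] at h3
    exact congrFun h3 i
  · intro h
    have h2 : ((b ∘ e) ∘ Sum.inl : Fin k ⊕ Fin k → F) = 0 := by
      funext i; exact h i
    funext j
    simp only [Function.comp_apply, Pi.zero_apply]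
    rw [Matrix.fromBlocks_mulVec, h2]
    simp

end EJ

theorem model_a [Fintype F] [CharP F 2] {m k r : ℕ} (hm : m = k + k + r)
    (t : Matrix.symplecticGroup (Fin m) F) (ht : t * t = 1) (ht1 : t ≠ 1)
    (hs : ((t : Matrix (Fin m ⊕ Fin m) (Fin m ⊕ Fin m) F) - 1).rank = 2 * k)
    (halt : ∀ x : Fin m ⊕ Fin m → F,
        Cfsg.sympForm m F x ((t : Matrix (Fin m ⊕ Fin m) (Fin m ⊕ Fin m) F) *ᵥ x) = 0)
    (hQ : ∀ x, Cfsg.quadFormPlus m F ((t : Matrix (Fin m ⊕ Fin m) (Fin m ⊕ Fin m) F) *ᵥ x)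
      = Cfsg.quadFormPlus m F x) :
    ∃ (e : (Fin k ⊕ Fin k) ⊕ Fin r ≃ Fin m) (g : Matrix.symplecticGroup (Fin m) F),
      (∀ x, Cfsg.quadFormPlus m F ((g : Matrix (Fin m ⊕ Fin m) (Fin m ⊕ Fin m) F) *ᵥ x)
        = Cfsg.quadFormPlus m F x) ∧ g * t = TS (EJ F e) * g := by
  classical
  have e : (Fin k ⊕ Fin k) ⊕ Fin r ≃ Fin m :=
    Fintype.equivFinOfCardEq (by simp only [Fintype.card_sum, Fintype.card_fin]; omega)
  have hE : (EJ F e)ᵀ = EJ F e := EJ_symm e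
  have hk : 1 ≤ k := by
    have := rank_pos t ht ht1
    omega
  have hE0 : EJ F e ≠ 0 := by
    intro h
    have := EJ_rank (F := F) e
    rw [h, Matrix.rank_zero] at this
    omega
  have hrank : ((t : Matrix (Fin m ⊕ Fin m) (Fin m ⊕ Fin m) F) - 1).rank
      = ((TS (EJ F e) : Matrix.symplecticGroup (Fin m) F).1 - 1).rank := by
    rw [rank_of_conj_TS (TS (EJ F e)) _ hE (IsConj.refl _), EJ_rank, hs]
  have htype' : (∀ x : Fin m ⊕ Fin m → F,
        Cfsg.sympForm m F x ((t : Matrix (Fin m ⊕ Fin m) (Fin m ⊕ Fin m) F) *ᵥ x) = 0) ↔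
      (∀ x : Fin m ⊕ Fin m → F, Cfsg.sympForm m F x
        (((TS (EJ F e) : Matrix.symplecticGroup (Fin m) F) :
          Matrix (Fin m ⊕ Fin m) (Fin m ⊕ Fin m) F) *ᵥ x) = 0) :=
    ⟨fun _ => alt_of_conj_TS _ _ hE (IsConj.refl _) (EJ_alt e), fun _ => halt⟩
  have hconj := conj_of_invariants t (TS (EJ F e)) ht ht1 (TS_sq _ hE)
    (TS_ne_one _ hE hE0) hrank htype'
  obtain ⟨c, hc⟩ := isConj_iff.1 hconj
  have hh : c * t = TS (EJ F e) * c := by rw [← hc]; group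
  obtain ⟨g, hg1, hg2⟩ := O_conj_of_Sp_conj t (TS (EJ F e)) c hQ (TS_isom _ hE (EJ_alt e)) hh
  exact ⟨e, g, hg1, hg2⟩

theorem Y_map [CharP F 2] {m : ℕ} (t t' g : Matrix.symplecticGroup (Fin m) F)
    (hg : ∀ x, Cfsg.quadFormPlus m F ((g : Matrix (Fin m ⊕ Fin m) (Fin m ⊕ Fin m) F) *ᵥ x)
        = Cfsg.quadFormPlus m F x) (hh : g * t = t' * g) (a : Fin m ⊕ Fin m → F)
    (ha : (t : Matrix (Fin m ⊕ Fin m) (Fin m ⊕ Fin m) F) *ᵥ a = a ∧
            ∃ ν : F, Cfsg.quadFormPlus m F a = ν ^ 2 + ν) :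
    (t' : Matrix (Fin m ⊕ Fin m) (Fin m ⊕ Fin m) F) *ᵥ
        ((g : Matrix (Fin m ⊕ Fin m) (Fin m ⊕ Fin m) F) *ᵥ a)
      = (g : Matrix (Fin m ⊕ Fin m) (Fin m ⊕ Fin m) F) *ᵥ a ∧
      ∃ ν : F, Cfsg.quadFormPlus m F ((g : Matrix (Fin m ⊕ Fin m) (Fin m ⊕ Fin m) F) *ᵥ a)
        = ν ^ 2 + ν := by
  have hmat : (g : Matrix (Fin m ⊕ Fin m) (Fin m ⊕ Fin m) F) * (t : Matrix _ _ F)
      = (t' : Matrix (Fin m ⊕ Fin m) (Fin m ⊕ Fin m) F) * (g : Matrix _ _ F) := by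
    rw [← sp_coe_mul, hh, sp_coe_mul]
  refine ⟨?_, ?_⟩
  · rw [Matrix.mulVec_mulVec, ← hmat, ← Matrix.mulVec_mulVec, ha.1]
  · rw [hg]; exact ha.2

theorem card_Y_transport [CharP F 2] {m : ℕ} (t t' g : Matrix.symplecticGroup (Fin m) F)
    (hg : ∀ x, Cfsg.quadFormPlus m F ((g : Matrix (Fin m ⊕ Fin m) (Fin m ⊕ Fin m) F) *ᵥ x)
        = Cfsg.quadFormPlus m F x) (hh : g * t = t' * g) :
    Nat.card {a : Fin m ⊕ Fin m → F //
          (t : Matrix (Fin m ⊕ Fin m) (Fin m ⊕ Fin m) F) *ᵥ a = a ∧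
            ∃ ν : F, Cfsg.quadFormPlus m F a = ν ^ 2 + ν}
      = Nat.card {a : Fin m ⊕ Fin m → F //
          (t' : Matrix (Fin m ⊕ Fin m) (Fin m ⊕ Fin m) F) *ᵥ a = a ∧
            ∃ ν : F, Cfsg.quadFormPlus m F a = ν ^ 2 + ν} := by
  have hg' : ∀ x, Cfsg.quadFormPlus m F
      (((g⁻¹ : Matrix.symplecticGroup (Fin m) F) : Matrix (Fin m ⊕ Fin m) (Fin m ⊕ Fin m) F) *ᵥ x)
        = Cfsg.quadFormPlus m F x := by
    intro x
    have := hg (((g⁻¹ : Matrix.symplecticGroup (Fin m) F) :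
      Matrix (Fin m ⊕ Fin m) (Fin m ⊕ Fin m) F) *ᵥ x)
    rw [sp_mulVec_inv] at this
    exact this.symm
  have hh' : g⁻¹ * t' = t * g⁻¹ := by
    have : t' = g * t * g⁻¹ := by rw [hh]; group
    rw [this]; group
  have hinv : ∀ x : Fin m ⊕ Fin m → F,
      ((g⁻¹ : Matrix.symplecticGroup (Fin m) F) : Matrix (Fin m ⊕ Fin m) (Fin m ⊕ Fin m) F) *ᵥ
        ((g : Matrix (Fin m ⊕ Fin m) (Fin m ⊕ Fin m) F) *ᵥ x) = x := by
    intro x
    rw [Matrix.mulVec_mulVec, ← sp_coe_mul, inv_mul_cancel, sp_coe_one, Matrix.one_mulVec]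
  exact Nat.card_congr
    { toFun := fun a => ⟨_, Y_map t t' g hg hh a.1 a.2⟩
      invFun := fun a => ⟨_, Y_map t' t g⁻¹ hg' hh' a.1 a.2⟩
      left_inv := fun a => Subtype.ext (hinv a.1)
      right_inv := fun a => Subtype.ext (sp_mulVec_inv g a.1) }

theorem card_Y_model [Fintype F] [CharP F 2] {m k r : ℕ} (e : (Fin k ⊕ Fin k) ⊕ Fin r ≃ Fin m) :
    Nat.card {a : Fin m ⊕ Fin m → F //
          ((TS (EJ F e) : Matrix.symplecticGroup (Fin m) F) :
            Matrix (Fin m ⊕ Fin m) (Fin m ⊕ Fin m) F) *ᵥ a = a ∧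
            ∃ ν : F, Cfsg.quadFormPlus m F a = ν ^ 2 + ν}
      = Fintype.card F ^ (2 * k)
        * Nat.card {v : Fin r ⊕ Fin r → F // ∃ ν : F, Cfsg.quadFormPlus r F v = ν ^ 2 + ν} := by
  classical
  have hchar : ∀ a : Fin m ⊕ Fin m → F,
      (((TS (EJ F e) : Matrix.symplecticGroup (Fin m) F) :
            Matrix (Fin m ⊕ Fin m) (Fin m ⊕ Fin m) F) *ᵥ a = a ∧
            ∃ ν : F, Cfsg.quadFormPlus m F a = ν ^ 2 + ν) ↔
      ((∀ i : Fin k ⊕ Fin k, a (Sum.inr (e (Sum.inl i))) = 0) ∧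
        ∃ ν : F, Cfsg.quadFormPlus r F (Sum.elim (fun j => a (Sum.inl (e (Sum.inr j))))
          (fun j => a (Sum.inr (e (Sum.inr j))))) = ν ^ 2 + ν) := by
    intro a
    have h1 : ((TS (EJ F e) : Matrix.symplecticGroup (Fin m) F) :
            Matrix (Fin m ⊕ Fin m) (Fin m ⊕ Fin m) F) *ᵥ a = a ↔
        ∀ i : Fin k ⊕ Fin k, a (Sum.inr (e (Sum.inl i))) = 0 := by
      rw [coe_TS _ (EJ_symm e), Matrix.fromBlocks_mulVec]
      refine Iff.trans ?_ (EJ_mulVec_eq_zero e (a ∘ Sum.inr))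
      constructor
      · intro h
        funext i
        have := congrFun h (Sum.inl i)
        simpa using this
      · intro h
        rw [h]
        funext i
        rcases i with i | i <;> simp
    rw [h1]
    refine and_congr_right (fun hz => ?_)
    have h2 : Cfsg.quadFormPlus m F a
        = Cfsg.quadFormPlus r F (Sum.elim (fun j => a (Sum.inl (e (Sum.inr j))))
          (fun j => a (Sum.inr (e (Sum.inr j))))) := by
      simp only [Cfsg.quadFormPlus]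
      rw [← Equiv.sum_comp e, Fintype.sum_sum_type]
      simp [hz]
    rw [h2]
  rw [Nat.card_congr (Equiv.subtypeEquivRight hchar)]
  have hcard : Nat.card (Fin k ⊕ Fin k → F) = Fintype.card F ^ (2 * k) := by
    rw [Nat.card_eq_fintype_card, Fintype.card_fun, Fintype.card_sum, Fintype.card_fin, two_mul]
  rw [← hcard, ← Nat.card_prod]
  refine Nat.card_congr
    { toFun := fun a => (fun i => a.1 (Sum.inl (e (Sum.inl i))),
        ⟨Sum.elim (fun j => a.1 (Sum.inl (e (Sum.inr j))))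
          (fun j => a.1 (Sum.inr (e (Sum.inr j)))), a.2.2⟩)
      invFun := fun p => ⟨Sum.elim
          (fun i => Sum.elim p.1 (fun j => p.2.1 (Sum.inl j)) (e.symm i))
          (fun i => Sum.elim (fun _ => 0) (fun j => p.2.1 (Sum.inr j)) (e.symm i)), ?_, ?_⟩
      left_inv := ?_
      right_inv := ?_ }
  · intro i
    simp
  · obtain ⟨ν, hν⟩ := p.2.2
    refine ⟨ν, ?_⟩
    rw [← hν]
    congr 1
    funext j
    rcases j with j | j <;> simp
  · rintro ⟨a, ha, hν⟩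
    apply Subtype.ext
    funext i
    rcases i with i | i
    · obtain ⟨j, rfl⟩ := e.surjective i
      rcases j with j | j <;> simp
    · obtain ⟨j, rfl⟩ := e.surjective i
      rcases j with j | j
      · simp [ha j]
      · simp
  · rintro ⟨u, v, hv⟩
    refine Prod.ext ?_ (Subtype.ext ?_)
    · funext i; simp
    · funext j
      rcases j with j | j <;> simp

theorem card_wp_quad [Fintype F] [CharP F 2] {q : ℕ} (hF : Fintype.card F = q) (r : ℕ) :
    2 * Nat.card {v : Fin r ⊕ Fin r → F // ∃ ν : F, Cfsg.quadFormPlus r F v = ν ^ 2 + ν}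
      = q ^ r * (q ^ r + 1) := by
  rcases Nat.eq_zero_or_pos r with rfl | hr
  · have : Nat.card {v : Fin 0 ⊕ Fin 0 → F // ∃ ν : F, Cfsg.quadFormPlus 0 F v = ν ^ 2 + ν}
        = 1 := by
      have : Subsingleton (Fin 0 ⊕ Fin 0 → F) :=
        ⟨fun a b => funext (fun i => by rcases i with i | i <;> exact i.elim0)⟩
      rw [Nat.card_eq_one_iff_unique]
      exact ⟨inferInstance, ⟨⟨0, 0, by simp [Cfsg.quadFormPlus]⟩⟩⟩
    rw [this]; simp
  · have h1 := card_CSp (1 : Matrix.symplecticGroup (Fin r) F)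
      (by intro x; rw [sp_coe_one, Matrix.one_mulVec])
    have h2 := card_CO (1 : ↥(Cfsg.isometryGroup F (Cfsg.quadFormPlus r F)))
    rw [map_one] at h2
    have h3 : Nat.card {h : Matrix.symplecticGroup (Fin r) F // h * 1 = 1 * h}
        = Nat.card (Matrix.symplecticGroup (Fin r) F) :=
      Nat.card_congr (Equiv.subtypeUnivEquiv (fun h => by simp))
    have h4 : Nat.card {g : ↥(Cfsg.isometryGroup F (Cfsg.quadFormPlus r F)) // g * 1 = 1 * g}
        = Nat.card ↥(Cfsg.isometryGroup F (Cfsg.quadFormPlus r F)) :=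
      Nat.card_congr (Equiv.subtypeUnivEquiv (fun h => by simp))
    have h5 : Nat.card {a : Fin r ⊕ Fin r → F //
          ((1 : Matrix.symplecticGroup (Fin r) F) : Matrix (Fin r ⊕ Fin r) (Fin r ⊕ Fin r) F) *ᵥ a
            = a ∧ ∃ ν : F, Cfsg.quadFormPlus r F a = ν ^ 2 + ν}
        = Nat.card {v : Fin r ⊕ Fin r → F // ∃ ν : F, Cfsg.quadFormPlus r F v = ν ^ 2 + ν} :=
      Nat.card_congr (Equiv.subtypeEquivRight (fun a => by
        rw [sp_coe_one, Matrix.one_mulVec]; simp))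
    rw [h3, h5, ← h2, h4, sp_card hF r, Cfsg.Agent.S0287.result hF r hr] at h1
    obtain ⟨n, rfl⟩ : ∃ n, r = n + 1 := ⟨r - 1, by omega⟩
    rw [Finset.prod_range_succ] at h1
    simp only [Nat.add_sub_cancel] at h1
    have hq : 2 ≤ q := by rw [← hF]; exact Fintype.one_lt_card
    have hP : 0 < ∏ i ∈ Finset.range n, (q ^ (2 * (i + 1)) - 1) := by
      apply Finset.prod_pos
      intro i _
      have : 2 ≤ q ^ (2 * (i + 1)) := by
        calc 2 ≤ q := hq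
          _ = q ^ 1 := (pow_one q).symm
          _ ≤ q ^ (2 * (i + 1)) := Nat.pow_le_pow_right (by omega) (by omega)
      omega
    have ha : 2 ≤ q ^ (n + 1) := by
      calc 2 ≤ q := hq
        _ = q ^ 1 := (pow_one q).symm
        _ ≤ q ^ (n + 1) := Nat.pow_le_pow_right (by omega) (by omega)
    obtain ⟨c, hc⟩ : ∃ c, q ^ (n + 1) = c + 1 := ⟨q ^ (n + 1) - 1, by omega⟩
    have e1 : q ^ ((n + 1) ^ 2) = q ^ ((n + 1) * n) * (c + 1) := by
      rw [← hc, ← pow_add]; congr 1; ring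
    have e2 : q ^ (2 * (n + 1)) - 1 = c * (c + 2) := by
      have : q ^ (2 * (n + 1)) = (c + 1) * (c + 1) := by
        rw [← hc, ← pow_add]; congr 1; ring
      rw [this]
      have : (c + 1) * (c + 1) = c * (c + 2) + 1 := by ring
      omega
    have e3 : q ^ (n + 1) - 1 = c := by omega
    rw [e1, e2, e3] at h1
    rw [hc]
    have hc0 : 0 < c := by omega
    have hb : 0 < q ^ ((n + 1) * n) := by positivity
    have hpos : 0 < q ^ ((n + 1) * n) * c * ∏ i ∈ Finset.range n, (q ^ (2 * (i + 1)) - 1) := by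
      positivity
    apply Nat.eq_of_mul_eq_mul_left hpos
    linear_combination -h1

open Cfsg.Agent.Helper16 in
theorem upper_mem_Omega [Fintype F] [CharP F 2] {m : ℕ} (h : Fintype.card F ≠ 2 ∨ m ≠ 2)
    (hm : 1 ≤ m) (g : ↥(Cfsg.isometryGroup F (Cfsg.quadFormPlus m F)))
    (hC : ((g : GL (Fin m ⊕ Fin m) F) : Matrix (Fin m ⊕ Fin m) (Fin m ⊕ Fin m) F).toBlocks₂₁ = 0) :
    g ∈ Cfsg.Omega F (Cfsg.quadFormPlus m F) := by
  classical
  obtain ⟨hidx, hmem, -⟩ := omega_facts (Cfsg.quadFormPlus m F) rfl h hm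
  obtain ⟨M, hM⟩ : ∃ M : Matrix (Fin m ⊕ Fin m) (Fin m ⊕ Fin m) F,
      M = ((g : GL (Fin m ⊕ Fin m) F) : Matrix (Fin m ⊕ Fin m) (Fin m ⊕ Fin m) F) := ⟨_, rfl⟩
  obtain ⟨M', hM'⟩ : ∃ M' : Matrix (Fin m ⊕ Fin m) (Fin m ⊕ Fin m) F,
      M' = (((g⁻¹ : ↥(Cfsg.isometryGroup F (Cfsg.quadFormPlus m F))) : GL (Fin m ⊕ Fin m) F) :
        Matrix (Fin m ⊕ Fin m) (Fin m ⊕ Fin m) F) := ⟨_, rfl⟩
  have hMM' : M' * M = 1 := by
    rw [hM, hM', ← Units.val_mul, ← Subgroup.coe_mul, inv_mul_cancel]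
    rfl
  rw [← hM] at hC
  have hMb : M = Matrix.fromBlocks M.toBlocks₁₁ M.toBlocks₁₂ 0 M.toBlocks₂₂ := by
    rw [← hC]; exact (Matrix.fromBlocks_toBlocks M).symm
  have hM'b : M' = Matrix.fromBlocks M'.toBlocks₁₁ M'.toBlocks₁₂ M'.toBlocks₂₁ M'.toBlocks₂₂ :=
    (Matrix.fromBlocks_toBlocks M').symm
  have hA : M'.toBlocks₁₁ * M.toBlocks₁₁ = 1 := by
    have := hMM'
    rw [hMb, hM'b, Matrix.fromBlocks_multiply, ← Matrix.fromBlocks_one, Matrix.fromBlocks_inj]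
      at this
    simpa using this.1
  obtain ⟨Au, hAu, hAu'⟩ : ∃ Au : GL (Fin m) F, (Au : Matrix (Fin m) (Fin m) F) = M.toBlocks₁₁ ∧
      ((Au⁻¹ : GL (Fin m) F) : Matrix (Fin m) (Fin m) F) = M'.toBlocks₁₁ :=
    ⟨⟨M.toBlocks₁₁, M'.toBlocks₁₁, mul_eq_one_comm.1 hA, hA⟩, rfl, rfl⟩
  have hL : glEmbed m F Au ∈ Cfsg.Omega F (Cfsg.quadFormPlus m F) :=
    (mem_NGrp Au).1 (mem_NGrp_of_even CharTwo.two_eq_zero h Au)
  obtain ⟨T, hT⟩ : ∃ T : Matrix (Fin m) (Fin m) F, T = M'.toBlocks₁₁ * M.toBlocks₁₂ := ⟨_, rfl⟩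
  obtain ⟨D', hD'⟩ : ∃ D' : Matrix (Fin m) (Fin m) F, D' = M.toBlocks₁₁ᵀ * M.toBlocks₂₂ :=
    ⟨_, rfl⟩
  have hUmat : ((((glEmbed m F Au)⁻¹ * g : ↥(Cfsg.isometryGroup F (Cfsg.quadFormPlus m F))) :
      GL (Fin m ⊕ Fin m) F) : Matrix (Fin m ⊕ Fin m) (Fin m ⊕ Fin m) F)
      = Matrix.fromBlocks 1 T 0 D' := by
    rw [← map_inv, Subgroup.coe_mul, Units.val_mul, glEmbed_coe, ← hM]
    unfold blockMat
    rw [inv_inv, hAu, hAu']
    conv_lhs => rw [hMb]
    rw [Matrix.fromBlocks_multiply, hA, hT, hD']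
    simp
  have hUisom := (mem_isom_iff _).mp ((glEmbed m F Au)⁻¹ * g).2
  rw [hUmat] at hUisom
  have hform : ∀ v₁ v₂ : Fin m → F, (v₁ + T *ᵥ v₂) ⬝ᵥ (D' *ᵥ v₂) = v₁ ⬝ᵥ v₂ := by
    intro v₁ v₂
    have := hUisom (Sum.elim v₁ v₂)
    rw [Matrix.fromBlocks_mulVec] at this
    simpa [Cfsg.quadFormPlus, dotProduct] using this
  have hTD : ∀ v₂ : Fin m → F, (T *ᵥ v₂) ⬝ᵥ (D' *ᵥ v₂) = 0 := by
    intro v₂
    have := hform 0 v₂
    simpa using this
  have hD1 : D' = 1 := by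
    apply Matrix.mulVec_injective
    funext v₂
    rw [Matrix.one_mulVec]
    apply dotProduct_eq
    intro u
    have := hform u v₂
    rw [add_dotProduct, hTD, add_zero] at this
    rw [dotProduct_comm, this, dotProduct_comm]
  have hTalt : ∀ b : Fin m → F, b ⬝ᵥ T *ᵥ b = 0 := by
    intro b
    have := hTD b
    rw [hD1, Matrix.one_mulVec] at this
    rw [dotProduct_comm]; exact this
  have hU : (glEmbed m F Au)⁻¹ * g ∈ Cfsg.Omega F (Cfsg.quadFormPlus m F) := by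
    rw [hmem, hUmat, hD1]
    have : (Matrix.fromBlocks 1 T 0 1 : Matrix (Fin m ⊕ Fin m) (Fin m ⊕ Fin m) F) - 1
        = Matrix.fromBlocks 0 T 0 0 := by
      ext (i | i) (j | j) <;> simp [Matrix.one_apply]
    rw [this, rank_blk]
    obtain ⟨k, hk, P, hP, hPT⟩ := alt_cong T hTalt
    have hPt : IsUnit Pᵀ.det := by rw [Matrix.det_transpose]; exact hP
    rw [← Matrix.rank_mul_eq_right_of_isUnit_det P T hP,
      ← Matrix.rank_mul_eq_left_of_isUnit_det Pᵀ (P * T) hPt, hPT, rank_Da hk]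
    exact even_two_mul k
  have : g = glEmbed m F Au * ((glEmbed m F Au)⁻¹ * g) := by group
  rw [this]
  exact Subgroup.mul_mem _ hL hU



theorem arith_zero (q k CO N S : ℕ) (hq : 2 ≤ q) (hN : 2 * N = q ^ 0 * (q ^ 0 + 1))
    (hcent : q ^ (2 * k) * N * CO
      = q ^ (2 * (k + k + 0) * (2 * k) - (3 * (2 * k) ^ 2 - 2 * k) / 2) * S
        * (q ^ (0 ^ 2) * ∏ i ∈ Finset.range 0, (q ^ (2 * (i + 1)) - 1))) :
    CO = q ^ (2 * (k + k + 0) * (2 * k) - (3 * (2 * k) ^ 2 + 2 * k) / 2) * S * 1 := by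
  have hN1 : N = 1 := by
    simp only [pow_zero, one_mul] at hN
    omega
  subst hN1
  have hexp : 2 * (k + k + 0) * (2 * k) - (3 * (2 * k) ^ 2 - 2 * k) / 2
      = (2 * (k + k + 0) * (2 * k) - (3 * (2 * k) ^ 2 + 2 * k) / 2) + 2 * k := by
    have h1 : 2 * (k + k + 0) * (2 * k) = 8 * (k * k) := by ring
    have h2 : 3 * (2 * k) ^ 2 = 12 * (k * k) := by ring
    have h5 : k ≤ k * k := Nat.le_mul_self k
    rw [h1, h2]
    omega
  have e0 : q ^ (0 ^ 2) * ∏ i ∈ Finset.range 0, (q ^ (2 * (i + 1)) - 1) = 1 := by simp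
  rw [hexp, pow_add, e0] at hcent
  have hpos : 0 < q ^ (2 * k) := by positivity
  apply Nat.eq_of_mul_eq_mul_left hpos
  calc q ^ (2 * k) * CO = q ^ (2 * k) * 1 * CO := by ring
    _ = _ := hcent
    _ = _ := by ring

theorem arith_pos (q k n CΩ N S : ℕ) (hq : 2 ≤ q)
    (hN : 2 * N = q ^ (n + 1) * (q ^ (n + 1) + 1))
    (hcent : q ^ (2 * k) * N * (2 * CΩ)
      = q ^ (2 * (k + k + (n + 1)) * (2 * k) - (3 * (2 * k) ^ 2 - 2 * k) / 2) * S
        * (q ^ ((n + 1) ^ 2) * ∏ i ∈ Finset.range (n + 1), (q ^ (2 * (i + 1)) - 1))) :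
    CΩ = q ^ (2 * (k + k + (n + 1)) * (2 * k) - (3 * (2 * k) ^ 2 + 2 * k) / 2) * S
        * (q ^ ((n + 1) * n) * (q ^ (n + 1) - 1)
          * ∏ i ∈ Finset.range n, (q ^ (2 * (i + 1)) - 1)) := by
  have hexp : 2 * (k + k + (n + 1)) * (2 * k) - (3 * (2 * k) ^ 2 - 2 * k) / 2
      = (2 * (k + k + (n + 1)) * (2 * k) - (3 * (2 * k) ^ 2 + 2 * k) / 2) + 2 * k := by
    have h1 : 2 * (k + k + (n + 1)) * (2 * k) = 8 * (k * k) + 4 * (n * k) + 4 * k := by ring
    have h2 : 3 * (2 * k) ^ 2 = 12 * (k * k) := by ring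
    have h5 : k ≤ k * k := Nat.le_mul_self k
    rw [h1, h2]
    omega
  have ha : 2 ≤ q ^ (n + 1) := by
    calc 2 ≤ q := hq
      _ = q ^ 1 := (pow_one q).symm
      _ ≤ q ^ (n + 1) := Nat.pow_le_pow_right (by omega) (by omega)
  obtain ⟨c, hc⟩ : ∃ c, q ^ (n + 1) = c + 1 := ⟨q ^ (n + 1) - 1, by omega⟩
  have e1 : q ^ ((n + 1) ^ 2) = q ^ ((n + 1) * n) * (c + 1) := by
    rw [← hc, ← pow_add]; congr 1; ring
  have e2 : q ^ (2 * (n + 1)) - 1 = c * (c + 2) := by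
    have : q ^ (2 * (n + 1)) = (c + 1) * (c + 1) := by
      rw [← hc, ← pow_add]; congr 1; ring
    rw [this]
    have : (c + 1) * (c + 1) = c * (c + 2) + 1 := by ring
    omega
  have e3 : q ^ (n + 1) - 1 = c := by omega
  rw [hexp, pow_add, Finset.prod_range_succ, e1, e2] at hcent
  rw [hc] at hN
  rw [e3]
  have hq0 : 0 < q := by omega
  have hK : 0 < q ^ (2 * k) * ((c + 1) * (c + 1 + 1)) := by positivity
  apply Nat.eq_of_mul_eq_mul_left hK
  calc q ^ (2 * k) * ((c + 1) * (c + 1 + 1)) * CΩ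
      = q ^ (2 * k) * CΩ * ((c + 1) * (c + 1 + 1)) := by ring
    _ = q ^ (2 * k) * CΩ * (2 * N) := by rw [hN]
    _ = q ^ (2 * k) * N * (2 * CΩ) := by ring
    _ = _ := hcent
    _ = _ := by ring

theorem arith_ex (q k n N : ℕ) (hq : 2 ≤ q) (hN : 2 * N = q ^ (n + 1) * (q ^ (n + 1) + 1))
    (hY : q ^ (2 * (k + k + (n + 1)) - 2 * k) = q ^ (2 * k) * N) : False := by
  have ha : 2 ≤ q ^ (n + 1) := by
    calc 2 ≤ q := hq
      _ = q ^ 1 := (pow_one q).symm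
      _ ≤ q ^ (n + 1) := Nat.pow_le_pow_right (by omega) (by omega)
  have e : 2 * (k + k + (n + 1)) - 2 * k = 2 * k + (n + 1) + (n + 1) := by omega
  rw [e, pow_add, pow_add] at hY
  have hq0 : 0 < q := by omega
  have hpos : 0 < q ^ (2 * k) := by positivity
  have hNa : N = q ^ (n + 1) * q ^ (n + 1) := by
    apply Nat.eq_of_mul_eq_mul_left hpos
    rw [← hY]; ring
  generalize q ^ (n + 1) = a at ha hN hNa
  subst hNa
  nlinarith [Nat.mul_le_mul_right a ha]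

theorem omega_cent_a [Fintype F] [CharP F 2] {q : ℕ} (hF : Fintype.card F = q) {m s : ℕ}
    (h : Fintype.card F ≠ 2 ∨ m ≠ 2) (x : ↥(Cfsg.isometryGroup F (Cfsg.quadFormPlus m F)))
    (hx : x ^ 2 = 1) (hx1 : x ≠ 1)
    (hs : (((x : Matrix.GeneralLinearGroup (Fin m ⊕ Fin m) F) :
      Matrix (Fin m ⊕ Fin m) (Fin m ⊕ Fin m) F) - 1).rank = s) (heven : Even s)
    (halt : ∀ v : Fin m ⊕ Fin m → F, Cfsg.quadFormPlus m F
      ((((x : Matrix.GeneralLinearGroup (Fin m ⊕ Fin m) F) :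
        Matrix (Fin m ⊕ Fin m) (Fin m ⊕ Fin m) F) - 1).mulVec v) = 0) :
    Nat.card {g : ↥(Cfsg.Omega F (Cfsg.quadFormPlus m F)) //
        (g : ↥(Cfsg.isometryGroup F (Cfsg.quadFormPlus m F))) * x
          = x * (g : ↥(Cfsg.isometryGroup F (Cfsg.quadFormPlus m F)))}
      = q ^ (2 * m * s - (3 * s ^ 2 + s) / 2)
        * ((q : ℕ) ^ ((s / 2) ^ 2) * ∏ i : Fin (s / 2), (q ^ (2 * ((i : ℕ) + 1)) - 1))
        * (if s = m then 1 else q ^ ((m - s) * (m - s - 1)) * (q ^ (m - s) - 1)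
            * ∏ i : Fin (m - s - 1), (q ^ (2 * ((i : ℕ) + 1)) - 1)) := by
  classical
  have hx2 : toSp m x ^ 2 = 1 := by rw [← map_pow, hx, map_one]
  have htt : toSp m x * toSp m x = 1 := by rw [← pow_two]; exact hx2
  have hs' : ((toSp m x : Matrix (Fin m ⊕ Fin m) (Fin m ⊕ Fin m) F) - 1).rank = s := hs
  have ht1 : toSp m x ≠ 1 := fun h1 => hx1 (toSp_injective m (h1.trans (map_one _).symm))
  obtain ⟨M, hM⟩ : ∃ M : Matrix (Fin m ⊕ Fin m) (Fin m ⊕ Fin m) F,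
      M = ((x : Matrix.GeneralLinearGroup (Fin m ⊕ Fin m) F) :
        Matrix (Fin m ⊕ Fin m) (Fin m ⊕ Fin m) F) := ⟨_, rfl⟩
  have hMt : M = (toSp m x : Matrix (Fin m ⊕ Fin m) (Fin m ⊕ Fin m) F) := hM
  have hMM : M * M = 1 := by rw [hMt, ← sp_coe_mul, htt, sp_coe_one]
  have hQx : ∀ u, Cfsg.quadFormPlus m F (M *ᵥ u) = Cfsg.quadFormPlus m F u := by
    intro u; rw [hMt]; exact toSp_isom x u
  have halt' : ∀ v : Fin m ⊕ Fin m → F, Cfsg.sympForm m F v
      ((toSp m x : Matrix (Fin m ⊕ Fin m) (Fin m ⊕ Fin m) F) *ᵥ v) = 0 := by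
    intro v
    have h1 := halt v
    rw [← hM] at h1
    have hw' : (M - 1) *ᵥ v = M *ᵥ v + v := by
      rw [Matrix.sub_mulVec, Matrix.one_mulVec]
      funext i
      simp only [Pi.sub_apply, Pi.add_apply]
      rw [CharTwo.sub_eq_add]
    rw [hw', Q_add, hQx, sf_symm, CharTwo.add_self_eq_zero, zero_add] at h1
    rw [← hMt]; exact h1
  have hle : s ≤ m := hs' ▸ rank_le (toSp m x) htt
  have hpos : 1 ≤ s := hs' ▸ rank_pos (toSp m x) htt ht1
  have hm : 1 ≤ m := by omega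
  obtain ⟨hidx, hmem, hrefl⟩ := omega_facts (Cfsg.quadFormPlus m F) rfl h hm
  have hq : 2 ≤ q := by rw [← hF]; exact Fintype.one_lt_card
  have hcent := cent_a hF (toSp m x) hx2 ht1 hs' heven halt'
  obtain ⟨k, rfl⟩ : ∃ k, s = 2 * k := by obtain ⟨k, hk⟩ := heven; exact ⟨k, by omega⟩
  obtain ⟨r, rfl⟩ : ∃ r, m = k + k + r := ⟨m - (k + k), by omega⟩
  obtain ⟨e, c, hc1, hc2⟩ := model_a rfl (toSp _ x) htt ht1 hs' halt' (toSp_isom x)
  have hY := card_Y_transport (toSp _ x) (TS (EJ F e)) c hc1 hc2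
  rw [card_Y_model e, hF] at hY
  have hN := card_wp_quad hF r
  have h1 := card_CSp (toSp _ x) (toSp_isom x)
  have h3 := card_CO x
  have h5 : Nat.card (Subgroup.centralizer
        ({toSp _ x} : Set (Matrix.symplecticGroup (Fin (k + k + r)) F)))
      = Nat.card {h : Matrix.symplecticGroup (Fin (k + k + r)) F //
          h * toSp _ x = toSp _ x * h} :=
    Nat.card_congr (Equiv.subtypeEquivRight (fun h => Subgroup.mem_centralizer_singleton_iff))
  rw [h5, h1, ← h3, hY] at hcent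
  rcases Nat.eq_zero_or_pos r with rfl | hr
  · have hcond : 2 * k = k + k + 0 := by omega
    rw [if_pos hcond]
    have hsub : ∀ g : ↥(Cfsg.isometryGroup F (Cfsg.quadFormPlus (k + k + 0) F)), g * x = x * g →
        g ∈ Cfsg.Omega F (Cfsg.quadFormPlus (k + k + 0) F) := by
      intro g hg
      have hnorm : (Cfsg.Omega F (Cfsg.quadFormPlus (k + k + 0) F)).Normal :=
        Subgroup.normal_of_index_eq_two hidx
      obtain ⟨c', hc'⟩ : ∃ c' : ↥(Cfsg.isometryGroup F (Cfsg.quadFormPlus (k + k + 0) F)),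
          toSp _ c' = c := ⟨ofSp c hc1, toSp_ofSp c hc1⟩
      have hg' : c' * g * c'⁻¹ ∈ Cfsg.Omega F (Cfsg.quadFormPlus (k + k + 0) F) := by
        have hcomm : toSp _ (c' * g * c'⁻¹) * TS (EJ F e)
            = TS (EJ F e) * toSp _ (c' * g * c'⁻¹) := by
          have hTS : TS (EJ F e) = c * toSp _ x * c⁻¹ := by rw [hc2]; group
          have hgx : toSp _ g * toSp _ x = toSp _ x * toSp _ g := by
            rw [← map_mul, hg, map_mul]
          rw [map_mul, map_mul, map_inv, hc', hTS]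
          calc c * toSp _ g * c⁻¹ * (c * toSp _ x * c⁻¹)
              = c * (toSp _ g * toSp _ x) * c⁻¹ := by group
            _ = c * (toSp _ x * toSp _ g) * c⁻¹ := by rw [hgx]
            _ = _ := by group
        have hmat := congrArg (fun z : Matrix.symplecticGroup (Fin (k + k + 0)) F =>
          (z : Matrix (Fin (k + k + 0) ⊕ Fin (k + k + 0)) (Fin (k + k + 0) ⊕ Fin (k + k + 0)) F))
          hcomm
        simp only [sp_coe_mul, coe_TS _ (EJ_symm e)] at hmat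
        obtain ⟨G, hG⟩ : ∃ G : Matrix (Fin (k + k + 0) ⊕ Fin (k + k + 0))
            (Fin (k + k + 0) ⊕ Fin (k + k + 0)) F,
            G = (((c' * g * c'⁻¹ : ↥(Cfsg.isometryGroup F (Cfsg.quadFormPlus (k + k + 0) F))) :
              GL (Fin (k + k + 0) ⊕ Fin (k + k + 0)) F) : Matrix _ _ F) := ⟨_, rfl⟩
        have hG' : (toSp _ (c' * g * c'⁻¹) :
            Matrix (Fin (k + k + 0) ⊕ Fin (k + k + 0)) (Fin (k + k + 0) ⊕ Fin (k + k + 0)) F)
            = G := hG.symm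
        rw [hG'] at hmat
        apply upper_mem_Omega h hm
        rw [← hG]
        rw [← Matrix.fromBlocks_toBlocks G, comm_TS_blocks] at hmat
        obtain ⟨hEC, -, -⟩ := hmat
        ext i j
        have hcol : EJ F e *ᵥ (fun l => G.toBlocks₂₁ l j) = 0 := by
          funext i'
          have := congrFun (congrFun hEC i') j
          simpa [Matrix.mul_apply, Matrix.mulVec, dotProduct] using this
        have hz := (EJ_mulVec_eq_zero e _).1 hcol
        obtain ⟨i₀, rfl⟩ := e.surjective i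
        rcases i₀ with i₀ | i₀
        · exact hz i₀
        · exact i₀.elim0
      have : g = c'⁻¹ * (c' * g * c'⁻¹) * c'⁻¹⁻¹ := by group
      rw [this]
      exact hnorm.conj_mem _ hg' _
    have h4 : Nat.card {g : ↥(Cfsg.Omega F (Cfsg.quadFormPlus (k + k + 0) F)) //
          (g : ↥(Cfsg.isometryGroup F (Cfsg.quadFormPlus (k + k + 0) F))) * x
            = x * (g : ↥(Cfsg.isometryGroup F (Cfsg.quadFormPlus (k + k + 0) F)))}
        = Nat.card {g : ↥(Cfsg.isometryGroup F (Cfsg.quadFormPlus (k + k + 0) F)) //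
          g * x = x * g} :=
      Nat.card_congr
        { toFun := fun g => ⟨g.1.1, g.2⟩
          invFun := fun g => ⟨⟨g.1, hsub g.1 g.2⟩, g.2⟩
          left_inv := fun g => rfl
          right_inv := fun g => rfl }
    rw [h4]
    have e3 : k + k + 0 - 2 * k = 0 := by omega
    rw [Fin.prod_univ_eq_prod_range (fun i => q ^ (2 * (i + 1)) - 1) (k + k + 0 - 2 * k), e3]
      at hcent
    exact arith_zero q k _ _ _ hq hN hcent
  · obtain ⟨n, rfl⟩ : ∃ n, r = n + 1 := ⟨r - 1, by omega⟩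
    have hcond : ¬ (2 * k = k + k + (n + 1)) := by omega
    rw [if_neg hcond]
    have hex : ∃ w, M *ᵥ w = w ∧ Cfsg.quadFormPlus (k + k + (n + 1)) F w ≠ 0 := by
      by_contra hcon
      push Not at hcon
      have hfix := card_fix (F := F) (m := k + k + (n + 1)) M
      have hYeq : Nat.card {a : Fin (k + k + (n + 1)) ⊕ Fin (k + k + (n + 1)) → F //
            (toSp _ x : Matrix (Fin (k + k + (n + 1)) ⊕ Fin (k + k + (n + 1)))
              (Fin (k + k + (n + 1)) ⊕ Fin (k + k + (n + 1))) F) *ᵥ a = a ∧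
            ∃ ν : F, Cfsg.quadFormPlus (k + k + (n + 1)) F a = ν ^ 2 + ν}
          = Nat.card {a : Fin (k + k + (n + 1)) ⊕ Fin (k + k + (n + 1)) → F // M *ᵥ a = a} :=
        Nat.card_congr (Equiv.subtypeEquivRight (fun a => by
          rw [← hMt]
          exact ⟨fun h => h.1, fun h => ⟨h, 0, by rw [hcon a h]; simp⟩⟩))
      rw [hYeq, hfix, hMt, hs', hF] at hY
      exact arith_ex q k n _ hq hN hY
    obtain ⟨w, hMw, hQw0⟩ := hex
    obtain ⟨r₀, hr₀, hact⟩ := hrefl w hQw0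
    have hcomm : r₀ * x = x * r₀ := by
      apply Subtype.ext
      apply Units.ext
      apply Matrix.mulVec_injective
      funext y
      simp only [Subgroup.coe_mul, Units.val_mul]
      rw [← Matrix.mulVec_mulVec, ← Matrix.mulVec_mulVec, hact, hact, ← hM, Matrix.mulVec_sub,
        Matrix.mulVec_smul]
      have e1 : Cfsg.quadFormPlus (k + k + (n + 1)) F (w + M *ᵥ y)
          = Cfsg.quadFormPlus (k + k + (n + 1)) F (w + y) := by
        conv_lhs => rw [← hMw, ← Matrix.mulVec_add]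
        exact hQx _
      rw [e1, hQx, hMw]
    have h4 := card_COmega (Cfsg.Omega F (Cfsg.quadFormPlus (k + k + (n + 1)) F)) hidx x r₀
      hcomm hr₀
    rw [← h4] at hcent
    have e3 : k + k + (n + 1) - 2 * k = n + 1 := by omega
    have e4 : k + k + (n + 1) - 2 * k - 1 = n := by omega
    rw [Fin.prod_univ_eq_prod_range (fun i => q ^ (2 * (i + 1)) - 1) (k + k + (n + 1) - 2 * k),
      e3] at hcent
    rw [Fin.prod_univ_eq_prod_range (fun i => q ^ (2 * (i + 1)) - 1)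
      (k + k + (n + 1) - 2 * k - 1), e4, e3]
    exact arith_pos q k n _ _ _ hq hN hcent

end Cfsg.Agent.Helper14.OCentA
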