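import Mathlib
import Cfsg.Agent.Helper14.OCentA

set_option autoImplicit false

namespace Cfsg.Agent.Helper14.OCentB

open Matrix Cfsg.Agent.Helper14.SpInv2 Cfsg.Agent.Helper14.OInv Cfsg.Agent.Helper6
  Cfsg.Agent.Helper14.SpCent Cfsg.Agent.Helper14.OCent Cfsg.Agent.Helper14.OCentA

variable {F : Type*} [Field F]

/-- a fixed nonsingular vector gives a commuting reflection outside `Ω` -/
theorem exists_refl_comm [Fintype F] [CharP F 2] {m : ℕ} (h : Fintype.card F ≠ 2 ∨ m ≠ 2)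
    (hm : 1 ≤ m) (x : ↥(Cfsg.isometryGroup F (Cfsg.quadFormPlus m F))) (w : Fin m ⊕ Fin m → F)
    (hw : (toSp m x : Matrix (Fin m ⊕ Fin m) (Fin m ⊕ Fin m) F) *ᵥ w = w)
    (hQw0 : Cfsg.quadFormPlus m F w ≠ 0) :
    ∃ d : ↥(Cfsg.isometryGroup F (Cfsg.quadFormPlus m F)), d * x = x * d ∧
      d ∉ Cfsg.Omega F (Cfsg.quadFormPlus m F) := by
  obtain ⟨hidx, hmem, hrefl⟩ := omega_facts (Cfsg.quadFormPlus m F) rfl h hm
  obtain ⟨M, hM⟩ : ∃ M : Matrix (Fin m ⊕ Fin m) (Fin m ⊕ Fin m) F,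
      M = ((x : Matrix.GeneralLinearGroup (Fin m ⊕ Fin m) F) :
        Matrix (Fin m ⊕ Fin m) (Fin m ⊕ Fin m) F) := ⟨_, rfl⟩
  have hMt : M = (toSp m x : Matrix (Fin m ⊕ Fin m) (Fin m ⊕ Fin m) F) := hM
  have hQx : ∀ u, Cfsg.quadFormPlus m F (M *ᵥ u) = Cfsg.quadFormPlus m F u := by
    intro u; rw [hMt]; exact toSp_isom x u
  have hMw : M *ᵥ w = w := by rw [hMt]; exact hw
  obtain ⟨r₀, hr₀, hact⟩ := hrefl w hQw0
  refine ⟨r₀, ?_, hr₀⟩
  apply Subtype.ext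
  apply Units.ext
  apply Matrix.mulVec_injective
  funext y
  simp only [Subgroup.coe_mul, Units.val_mul]
  rw [← Matrix.mulVec_mulVec, ← Matrix.mulVec_mulVec, hact, hact, ← hM, Matrix.mulVec_sub,
    Matrix.mulVec_smul]
  have e1 : Cfsg.quadFormPlus m F (w + M *ᵥ y) = Cfsg.quadFormPlus m F (w + y) := by
    conv_lhs => rw [← hMw, ← Matrix.mulVec_add]
    exact hQx _
  rw [e1, hQx, hMw]

theorem exists_comm_nonalt [Fintype F] [CharP F 2] {m : ℕ} (h : Fintype.card F ≠ 2 ∨ m ≠ 2)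
    (hm : 1 ≤ m) (x : ↥(Cfsg.isometryGroup F (Cfsg.quadFormPlus m F)))
    (htt : toSp m x * toSp m x = 1)
    (hna : ∃ v, Cfsg.sympForm m F v
      ((toSp m x : Matrix (Fin m ⊕ Fin m) (Fin m ⊕ Fin m) F) *ᵥ v) ≠ 0) :
    ∃ d : ↥(Cfsg.isometryGroup F (Cfsg.quadFormPlus m F)), d * x = x * d ∧
      d ∉ Cfsg.Omega F (Cfsg.quadFormPlus m F) := by
  obtain ⟨v, hv⟩ := hna
  refine exists_refl_comm h hm x
    ((toSp m x : Matrix (Fin m ⊕ Fin m) (Fin m ⊕ Fin m) F) *ᵥ v + v) ?_ ?_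
  · rw [Matrix.mulVec_add, Matrix.mulVec_mulVec, ← sp_coe_mul, htt, sp_coe_one,
      Matrix.one_mulVec, add_comm]
  · rw [Q_add, toSp_isom, sf_symm, CharTwo.add_self_eq_zero, zero_add]; exact hv

theorem exists_comm_alt [Fintype F] [CharP F 2] {m k n : ℕ} (hmk : m = k + k + (n + 1))
    (h : Fintype.card F ≠ 2 ∨ m ≠ 2)
    (hm : 1 ≤ m) (x : ↥(Cfsg.isometryGroup F (Cfsg.quadFormPlus m F)))
    (htt : toSp m x * toSp m x = 1) (ht1 : toSp m x ≠ 1)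
    (hs : ((toSp m x : Matrix (Fin m ⊕ Fin m) (Fin m ⊕ Fin m) F) - 1).rank = 2 * k)
    (halt : ∀ v, Cfsg.sympForm m F v
      ((toSp m x : Matrix (Fin m ⊕ Fin m) (Fin m ⊕ Fin m) F) *ᵥ v) = 0) :
    ∃ d : ↥(Cfsg.isometryGroup F (Cfsg.quadFormPlus m F)), d * x = x * d ∧
      d ∉ Cfsg.Omega F (Cfsg.quadFormPlus m F) := by
  subst hmk
  obtain ⟨e, c, hc1, hc2⟩ := model_a rfl (toSp _ x) htt ht1 hs halt (toSp_isom x)
  have hY := card_Y_transport (toSp _ x) (TS (EJ F e)) c hc1 hc2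
  rw [card_Y_model e] at hY
  have hN := card_wp_quad (F := F) rfl (n + 1)
  have hq : 2 ≤ Fintype.card F := Fintype.one_lt_card
  have hex : ∃ w, (toSp _ x : Matrix (Fin (k + k + (n + 1)) ⊕ Fin (k + k + (n + 1)))
        (Fin (k + k + (n + 1)) ⊕ Fin (k + k + (n + 1))) F) *ᵥ w = w ∧
      Cfsg.quadFormPlus (k + k + (n + 1)) F w ≠ 0 := by
    by_contra hcon
    push Not at hcon
    have hfix := card_fix (F := F) (m := k + k + (n + 1))
      (toSp _ x : Matrix (Fin (k + k + (n + 1)) ⊕ Fin (k + k + (n + 1)))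
        (Fin (k + k + (n + 1)) ⊕ Fin (k + k + (n + 1))) F)
    have hYeq : Nat.card {a : Fin (k + k + (n + 1)) ⊕ Fin (k + k + (n + 1)) → F //
          (toSp _ x : Matrix (Fin (k + k + (n + 1)) ⊕ Fin (k + k + (n + 1)))
            (Fin (k + k + (n + 1)) ⊕ Fin (k + k + (n + 1))) F) *ᵥ a = a ∧
          ∃ ν : F, Cfsg.quadFormPlus (k + k + (n + 1)) F a = ν ^ 2 + ν}
        = Nat.card {a : Fin (k + k + (n + 1)) ⊕ Fin (k + k + (n + 1)) → F //
          (toSp _ x : Matrix (Fin (k + k + (n + 1)) ⊕ Fin (k + k + (n + 1)))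
            (Fin (k + k + (n + 1)) ⊕ Fin (k + k + (n + 1))) F) *ᵥ a = a} :=
      Nat.card_congr (Equiv.subtypeEquivRight (fun a =>
        ⟨fun h => h.1, fun h => ⟨h, 0, by rw [hcon a h]; simp⟩⟩))
    rw [hYeq, hfix, hs] at hY
    exact arith_ex _ k n _ hq hN hY
  obtain ⟨w, hw1, hw2⟩ := hex
  exact exists_refl_comm h hm x w hw1 hw2

theorem cent_le_Omega_alt [Fintype F] [CharP F 2] {m k : ℕ} (hmk : m = k + k + 0)
    (h : Fintype.card F ≠ 2 ∨ m ≠ 2)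
    (hm : 1 ≤ m) (x : ↥(Cfsg.isometryGroup F (Cfsg.quadFormPlus m F)))
    (htt : toSp m x * toSp m x = 1) (ht1 : toSp m x ≠ 1)
    (hs : ((toSp m x : Matrix (Fin m ⊕ Fin m) (Fin m ⊕ Fin m) F) - 1).rank = 2 * k)
    (halt : ∀ v, Cfsg.sympForm m F v
      ((toSp m x : Matrix (Fin m ⊕ Fin m) (Fin m ⊕ Fin m) F) *ᵥ v) = 0)
    (g : ↥(Cfsg.isometryGroup F (Cfsg.quadFormPlus m F))) (hg : g * x = x * g) :
    g ∈ Cfsg.Omega F (Cfsg.quadFormPlus m F) := by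
  subst hmk
  obtain ⟨hidx, hmem, hrefl⟩ := omega_facts (Cfsg.quadFormPlus (k + k + 0) F) rfl h hm
  obtain ⟨e, c, hc1, hc2⟩ := model_a rfl (toSp _ x) htt ht1 hs halt (toSp_isom x)
  have hnorm : (Cfsg.Omega F (Cfsg.quadFormPlus (k + k + 0) F)).Normal :=
    Subgroup.normal_of_index_eq_two hidx
  obtain ⟨c', hc'⟩ : ∃ c' : ↥(Cfsg.isometryGroup F (Cfsg.quadFormPlus (k + k + 0) F)),
      toSp _ c' = c := ⟨ofSp c hc1, toSp_ofSp c hc1⟩
  have hg' : c' * g * c'⁻¹ ∈ Cfsg.Omega F (Cfsg.quadFormPlus (k + k + 0) F) := by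
    have hcomm : toSp _ (c' * g * c'⁻¹) * TS (EJ F e)
        = TS (EJ F e) * toSp _ (c' * g * c'⁻¹) := by
      have hTS : TS (EJ F e) = c * toSp _ x * c⁻¹ := by rw [hc2]; group
      have hgx : toSp _ g * toSp _ x = toSp _ x * toSp _ g := by
        rw [← map_mul, hg, map_mul]
      rw [map_mul, map_mul, map_inv, hc', hTS]
      calc c * toSp _ g * c⁻¹ * (c * toSp _ x * c⁻¹)
          = c * (toSp _ g * toSp _ x) * c⁻¹ := by group
        _ = c * (toSp _ x * toSp _ g) * c⁻¹ := by rw [hgx]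
        _ = _ := by group
    have hmat := congrArg (fun z : Matrix.symplecticGroup (Fin (k + k + 0)) F =>
      (z : Matrix (Fin (k + k + 0) ⊕ Fin (k + k + 0)) (Fin (k + k + 0) ⊕ Fin (k + k + 0)) F))
      hcomm
    simp only [sp_coe_mul, coe_TS _ (EJ_symm e)] at hmat
    obtain ⟨G, hG⟩ : ∃ G : Matrix (Fin (k + k + 0) ⊕ Fin (k + k + 0))
        (Fin (k + k + 0) ⊕ Fin (k + k + 0)) F,
        G = (((c' * g * c'⁻¹ : ↥(Cfsg.isometryGroup F (Cfsg.quadFormPlus (k + k + 0) F))) :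
          GL (Fin (k + k + 0) ⊕ Fin (k + k + 0)) F) : Matrix _ _ F) := ⟨_, rfl⟩
    have hG' : (toSp _ (c' * g * c'⁻¹) :
        Matrix (Fin (k + k + 0) ⊕ Fin (k + k + 0)) (Fin (k + k + 0) ⊕ Fin (k + k + 0)) F)
        = G := hG.symm
    rw [hG'] at hmat
    apply upper_mem_Omega h hm
    rw [← hG]
    rw [← Matrix.fromBlocks_toBlocks G, comm_TS_blocks] at hmat
    obtain ⟨hEC, -, -⟩ := hmat
    ext i j
    have hcol : EJ F e *ᵥ (fun l => G.toBlocks₂₁ l j) = 0 := by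
      funext i'
      have := congrFun (congrFun hEC i') j
      simpa [Matrix.mul_apply, Matrix.mulVec, dotProduct] using this
    have hz := (EJ_mulVec_eq_zero e _).1 hcol
    obtain ⟨i₀, rfl⟩ := e.surjective i
    rcases i₀ with i₀ | i₀
    · exact hz i₀
    · exact i₀.elim0
  have : g = c'⁻¹ * (c' * g * c'⁻¹) * c'⁻¹⁻¹ := by group
  rw [this]
  exact hnorm.conj_mem _ hg' _


theorem inv_facts [CharP F 2] {m : ℕ} (g : ↥(Cfsg.isometryGroup F (Cfsg.quadFormPlus m F)))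
    (hg : orderOf g = 2) : toSp m g * toSp m g = 1 ∧ toSp m g ≠ 1 := by
  have hg' : orderOf (toSp m g) = 2 := by
    rw [orderOf_injective (toSp m) (toSp_injective m) g, hg]
  refine ⟨by rw [← pow_two, ← hg']; exact pow_orderOf_eq_one _, ?_⟩
  intro h1
  rw [h1, orderOf_one] at hg'; omega

theorem mk_eq_iff {G : Type*} [Group G] (H : Subgroup G) (u v : H) :
    ConjClasses.mk u = ConjClasses.mk v ↔ ∃ c : G, c ∈ H ∧ c * (u : G) * c⁻¹ = (v : G) := by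
  rw [ConjClasses.mk_eq_mk_iff_isConj, isConj_iff]
  constructor
  · rintro ⟨c, hc⟩
    exact ⟨c.1, c.2, congrArg Subtype.val hc⟩
  · rintro ⟨c, hcH, hc⟩
    exact ⟨⟨c, hcH⟩, Subtype.ext hc⟩

/-- abstract count of classes in an index-two subgroup from a system of representatives -/
theorem card_classes_index_two {G : Type*} [Group G] (H : Subgroup G) (hidx : H.index = 2)
    {T : Type*} [Finite T] (ρ : T → G) (hρH : ∀ t, ρ t ∈ H) (hord : ∀ t, orderOf (ρ t) = 2)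
    (hK1 : ∀ t t' : T, (∃ c : G, c * ρ t * c⁻¹ = ρ t') → t = t')
    (hK2 : ∀ g : G, orderOf g = 2 → g ∈ H → ∃ t : T, ∃ c : G, c * g * c⁻¹ = ρ t) :
    Nat.card {C : ConjClasses H // ∃ g : H, ConjClasses.mk g = C ∧ orderOf g = 2}
      = Nat.card T + Nat.card {t : T // ∀ g : G, g * ρ t = ρ t * g → g ∈ H} := by
  classical
  have hnorm : H.Normal := Subgroup.normal_of_index_eq_two hidx
  obtain ⟨g₀, hg₀⟩ : ∃ g₀ : G, g₀ ∉ H := by
    by_contra hall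
    push Not at hall
    have : H = ⊤ := eq_top_iff.2 (fun g _ => hall g)
    rw [this, Subgroup.index_top] at hidx
    omega
  have hg₀' : g₀⁻¹ ∉ H := fun hh => hg₀ (by simpa using H.inv_mem hh)
  have hordc : ∀ t, orderOf (g₀ * ρ t * g₀⁻¹) = 2 := by
    intro t
    have hsc : SemiconjBy g₀ (ρ t) (g₀ * ρ t * g₀⁻¹) := by
      rw [SemiconjBy]; group
    rw [← hsc.orderOf_eq, hord]
  let Ψ : T ⊕ {t : T // ∀ g : G, g * ρ t = ρ t * g → g ∈ H} →
      {C : ConjClasses H // ∃ g : H, ConjClasses.mk g = C ∧ orderOf g = 2} :=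
    Sum.elim
      (fun t => ⟨ConjClasses.mk ⟨ρ t, hρH t⟩, ⟨ρ t, hρH t⟩, rfl, by
        rw [Subgroup.orderOf_mk]; exact hord t⟩)
      (fun t => ⟨ConjClasses.mk ⟨g₀ * ρ t.1 * g₀⁻¹, hnorm.conj_mem _ (hρH t.1) g₀⟩,
        ⟨g₀ * ρ t.1 * g₀⁻¹, hnorm.conj_mem _ (hρH t.1) g₀⟩, rfl, by
        rw [Subgroup.orderOf_mk]; exact hordc t.1⟩)
  have hinj : Function.Injective Ψ := by
    rintro (t | ⟨t, ht⟩) (t' | ⟨t', ht'⟩) hab
    · have h1 := congrArg Subtype.val hab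
      obtain ⟨c, -, hc⟩ := (mk_eq_iff H _ _).1 h1
      exact congrArg Sum.inl (hK1 t t' ⟨c, hc⟩)
    · exfalso
      have h1 := congrArg Subtype.val hab
      obtain ⟨c, hcH, hc⟩ := (mk_eq_iff H _ _).1 h1
      have hc' : g₀⁻¹ * c * ρ t * (g₀⁻¹ * c)⁻¹ = ρ t' := by
        have hc2 : c * ρ t * c⁻¹ = g₀ * ρ t' * g₀⁻¹ := hc
        calc g₀⁻¹ * c * ρ t * (g₀⁻¹ * c)⁻¹ = g₀⁻¹ * (c * ρ t * c⁻¹) * g₀ := by group
          _ = g₀⁻¹ * (g₀ * ρ t' * g₀⁻¹) * g₀ := by rw [hc2]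
          _ = ρ t' := by group
      have htt := hK1 t t' ⟨g₀⁻¹ * c, hc'⟩
      subst htt
      have hcomm : g₀⁻¹ * c * ρ t = ρ t * (g₀⁻¹ * c) := by
        calc g₀⁻¹ * c * ρ t = (g₀⁻¹ * c * ρ t * (g₀⁻¹ * c)⁻¹) * (g₀⁻¹ * c) := by group
          _ = ρ t * (g₀⁻¹ * c) := by rw [hc']
      have hmem := ht' _ hcomm
      rw [Subgroup.mul_mem_iff_of_index_two hidx] at hmem
      exact hg₀' (hmem.2 hcH)
    · exfalso
      have h1 := congrArg Subtype.val hab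
      obtain ⟨c, hcH, hc⟩ := (mk_eq_iff H _ _).1 h1
      have hc' : c * g₀ * ρ t * (c * g₀)⁻¹ = ρ t' := by
        have hc2 : c * (g₀ * ρ t * g₀⁻¹) * c⁻¹ = ρ t' := hc
        rw [← hc2]; group
      have htt := hK1 t t' ⟨c * g₀, hc'⟩
      subst htt
      have hcomm : c * g₀ * ρ t = ρ t * (c * g₀) := by
        calc c * g₀ * ρ t = (c * g₀ * ρ t * (c * g₀)⁻¹) * (c * g₀) := by group
          _ = ρ t * (c * g₀) := by rw [hc']
      have hmem := ht _ hcomm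
      rw [Subgroup.mul_mem_iff_of_index_two hidx] at hmem
      exact hg₀ (hmem.1 hcH)
    · have h1 := congrArg Subtype.val hab
      obtain ⟨c, hcH, hc⟩ := (mk_eq_iff H _ _).1 h1
      have hc' : g₀⁻¹ * c * g₀ * ρ t * (g₀⁻¹ * c * g₀)⁻¹ = ρ t' := by
        have hc2 : c * (g₀ * ρ t * g₀⁻¹) * c⁻¹ = g₀ * ρ t' * g₀⁻¹ := hc
        calc g₀⁻¹ * c * g₀ * ρ t * (g₀⁻¹ * c * g₀)⁻¹
            = g₀⁻¹ * (c * (g₀ * ρ t * g₀⁻¹) * c⁻¹) * g₀ := by group
          _ = g₀⁻¹ * (g₀ * ρ t' * g₀⁻¹) * g₀ := by rw [hc2]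
          _ = ρ t' := by group
      have htt := hK1 t t' ⟨g₀⁻¹ * c * g₀, hc'⟩
      subst htt
      rfl
  have hsurj : Function.Surjective Ψ := by
    rintro ⟨C, g, rfl, hg⟩
    have hg2 : orderOf (g : G) = 2 := by rw [Subgroup.orderOf_coe]; exact hg
    obtain ⟨t, c, hc⟩ := hK2 g.1 hg2 g.2
    have hgc : ∀ c' : G, c' * ρ t * c'⁻¹ = ρ t → c⁻¹ * c' * ρ t * (c⁻¹ * c')⁻¹ = (g : G) := by
      intro c' hc'
      calc c⁻¹ * c' * ρ t * (c⁻¹ * c')⁻¹ = c⁻¹ * (c' * ρ t * c'⁻¹) * c := by group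
        _ = c⁻¹ * ρ t * c := by rw [hc']
        _ = c⁻¹ * (c * g * c⁻¹) * c := by rw [hc]
        _ = g := by group
    by_cases hcH : c ∈ H
    · refine ⟨Sum.inl t, Subtype.ext ?_⟩
      show ConjClasses.mk (⟨ρ t, hρH t⟩ : H) = ConjClasses.mk g
      rw [mk_eq_iff]
      refine ⟨c⁻¹ * 1, ?_, ?_⟩
      · rw [mul_one]; exact H.inv_mem hcH
      · exact hgc 1 (by group)
    · have hcH' : c⁻¹ ∉ H := fun hh => hcH (by simpa using H.inv_mem hh)
      by_cases hsp : ∀ g' : G, g' * ρ t = ρ t * g' → g' ∈ H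
      · refine ⟨Sum.inr ⟨t, hsp⟩, Subtype.ext ?_⟩
        show ConjClasses.mk (⟨g₀ * ρ t * g₀⁻¹, hnorm.conj_mem _ (hρH t) g₀⟩ : H)
          = ConjClasses.mk g
        rw [mk_eq_iff]
        refine ⟨c⁻¹ * g₀⁻¹, ?_, ?_⟩
        · rw [Subgroup.mul_mem_iff_of_index_two hidx]
          exact ⟨fun hh => (hcH' hh).elim, fun hh => (hg₀' hh).elim⟩
        · show c⁻¹ * g₀⁻¹ * (g₀ * ρ t * g₀⁻¹) * (c⁻¹ * g₀⁻¹)⁻¹ = (g : G)
          calc c⁻¹ * g₀⁻¹ * (g₀ * ρ t * g₀⁻¹) * (c⁻¹ * g₀⁻¹)⁻¹ = c⁻¹ * ρ t * c := by group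
            _ = c⁻¹ * (c * g * c⁻¹) * c := by rw [hc]
            _ = g := by group
      · push Not at hsp
        obtain ⟨d, hd, hdH⟩ := hsp
        refine ⟨Sum.inl t, Subtype.ext ?_⟩
        show ConjClasses.mk (⟨ρ t, hρH t⟩ : H) = ConjClasses.mk g
        rw [mk_eq_iff]
        refine ⟨c⁻¹ * d, ?_, ?_⟩
        · rw [Subgroup.mul_mem_iff_of_index_two hidx]
          exact ⟨fun hh => (hcH' hh).elim, fun hh => (hdH hh).elim⟩
        · exact hgc d (by rw [hd]; group)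
  rw [← Nat.card_congr (Equiv.ofBijective Ψ ⟨hinj, hsurj⟩), Nat.card_sum]

theorem card_classes_Omega [Fintype F] [CharP F 2] {m : ℕ} (hm : 1 ≤ m)
    (h : Fintype.card F ≠ 2 ∨ m ≠ 2) :
    Nat.card {C : ConjClasses ↥(Cfsg.Omega F (Cfsg.quadFormPlus m F)) //
      ∃ g : ↥(Cfsg.Omega F (Cfsg.quadFormPlus m F)), ConjClasses.mk g = C ∧ orderOf g = 2}
      = 2 * (m / 2) + (if Even m then 1 else 0) := by
  classical
  obtain ⟨hidx, hmem, -⟩ := omega_facts (Cfsg.quadFormPlus m F) rfl h hm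
  let τ : Fin (m / 2) ⊕ Fin (m / 2) → Fin m ⊕ Fin (m / 2) :=
    Sum.elim (fun j => Sum.inl ⟨2 * j.val + 1, by have := j.2; omega⟩) Sum.inr
  have hτ : Function.Injective τ := by
    rintro (j | j) (j' | j') hjj
    · simp only [τ, Sum.elim_inl, Sum.inl.injEq, Fin.mk.injEq] at hjj
      exact congrArg Sum.inl (Fin.ext (by omega))
    · simp [τ] at hjj
    · simp [τ] at hjj
    · simp only [τ, Sum.elim_inr, Sum.inr.injEq] at hjj
      exact congrArg Sum.inr hjj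
  have hρ : ∀ a : Fin m ⊕ Fin (m / 2), ∃ r : ↥(Cfsg.isometryGroup F (Cfsg.quadFormPlus m F)),
      IsConj (toSp m r) (TS (repS F m a)) := by
    rintro (i | j)
    · exact ⟨swapO F m (i.val + 1), swapO_type hm i⟩
    · refine ⟨ofSp (TS (Da F m (j.val + 1)))
        (TS_isom _ (Da_transpose m _) (Da_alt m _)), ?_⟩
      rw [toSp_ofSp]
      exact IsConj.refl _
  choose ρ hρ using hρ
  have hordT : ∀ a : Fin m ⊕ Fin (m / 2), orderOf (TS (repS F m a)) = 2 := by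
    intro a
    exact orderOf_eq_prime (by rw [pow_two]; exact TS_sq _ (repS_transpose a))
      (TS_ne_one _ (repS_transpose a) (repS_ne_zero a))
  have hord : ∀ a, orderOf (ρ a) = 2 := by
    intro a
    rw [← orderOf_injective (toSp m) (toSp_injective m) (ρ a)]
    obtain ⟨c, hc⟩ := isConj_iff.mp (hρ a)
    have hsc : SemiconjBy c (toSp m (ρ a)) (TS (repS F m a)) := by
      rw [SemiconjBy, ← hc]; group
    rw [hsc.orderOf_eq, hordT]
  have hrk : ∀ a, ((((ρ a : ↥(Cfsg.isometryGroup F (Cfsg.quadFormPlus m F))) :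
      GL (Fin m ⊕ Fin m) F) : Matrix (Fin m ⊕ Fin m) (Fin m ⊕ Fin m) F) - 1).rank
      = (repS F m a).rank :=
    fun a => rank_of_conj_TS (toSp m (ρ a)) _ (repS_transpose a) (hρ a)
  have hρΩ : ∀ t, ρ (τ t) ∈ Cfsg.Omega F (Cfsg.quadFormPlus m F) := by
    intro t
    rw [hmem, hrk]
    rcases t with j | j
    · simp only [τ, Sum.elim_inl, repS]
      rw [rank_Dn (by have := j.2; omega)]
      exact ⟨j.val + 1, by omega⟩
    · simp only [τ, Sum.elim_inr, repS]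
      rw [rank_Da (by have := j.2; omega)]
      exact even_two_mul _
  have hK1 : ∀ t t' : Fin (m / 2) ⊕ Fin (m / 2),
      (∃ c, c * ρ (τ t) * c⁻¹ = ρ (τ t')) → t = t' := by
    rintro t t' ⟨c, hc⟩
    have hconj : IsConj (ρ (τ t)) (ρ (τ t')) := isConj_iff.2 ⟨c, hc⟩
    have hconj' : IsConj (toSp m (ρ (τ t))) (toSp m (ρ (τ t'))) := (toSp m).map_isConj hconj
    exact hτ (repS_inj hm _ _ (((hρ _).symm.trans hconj').trans (hρ _)))
  have hK2 : ∀ g : ↥(Cfsg.isometryGroup F (Cfsg.quadFormPlus m F)), orderOf g = 2 →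
      g ∈ Cfsg.Omega F (Cfsg.quadFormPlus m F) → ∃ t, ∃ c, c * g * c⁻¹ = ρ (τ t) := by
    intro g hg hgΩ
    obtain ⟨hgg, hg1⟩ := inv_facts g hg
    obtain ⟨a, ha⟩ := exists_repS _ hgg hg1
    have hr : ((((g : ↥(Cfsg.isometryGroup F (Cfsg.quadFormPlus m F))) :
        GL (Fin m ⊕ Fin m) F) : Matrix (Fin m ⊕ Fin m) (Fin m ⊕ Fin m) F) - 1).rank
        = (repS F m a).rank :=
      rank_of_conj_TS (toSp m g) _ (repS_transpose a) ha
    have heven := (hmem g).1 hgΩ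
    rw [hr] at heven
    obtain ⟨t, ht⟩ : ∃ t, τ t = a := by
      rcases a with i | j
      · simp only [repS, Sum.elim_inl] at heven
        rw [rank_Dn (by have := i.2; omega)] at heven
        obtain ⟨l, hl⟩ := heven
        refine ⟨Sum.inl ⟨l - 1, by have := i.2; omega⟩, ?_⟩
        simp only [τ, Sum.elim_inl]
        exact congrArg Sum.inl (Fin.ext (by simp only; omega))
      · exact ⟨Sum.inr j, rfl⟩
    subst ht
    have hconj : IsConj (toSp m g) (toSp m (ρ (τ t))) := ha.trans (hρ _).symm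
    obtain ⟨c, hc⟩ := isConj_iff.mp hconj
    have hc' : c * toSp m g = toSp m (ρ (τ t)) * c := by rw [← hc]; group
    obtain ⟨g₁, hg₁, hg₁c⟩ := O_conj_of_Sp_conj (toSp m g) (toSp m (ρ (τ t))) c
      (toSp_isom g) (toSp_isom (ρ (τ t))) hc'
    refine ⟨t, ofSp g₁ hg₁, ?_⟩
    rw [mul_inv_eq_iff_eq_mul]
    apply toSp_injective m
    rw [map_mul, map_mul, toSp_ofSp]
    exact hg₁c
  have key := card_classes_index_two _ hidx (fun t => ρ (τ t)) hρΩ (fun t => hord _) hK1 hK2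
  rw [key]
  have hT : Nat.card (Fin (m / 2) ⊕ Fin (m / 2)) = 2 * (m / 2) := by
    rw [Nat.card_eq_fintype_card, Fintype.card_sum, Fintype.card_fin, two_mul]
  rw [hT]
  congr 1
  have hsplit_inl : ∀ j : Fin (m / 2), ¬ ∀ g, g * ρ (τ (Sum.inl j)) = ρ (τ (Sum.inl j)) * g →
      g ∈ Cfsg.Omega F (Cfsg.quadFormPlus m F) := by
    intro j hsp
    obtain ⟨htt, ht1⟩ := inv_facts _ (hord (τ (Sum.inl j)))
    have hna : ∃ v, Cfsg.sympForm m F v ((toSp m (ρ (τ (Sum.inl j))) :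
        Matrix (Fin m ⊕ Fin m) (Fin m ⊕ Fin m) F) *ᵥ v) ≠ 0 := by
      by_contra hcon
      push Not at hcon
      have hD : ∀ b : Fin m → F, b ⬝ᵥ repS F m (τ (Sum.inl j)) *ᵥ b = 0 :=
        alt_of_conj_TS' (toSp m (ρ (τ (Sum.inl j)))) (repS F m (τ (Sum.inl j)))
          (repS_transpose _) (hρ (τ (Sum.inl j))) hcon
      exact Dn_nalt (F := F) hm (2 * j.val + 1 + 1) (by omega) hD
    obtain ⟨d, hd, hdΩ⟩ := exists_comm_nonalt h hm _ htt hna
    exact hdΩ (hsp d hd)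
  have hsplit_inr : ∀ j : Fin (m / 2),
      (∀ g, g * ρ (τ (Sum.inr j)) = ρ (τ (Sum.inr j)) * g →
        g ∈ Cfsg.Omega F (Cfsg.quadFormPlus m F)) ↔ 2 * (j.val + 1) = m := by
    intro j
    obtain ⟨htt, ht1⟩ := inv_facts _ (hord (τ (Sum.inr j)))
    have hs : ((toSp m (ρ (τ (Sum.inr j))) :
        Matrix (Fin m ⊕ Fin m) (Fin m ⊕ Fin m) F) - 1).rank = 2 * (j.val + 1) := by
      rw [rank_of_conj_TS (toSp m (ρ (τ (Sum.inr j)))) (repS F m (τ (Sum.inr j)))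
        (repS_transpose _) (hρ (τ (Sum.inr j)))]
      exact rank_Da (by have := j.2; omega)
    have halt : ∀ v, Cfsg.sympForm m F v ((toSp m (ρ (τ (Sum.inr j))) :
        Matrix (Fin m ⊕ Fin m) (Fin m ⊕ Fin m) F) *ᵥ v) = 0 :=
      alt_of_conj_TS (toSp m (ρ (τ (Sum.inr j)))) (repS F m (τ (Sum.inr j)))
        (repS_transpose _) (hρ (τ (Sum.inr j))) (Da_alt m _)
    constructor
    · intro hsp
      by_contra hne
      have hlt : 2 * (j.val + 1) < m := by have := j.2; omega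
      obtain ⟨d, hd, hdΩ⟩ := exists_comm_alt (k := j.val + 1) (n := m - 2 * (j.val + 1) - 1)
        (by omega) h hm _ htt ht1 hs halt
      exact hdΩ (hsp d hd)
    · intro heq g hg
      exact cent_le_Omega_alt (k := j.val + 1) (by omega) h hm _ htt ht1 hs halt g hg
  by_cases hev : Even m
  · rw [if_pos hev, Nat.card_eq_one_iff_unique]
    obtain ⟨k', hk'⟩ := hev
    refine ⟨⟨?_⟩, ⟨⟨Sum.inr ⟨k' - 1, by omega⟩, (hsplit_inr _).2 (by simp only; omega)⟩⟩⟩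
    rintro ⟨t, ht⟩ ⟨t', ht'⟩
    apply Subtype.ext
    rcases t with j | j
    · exact (hsplit_inl j ht).elim
    · rcases t' with j' | j'
      · exact (hsplit_inl j' ht').elim
      · have e1 := (hsplit_inr j).1 ht
        have e2 := (hsplit_inr j').1 ht'
        exact congrArg Sum.inr (Fin.ext (by omega))
  · rw [if_neg hev, Nat.card_eq_zero]
    left
    refine ⟨?_⟩
    rintro ⟨t, ht⟩
    rcases t with j | j
    · exact hsplit_inl j ht
    · exact hev ⟨j.val + 1, by have := (hsplit_inr j).1 ht; omega⟩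

end Cfsg.Agent.Helper14.OCentB
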