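import Mathlib
import Cfsg.Agent.Helper14.OInv

set_option autoImplicit false

namespace Cfsg.Agent.Helper14.OInvGen

open Matrix Module Cfsg.Agent.Helper14.SymmChar2 Cfsg.Agent.Helper14.SpInv2 Cfsg.Agent.Helper6
  Cfsg.Agent.Helper14.OInv

variable {F : Type*} [Field F]

/-- the defect of a symplectic matrix with respect to the hyperbolic quadratic form -/
theorem sp_defect_gen [Finite F] [CharP F 2] {m : ℕ} (Q : (Fin m ⊕ Fin m → F) → F)
    (hadd : ∀ u v, Q (u + v) = Q u + Q v + Cfsg.sympForm m F u v)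
    (hsmul : ∀ (c : F) u, Q (c • u) = c ^ 2 * Q u)
    (h : Matrix.symplecticGroup (Fin m) F) :
    ∃ a : Fin m ⊕ Fin m → F,
      (∀ x, Q ((h : Matrix (Fin m ⊕ Fin m) (Fin m ⊕ Fin m) F) *ᵥ x)
        = Q x + (Cfsg.sympForm m F x a) ^ 2) ∧
      ∃ ν : F, Q a = ν ^ 2 + ν := by
  have hmem : h ∈ Subgroup.closure {A : Matrix.symplecticGroup (Fin m) F |
      ∃ (w : Fin m ⊕ Fin m → F) (c : F),
        (A : Matrix (Fin m ⊕ Fin m) (Fin m ⊕ Fin m) F) = Cfsg.sympTransvection m w c} := by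
    rw [Cfsg.Agent.S0765.result]; exact Subgroup.mem_top h
  induction hmem using Subgroup.closure_induction with
  | mem A hA =>
    obtain ⟨w, c, hA⟩ := hA
    obtain ⟨d, hd⟩ := exists_sqrt (c ^ 2 * Q w + c)
    refine ⟨d • w, ?_, c * Q w, ?_⟩
    · intro x
      rw [hA, tv_mulVec, hadd, hsmul, sf_smul_right, sf_smul_right]
      linear_combination (Cfsg.sympForm m F x w) ^ 2 * (-hd)
    · rw [hsmul]
      linear_combination (Q w) * hd
  | one =>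
    refine ⟨0, ?_, 0, ?_⟩
    · intro x
      rw [sp_coe_one, Matrix.one_mulVec, sf_symm, sf_zero_left]; ring
    · have := hsmul 0 0
      rw [zero_smul] at this
      rw [this]; ring
  | mul h k _ _ ihh ihk =>
    obtain ⟨a, ha, ν, hν⟩ := ihh
    obtain ⟨b, hb, μ, hμ⟩ := ihk
    obtain ⟨a', hka'⟩ : ∃ a', (k : Matrix (Fin m ⊕ Fin m) (Fin m ⊕ Fin m) F) *ᵥ a' = a :=
      ⟨_, sp_mulVec_inv k a⟩
    have hB : ∀ x, Cfsg.sympForm m F ((k : Matrix (Fin m ⊕ Fin m) (Fin m ⊕ Fin m) F) *ᵥ x) a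
        = Cfsg.sympForm m F x a' := by
      intro x; rw [← hka', sp_preserves]
    refine ⟨b + a', ?_, ν + μ + Cfsg.sympForm m F b a', ?_⟩
    · intro x
      rw [sp_coe_mul, ← Matrix.mulVec_mulVec, ha, hb, hB, sf_add_right, CharTwo.add_sq]
      ring
    · have h1 := hb a'
      rw [hka', hν, sf_symm a' b] at h1
      have h3 : Q a' = ν ^ 2 + ν + (Cfsg.sympForm m F b a') ^ 2 := by
        have : Q a' = ν ^ 2 + ν - (Cfsg.sympForm m F b a') ^ 2 := by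
          linear_combination -h1
        rw [this, CharTwo.sub_eq_add]
      rw [hadd, hμ, h3, CharTwo.add_sq, CharTwo.add_sq]
      ring
  | inv h _ ih =>
    obtain ⟨a, ha, ν, hν⟩ := ih
    refine ⟨(h : Matrix (Fin m ⊕ Fin m) (Fin m ⊕ Fin m) F) *ᵥ a, ?_, ν, ?_⟩
    · intro x
      have h1 := ha (((h⁻¹ : Matrix.symplecticGroup (Fin m) F) :
        Matrix (Fin m ⊕ Fin m) (Fin m ⊕ Fin m) F) *ᵥ x)
      rw [sp_mulVec_inv] at h1
      have h2 : Cfsg.sympForm m F (((h⁻¹ : Matrix.symplecticGroup (Fin m) F) :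
          Matrix (Fin m ⊕ Fin m) (Fin m ⊕ Fin m) F) *ᵥ x) a
          = Cfsg.sympForm m F x ((h : Matrix (Fin m ⊕ Fin m) (Fin m ⊕ Fin m) F) *ᵥ a) := by
        rw [← sp_preserves h, sp_mulVec_inv]
      rw [h2] at h1
      have : Q (((h⁻¹ : Matrix.symplecticGroup (Fin m) F) :
          Matrix (Fin m ⊕ Fin m) (Fin m ⊕ Fin m) F) *ᵥ x) = Q x
          - (Cfsg.sympForm m F x ((h : Matrix (Fin m ⊕ Fin m) (Fin m ⊕ Fin m) F) *ᵥ a)) ^ 2 := by
        linear_combination -h1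
      rw [this, CharTwo.sub_eq_add]
    · rw [ha a, sf_self, hν]; ring

/-- two isometries of the hyperbolic quadratic form (char 2) conjugate in `Sp` are conjugate
by an isometry -/
theorem O_conj_of_Sp_conj_gen [Finite F] [CharP F 2] {m : ℕ} (Q : (Fin m ⊕ Fin m → F) → F)
    (hadd : ∀ u v, Q (u + v) = Q u + Q v + Cfsg.sympForm m F u v)
    (hsmul : ∀ (c : F) u, Q (c • u) = c ^ 2 * Q u)
    (t t' h : Matrix.symplecticGroup (Fin m) F)
    (ht : ∀ x, Q ((t : Matrix (Fin m ⊕ Fin m) (Fin m ⊕ Fin m) F) *ᵥ x)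
      = Q x)
    (ht' : ∀ x, Q ((t' : Matrix (Fin m ⊕ Fin m) (Fin m ⊕ Fin m) F) *ᵥ x)
      = Q x)
    (hh : h * t = t' * h) :
    ∃ g : Matrix.symplecticGroup (Fin m) F,
      (∀ x, Q ((g : Matrix (Fin m ⊕ Fin m) (Fin m ⊕ Fin m) F) *ᵥ x)
        = Q x) ∧ g * t = t' * g := by
  obtain ⟨a, ha, ν, hν⟩ := sp_defect_gen Q hadd hsmul h
  have hmat : (h : Matrix (Fin m ⊕ Fin m) (Fin m ⊕ Fin m) F) * (t : Matrix _ _ F)
      = (t' : Matrix (Fin m ⊕ Fin m) (Fin m ⊕ Fin m) F) * (h : Matrix _ _ F) := by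
    rw [← sp_coe_mul, hh, sp_coe_mul]
  have hB : ∀ x, Cfsg.sympForm m F ((t : Matrix (Fin m ⊕ Fin m) (Fin m ⊕ Fin m) F) *ᵥ x) a
      = Cfsg.sympForm m F x a := by
    intro x
    have h1 := ha ((t : Matrix (Fin m ⊕ Fin m) (Fin m ⊕ Fin m) F) *ᵥ x)
    rw [Matrix.mulVec_mulVec, hmat, ← Matrix.mulVec_mulVec, ht', ha x, ht x] at h1
    have h2 : (Cfsg.sympForm m F ((t : Matrix (Fin m ⊕ Fin m) (Fin m ⊕ Fin m) F) *ᵥ x) a) ^ 2
        = (Cfsg.sympForm m F x a) ^ 2 := (add_left_cancel h1).symm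
    have h3 : (Cfsg.sympForm m F ((t : Matrix (Fin m ⊕ Fin m) (Fin m ⊕ Fin m) F) *ᵥ x) a
        + Cfsg.sympForm m F x a) ^ 2 = 0 := by
      rw [CharTwo.add_sq, h2, CharTwo.add_self_eq_zero]
    have h4 := pow_eq_zero_iff (two_ne_zero) |>.mp h3
    rw [← sub_eq_zero, CharTwo.sub_eq_add]; exact h4
  have hta : (t : Matrix (Fin m ⊕ Fin m) (Fin m ⊕ Fin m) F) *ᵥ a = a := by
    by_contra hne
    have hne' : (t : Matrix (Fin m ⊕ Fin m) (Fin m ⊕ Fin m) F) *ᵥ a - a ≠ 0 := sub_ne_zero.mpr hne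
    obtain ⟨z, hz⟩ := Cfsg.Agent.S0768.nondeg _ hne'
    apply hz
    obtain ⟨y, rfl⟩ : ∃ y, (t : Matrix (Fin m ⊕ Fin m) (Fin m ⊕ Fin m) F) *ᵥ y = z :=
      ⟨_, sp_mulVec_inv t z⟩
    rw [sf_sub_left, sp_preserves, sf_symm a ((t : Matrix (Fin m ⊕ Fin m) (Fin m ⊕ Fin m) F) *ᵥ y), hB,
      sf_symm a y, sub_self]
  obtain ⟨μ, hμ⟩ : ∃ μ : F, μ ^ 2 * Q a + μ + 1 = 0 := by
    by_cases hQa : Q a = 0
    · exact ⟨1, by rw [hQa]; simp [CharTwo.add_self_eq_zero]⟩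
    · refine ⟨ν / Q a, ?_⟩
      have : (ν / Q a) ^ 2 * Q a
          + ν / Q a = 1 := by
        field_simp
        rw [hν]
        ring
      rw [this]; exact CharTwo.add_self_eq_zero 1
  obtain ⟨k, hk⟩ : ∃ k : Matrix.symplecticGroup (Fin m) F,
      ∀ x, (k : Matrix (Fin m ⊕ Fin m) (Fin m ⊕ Fin m) F) *ᵥ x
        = x + (μ * Cfsg.sympForm m F x a) • a :=
    ⟨⟨Cfsg.sympTransvection m a μ, Cfsg.Agent.S0764.result m a μ⟩, fun x => tv_mulVec a μ x⟩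
  refine ⟨h * k, ?_, ?_⟩
  · intro x
    rw [sp_coe_mul, ← Matrix.mulVec_mulVec, ha, hk, hadd, hsmul, sf_add_left, sf_smul_left,
      sf_smul_right, sf_self]
    linear_combination (Cfsg.sympForm m F x a) ^ 2 * hμ
  · have hkt : k * t = t * k := by
      apply Subtype.ext
      rw [sp_coe_mul, sp_coe_mul]
      apply Matrix.mulVec_injective
      funext x
      rw [← Matrix.mulVec_mulVec, ← Matrix.mulVec_mulVec, hk, hk, hB, Matrix.mulVec_add,
        Matrix.mulVec_smul, hta]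
    rw [mul_assoc, hkt, ← mul_assoc, hh, mul_assoc]

theorem mem_sp_of_isom_gen {m : ℕ} (Q : (Fin m ⊕ Fin m → F) → F)
    (hadd : ∀ u v, Q (u + v) = Q u + Q v + Cfsg.sympForm m F u v)
    (A : Matrix (Fin m ⊕ Fin m) (Fin m ⊕ Fin m) F)
    (hA : ∀ u, Q (A *ᵥ u) = Q u) :
    A ∈ Matrix.symplecticGroup (Fin m) F := by
  classical
  have hg : ∀ u v, Cfsg.sympForm m F (A *ᵥ u) (A *ᵥ v) = Cfsg.sympForm m F u v := by
    intro u v
    have h1 := hadd (A *ᵥ u) (A *ᵥ v)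
    rw [← Matrix.mulVec_add, hA, hA, hA, hadd] at h1
    exact (add_left_cancel h1).symm
  rw [SymplecticGroup.mem_iff']
  ext i j
  have h := hg (Pi.single i 1) (Pi.single j 1)
  unfold Cfsg.sympForm at h
  rw [← Matrix.vecMul_transpose, ← Matrix.dotProduct_mulVec, Matrix.mulVec_mulVec,
    Matrix.mulVec_mulVec] at h
  simpa [Matrix.mulVec_single_one, Matrix.mul_assoc] using h


end Cfsg.Agent.Helper14.OInvGen
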