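import Mathlib
import Cfsg.Agent.Helper14.OInvGen

set_option autoImplicit false

namespace Cfsg.Agent.Helper14.OMinusInv

open Matrix Module Cfsg.Agent.Helper14.SymmChar2 Cfsg.Agent.Helper14.SpInv2 Cfsg.Agent.Helper6
  Cfsg.Agent.Helper14.OInv Cfsg.Agent.Helper14.OInvGen

variable {F : Type*} [Field F]

/-- abstract count of involution classes of an isometry group sitting in `Sp` (char 2) -/
theorem card_classes_gen [Finite F] [CharP F 2] {M : ℕ} (hM : 1 ≤ M)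
    (Q : (Fin M ⊕ Fin M → F) → F)
    (hadd : ∀ u v, Q (u + v) = Q u + Q v + Cfsg.sympForm M F u v)
    (hsmul : ∀ (c : F) u, Q (c • u) = c ^ 2 * Q u)
    {G : Type*} [Group G] (toS : G →* Matrix.symplecticGroup (Fin M) F)
    (hinj : Function.Injective toS)
    (hiso : ∀ g u, Q ((toS g : Matrix (Fin M ⊕ Fin M) (Fin M ⊕ Fin M) F) *ᵥ u) = Q u)
    (hsurj : ∀ A : Matrix.symplecticGroup (Fin M) F,
      (∀ u, Q ((A : Matrix (Fin M ⊕ Fin M) (Fin M ⊕ Fin M) F) *ᵥ u) = Q u) → ∃ g, toS g = A)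
    {ι : Type*} [Fintype ι] (τ : ι → Fin M ⊕ Fin (M / 2)) (hτ : Function.Injective τ)
    (hrep : ∀ a : ι, ∃ A : Matrix.symplecticGroup (Fin M) F,
      (∀ u, Q ((A : Matrix (Fin M ⊕ Fin M) (Fin M ⊕ Fin M) F) *ᵥ u) = Q u) ∧
        IsConj A (TS (repS F M (τ a))))
    (hall : ∀ A : Matrix.symplecticGroup (Fin M) F,
      (∀ u, Q ((A : Matrix (Fin M ⊕ Fin M) (Fin M ⊕ Fin M) F) *ᵥ u) = Q u) →
        ∀ a', IsConj A (TS (repS F M a')) → ∃ a, τ a = a') :
    Nat.card {C : ConjClasses G // ∃ g : G, ConjClasses.mk g = C ∧ orderOf g = 2}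
      = Fintype.card ι := by
  classical
  have hρ : ∀ a : ι, ∃ r : G, IsConj (toS r) (TS (repS F M (τ a))) := by
    intro a
    obtain ⟨A, hA, hc⟩ := hrep a
    obtain ⟨r, hr⟩ := hsurj A hA
    exact ⟨r, by rw [hr]; exact hc⟩
  choose ρ hρ using hρ
  have hordT : ∀ a : Fin M ⊕ Fin (M / 2), orderOf (TS (repS F M a)) = 2 := by
    intro a
    exact orderOf_eq_prime (by rw [pow_two]; exact TS_sq _ (repS_transpose a))
      (TS_ne_one _ (repS_transpose a) (repS_ne_zero a))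
  have hord : ∀ a, orderOf (ρ a) = 2 := by
    intro a
    rw [← orderOf_injective toS hinj (ρ a)]
    obtain ⟨c, hc⟩ := isConj_iff.mp (hρ a)
    have hsc : SemiconjBy c (toS (ρ a)) (TS (repS F M (τ a))) := by
      rw [SemiconjBy, ← hc]; group
    rw [hsc.orderOf_eq, hordT]
  let Ψ : ι → {C : ConjClasses G // ∃ g : G, ConjClasses.mk g = C ∧ orderOf g = 2} :=
    fun a => ⟨ConjClasses.mk (ρ a), ρ a, rfl, hord a⟩
  have hΨinj : Function.Injective Ψ := by
    intro a a' h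
    have hconj : IsConj (ρ a) (ρ a') :=
      ConjClasses.mk_eq_mk_iff_isConj.mp (congrArg Subtype.val h)
    have hconj' : IsConj (toS (ρ a)) (toS (ρ a')) := toS.map_isConj hconj
    exact hτ (repS_inj hM _ _ (((hρ a).symm.trans hconj').trans (hρ a')))
  have hΨsurj : Function.Surjective Ψ := by
    rintro ⟨C, g, rfl, hg⟩
    have hg' : orderOf (toS g) = 2 := by
      rw [orderOf_injective toS hinj g, hg]
    have hgg : toS g * toS g = 1 := by rw [← pow_two, ← hg']; exact pow_orderOf_eq_one _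
    have hg1 : toS g ≠ 1 := by
      intro h1
      rw [h1, orderOf_one] at hg'; omega
    obtain ⟨a', ha'⟩ := exists_repS _ hgg hg1
    obtain ⟨a, rfl⟩ := hall (toS g) (hiso g) a' ha'
    have hconj : IsConj (toS g) (toS (ρ a)) := ha'.trans (hρ a).symm
    obtain ⟨c, hc⟩ := isConj_iff.mp hconj
    have hc' : c * toS g = toS (ρ a) * c := by rw [← hc]; group
    obtain ⟨g₁, hg₁, hg₁c⟩ := O_conj_of_Sp_conj_gen Q hadd hsmul (toS g) (toS (ρ a)) c
      (hiso g) (hiso (ρ a)) hc'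
    obtain ⟨g₂, hg₂⟩ := hsurj g₁ hg₁
    refine ⟨a, ?_⟩
    apply Subtype.ext
    show ConjClasses.mk (ρ a) = ConjClasses.mk g
    rw [ConjClasses.mk_eq_mk_iff_isConj]
    apply IsConj.symm
    rw [isConj_iff]
    refine ⟨g₂, ?_⟩
    rw [mul_inv_eq_iff_eq_mul]
    apply hinj
    rw [map_mul, map_mul, hg₂]
    exact hg₁c
  rw [Nat.card_congr (Equiv.ofBijective Ψ ⟨hΨinj, hΨsurj⟩).symm, Nat.card_eq_fintype_card]

/-- the elliptic form in symplectic coordinates -/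
def Qm (F : Type*) [Field F] (n : ℕ) (c : F) (v : Fin (n + 1) ⊕ Fin (n + 1) → F) : F :=
  Cfsg.quadFormPlus (n + 1) F v + v (Sum.inl (Fin.last n)) ^ 2 + c * v (Sum.inr (Fin.last n)) ^ 2

theorem Qm_add [CharP F 2] (n : ℕ) (c : F) (u v : Fin (n + 1) ⊕ Fin (n + 1) → F) :
    Qm F n c (u + v) = Qm F n c u + Qm F n c v + Cfsg.sympForm (n + 1) F u v := by
  simp only [Qm, Q_add, Pi.add_apply, CharTwo.add_sq]; ring

theorem Qm_smul (n : ℕ) (c k : F) (u : Fin (n + 1) ⊕ Fin (n + 1) → F) :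
    Qm F n c (k • u) = k ^ 2 * Qm F n c u := by
  simp only [Qm, Q_smul, Pi.smul_apply, smul_eq_mul]; ring

/-- the vector measuring the difference between the elliptic and hyperbolic forms -/
def a0 (n : ℕ) (γ : F) : Fin (n + 1) ⊕ Fin (n + 1) → F :=
  Pi.single (Sum.inr (Fin.last n)) 1 + γ • Pi.single (Sum.inl (Fin.last n)) 1

theorem Qm_eq [CharP F 2] (n : ℕ) (c γ : F) (hγ : γ ^ 2 = c) (x : Fin (n + 1) ⊕ Fin (n + 1) → F) :
    Qm F n c x = Cfsg.quadFormPlus (n + 1) F x + (Cfsg.sympForm (n + 1) F x (a0 n γ)) ^ 2 := by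
  rw [a0, sf_add_right, sf_smul_right, sf_single_inr, sf_single_inl, CharTwo.add_sq, neg_sq,
    mul_pow, hγ, Qm]
  ring

theorem Q_a0 (n : ℕ) (γ : F) : Cfsg.quadFormPlus (n + 1) F (a0 n γ) = γ := by
  classical
  rw [Cfsg.quadFormPlus, Finset.sum_eq_single (Fin.last n)]
  · simp [a0]
  · intro i _ hi
    simp [a0, hi]
  · intro h; exact absurd (Finset.mem_univ _) h

theorem no_alt_full [Finite F] [CharP F 2] (n : ℕ) (c γ : F) (hγ : γ ^ 2 = c)
    (hanis : ∀ ν : F, γ ≠ ν ^ 2 + ν)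
    (A : Matrix.symplecticGroup (Fin (n + 1)) F)
    (hA : ∀ u, Qm F n c ((A : Matrix (Fin (n + 1) ⊕ Fin (n + 1)) (Fin (n + 1) ⊕ Fin (n + 1)) F) *ᵥ u)
      = Qm F n c u)
    (halt : ∀ x, Cfsg.sympForm (n + 1) F x
      ((A : Matrix (Fin (n + 1) ⊕ Fin (n + 1)) (Fin (n + 1) ⊕ Fin (n + 1)) F) *ᵥ x) = 0)
    (hrank : ((A : Matrix (Fin (n + 1) ⊕ Fin (n + 1)) (Fin (n + 1) ⊕ Fin (n + 1)) F) - 1).rank
      = n + 1) : False := by
  classical
  set N : Matrix (Fin (n + 1) ⊕ Fin (n + 1)) (Fin (n + 1) ⊕ Fin (n + 1)) F :=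
    (A : Matrix (Fin (n + 1) ⊕ Fin (n + 1)) (Fin (n + 1) ⊕ Fin (n + 1)) F) - 1 with hN
  have hAx : ∀ x, (A : Matrix (Fin (n + 1) ⊕ Fin (n + 1)) (Fin (n + 1) ⊕ Fin (n + 1)) F) *ᵥ x
      = x + N *ᵥ x := by
    intro x; rw [hN, Matrix.sub_mulVec, Matrix.one_mulVec]; abel
  have hQN : ∀ x, Qm F n c (N *ᵥ x) = 0 := by
    intro x
    have h1 := hA x
    rw [hAx, Qm_add] at h1
    have h2 := halt x
    rw [hAx, sf_add_right, sf_self, zero_add] at h2
    rw [h2, add_zero] at h1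
    exact add_left_cancel (a := Qm F n c x) (by rw [h1, add_zero])
  have hfr : Module.finrank F (LinearMap.range (Matrix.mulVecLin N)) = n + 1 := hrank
  let bW : Basis (Fin (n + 1)) F (LinearMap.range (Matrix.mulVecLin N)) :=
    (Module.finBasis F _).reindex (finCongr hfr)
  set w : Fin (n + 1) → (Fin (n + 1) ⊕ Fin (n + 1) → F) := fun i => (bW i : _) with hw
  have hwLI : LinearIndependent F w :=
    bW.linearIndependent.map' (Submodule.subtype _) (Submodule.ker_subtype _)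
  have hwN : ∀ i, ∃ x, N *ᵥ x = w i := fun i => by
    obtain ⟨x, hx⟩ := LinearMap.mem_range.mp (bW i).2
    exact ⟨x, hx⟩
  have hw0 : ∀ i j, Cfsg.sympForm (n + 1) F (w i) (w j) = 0 := by
    intro i j
    obtain ⟨x, hx⟩ := hwN i
    obtain ⟨y, hy⟩ := hwN j
    have h1 := Qm_add n c (N *ᵥ x) (N *ᵥ y)
    rw [← Matrix.mulVec_add, hQN, hQN, hQN] at h1
    rw [← hx, ← hy]
    simpa using h1.symm
  set e : Fin (n + 1) → (Fin (n + 1) ⊕ Fin (n + 1) → F) :=
    fun i => Pi.single (Sum.inl i) 1 with he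
  have heLI : LinearIndependent F e := by
    have := (Pi.basisFun F (Fin (n + 1) ⊕ Fin (n + 1))).linearIndependent.comp
      (Sum.inl : Fin (n + 1) → Fin (n + 1) ⊕ Fin (n + 1)) Sum.inl_injective
    convert this using 1
    ext i k
    simp [he]
  have he0 : ∀ i j, Cfsg.sympForm (n + 1) F (e i) (e j) = 0 := by
    intro i j
    simp only [he]
    rw [sf_single_inl]; simp
  obtain ⟨C, hC⟩ := sp_frames_trans (n + 1) w e hwLI heLI hw0 he0
  obtain ⟨ah, hah, ν, hν⟩ := sp_defect (F := F) (C⁻¹)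
  have hkey : ∀ i, Cfsg.sympForm (n + 1) F (e i)
      (ah + (C : Matrix (Fin (n + 1) ⊕ Fin (n + 1)) (Fin (n + 1) ⊕ Fin (n + 1)) F) *ᵥ a0 n γ)
      = 0 := by
    intro i
    have h1 : Qm F n c (((C⁻¹ : Matrix.symplecticGroup (Fin (n + 1)) F) :
        Matrix (Fin (n + 1) ⊕ Fin (n + 1)) (Fin (n + 1) ⊕ Fin (n + 1)) F) *ᵥ e i) = 0 := by
      rw [← hC i, sp_inv_mulVec]
      obtain ⟨x, hx⟩ := hwN i
      rw [← hx]; exact hQN x
    rw [Qm_eq n c γ hγ, hah] at h1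
    have h2 : Cfsg.sympForm (n + 1) F (((C⁻¹ : Matrix.symplecticGroup (Fin (n + 1)) F) :
        Matrix (Fin (n + 1) ⊕ Fin (n + 1)) (Fin (n + 1) ⊕ Fin (n + 1)) F) *ᵥ e i) (a0 n γ)
        = Cfsg.sympForm (n + 1) F (e i)
          ((C : Matrix (Fin (n + 1) ⊕ Fin (n + 1)) (Fin (n + 1) ⊕ Fin (n + 1)) F) *ᵥ a0 n γ) := by
      rw [← sp_preserves C, sp_mulVec_inv]
    have h3 : Cfsg.quadFormPlus (n + 1) F (e i) = 0 := by simp [Cfsg.quadFormPlus, he]
    rw [h2, h3, zero_add, ← CharTwo.add_sq, ← sf_add_right] at h1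
    exact pow_eq_zero_iff (two_ne_zero) |>.mp h1
  have ha1r : ∀ i, (ah + (C : Matrix (Fin (n + 1) ⊕ Fin (n + 1)) (Fin (n + 1) ⊕ Fin (n + 1)) F)
      *ᵥ a0 n γ) (Sum.inr i) = 0 := by
    intro i
    have := hkey i
    rw [sf_symm, sf_single_inl] at this
    exact this
  have hQa1 : Cfsg.quadFormPlus (n + 1) F
      (ah + (C : Matrix (Fin (n + 1) ⊕ Fin (n + 1)) (Fin (n + 1) ⊕ Fin (n + 1)) F) *ᵥ a0 n γ)
      = 0 := by
    rw [Cfsg.quadFormPlus]
    exact Finset.sum_eq_zero fun i _ => by rw [ha1r, mul_zero]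
  have h4 := hah ((C : Matrix (Fin (n + 1) ⊕ Fin (n + 1)) (Fin (n + 1) ⊕ Fin (n + 1)) F) *ᵥ a0 n γ)
  rw [sp_inv_mulVec, Q_a0, sf_symm] at h4
  rw [Q_add, hν] at hQa1
  apply hanis (ν + Cfsg.sympForm (n + 1) F ah
    ((C : Matrix (Fin (n + 1) ⊕ Fin (n + 1)) (Fin (n + 1) ⊕ Fin (n + 1)) F) *ᵥ a0 n γ))
  rw [CharTwo.add_sq]
  have h6 : Cfsg.quadFormPlus (n + 1) F
      ((C : Matrix (Fin (n + 1) ⊕ Fin (n + 1)) (Fin (n + 1) ⊕ Fin (n + 1)) F) *ᵥ a0 n γ)
      = γ + (Cfsg.sympForm (n + 1) F ah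
        ((C : Matrix (Fin (n + 1) ⊕ Fin (n + 1)) (Fin (n + 1) ⊕ Fin (n + 1)) F) *ᵥ a0 n γ)) ^ 2 := by
    have : Cfsg.quadFormPlus (n + 1) F
      ((C : Matrix (Fin (n + 1) ⊕ Fin (n + 1)) (Fin (n + 1) ⊕ Fin (n + 1)) F) *ᵥ a0 n γ)
      = γ - (Cfsg.sympForm (n + 1) F ah
        ((C : Matrix (Fin (n + 1) ⊕ Fin (n + 1)) (Fin (n + 1) ⊕ Fin (n + 1)) F) *ᵥ a0 n γ)) ^ 2 := by
      linear_combination -h4
    rw [this, CharTwo.sub_eq_add]
  rw [h6] at hQa1
  have : γ = -(ν ^ 2 + ν + (Cfsg.sympForm (n + 1) F ah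
        ((C : Matrix (Fin (n + 1) ⊕ Fin (n + 1)) (Fin (n + 1) ⊕ Fin (n + 1)) F) *ᵥ a0 n γ)) ^ 2
      + Cfsg.sympForm (n + 1) F ah
        ((C : Matrix (Fin (n + 1) ⊕ Fin (n + 1)) (Fin (n + 1) ⊕ Fin (n + 1)) F) *ᵥ a0 n γ)) := by
    linear_combination hQa1
  exact this.trans (by rw [CharTwo.neg_eq]; ring)

theorem Pm_Qm (n : ℕ) (c : F) (s : ℕ) (hs : s ≤ n) (u : Fin (n + 1) ⊕ Fin (n + 1) → F) :
    Qm F n c (Pm F (n + 1) s *ᵥ u) = Qm F n c u := by
  have h1 : (Pm F (n + 1) s *ᵥ u) (Sum.inl (Fin.last n)) = u (Sum.inl (Fin.last n)) := by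
    rw [Pm, Matrix.fromBlocks_mulVec]
    simp only [Sum.elim_inl, Pi.add_apply, Matrix.mulVec_diagonal, Function.comp_apply,
      Fin.val_last]
    rw [if_neg (by omega), if_neg (by omega)]; ring
  have h2 : (Pm F (n + 1) s *ᵥ u) (Sum.inr (Fin.last n)) = u (Sum.inr (Fin.last n)) := by
    rw [Pm, Matrix.fromBlocks_mulVec]
    simp only [Sum.elim_inr, Pi.add_apply, Matrix.mulVec_diagonal, Function.comp_apply,
      Fin.val_last]
    rw [if_neg (by omega), if_neg (by omega)]; ring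
  rw [Qm, Qm, Pm_isom, h1, h2]

theorem TS_Qm [CharP F 2] (n : ℕ) (c : F) (k : ℕ) (hk : 2 * k ≤ n)
    (u : Fin (n + 1) ⊕ Fin (n + 1) → F) :
    Qm F n c ((TS (Da F (n + 1) k) :
      Matrix (Fin (n + 1) ⊕ Fin (n + 1)) (Fin (n + 1) ⊕ Fin (n + 1)) F) *ᵥ u) = Qm F n c u := by
  have hS := Da_transpose (F := F) (n + 1) k
  have h0 := TS_isom (Da F (n + 1) k) hS (Da_alt (n + 1) k) u
  have h1 : ((TS (Da F (n + 1) k) :
      Matrix (Fin (n + 1) ⊕ Fin (n + 1)) (Fin (n + 1) ⊕ Fin (n + 1)) F) *ᵥ u)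
      (Sum.inl (Fin.last n)) = u (Sum.inl (Fin.last n)) := by
    rw [coe_TS _ hS, Matrix.fromBlocks_mulVec]
    simp only [Sum.elim_inl, Pi.add_apply, Matrix.one_mulVec, Function.comp_apply]
    have : (Da F (n + 1) k *ᵥ (u ∘ Sum.inr)) (Fin.last n) = 0 := by
      simp only [Matrix.mulVec, dotProduct, Da, Matrix.of_apply, Fin.val_last]
      refine Finset.sum_eq_zero fun j _ => ?_
      rw [if_neg (fun h => absurd h.1 (by omega)), zero_mul]
    rw [this, add_zero]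
  have h2 : ((TS (Da F (n + 1) k) :
      Matrix (Fin (n + 1) ⊕ Fin (n + 1)) (Fin (n + 1) ⊕ Fin (n + 1)) F) *ᵥ u)
      (Sum.inr (Fin.last n)) = u (Sum.inr (Fin.last n)) := by
    rw [coe_TS _ hS, Matrix.fromBlocks_mulVec]; simp
  rw [Qm, Qm, h0, h1, h2]

/-- swap of the first `n` hyperbolic pairs times a reflection in the last plane -/
def Rm (F : Type*) [Field F] (n : ℕ) :
    Matrix (Fin (n + 1) ⊕ Fin (n + 1)) (Fin (n + 1) ⊕ Fin (n + 1)) F :=
  Matrix.fromBlocks (Matrix.diagonal fun i : Fin (n + 1) => if i.val < n then 0 else 1) 1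
    (Matrix.diagonal fun i : Fin (n + 1) => if i.val < n then 1 else 0)
    (Matrix.diagonal fun i : Fin (n + 1) => if i.val < n then 0 else 1)

theorem Rm_mul_self [CharP F 2] (n : ℕ) : Rm F n * Rm F n = 1 := by
  have h1 : (Matrix.diagonal fun i : Fin (n + 1) => if i.val < n then (0 : F) else 1)
      * (Matrix.diagonal fun i : Fin (n + 1) => if i.val < n then (0 : F) else 1)
      + 1 * (Matrix.diagonal fun i : Fin (n + 1) => if i.val < n then (1 : F) else 0) = 1 := by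
    rw [Matrix.diagonal_mul_diagonal, Matrix.one_mul, Matrix.diagonal_add, ← Matrix.diagonal_one]
    congr 1; funext i; split_ifs <;> simp
  have h2 : (Matrix.diagonal fun i : Fin (n + 1) => if i.val < n then (0 : F) else 1) * 1
      + 1 * (Matrix.diagonal fun i : Fin (n + 1) => if i.val < n then (0 : F) else 1) = 0 := by
    rw [Matrix.mul_one, Matrix.one_mul, Matrix.diagonal_add, ← Matrix.diagonal_zero]
    congr 1; funext i; exact CharTwo.add_self_eq_zero _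
  have h3 : (Matrix.diagonal fun i : Fin (n + 1) => if i.val < n then (1 : F) else 0)
      * (Matrix.diagonal fun i : Fin (n + 1) => if i.val < n then (0 : F) else 1)
      + (Matrix.diagonal fun i : Fin (n + 1) => if i.val < n then (0 : F) else 1)
      * (Matrix.diagonal fun i : Fin (n + 1) => if i.val < n then (1 : F) else 0) = 0 := by
    rw [Matrix.diagonal_mul_diagonal, Matrix.diagonal_mul_diagonal, Matrix.diagonal_add,
      ← Matrix.diagonal_zero]
    congr 1; funext i; split_ifs <;> simp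
  have h4 : (Matrix.diagonal fun i : Fin (n + 1) => if i.val < n then (1 : F) else 0) * 1
      + (Matrix.diagonal fun i : Fin (n + 1) => if i.val < n then (0 : F) else 1)
      * (Matrix.diagonal fun i : Fin (n + 1) => if i.val < n then (0 : F) else 1) = 1 := by
    rw [Matrix.diagonal_mul_diagonal, Matrix.mul_one, Matrix.diagonal_add, ← Matrix.diagonal_one]
    congr 1; funext i; split_ifs <;> simp
  rw [Rm, Matrix.fromBlocks_multiply, h1, h2, h3, h4, Matrix.fromBlocks_one]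

theorem Qm_split (n : ℕ) (c : F) (v : Fin (n + 1) ⊕ Fin (n + 1) → F) :
    Qm F n c v = (∑ i : Fin n, v (Sum.inl i.castSucc) * v (Sum.inr i.castSucc))
      + (v (Sum.inl (Fin.last n)) * v (Sum.inr (Fin.last n)) + v (Sum.inl (Fin.last n)) ^ 2
        + c * v (Sum.inr (Fin.last n)) ^ 2) := by
  rw [Qm, Cfsg.quadFormPlus, Fin.sum_univ_castSucc]; ring

theorem Rm_Qm [CharP F 2] (n : ℕ) (c : F) (u : Fin (n + 1) ⊕ Fin (n + 1) → F) :
    Qm F n c (Rm F n *ᵥ u) = Qm F n c u := by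
  have e1 : ∀ i : Fin n, (Rm F n *ᵥ u) (Sum.inl i.castSucc) = u (Sum.inr i.castSucc) := by
    intro i
    rw [Rm, Matrix.fromBlocks_mulVec]
    simp [Matrix.mulVec_diagonal]
  have e2 : ∀ i : Fin n, (Rm F n *ᵥ u) (Sum.inr i.castSucc) = u (Sum.inl i.castSucc) := by
    intro i
    rw [Rm, Matrix.fromBlocks_mulVec]
    simp [Matrix.mulVec_diagonal]
  have e3 : (Rm F n *ᵥ u) (Sum.inl (Fin.last n))
      = u (Sum.inl (Fin.last n)) + u (Sum.inr (Fin.last n)) := by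
    rw [Rm, Matrix.fromBlocks_mulVec]
    simp [Matrix.mulVec_diagonal]
  have e4 : (Rm F n *ᵥ u) (Sum.inr (Fin.last n)) = u (Sum.inr (Fin.last n)) := by
    rw [Rm, Matrix.fromBlocks_mulVec]
    simp [Matrix.mulVec_diagonal]
  rw [Qm_split, Qm_split, e3, e4]
  simp only [e1, e2]
  congr 1
  · exact Finset.sum_congr rfl fun i _ => mul_comm _ _
  · rw [CharTwo.add_sq]
    linear_combination (u (Sum.inr (Fin.last n)) ^ 2) * (CharTwo.two_eq_zero (R := F))

theorem Rm_type [Finite F] [CharP F 2] (n : ℕ) (R : Matrix.symplecticGroup (Fin (n + 1)) F)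
    (hR : (R : Matrix (Fin (n + 1) ⊕ Fin (n + 1)) (Fin (n + 1) ⊕ Fin (n + 1)) F) = Rm F n) :
    IsConj R (TS (repS F (n + 1) (Sum.inl (Fin.last n)))) := by
  classical
  have hsq : R * R = 1 := by
    apply Subtype.ext
    rw [sp_coe_mul, hR, Rm_mul_self, sp_coe_one]
  have hnalt : Cfsg.sympForm (n + 1) F (Pi.single (Sum.inr (Fin.last n)) 1)
      (Rm F n *ᵥ Pi.single (Sum.inr (Fin.last n)) 1) ≠ 0 := by
    rw [Cfsg.sympForm, Cfsg.Agent.S0764.J_mulVec, single_dotProduct, Matrix.mulVec_single_one]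
    simp [Rm, Matrix.col]
  have hne : R ≠ 1 := by
    intro h1
    apply hnalt
    rw [← hR, h1, sp_coe_one, Matrix.one_mulVec, sf_self]
  have hrk : n + 1 ≤ (Rm F n - 1).rank := by
    have h1 : (1 : Matrix (Fin (n + 1)) (Fin (n + 1)) F)
        = (Rm F n - 1).submatrix Sum.inl Sum.inr := by
      ext i j; simp [Rm, Matrix.one_apply]
    have h2 := Matrix.rank_submatrix_le (Rm F n - 1) (Sum.inl : Fin (n + 1) → _)
      (Sum.inr : Fin (n + 1) → _)
    rw [← h1, Matrix.rank_one, Fintype.card_fin] at h2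
    exact h2
  obtain ⟨a, ha⟩ := exists_repS _ hsq hne
  rcases a with i' | j
  · have hr := rank_of_conj_TS _ _ (repS_transpose (Sum.inl i')) ha
    rw [hR] at hr
    simp only [repS, Sum.elim_inl] at hr
    rw [rank_Dn (by omega)] at hr
    have : i' = Fin.last n := by ext; simp only [Fin.val_last]; omega
    subst this; exact ha
  · exfalso
    apply hnalt
    have := alt_of_conj_TS _ _ (repS_transpose (Sum.inr j)) ha (Da_alt (n + 1) _)
      (Pi.single (Sum.inr (Fin.last n)) 1)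
    rw [hR] at this
    exact this

/-- coordinate change from the elliptic coordinates to symplectic coordinates -/
def psi (n : ℕ) (a : F) :
    ((Fin n ⊕ Fin n) ⊕ Fin 2 → F) →ₗ[F] (Fin (n + 1) ⊕ Fin (n + 1) → F) where
  toFun u := Sum.elim (Fin.lastCases (u (Sum.inr 0)) (fun i => u (Sum.inl (Sum.inl i))))
    (Fin.lastCases (a * u (Sum.inr 1)) (fun i => u (Sum.inl (Sum.inr i))))
  map_add' u v := by
    ext (k | k) <;> refine Fin.lastCases ?_ (fun i => ?_) k <;> simp [mul_add]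
  map_smul' k u := by
    ext (j | j) <;> refine Fin.lastCases ?_ (fun i => ?_) j <;> simp [mul_left_comm]

/-- inverse coordinate change -/
def psiInv (n : ℕ) (a : F) :
    (Fin (n + 1) ⊕ Fin (n + 1) → F) →ₗ[F] ((Fin n ⊕ Fin n) ⊕ Fin 2 → F) where
  toFun v := Sum.elim (Sum.elim (fun i => v (Sum.inl i.castSucc)) (fun i => v (Sum.inr i.castSucc)))
    ![v (Sum.inl (Fin.last n)), a⁻¹ * v (Sum.inr (Fin.last n))]
  map_add' u v := by
    ext ((k | k) | k)
    · simp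
    · simp
    · fin_cases k <;> simp [mul_add]
  map_smul' c u := by
    ext ((k | k) | k)
    · simp
    · simp
    · fin_cases k <;> simp [mul_left_comm]

theorem psi_psiInv (n : ℕ) {a : F} (ha : a ≠ 0) (v : Fin (n + 1) ⊕ Fin (n + 1) → F) :
    psi n a (psiInv n a v) = v := by
  ext (k | k) <;> refine Fin.lastCases ?_ (fun i => ?_) k <;> simp [psi, psiInv, ha]

theorem psiInv_psi (n : ℕ) {a : F} (ha : a ≠ 0) (u : (Fin n ⊕ Fin n) ⊕ Fin 2 → F) :
    psiInv n a (psi n a u) = u := by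
  ext ((k | k) | k)
  · simp [psi, psiInv]
  · simp [psi, psiInv]
  · fin_cases k <;> simp [psi, psiInv, ha]

theorem Qminus_eq (n : ℕ) (a b : F) (ha : a ≠ 0) (u : (Fin n ⊕ Fin n) ⊕ Fin 2 → F) :
    Cfsg.quadFormMinus n F a b u = Qm F n (b / a ^ 2) (psi n a u) := by
  rw [Qm_split]
  simp only [psi, LinearMap.coe_mk, AddHom.coe_mk, Sum.elim_inl, Sum.elim_inr,
    Fin.lastCases_castSucc, Fin.lastCases_last, Cfsg.quadFormMinus]
  field_simp
  ring

/-- conjugation of matrices by the coordinate change -/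
noncomputable def conjMat (n : ℕ) (a : F) (g : Matrix ((Fin n ⊕ Fin n) ⊕ Fin 2) ((Fin n ⊕ Fin n) ⊕ Fin 2) F) :
    Matrix (Fin (n + 1) ⊕ Fin (n + 1)) (Fin (n + 1) ⊕ Fin (n + 1)) F :=
  LinearMap.toMatrix' (psi n a) * g * LinearMap.toMatrix' (psiInv n a)

/-- conjugation of matrices by the inverse coordinate change -/
noncomputable def conjInv (n : ℕ) (a : F) (A : Matrix (Fin (n + 1) ⊕ Fin (n + 1)) (Fin (n + 1) ⊕ Fin (n + 1)) F) :
    Matrix ((Fin n ⊕ Fin n) ⊕ Fin 2) ((Fin n ⊕ Fin n) ⊕ Fin 2) F :=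
  LinearMap.toMatrix' (psiInv n a) * A * LinearMap.toMatrix' (psi n a)

theorem PP (n : ℕ) {a : F} (ha : a ≠ 0) :
    LinearMap.toMatrix' (psi n a) * LinearMap.toMatrix' (psiInv n a) = 1 := by
  rw [← LinearMap.toMatrix'_comp, show psi n a ∘ₗ psiInv n a = LinearMap.id from
    LinearMap.ext (psi_psiInv n ha), LinearMap.toMatrix'_id]

theorem PP' (n : ℕ) {a : F} (ha : a ≠ 0) :
    LinearMap.toMatrix' (psiInv n a) * LinearMap.toMatrix' (psi n a) = 1 := by
  rw [← LinearMap.toMatrix'_comp, show psiInv n a ∘ₗ psi n a = LinearMap.id from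
    LinearMap.ext (psiInv_psi n ha), LinearMap.toMatrix'_id]

theorem conjMat_mulVec (n : ℕ) (a : F) (g : Matrix ((Fin n ⊕ Fin n) ⊕ Fin 2) ((Fin n ⊕ Fin n) ⊕ Fin 2) F)
    (v : Fin (n + 1) ⊕ Fin (n + 1) → F) :
    conjMat n a g *ᵥ v = psi n a (g *ᵥ psiInv n a v) := by
  rw [conjMat, ← Matrix.mulVec_mulVec, ← Matrix.mulVec_mulVec, LinearMap.toMatrix'_mulVec,
    LinearMap.toMatrix'_mulVec]

theorem conjInv_mulVec (n : ℕ) (a : F) (A : Matrix (Fin (n + 1) ⊕ Fin (n + 1)) (Fin (n + 1) ⊕ Fin (n + 1)) F)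
    (u : (Fin n ⊕ Fin n) ⊕ Fin 2 → F) :
    conjInv n a A *ᵥ u = psiInv n a (A *ᵥ psi n a u) := by
  rw [conjInv, ← Matrix.mulVec_mulVec, ← Matrix.mulVec_mulVec, LinearMap.toMatrix'_mulVec,
    LinearMap.toMatrix'_mulVec]

theorem conjMat_mul (n : ℕ) {a : F} (ha : a ≠ 0)
    (g h : Matrix ((Fin n ⊕ Fin n) ⊕ Fin 2) ((Fin n ⊕ Fin n) ⊕ Fin 2) F) :
    conjMat n a (g * h) = conjMat n a g * conjMat n a h := by
  rw [conjMat, conjMat, conjMat]
  symm
  calc _ = LinearMap.toMatrix' (psi n a) * g * (LinearMap.toMatrix' (psiInv n a)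
        * LinearMap.toMatrix' (psi n a)) * h * LinearMap.toMatrix' (psiInv n a) := by
        simp only [Matrix.mul_assoc]
    _ = _ := by
        rw [PP' n ha, Matrix.mul_one, Matrix.mul_assoc (LinearMap.toMatrix' (psi n a)) g h]

theorem conjInv_mul (n : ℕ) {a : F} (ha : a ≠ 0)
    (g h : Matrix (Fin (n + 1) ⊕ Fin (n + 1)) (Fin (n + 1) ⊕ Fin (n + 1)) F) :
    conjInv n a (g * h) = conjInv n a g * conjInv n a h := by
  rw [conjInv, conjInv, conjInv]
  symm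
  calc _ = LinearMap.toMatrix' (psiInv n a) * g * (LinearMap.toMatrix' (psi n a)
        * LinearMap.toMatrix' (psiInv n a)) * h * LinearMap.toMatrix' (psi n a) := by
        simp only [Matrix.mul_assoc]
    _ = _ := by
        rw [PP n ha, Matrix.mul_one, Matrix.mul_assoc (LinearMap.toMatrix' (psiInv n a)) g h]

theorem conjMat_one (n : ℕ) {a : F} (ha : a ≠ 0) : conjMat n a 1 = 1 := by
  rw [conjMat, Matrix.mul_one, PP n ha]

theorem conjInv_one (n : ℕ) {a : F} (ha : a ≠ 0) : conjInv n a 1 = 1 := by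
  rw [conjInv, Matrix.mul_one, PP' n ha]

theorem conjMat_conjInv (n : ℕ) {a : F} (ha : a ≠ 0)
    (A : Matrix (Fin (n + 1) ⊕ Fin (n + 1)) (Fin (n + 1) ⊕ Fin (n + 1)) F) :
    conjMat n a (conjInv n a A) = A := by
  simp only [conjMat, conjInv]
  calc LinearMap.toMatrix' (psi n a) * (LinearMap.toMatrix' (psiInv n a) * A
        * LinearMap.toMatrix' (psi n a)) * LinearMap.toMatrix' (psiInv n a)
      = (LinearMap.toMatrix' (psi n a) * LinearMap.toMatrix' (psiInv n a)) * A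
        * (LinearMap.toMatrix' (psi n a) * LinearMap.toMatrix' (psiInv n a)) := by
        simp [Matrix.mul_assoc]
    _ = A := by rw [PP n ha]; simp

theorem conjInv_conjMat (n : ℕ) {a : F} (ha : a ≠ 0)
    (g : Matrix ((Fin n ⊕ Fin n) ⊕ Fin 2) ((Fin n ⊕ Fin n) ⊕ Fin 2) F) :
    conjInv n a (conjMat n a g) = g := by
  simp only [conjMat, conjInv]
  calc LinearMap.toMatrix' (psiInv n a) * (LinearMap.toMatrix' (psi n a) * g
        * LinearMap.toMatrix' (psiInv n a)) * LinearMap.toMatrix' (psi n a)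
      = (LinearMap.toMatrix' (psiInv n a) * LinearMap.toMatrix' (psi n a)) * g
        * (LinearMap.toMatrix' (psiInv n a) * LinearMap.toMatrix' (psi n a)) := by
        simp [Matrix.mul_assoc]
    _ = g := by rw [PP' n ha]; simp

theorem mem_isomM_iff (n : ℕ) (a b : F) (g : GL ((Fin n ⊕ Fin n) ⊕ Fin 2) F) :
    g ∈ Cfsg.isometryGroup F (Cfsg.quadFormMinus n F a b) ↔
      ∀ u, Cfsg.quadFormMinus n F a b
        ((g : Matrix ((Fin n ⊕ Fin n) ⊕ Fin 2) ((Fin n ⊕ Fin n) ⊕ Fin 2) F) *ᵥ u)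
        = Cfsg.quadFormMinus n F a b u := by
  constructor
  · intro h u; exact h u u
  · intro h u v; exact h u

theorem conjMat_isom (n : ℕ) (a b : F) (ha : a ≠ 0)
    (g : ↥(Cfsg.isometryGroup F (Cfsg.quadFormMinus n F a b)))
    (v : Fin (n + 1) ⊕ Fin (n + 1) → F) :
    Qm F n (b / a ^ 2) (conjMat n a
      ((g : GL ((Fin n ⊕ Fin n) ⊕ Fin 2) F) :
        Matrix ((Fin n ⊕ Fin n) ⊕ Fin 2) ((Fin n ⊕ Fin n) ⊕ Fin 2) F) *ᵥ v)
      = Qm F n (b / a ^ 2) v := by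
  rw [conjMat_mulVec, ← Qminus_eq n a b ha, (mem_isomM_iff n a b _).mp g.2, Qminus_eq n a b ha,
    psi_psiInv n ha]

/-- the isometry group of the elliptic form inside `Sp` (characteristic 2) -/
noncomputable def toSpM [CharP F 2] (n : ℕ) (a b : F) (ha : a ≠ 0) :
    ↥(Cfsg.isometryGroup F (Cfsg.quadFormMinus n F a b)) →*
      Matrix.symplecticGroup (Fin (n + 1)) F where
  toFun g := ⟨conjMat n a ((g : GL ((Fin n ⊕ Fin n) ⊕ Fin 2) F) :
      Matrix ((Fin n ⊕ Fin n) ⊕ Fin 2) ((Fin n ⊕ Fin n) ⊕ Fin 2) F),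
    mem_sp_of_isom_gen (Qm F n (b / a ^ 2)) (Qm_add n _) _ (conjMat_isom n a b ha g)⟩
  map_one' := Subtype.ext (conjMat_one n ha)
  map_mul' _ _ := Subtype.ext (conjMat_mul n ha _ _)

theorem toSpM_injective [CharP F 2] (n : ℕ) (a b : F) (ha : a ≠ 0) :
    Function.Injective (toSpM (F := F) n a b ha) := by
  intro g g' h
  apply Subtype.ext
  apply Units.ext
  have h1 : conjMat n a ((g : GL ((Fin n ⊕ Fin n) ⊕ Fin 2) F) :
      Matrix ((Fin n ⊕ Fin n) ⊕ Fin 2) ((Fin n ⊕ Fin n) ⊕ Fin 2) F)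
      = conjMat n a ((g' : GL ((Fin n ⊕ Fin n) ⊕ Fin 2) F) :
      Matrix ((Fin n ⊕ Fin n) ⊕ Fin 2) ((Fin n ⊕ Fin n) ⊕ Fin 2) F) :=
    congrArg Subtype.val h
  have h2 := congrArg (conjInv n a) h1
  rwa [conjInv_conjMat n ha, conjInv_conjMat n ha] at h2

theorem toSpM_surj [CharP F 2] (n : ℕ) (a b : F) (ha : a ≠ 0)
    (A : Matrix.symplecticGroup (Fin (n + 1)) F)
    (hA : ∀ u, Qm F n (b / a ^ 2)
      ((A : Matrix (Fin (n + 1) ⊕ Fin (n + 1)) (Fin (n + 1) ⊕ Fin (n + 1)) F) *ᵥ u)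
      = Qm F n (b / a ^ 2) u) : ∃ g, toSpM n a b ha g = A := by
  have h1 : conjInv n a (A : Matrix (Fin (n + 1) ⊕ Fin (n + 1)) (Fin (n + 1) ⊕ Fin (n + 1)) F)
      * conjInv n a ((A⁻¹ : Matrix.symplecticGroup (Fin (n + 1)) F) :
        Matrix (Fin (n + 1) ⊕ Fin (n + 1)) (Fin (n + 1) ⊕ Fin (n + 1)) F) = 1 := by
    rw [← conjInv_mul n ha, ← sp_coe_mul, mul_inv_cancel, sp_coe_one, conjInv_one n ha]
  have h2 : conjInv n a ((A⁻¹ : Matrix.symplecticGroup (Fin (n + 1)) F) :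
        Matrix (Fin (n + 1) ⊕ Fin (n + 1)) (Fin (n + 1) ⊕ Fin (n + 1)) F)
      * conjInv n a (A : Matrix (Fin (n + 1) ⊕ Fin (n + 1)) (Fin (n + 1) ⊕ Fin (n + 1)) F) = 1 := by
    rw [← conjInv_mul n ha, ← sp_coe_mul, inv_mul_cancel, sp_coe_one, conjInv_one n ha]
  refine ⟨⟨⟨_, _, h1, h2⟩, (mem_isomM_iff n a b _).mpr ?_⟩, ?_⟩
  · intro u
    show Cfsg.quadFormMinus n F a b (conjInv n a
      (A : Matrix (Fin (n + 1) ⊕ Fin (n + 1)) (Fin (n + 1) ⊕ Fin (n + 1)) F) *ᵥ u) = _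
    rw [conjInv_mulVec, Qminus_eq n a b ha, psi_psiInv n ha, hA, ← Qminus_eq n a b ha]
  · apply Subtype.ext
    exact conjMat_conjInv n ha _

theorem card_classes_Ominus [Finite F] [CharP F 2] (n : ℕ) (a b : F)
    (hab : ∀ z₁ z₂ : F, z₁ ^ 2 + a * z₁ * z₂ + b * z₂ ^ 2 = 0 → z₁ = 0 ∧ z₂ = 0) :
    Nat.card {C : ConjClasses ↥(Cfsg.isometryGroup F (Cfsg.quadFormMinus n F a b)) //
      ∃ g : ↥(Cfsg.isometryGroup F (Cfsg.quadFormMinus n F a b)),
        ConjClasses.mk g = C ∧ orderOf g = 2} = n + 1 + n / 2 := by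
  classical
  have ha : a ≠ 0 := by
    rintro rfl
    obtain ⟨d, hd⟩ := exists_sqrt b
    have := hab d 1 (by
      rw [← hd]
      have := CharTwo.add_self_eq_zero (d ^ 2)
      linear_combination this)
    exact one_ne_zero this.2
  obtain ⟨γ, hγ'⟩ := exists_sqrt (b / a ^ 2)
  have hγ : γ ^ 2 = b / a ^ 2 := by rw [pow_two]; exact hγ'
  have hanis : ∀ ν : F, γ ≠ ν ^ 2 + ν := by
    intro ν h
    have h1 : b * (1 / a) ^ 2 = γ ^ 2 := by rw [hγ]; field_simp
    have := hab (ν ^ 2) (1 / a) (by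
      rw [h1, h, CharTwo.add_sq]
      have h2 := CharTwo.add_self_eq_zero ((ν ^ 2) ^ 2 + ν ^ 2)
      field_simp
      linear_combination h2)
    exact ha (by simpa using this.2)
  have hle : n / 2 ≤ (n + 1) / 2 := by omega
  have key := card_classes_gen (F := F) (M := n + 1) (by omega) (Qm F n (b / a ^ 2)) (Qm_add n _)
    (fun k u => Qm_smul n _ k u) (toSpM n a b ha) (toSpM_injective n a b ha)
    (fun g u => conjMat_isom n a b ha g u) (toSpM_surj n a b ha)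
    (ι := Fin (n + 1) ⊕ Fin (n / 2))
    (Sum.map (id : Fin (n + 1) → Fin (n + 1)) (Fin.castLE hle))
    (Sum.map_injective.mpr ⟨Function.injective_id, Fin.castLE_injective hle⟩)
    (by
      rintro (i | j)
      · by_cases hi : i.val < n
        · refine ⟨OInv.toSp (n + 1) (swapO F (n + 1) (i.val + 1)), ?_,
            swapO_type (by omega) i⟩
          intro u
          exact Pm_Qm n _ (i.val + 1) (by omega) u
        · have : i = Fin.last n := by ext; simp only [Fin.val_last]; omega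
          subst this
          exact ⟨⟨Rm F n, mem_sp_of_isom_gen (Qm F n (b / a ^ 2)) (Qm_add n _) _ (Rm_Qm n _)⟩,
            Rm_Qm n _, Rm_type n _ rfl⟩
      · exact ⟨TS (Da F (n + 1) (j.val + 1)), TS_Qm n _ (j.val + 1) (by omega), IsConj.refl _⟩)
    (by
      intro A hA a' hc
      rcases a' with i | j
      · exact ⟨Sum.inl i, rfl⟩
      · by_cases hj : j.val < n / 2
        · exact ⟨Sum.inr ⟨j.val, hj⟩, rfl⟩
        · exfalso
          have hj2 : 2 * (j.val + 1) = n + 1 := by have := j.2; omega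
          have hrank := rank_of_conj_TS A _ (repS_transpose (Sum.inr j)) hc
          simp only [repS, Sum.elim_inr] at hrank
          rw [rank_Da (by omega), hj2] at hrank
          exact no_alt_full n _ γ hγ hanis A hA
            (alt_of_conj_TS A _ (repS_transpose (Sum.inr j)) hc (Da_alt (n + 1) _)) hrank)
  rw [key]
  simp

end Cfsg.Agent.Helper14.OMinusInv
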