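import Mathlib
import Cfsg.Agent.Helper14.OCentB
import Cfsg.Agent.Helper14.OMinusInv
import Cfsg.Agent.Helper16.Dickson
import Cfsg.Agent.Helper16.StdForms

set_option autoImplicit false

namespace Cfsg.Agent.Helper14.OCentM

section part1

open Matrix QuadraticMap Module Cfsg Cfsg.Agent.Helper16

section chain
variable {ι : Type} [Fintype ι] [DecidableEq ι] {F : Type*} [Field F] [CharP F 2]

theorem dmul [Fintype F] (Q : QuadraticForm F (ι → F)) (hQ : (polarBilin Q).Nondegenerate)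
    (htop : Subgroup.closure (reflSet ⇑Q) = ⊤) (g k : ↥(isometryGroup F ⇑Q)) :
    dicksonFun ⇑Q (g * k) = dicksonFun ⇑Q g * dicksonFun ⇑Q k := by
  have hg : g ∈ Subgroup.closure (reflSet ⇑Q) := by rw [htop]; exact Subgroup.mem_top g
  induction hg using Subgroup.closure_induction_left with
  | one => rw [one_mul, dicksonFun_one, one_mul]
  | mul_left x hx y _ ih =>
    obtain ⟨v, hv, hmat⟩ := hx
    have : x = reflElt Q v := isom_ext _ _ _ (by rw [hmat, reflElt_coe Q v hv])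
    rw [this, mul_assoc, dicksonFun_refl_mul Q hQ _ v hv, ih, dicksonFun_refl_mul Q hQ _ v hv,
      mul_assoc]
  | inv_mul_cancel x hx y _ ih =>
    obtain ⟨v, hv, hmat⟩ := hx
    have : x = reflElt Q v := isom_ext _ _ _ (by rw [hmat, reflElt_coe Q v hv])
    rw [this, reflElt_inv, mul_assoc, dicksonFun_refl_mul Q hQ _ v hv, ih,
      dicksonFun_refl_mul Q hQ _ v hv, mul_assoc]

/-- the Dickson invariant as a homomorphism, given generation by reflections -/
noncomputable def dHom [Fintype F] (Q : QuadraticForm F (ι → F))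
    (hQ : (polarBilin Q).Nondegenerate) (htop : Subgroup.closure (reflSet ⇑Q) = ⊤) :
    ↥(isometryGroup F ⇑Q) →* Multiplicative (ZMod 2) :=
  MonoidHom.mk' (dicksonFun ⇑Q) (dmul Q hQ htop)

theorem omega_facts_top [Fintype F] (Q : QuadraticForm F (ι → F))
    (hQ : (polarBilin Q).Nondegenerate) (htop : Subgroup.closure (reflSet ⇑Q) = ⊤)
    (hn : 1 ≤ Fintype.card ι) :
    (Omega F ⇑Q).index = 2 ∧
    (∀ g : ↥(isometryGroup F ⇑Q), g ∈ Omega F ⇑Q ↔
      Even (((g : GL ι F) : Matrix ι ι F) - 1).rank) ∧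
    (∀ w : ι → F, Q w ≠ 0 → reflElt Q w ∉ Omega F ⇑Q) := by
  have hrefl : ∀ a, Q a ≠ 0 → dHom Q hQ htop (reflElt Q a) = Multiplicative.ofAdd 1 := by
    intro a ha
    show dicksonFun ⇑Q (reflElt Q a) = _
    have := dicksonFun_refl_mul Q hQ 1 a ha
    rw [mul_one, dicksonFun_one, mul_one] at this
    exact this
  have hmemd : ∀ g, g ∈ Omega F ⇑Q ↔ dHom Q hQ htop g = 1 := by
    intro g
    constructor
    · intro hg
      exact Abelianization.commutator_subset_ker _ hg
    · intro hg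
      obtain ⟨a₀, ha₀⟩ := exists_nonsing Q hQ hn
      have hdich : g ∈ Omega F ⇑Q ∨ reflElt Q a₀ * g ∈ Omega F ⇑Q := by
        rcases even_dichotomy Q a₀ ha₀ g (htop ▸ Subgroup.mem_top g) with hg | hg
        · exact Or.inl (even_le_Omega Q hQ hg)
        · exact Or.inr (even_le_Omega Q hQ hg)
      rcases hdich with h1 | h1
      · exact h1
      · have h3 : dHom Q hQ htop (reflElt Q a₀ * g) = 1 :=
          Abelianization.commutator_subset_ker _ h1
        rw [map_mul, hg, mul_one, hrefl a₀ ha₀] at h3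
        exact absurd h3 (by decide)
  have hrank : ∀ g : ↥(isometryGroup F ⇑Q), dHom Q hQ htop g = 1 ↔
      Even (((g : GL ι F) : Matrix ι ι F) - 1).rank := by
    intro g
    have hr : (((g : GL ι F) : Matrix ι ι F) - 1).rank = finrank F (movSub ⇑Q g) := by
      unfold Matrix.rank movSub
      have e : Matrix.mulVecLin (((g : GL ι F) : Matrix ι ι F) - 1) =
          Matrix.mulVecLin ((g : GL ι F) : Matrix ι ι F) - LinearMap.id := by
        apply LinearMap.ext
        intro x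
        rw [LinearMap.sub_apply, Matrix.mulVecLin_apply, Matrix.sub_mulVec, Matrix.one_mulVec]
        rfl
      rw [e]
    have hsum := finrank_mov_add_fix ⇑Q g
    show Multiplicative.ofAdd ((Fintype.card ι + finrank F (fixSub ⇑Q g) : ℕ) : ZMod 2) = 1 ↔ _
    rw [hr, ← ofAdd_zero, Multiplicative.ofAdd.injective.eq_iff, ZMod.natCast_eq_zero_iff_even,
      ← hsum]
    constructor
    · intro he
      have : Even (finrank F (movSub ⇑Q g) + 2 * finrank F (fixSub ⇑Q g)) := by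
        have e : finrank F (movSub ⇑Q g) + 2 * finrank F (fixSub ⇑Q g) =
          finrank F (movSub ⇑Q g) + finrank F (fixSub ⇑Q g) + finrank F (fixSub ⇑Q g) := by ring
        rw [e]
        exact he
      rcases this with ⟨r, hr'⟩
      exact ⟨r - finrank F (fixSub ⇑Q g), by omega⟩
    · rintro ⟨r, hr'⟩
      exact ⟨r + finrank F (fixSub ⇑Q g), by omega⟩
  refine ⟨?_, fun g => (hmemd g).trans (hrank g), ?_⟩
  · obtain ⟨a₀, ha₀⟩ := exists_nonsing Q hQ hn
    have hker : Omega F ⇑Q = (dHom Q hQ htop).ker := by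
      ext g
      rw [hmemd, MonoidHom.mem_ker]
    rw [hker]
    exact index_ker_zmod2 _ (reflElt Q a₀) (by rw [hrefl a₀ ha₀]; decide)
  · intro w hw hmem
    have := (hmemd _).1 hmem
    rw [hrefl w hw] at this
    exact absurd this (by decide)

/-- Cartan–Dieudonné in characteristic two when there are no nontrivial isometries `g` with
`f(g a, a) = 0` for all `a` -/
theorem cd_of_no_alt [Fintype F] (Q : QuadraticForm F (ι → F))
    (hbad : ∀ g : ↥(isometryGroup F ⇑Q), (∀ a, polar Q (act ⇑Q g a) a = 0) → g = 1) :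
    Subgroup.closure (reflSet ⇑Q) = ⊤ := by
  have aux : ∀ k : ℕ, ∀ g : ↥(isometryGroup F ⇑Q),
      Fintype.card ι ≤ finrank F (fixSub ⇑Q g) + k → g ∈ Subgroup.closure (reflSet ⇑Q) := by
    intro k
    induction k with
    | zero =>
      intro g hg
      have htop : fixSub ⇑Q g = ⊤ := by
        apply Submodule.eq_top_of_finrank_eq
        rw [Module.finrank_fintype_fun_eq_card]
        have := Submodule.finrank_le (fixSub ⇑Q g)
        rw [Module.finrank_fintype_fun_eq_card] at this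
        omega
      have : g = 1 := by
        apply act_ext
        intro x
        rw [act_one]
        exact (mem_fixSub _ _ _).1 (htop ▸ Submodule.mem_top)
      rw [this]
      exact Subgroup.one_mem _
    | succ k ih =>
      intro g hg
      by_cases hgood : ∃ a, polar Q (act ⇑Q g a) a ≠ 0
      · obtain ⟨a, ha⟩ := hgood
        have hQb : Q (act ⇑Q g a + a) = polar Q (act ⇑Q g a) a := by
          rw [qf_add, act_Q ⇑Q g, CharTwo.add_self_eq_zero, zero_add]
        have hb0 : Q (act ⇑Q g a + a) ≠ 0 := by rw [hQb]; exact ha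
        have hlt : fixSub ⇑Q g < fixSub ⇑Q (reflElt Q (act ⇑Q g a + a) * g) := by
          rw [SetLike.lt_iff_le_and_exists]
          refine ⟨?_, a, ?_, ?_⟩
          · intro x hx
            rw [mem_fixSub] at hx ⊢
            rw [act_mul, hx, act_refl Q _ hb0]
            apply qrefl_of_orth
            rw [polar_add_left]
            nth_rewrite 1 [← hx]
            rw [act_polar, CharTwo.add_self_eq_zero]
          · rw [mem_fixSub, act_mul, act_refl Q _ hb0, qrefl_char2]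
            have hp : polar Q (act ⇑Q g a + a) (act ⇑Q g a) = Q (act ⇑Q g a + a) := by
              rw [polar_add_left, polar_self_char2, zero_add, hQb, polar_comm]
            rw [hp, inv_mul_cancel₀ hb0, one_smul, ← add_assoc, vec_add_self, zero_add]
          · rw [mem_fixSub]
            intro hfix
            apply ha
            rw [hfix, polar_self_char2]
        have hfr := Submodule.finrank_lt_finrank_of_lt hlt
        have hmem := ih (reflElt Q (act ⇑Q g a + a) * g) (by omega)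
        have hg' : g = reflElt Q (act ⇑Q g a + a) * (reflElt Q (act ⇑Q g a + a) * g) := by
          rw [← mul_assoc, reflElt_mul_self, one_mul]
        rw [hg']
        exact Subgroup.mul_mem _ (reflElt_mem Q _ hb0) hmem
      · push Not at hgood
        rw [hbad g hgood]
        exact Subgroup.one_mem _
  rw [eq_top_iff]
  intro g _
  exact aux (Fintype.card ι) g (Nat.le_add_left _ _)

end chain

end part1

section part2

open Matrix Cfsg.Agent.Helper14.SpInv2 Cfsg.Agent.Helper14.OInv Cfsg.Agent.Helper6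
  Cfsg.Agent.Helper14.SpCent Cfsg.Agent.Helper14.OCent Cfsg.Agent.Helper14.OCentB
  Cfsg.Agent.Helper14.OMinusInv Cfsg.Agent.Helper14.OInvGen

section gen
variable {F : Type*} [Field F]

theorem exists_fixed_pair {M : ℕ} (t : Matrix.symplecticGroup (Fin M) F)
    (S : Matrix (Fin M) (Fin M) F) (hS : Sᵀ = S) (hc : IsConj t (TS S)) (hr : S.rank < M) :
    ∃ u v : Fin M ⊕ Fin M → F,
      (t : Matrix (Fin M ⊕ Fin M) (Fin M ⊕ Fin M) F) *ᵥ u = u ∧
      (t : Matrix (Fin M ⊕ Fin M) (Fin M ⊕ Fin M) F) *ᵥ v = v ∧ Cfsg.sympForm M F u v ≠ 0 := by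
  classical
  obtain ⟨c, hmat⟩ := mat_of_conj_TS t S hS hc
  have hdet : S.det = 0 := by
    by_contra hdet
    have := Matrix.rank_of_isUnit S ((Matrix.isUnit_iff_isUnit_det _).2 (Ne.isUnit hdet))
    rw [Fintype.card_fin] at this
    omega
  obtain ⟨a₂, ha₂, hSa⟩ := Matrix.exists_mulVec_eq_zero_iff.2 hdet
  obtain ⟨i, hi⟩ : ∃ i, a₂ i ≠ 0 := by
    by_contra hcon
    push Not at hcon
    exact ha₂ (funext hcon)
  have hu' : (Matrix.fromBlocks 1 S 0 1 : Matrix (Fin M ⊕ Fin M) (Fin M ⊕ Fin M) F) *ᵥ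
      (Pi.single (Sum.inl i) 1) = Pi.single (Sum.inl i) 1 := by
    have e : (Pi.single (Sum.inl i) 1 : Fin M ⊕ Fin M → F) = Sum.elim (Pi.single i 1) 0 := by
      ext (k | k) <;> simp [Pi.single_apply]
    rw [e, Matrix.fromBlocks_mulVec]
    simp only [Sum.elim_comp_inl, Sum.elim_comp_inr, Matrix.one_mulVec, Matrix.mulVec_zero,
      Matrix.zero_mulVec, add_zero]
  have hv' : (Matrix.fromBlocks 1 S 0 1 : Matrix (Fin M ⊕ Fin M) (Fin M ⊕ Fin M) F) *ᵥ
      (Sum.elim (0 : Fin M → F) a₂) = Sum.elim (0 : Fin M → F) a₂ := by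
    rw [Matrix.fromBlocks_mulVec]
    ext (k | k) <;> simp [hSa]
  have hpull : ∀ x : Fin M ⊕ Fin M → F,
      (Matrix.fromBlocks 1 S 0 1 : Matrix (Fin M ⊕ Fin M) (Fin M ⊕ Fin M) F) *ᵥ x = x →
      (t : Matrix (Fin M ⊕ Fin M) (Fin M ⊕ Fin M) F) *ᵥ
        (((c⁻¹ : Matrix.symplecticGroup (Fin M) F) :
          Matrix (Fin M ⊕ Fin M) (Fin M ⊕ Fin M) F) *ᵥ x)
        = ((c⁻¹ : Matrix.symplecticGroup (Fin M) F) :
          Matrix (Fin M ⊕ Fin M) (Fin M ⊕ Fin M) F) *ᵥ x := by
    intro x hx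
    have h1 : (c : Matrix (Fin M ⊕ Fin M) (Fin M ⊕ Fin M) F) *ᵥ
        ((t : Matrix (Fin M ⊕ Fin M) (Fin M ⊕ Fin M) F) *ᵥ
          (((c⁻¹ : Matrix.symplecticGroup (Fin M) F) :
            Matrix (Fin M ⊕ Fin M) (Fin M ⊕ Fin M) F) *ᵥ x)) = x := by
      rw [Matrix.mulVec_mulVec, hmat, ← Matrix.mulVec_mulVec, sp_mulVec_inv, hx]
    conv_rhs => rw [← h1]
    rw [Matrix.mulVec_mulVec _ (((c⁻¹ : Matrix.symplecticGroup (Fin M) F) :
          Matrix (Fin M ⊕ Fin M) (Fin M ⊕ Fin M) F))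
        (c : Matrix (Fin M ⊕ Fin M) (Fin M ⊕ Fin M) F), ← sp_coe_mul, inv_mul_cancel, sp_coe_one,
      Matrix.one_mulVec]
  refine ⟨_, _, hpull _ hv', hpull _ hu', ?_⟩
  rw [sp_preserves, sf_single_inl]
  simpa using hi

/-- abstract count of involution classes of an index-two subgroup of an isometry group
sitting in `Sp` (char 2), when no class splits -/
theorem card_classes_sub_gen [Finite F] [CharP F 2] {M : ℕ} (hM : 1 ≤ M)
    (Q : (Fin M ⊕ Fin M → F) → F)
    (hadd : ∀ u v, Q (u + v) = Q u + Q v + Cfsg.sympForm M F u v)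
    (hsmul : ∀ (c : F) u, Q (c • u) = c ^ 2 * Q u)
    {G : Type*} [Group G] (toS : G →* Matrix.symplecticGroup (Fin M) F)
    (hinj : Function.Injective toS)
    (hiso : ∀ g u, Q ((toS g : Matrix (Fin M ⊕ Fin M) (Fin M ⊕ Fin M) F) *ᵥ u) = Q u)
    (hsurj : ∀ A : Matrix.symplecticGroup (Fin M) F,
      (∀ u, Q ((A : Matrix (Fin M ⊕ Fin M) (Fin M ⊕ Fin M) F) *ᵥ u) = Q u) → ∃ g, toS g = A)
    (H : Subgroup G) (hidx : H.index = 2)
    (hmem : ∀ g : G, g ∈ H ↔
      Even ((toS g : Matrix (Fin M ⊕ Fin M) (Fin M ⊕ Fin M) F) - 1).rank)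
    (hrefl : ∀ (g : G) (w : Fin M ⊕ Fin M → F),
      (toS g : Matrix (Fin M ⊕ Fin M) (Fin M ⊕ Fin M) F) *ᵥ w = w → Q w ≠ 0 →
        ∃ d : G, d * g = g * d ∧ d ∉ H)
    {ι : Type*} [Fintype ι] (τ : ι → Fin M ⊕ Fin (M / 2)) (hτ : Function.Injective τ)
    (hrep : ∀ a : ι, ∃ A : Matrix.symplecticGroup (Fin M) F,
      (∀ u, Q ((A : Matrix (Fin M ⊕ Fin M) (Fin M ⊕ Fin M) F) *ᵥ u) = Q u) ∧
        IsConj A (TS (repS F M (τ a))))
    (hall : ∀ A : Matrix.symplecticGroup (Fin M) F,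
      (∀ u, Q ((A : Matrix (Fin M ⊕ Fin M) (Fin M ⊕ Fin M) F) *ᵥ u) = Q u) →
        ∀ a', IsConj A (TS (repS F M a')) → ∃ a, τ a = a')
    (hnofull : ∀ (a : ι) (j : Fin (M / 2)), τ a = Sum.inr j → 2 * (j.val + 1) < M) :
    Nat.card {C : ConjClasses H // ∃ g : H, ConjClasses.mk g = C ∧ orderOf g = 2}
      = Nat.card {a : ι // Even (repS F M (τ a)).rank} := by
  classical
  have hρ : ∀ a : ι, ∃ r : G, IsConj (toS r) (TS (repS F M (τ a))) := by
    intro a
    obtain ⟨A, hA, hc⟩ := hrep a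
    obtain ⟨r, hr⟩ := hsurj A hA
    exact ⟨r, by rw [hr]; exact hc⟩
  choose ρ hρ using hρ
  have hordT : ∀ a : Fin M ⊕ Fin (M / 2), orderOf (TS (repS F M a)) = 2 := by
    intro a
    exact orderOf_eq_prime (by rw [pow_two]; exact TS_sq _ (repS_transpose a))
      (TS_ne_one _ (repS_transpose a) (repS_ne_zero a))
  have hord : ∀ a, orderOf (ρ a) = 2 := by
    intro a
    rw [← orderOf_injective toS hinj (ρ a)]
    obtain ⟨c, hc⟩ := isConj_iff.mp (hρ a)
    have hsc : SemiconjBy c (toS (ρ a)) (TS (repS F M (τ a))) := by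
      rw [SemiconjBy, ← hc]; group
    rw [hsc.orderOf_eq, hordT]
  have hinv : ∀ g : G, orderOf g = 2 → toS g * toS g = 1 ∧ toS g ≠ 1 := by
    intro g hg
    have hg' : orderOf (toS g) = 2 := by
      rw [orderOf_injective toS hinj g, hg]
    refine ⟨by rw [← pow_two, ← hg']; exact pow_orderOf_eq_one _, ?_⟩
    intro h1
    rw [h1, orderOf_one] at hg'; omega
  have hρH : ∀ t : {a : ι // Even (repS F M (τ a)).rank}, ρ t.1 ∈ H := by
    intro t
    rw [hmem, rank_of_conj_TS (toS (ρ t.1)) _ (repS_transpose _) (hρ t.1)]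
    exact t.2
  have hK1 : ∀ t t' : {a : ι // Even (repS F M (τ a)).rank},
      (∃ c, c * ρ t.1 * c⁻¹ = ρ t'.1) → t = t' := by
    rintro t t' ⟨c, hc⟩
    have hconj : IsConj (ρ t.1) (ρ t'.1) := isConj_iff.2 ⟨c, hc⟩
    have hconj' : IsConj (toS (ρ t.1)) (toS (ρ t'.1)) := toS.map_isConj hconj
    exact Subtype.ext (hτ (repS_inj hM _ _ (((hρ _).symm.trans hconj').trans (hρ _))))
  have hK2 : ∀ g : G, orderOf g = 2 → g ∈ H →
      ∃ t : {a : ι // Even (repS F M (τ a)).rank}, ∃ c, c * g * c⁻¹ = ρ t.1 := by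
    intro g hg hgH
    obtain ⟨hgg, hg1⟩ := hinv g hg
    obtain ⟨a', ha'⟩ := exists_repS _ hgg hg1
    obtain ⟨a, rfl⟩ := hall (toS g) (hiso g) a' ha'
    have hev : Even (repS F M (τ a)).rank := by
      rw [← rank_of_conj_TS (toS g) _ (repS_transpose _) ha']
      exact (hmem g).1 hgH
    have hconj : IsConj (toS g) (toS (ρ a)) := ha'.trans (hρ a).symm
    obtain ⟨c, hc⟩ := isConj_iff.mp hconj
    have hc' : c * toS g = toS (ρ a) * c := by rw [← hc]; group
    obtain ⟨g₁, hg₁, hg₁c⟩ := O_conj_of_Sp_conj_gen Q hadd hsmul (toS g) (toS (ρ a)) c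
      (hiso g) (hiso (ρ a)) hc'
    obtain ⟨g₂, hg₂⟩ := hsurj g₁ hg₁
    refine ⟨⟨a, hev⟩, g₂, ?_⟩
    rw [mul_inv_eq_iff_eq_mul]
    apply hinj
    rw [map_mul, map_mul, hg₂]
    exact hg₁c
  have key := card_classes_index_two H hidx
    (fun t : {a : ι // Even (repS F M (τ a)).rank} => ρ t.1) hρH (fun t => hord _) hK1 hK2
  rw [key]
  have hempty : IsEmpty {t : {a : ι // Even (repS F M (τ a)).rank} //
      ∀ g : G, g * ρ t.1 = ρ t.1 * g → g ∈ H} := by
    refine ⟨?_⟩
    rintro ⟨t, hsp⟩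
    obtain ⟨hgg, hg1⟩ := hinv (ρ t.1) (hord _)
    have hfix : ∃ w, (toS (ρ t.1) : Matrix (Fin M ⊕ Fin M) (Fin M ⊕ Fin M) F) *ᵥ w = w ∧
        Q w ≠ 0 := by
      have hc := hρ t.1
      rcases hτa : τ t.1 with i | j
      · rw [hτa] at hc
        have hna : ∃ v, Cfsg.sympForm M F v
            ((toS (ρ t.1) : Matrix (Fin M ⊕ Fin M) (Fin M ⊕ Fin M) F) *ᵥ v) ≠ 0 := by
          by_contra hcon
          push Not at hcon
          have hD : ∀ b : Fin M → F, b ⬝ᵥ repS F M (Sum.inl i) *ᵥ b = 0 :=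
            alt_of_conj_TS' (toS (ρ t.1)) (repS F M (Sum.inl i)) (repS_transpose _) hc hcon
          exact Dn_nalt (F := F) hM (i.val + 1) (by omega) hD
        obtain ⟨v, hv⟩ := hna
        refine ⟨(toS (ρ t.1) : Matrix (Fin M ⊕ Fin M) (Fin M ⊕ Fin M) F) *ᵥ v + v, ?_, ?_⟩
        · rw [Matrix.mulVec_add, Matrix.mulVec_mulVec, ← sp_coe_mul, hgg, sp_coe_one,
            Matrix.one_mulVec, add_comm]
        · rw [hadd, hiso, sf_symm, CharTwo.add_self_eq_zero, zero_add]; exact hv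
      · rw [hτa] at hc
        have hlt := hnofull t.1 j hτa
        have hr : (repS F M (Sum.inr j)).rank < M := by
          have : (repS F M (Sum.inr j)).rank = 2 * (j.val + 1) := rank_Da (by omega)
          omega
        obtain ⟨u, v, hu, hv, huv⟩ := exists_fixed_pair (toS (ρ t.1)) (repS F M (Sum.inr j))
          (repS_transpose _) hc hr
        by_cases h1 : Q u = 0
        · by_cases h2 : Q v = 0
          · refine ⟨u + v, by rw [Matrix.mulVec_add, hu, hv], ?_⟩
            rw [hadd, h1, h2, zero_add, zero_add]; exact huv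
          · exact ⟨v, hv, h2⟩
        · exact ⟨u, hu, h1⟩
    obtain ⟨w, hw, hQw⟩ := hfix
    obtain ⟨d, hd, hdH⟩ := hrefl (ρ t.1) w hw hQw
    exact hdH (hsp d hd)
  have h0 := @Nat.card_of_isEmpty _ hempty
  rw [h0, add_zero]

end gen

end part2

section part3

open Matrix Cfsg.Agent.Helper14.SpInv2 Cfsg.Agent.Helper14.OInv Cfsg.Agent.Helper6
  Cfsg.Agent.Helper14.SpCent Cfsg.Agent.Helper14.OCent Cfsg.Agent.Helper14.OCentB
  Cfsg.Agent.Helper14.OMinusInv Cfsg.Agent.Helper14.OInvGen Cfsg.Agent.Helper16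

variable {F : Type*} [Field F] [CharP F 2]

theorem omega_facts_minus [Fintype F] (n : ℕ) (a b : F) (ha : a ≠ 0)
    (Q' : ((Fin n ⊕ Fin n) ⊕ Fin 2 → F) → F) (hQ' : Q' = Cfsg.quadFormMinus n F a b)
    (hbad : n = 1 → ∀ g : ↥(Cfsg.isometryGroup F Q'),
      (∀ u, QuadraticMap.polar Q' (act Q' g u) u = 0) → g = 1) :
    (Cfsg.Omega F Q').index = 2 ∧
    (∀ g : ↥(Cfsg.isometryGroup F Q'), g ∈ Cfsg.Omega F Q' ↔
      Even (((g : GL ((Fin n ⊕ Fin n) ⊕ Fin 2) F) :
        Matrix ((Fin n ⊕ Fin n) ⊕ Fin 2) ((Fin n ⊕ Fin n) ⊕ Fin 2) F) - 1).rank) ∧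
    (∀ w : (Fin n ⊕ Fin n) ⊕ Fin 2 → F, Q' w ≠ 0 →
      ∃ r : ↥(Cfsg.isometryGroup F Q'), r ∉ Cfsg.Omega F Q' ∧
        ∀ g : ↥(Cfsg.isometryGroup F Q'),
          ((g : GL ((Fin n ⊕ Fin n) ⊕ Fin 2) F) :
            Matrix ((Fin n ⊕ Fin n) ⊕ Fin 2) ((Fin n ⊕ Fin n) ⊕ Fin 2) F) *ᵥ w = w →
          r * g = g * r) := by
  obtain rfl : Q' = ⇑(qfMinus n F a b) := hQ'.trans (coe_qfMinus n F a b).symm
  have hQ : (QuadraticMap.polarBilin (qfMinus n F a b)).Nondegenerate := by
    apply qfMinus_nondegenerate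
    have h4 : (4 : F) = 0 := by
      have : (4 : F) = 2 * 2 := by norm_num
      rw [this, CharTwo.two_eq_zero, zero_mul]
    rw [h4, zero_mul, zero_sub, neg_ne_zero]
    exact pow_ne_zero 2 ha
  have hcard : Fintype.card ((Fin n ⊕ Fin n) ⊕ Fin 2) = n + n + 2 := by simp
  have htop : Subgroup.closure (reflSet ⇑(qfMinus n F a b)) = ⊤ := by
    by_cases hn1 : n = 1
    · exact cd_of_no_alt _ (hbad hn1)
    · exact cd2 _ hQ (Or.inr (by rw [hcard]; omega))
  obtain ⟨h1, h2, h3⟩ := omega_facts_top (qfMinus n F a b) hQ htop (by rw [hcard]; omega)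
  refine ⟨h1, h2, ?_⟩
  intro w hw
  refine ⟨reflElt (qfMinus n F a b) w, h3 w hw, ?_⟩
  intro g hg
  have := reflElt_conj (qfMinus n F a b) g w hw
  rw [hg] at this
  calc reflElt (qfMinus n F a b) w * g
      = (g * reflElt (qfMinus n F a b) w * g⁻¹) * g := by rw [this]
    _ = g * reflElt (qfMinus n F a b) w := by group

theorem card_classes_OmegaMinus [Fintype F] (n : ℕ) (a b : F)
    (hab : ∀ z₁ z₂ : F, z₁ ^ 2 + a * z₁ * z₂ + b * z₂ ^ 2 = 0 → z₁ = 0 ∧ z₂ = 0) :
    Nat.card {C : ConjClasses ↥(Cfsg.Omega F (Cfsg.quadFormMinus n F a b)) //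
      ∃ g : ↥(Cfsg.Omega F (Cfsg.quadFormMinus n F a b)),
        ConjClasses.mk g = C ∧ orderOf g = 2} = (n + 1) / 2 + n / 2 := by
  classical
  have ha : a ≠ 0 := by
    rintro rfl
    obtain ⟨d, hd⟩ := exists_sqrt b
    have := hab d 1 (by
      rw [← hd]
      have := CharTwo.add_self_eq_zero (d ^ 2)
      linear_combination this)
    exact one_ne_zero this.2
  obtain ⟨γ, hγ'⟩ := exists_sqrt (b / a ^ 2)
  have hγ : γ ^ 2 = b / a ^ 2 := by rw [pow_two]; exact hγ'
  have hanis : ∀ ν : F, γ ≠ ν ^ 2 + ν := by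
    intro ν h
    have h1 : b * (1 / a) ^ 2 = γ ^ 2 := by rw [hγ]; field_simp
    have := hab (ν ^ 2) (1 / a) (by
      rw [h1, h, CharTwo.add_sq]
      have h2 := CharTwo.add_self_eq_zero ((ν ^ 2) ^ 2 + ν ^ 2)
      field_simp
      linear_combination h2)
    exact ha (by simpa using this.2)
  have hle : n / 2 ≤ (n + 1) / 2 := by omega
  have hpolar : ∀ u v : (Fin n ⊕ Fin n) ⊕ Fin 2 → F,
      QuadraticMap.polar (Cfsg.quadFormMinus n F a b) u v
        = Cfsg.sympForm (n + 1) F (psi n a u) (psi n a v) := by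
    intro u v
    unfold QuadraticMap.polar
    rw [Qminus_eq n a b ha, Qminus_eq n a b ha, Qminus_eq n a b ha, map_add, Qm_add]
    ring
  have hbad : n = 1 → ∀ g : ↥(Cfsg.isometryGroup F (Cfsg.quadFormMinus n F a b)),
      (∀ u, QuadraticMap.polar (Cfsg.quadFormMinus n F a b)
        (act (Cfsg.quadFormMinus n F a b) g u) u = 0) → g = 1 := by
    intro hn1 g hg
    have halt : ∀ x, Cfsg.sympForm (n + 1) F x
        ((toSpM n a b ha g : Matrix (Fin (n + 1) ⊕ Fin (n + 1)) (Fin (n + 1) ⊕ Fin (n + 1)) F)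
          *ᵥ x) = 0 := by
      intro x
      have h1 := hg (psiInv n a x)
      rw [hpolar, psi_psiInv n ha] at h1
      have h2 : (toSpM n a b ha g :
          Matrix (Fin (n + 1) ⊕ Fin (n + 1)) (Fin (n + 1) ⊕ Fin (n + 1)) F) *ᵥ x
          = psi n a (act (Cfsg.quadFormMinus n F a b) g (psiInv n a x)) :=
        conjMat_mulVec n a _ x
      rw [h2, sf_symm]
      exact h1
    have hB : ∀ x y, Cfsg.sympForm (n + 1) F x
        ((toSpM n a b ha g : Matrix (Fin (n + 1) ⊕ Fin (n + 1)) (Fin (n + 1) ⊕ Fin (n + 1)) F)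
          *ᵥ y)
        = Cfsg.sympForm (n + 1) F
          ((toSpM n a b ha g : Matrix (Fin (n + 1) ⊕ Fin (n + 1)) (Fin (n + 1) ⊕ Fin (n + 1)) F)
            *ᵥ x) y := by
      intro x y
      have h := halt (x + y)
      rw [Matrix.mulVec_add, sf_add_left, sf_add_right, sf_add_right, halt x, halt y, zero_add,
        add_zero, sf_symm y] at h
      exact CharTwo.add_eq_zero.1 h
    have htt : toSpM n a b ha g * toSpM n a b ha g = 1 := by
      apply Subtype.ext
      rw [sp_coe_mul, sp_coe_one]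
      apply Matrix.mulVec_injective
      funext y
      rw [Matrix.one_mulVec, ← Matrix.mulVec_mulVec]
      by_contra hne
      obtain ⟨z, hz⟩ := Cfsg.Agent.S0768.nondeg _ (sub_ne_zero.mpr hne)
      apply hz
      rw [sf_sub_left, sf_symm _ z, hB, sp_preserves, sf_symm z y, sub_self]
    by_cases ht1 : toSpM n a b ha g = 1
    · exact toSpM_injective n a b ha (ht1.trans (map_one _).symm)
    · exfalso
      obtain ⟨a', ha'⟩ := exists_repS _ htt ht1
      rcases a' with i | j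
      · have hD : ∀ v : Fin (n + 1) → F, v ⬝ᵥ repS F (n + 1) (Sum.inl i) *ᵥ v = 0 :=
          alt_of_conj_TS' (toSpM n a b ha g) (repS F (n + 1) (Sum.inl i)) (repS_transpose _) ha'
            halt
        exact Dn_nalt (F := F) (by omega) (i.val + 1) (by omega) hD
      · have hrank := rank_of_conj_TS (toSpM n a b ha g) _ (repS_transpose (Sum.inr j)) ha'
        have hr2 : (repS F (n + 1) (Sum.inr j)).rank = 2 * (j.val + 1) :=
          rank_Da (by have := j.2; omega)
        rw [hr2] at hrank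
        have hj : 2 * (j.val + 1) = n + 1 := by have := j.2; omega
        rw [hj] at hrank
        exact no_alt_full n _ γ hγ hanis (toSpM n a b ha g)
          (fun u => conjMat_isom n a b ha g u) halt hrank
  obtain ⟨hidx, hmemΩ, hreflΩ⟩ :=
    omega_facts_minus n a b ha (Cfsg.quadFormMinus n F a b) rfl hbad
  have hrankeq : ∀ g : ↥(Cfsg.isometryGroup F (Cfsg.quadFormMinus n F a b)),
      ((toSpM n a b ha g : Matrix (Fin (n + 1) ⊕ Fin (n + 1)) (Fin (n + 1) ⊕ Fin (n + 1)) F)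
        - 1).rank
      = (((g : GL ((Fin n ⊕ Fin n) ⊕ Fin 2) F) :
        Matrix ((Fin n ⊕ Fin n) ⊕ Fin 2) ((Fin n ⊕ Fin n) ⊕ Fin 2) F) - 1).rank := by
    intro g
    have e1 : (toSpM n a b ha g :
        Matrix (Fin (n + 1) ⊕ Fin (n + 1)) (Fin (n + 1) ⊕ Fin (n + 1)) F) - 1
        = LinearMap.toMatrix' (psi n a) * (((g : GL ((Fin n ⊕ Fin n) ⊕ Fin 2) F) :
          Matrix ((Fin n ⊕ Fin n) ⊕ Fin 2) ((Fin n ⊕ Fin n) ⊕ Fin 2) F) - 1)
          * LinearMap.toMatrix' (psiInv n a) := by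
      show conjMat n a _ - 1 = _
      rw [conjMat, Matrix.mul_sub, Matrix.sub_mul, Matrix.mul_one, PP n ha]
    have e2 : (((g : GL ((Fin n ⊕ Fin n) ⊕ Fin 2) F) :
          Matrix ((Fin n ⊕ Fin n) ⊕ Fin 2) ((Fin n ⊕ Fin n) ⊕ Fin 2) F) - 1)
        = LinearMap.toMatrix' (psiInv n a) * ((toSpM n a b ha g :
          Matrix (Fin (n + 1) ⊕ Fin (n + 1)) (Fin (n + 1) ⊕ Fin (n + 1)) F) - 1)
          * LinearMap.toMatrix' (psi n a) := by
      rw [e1]
      simp only [Matrix.mul_assoc]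
      rw [PP' n ha, Matrix.mul_one, ← Matrix.mul_assoc, PP' n ha, Matrix.one_mul]
    apply le_antisymm
    · rw [e1]
      exact (Matrix.rank_mul_le_left _ _).trans (Matrix.rank_mul_le_right _ _)
    · conv_lhs => rw [e2]
      exact (Matrix.rank_mul_le_left _ _).trans (Matrix.rank_mul_le_right _ _)
  have hmem : ∀ g : ↥(Cfsg.isometryGroup F (Cfsg.quadFormMinus n F a b)),
      g ∈ Cfsg.Omega F (Cfsg.quadFormMinus n F a b) ↔
      Even ((toSpM n a b ha g :
        Matrix (Fin (n + 1) ⊕ Fin (n + 1)) (Fin (n + 1) ⊕ Fin (n + 1)) F) - 1).rank := by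
    intro g
    rw [hrankeq]
    exact hmemΩ g
  have hrefl : ∀ (g : ↥(Cfsg.isometryGroup F (Cfsg.quadFormMinus n F a b)))
      (w : Fin (n + 1) ⊕ Fin (n + 1) → F),
      (toSpM n a b ha g : Matrix (Fin (n + 1) ⊕ Fin (n + 1)) (Fin (n + 1) ⊕ Fin (n + 1)) F)
        *ᵥ w = w → Qm F n (b / a ^ 2) w ≠ 0 →
      ∃ d : ↥(Cfsg.isometryGroup F (Cfsg.quadFormMinus n F a b)), d * g = g * d ∧
        d ∉ Cfsg.Omega F (Cfsg.quadFormMinus n F a b) := by
    intro g w hw hQw
    have h1 : Cfsg.quadFormMinus n F a b (psiInv n a w) ≠ 0 := by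
      rw [Qminus_eq n a b ha, psi_psiInv n ha]; exact hQw
    obtain ⟨r, hr, hcomm⟩ := hreflΩ (psiInv n a w) h1
    refine ⟨r, hcomm g ?_, hr⟩
    have h2 : psi n a (((g : GL ((Fin n ⊕ Fin n) ⊕ Fin 2) F) :
        Matrix ((Fin n ⊕ Fin n) ⊕ Fin 2) ((Fin n ⊕ Fin n) ⊕ Fin 2) F) *ᵥ psiInv n a w) = w := by
      rw [← conjMat_mulVec]; exact hw
    have h3 := congrArg (psiInv n a) h2
    rw [psiInv_psi n ha] at h3
    exact h3
  have key := card_classes_sub_gen (F := F) (M := n + 1) (by omega) (Qm F n (b / a ^ 2))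
    (Qm_add n _) (fun k u => Qm_smul n _ k u) (toSpM n a b ha) (toSpM_injective n a b ha)
    (fun g u => conjMat_isom n a b ha g u) (toSpM_surj n a b ha)
    (Cfsg.Omega F (Cfsg.quadFormMinus n F a b)) hidx hmem hrefl
    (ι := Fin (n + 1) ⊕ Fin (n / 2))
    (Sum.map (id : Fin (n + 1) → Fin (n + 1)) (Fin.castLE hle))
    (Sum.map_injective.mpr ⟨Function.injective_id, Fin.castLE_injective hle⟩)
    (by
      rintro (i | j)
      · by_cases hi : i.val < n
        · refine ⟨OInv.toSp (n + 1) (swapO F (n + 1) (i.val + 1)), ?_,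
            swapO_type (by omega) i⟩
          intro u
          exact Pm_Qm n _ (i.val + 1) (by omega) u
        · have : i = Fin.last n := by ext; simp only [Fin.val_last]; omega
          subst this
          exact ⟨⟨Rm F n, mem_sp_of_isom_gen (Qm F n (b / a ^ 2)) (Qm_add n _) _ (Rm_Qm n _)⟩,
            Rm_Qm n _, Rm_type n _ rfl⟩
      · exact ⟨TS (Da F (n + 1) (j.val + 1)), TS_Qm n _ (j.val + 1) (by omega), IsConj.refl _⟩)
    (by
      intro A hA a' hc
      rcases a' with i | j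
      · exact ⟨Sum.inl i, rfl⟩
      · by_cases hj : j.val < n / 2
        · exact ⟨Sum.inr ⟨j.val, hj⟩, rfl⟩
        · exfalso
          have hj2 : 2 * (j.val + 1) = n + 1 := by have := j.2; omega
          have hrank := rank_of_conj_TS A _ (repS_transpose (Sum.inr j)) hc
          simp only [repS, Sum.elim_inr] at hrank
          rw [rank_Da (by omega), hj2] at hrank
          exact no_alt_full n _ γ hγ hanis A hA
            (alt_of_conj_TS A _ (repS_transpose (Sum.inr j)) hc (Da_alt (n + 1) _)) hrank)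
    (by
      intro a' j hτ
      rcases a' with i | j'
      · simp at hτ
      · simp only [Sum.map_inr, Sum.inr.injEq] at hτ
        subst hτ
        have := j'.2
        simp only [Fin.val_castLE]
        omega)
  rw [key]
  have hrk1 : ∀ i : Fin (n + 1), (repS F (n + 1)
      (Sum.map (id : Fin (n + 1) → Fin (n + 1)) (Fin.castLE hle) (Sum.inl i))).rank
      = i.val + 1 := fun i => rank_Dn (by have := i.2; omega)
  have hrk2 : ∀ j : Fin (n / 2), (repS F (n + 1)
      (Sum.map (id : Fin (n + 1) → Fin (n + 1)) (Fin.castLE hle) (Sum.inr j))).rank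
      = 2 * (j.val + 1) := fun j => rank_Da (by have := j.2; simp only [Fin.val_castLE]; omega)
  let Φ : Fin ((n + 1) / 2) ⊕ Fin (n / 2) →
      {a : Fin (n + 1) ⊕ Fin (n / 2) // Even (repS F (n + 1)
        (Sum.map (id : Fin (n + 1) → Fin (n + 1)) (Fin.castLE hle) a)).rank} :=
    Sum.elim
      (fun j => ⟨Sum.inl ⟨2 * j.val + 1, by have := j.2; omega⟩, by
        rw [hrk1]; exact ⟨j.val + 1, by simp only; omega⟩⟩)
      (fun j => ⟨Sum.inr j, by rw [hrk2]; exact even_two_mul _⟩)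
  have hinj : Function.Injective Φ := by
    rintro (j | j) (j' | j') h
    · have h1 : (Φ (Sum.inl j)).1 = (Φ (Sum.inl j')).1 := congrArg Subtype.val h
      have h2 := Fin.mk.inj (Sum.inl.inj h1)
      exact congrArg Sum.inl (Fin.ext (by omega))
    · have h1 : (Φ (Sum.inl j)).1 = (Φ (Sum.inr j')).1 := congrArg Subtype.val h
      exact (Sum.inl_ne_inr h1).elim
    · have h1 : (Φ (Sum.inr j)).1 = (Φ (Sum.inl j')).1 := congrArg Subtype.val h
      exact (Sum.inr_ne_inl h1).elim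
    · have h1 : (Φ (Sum.inr j)).1 = (Φ (Sum.inr j')).1 := congrArg Subtype.val h
      exact congrArg Sum.inr (Sum.inr.inj h1)
  have hsurj : Function.Surjective Φ := by
    rintro ⟨a', hev⟩
    rcases a' with i | j
    · rw [hrk1] at hev
      obtain ⟨l, hl⟩ := hev
      refine ⟨Sum.inl ⟨l - 1, by have := i.2; omega⟩, Subtype.ext ?_⟩
      show Sum.inl (⟨2 * (l - 1) + 1, _⟩ : Fin (n + 1)) = Sum.inl i
      exact congrArg Sum.inl (Fin.ext (by simp only; omega))
    · exact ⟨Sum.inr j, rfl⟩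
  rw [← Nat.card_congr (Equiv.ofBijective Φ ⟨hinj, hsurj⟩)]
  simp [Nat.card_eq_fintype_card]

end part3

end Cfsg.Agent.Helper14.OCentM
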