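import Mathlib
import Cfsg.Agent.Helper14.OCentM

set_option autoImplicit false

namespace Cfsg.Agent.Helper14.OElus

open Matrix Cfsg.Agent.Helper14.SpInv2 Cfsg.Agent.Helper14.OInv Cfsg.Agent.Helper6
  Cfsg.Agent.Helper14.SpCent

variable {F : Type*} [Field F]

/-- the standard nonsingular vector -/
def v0 (F : Type*) [Field F] (d : ℕ) (i : Fin d) : Fin d ⊕ Fin d → F :=
  Sum.elim (Pi.single i 1) (Pi.single i 1)

theorem Q_v0 (d : ℕ) (i : Fin d) : Cfsg.quadFormPlus d F (v0 F d i) = 1 := by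
  classical
  simp [Cfsg.quadFormPlus, v0, Pi.single_apply]

theorem Q_zero (d : ℕ) : Cfsg.quadFormPlus d F 0 = 0 := by
  simp [Cfsg.quadFormPlus]

theorem fixline_iff [CharP F 2] {d : ℕ} (A : Matrix (Fin d ⊕ Fin d) (Fin d ⊕ Fin d) F)
    (hA : ∀ u, Cfsg.quadFormPlus d F (A *ᵥ u) = Cfsg.quadFormPlus d F u) :
    (∃ W : Submodule F (Fin d ⊕ Fin d → F),
      (Module.finrank F ↥W = 1 ∧ ∃ v ∈ W, Cfsg.quadFormPlus d F v ≠ 0) ∧
        W.map (Matrix.toLin' A) ≤ W) ↔
    ∃ w, A *ᵥ w = w ∧ Cfsg.quadFormPlus d F w ≠ 0 := by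
  constructor
  · rintro ⟨W, ⟨hW, v, hv, hQv⟩, hmap⟩
    have hv0 : (⟨v, hv⟩ : W) ≠ 0 := by
      intro h0
      have : v = 0 := congrArg Subtype.val h0
      rw [this, Q_zero] at hQv
      exact hQv rfl
    have hAv : A *ᵥ v ∈ W := hmap ⟨v, hv, by rw [Matrix.toLin'_apply]⟩
    obtain ⟨c, hc⟩ := (finrank_eq_one_iff_of_nonzero' (⟨v, hv⟩ : W) hv0).1 hW ⟨A *ᵥ v, hAv⟩
    have hc' : c • v = A *ᵥ v := congrArg Subtype.val hc
    have h1 := hA v
    rw [← hc', Q_smul] at h1
    have hcc : c * c = 1 := by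
      have : (c ^ 2 - 1) * Cfsg.quadFormPlus d F v = 0 := by rw [sub_mul, h1, one_mul, sub_self]
      rcases mul_eq_zero.1 this with h | h
      · rw [← pow_two]; exact sub_eq_zero.1 h
      · exact absurd h hQv
    have hc1 : c = 1 := Cfsg.Agent.Helper14.SpCent.sq_eq_one' hcc
    refine ⟨v, ?_, hQv⟩
    rw [← hc', hc1, one_smul]
  · rintro ⟨w, hw, hQw⟩
    have hw0 : w ≠ 0 := by
      intro h0
      rw [h0, Q_zero] at hQw
      exact hQw rfl
    refine ⟨F ∙ w, ⟨finrank_span_singleton hw0, w, Submodule.mem_span_singleton_self w, hQw⟩, ?_⟩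
    rw [Submodule.map_span, Set.image_singleton, Submodule.span_singleton_le_iff_mem,
      Matrix.toLin'_apply, hw]
    exact Submodule.mem_span_singleton_self w

theorem scalar_isom [CharP F 2] {d : ℕ} (hd : 1 ≤ d)
    (A : Matrix (Fin d ⊕ Fin d) (Fin d ⊕ Fin d) F)
    (hA : ∀ u, Cfsg.quadFormPlus d F (A *ᵥ u) = Cfsg.quadFormPlus d F u) (z : F)
    (hz : A = z • (1 : Matrix (Fin d ⊕ Fin d) (Fin d ⊕ Fin d) F)) : A = 1 := by
  have h1 := hA (v0 F d ⟨0, hd⟩)
  rw [hz, Matrix.smul_mulVec, Matrix.one_mulVec, Q_smul, Q_v0, mul_one] at h1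
  have hz1 : z = 1 := Cfsg.Agent.Helper14.SpCent.sq_eq_one' (by rw [← pow_two]; exact h1)
  rw [hz, hz1, one_smul]

section count

variable [Fintype F]

theorem card_dot_fiber {d : ℕ} (x : Fin d → F) (hx : x ≠ 0) :
    Nat.card {y : Fin d → F // x ⬝ᵥ y = 1} = Fintype.card F ^ (d - 1) := by
  classical
  let f : (Fin d → F) →ₗ[F] F :=
    { toFun := fun y => x ⬝ᵥ y
      map_add' := fun y y' => dotProduct_add x y y'
      map_smul' := fun c y => by simp [dotProduct_smul] }
  obtain ⟨i, hi⟩ : ∃ i, x i ≠ 0 := by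
    by_contra hcon
    push Not at hcon
    exact hx (funext hcon)
  have hsurj : Function.Surjective f := by
    intro c
    refine ⟨Pi.single i (c / x i), ?_⟩
    show x ⬝ᵥ Pi.single i (c / x i) = c
    rw [dotProduct_single]
    field_simp
  obtain ⟨y₀, hy₀⟩ := hsurj 1
  have e : {y : Fin d → F // x ⬝ᵥ y = 1} ≃ ↥(LinearMap.ker f) :=
    { toFun := fun y => ⟨y.1 - y₀, by
        rw [LinearMap.mem_ker, map_sub, hy₀]
        show x ⬝ᵥ y.1 - 1 = 0
        rw [y.2, sub_self]⟩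
      invFun := fun k => ⟨k.1 + y₀, by
        have hk : f k.1 = 0 := LinearMap.mem_ker.1 k.2
        show f (k.1 + y₀) = 1
        rw [map_add, hk, hy₀, zero_add]⟩
      left_inv := fun y => Subtype.ext (sub_add_cancel _ _)
      right_inv := fun k => Subtype.ext (add_sub_cancel_right _ _) }
  have hker : Module.finrank F ↥(LinearMap.ker f) = d - 1 := by
    have h1 := LinearMap.finrank_range_add_finrank_ker f
    rw [LinearMap.range_eq_top.2 hsurj, finrank_top, Module.finrank_self,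
      Module.finrank_fin_fun] at h1
    omega
  have : Fintype ↥(LinearMap.ker f) := Fintype.ofFinite _
  rw [Nat.card_congr e, Nat.card_eq_fintype_card, Module.card_eq_pow_finrank (K := F), hker]

theorem card_Q_one (d : ℕ) :
    Nat.card {v : Fin d ⊕ Fin d → F // Cfsg.quadFormPlus d F v = 1}
      = (Fintype.card F ^ d - 1) * Fintype.card F ^ (d - 1) := by
  classical
  have e : {v : Fin d ⊕ Fin d → F // Cfsg.quadFormPlus d F v = 1} ≃
      (Σ x : {x : Fin d → F // x ≠ 0}, {y : Fin d → F // x.1 ⬝ᵥ y = 1}) :=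
    { toFun := fun v => ⟨⟨v.1 ∘ Sum.inl, by
        intro h0
        have := v.2
        have h2 : Cfsg.quadFormPlus d F v.1 = (v.1 ∘ Sum.inl) ⬝ᵥ (v.1 ∘ Sum.inr) := rfl
        rw [h2, h0, zero_dotProduct] at this
        exact zero_ne_one this⟩, ⟨v.1 ∘ Sum.inr, v.2⟩⟩
      invFun := fun s => ⟨Sum.elim s.1.1 s.2.1, s.2.2⟩
      left_inv := fun v => Subtype.ext (by ext (i | i) <;> rfl)
      right_inv := fun s => rfl }
  rw [Nat.card_congr e, Nat.card_sigma]
  have h1 : ∀ x : {x : Fin d → F // x ≠ 0},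
      Nat.card {y : Fin d → F // x.1 ⬝ᵥ y = 1} = Fintype.card F ^ (d - 1) :=
    fun x => card_dot_fiber x.1 x.2
  rw [Finset.sum_congr rfl (fun u _ => h1 u), Finset.sum_const, smul_eq_mul, Finset.card_univ,
    Fintype.card_subtype_compl, Fintype.card_subtype_eq, Fintype.card_fun, Fintype.card_fin]

theorem card_lines [CharP F 2] (d : ℕ) :
    Nat.card {W : Submodule F (Fin d ⊕ Fin d → F) //
      Module.finrank F ↥W = 1 ∧ ∃ v ∈ W, Cfsg.quadFormPlus d F v ≠ 0}
      = (Fintype.card F ^ d - 1) * Fintype.card F ^ (d - 1) := by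
  classical
  rw [← card_Q_one]
  symm
  apply Nat.card_congr
  refine Equiv.ofBijective (fun v => ⟨F ∙ v.1, finrank_span_singleton (by
      intro h0
      have := v.2
      rw [h0, Q_zero] at this
      exact zero_ne_one this), v.1, Submodule.mem_span_singleton_self v.1, by
      rw [v.2]; exact one_ne_zero⟩) ⟨?_, ?_⟩
  · rintro ⟨v, hv⟩ ⟨v', hv'⟩ h
    have h' : F ∙ v = F ∙ v' := congrArg Subtype.val h
    have hmem : v ∈ F ∙ v' := by rw [← h']; exact Submodule.mem_span_singleton_self v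
    obtain ⟨c, hc⟩ := Submodule.mem_span_singleton.1 hmem
    have h1 := hv
    rw [← hc, Q_smul, hv', mul_one] at h1
    have hc1 : c = 1 := Cfsg.Agent.Helper14.SpCent.sq_eq_one' (by rw [← pow_two]; exact h1)
    apply Subtype.ext
    show v = v'
    rw [← hc, hc1, one_smul]
  · rintro ⟨W, hW, v, hv, hQv⟩
    obtain ⟨c, hc⟩ : ∃ c : F, c ^ 2 = (Cfsg.quadFormPlus d F v)⁻¹ := by
      have hbij := (frobenius F 2).injective
      have hsurj : Function.Surjective (frobenius F 2) :=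
        Finite.injective_iff_surjective.1 (frobenius F 2).injective
      obtain ⟨c, hc⟩ := hsurj (Cfsg.quadFormPlus d F v)⁻¹
      exact ⟨c, hc⟩
    have hQ : Cfsg.quadFormPlus d F (c • v) = 1 := by
      rw [Q_smul, hc, inv_mul_cancel₀ hQv]
    refine ⟨⟨c • v, hQ⟩, ?_⟩
    apply Subtype.ext
    show F ∙ (c • v) = W
    have hcv0 : c • v ≠ 0 := by
      intro h0
      rw [h0, Q_zero] at hQ
      exact zero_ne_one hQ
    apply Submodule.eq_of_le_of_finrank_eq
    · rw [Submodule.span_singleton_le_iff_mem]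
      exact W.smul_mem c hv
    · rw [finrank_span_singleton hcv0, hW]

end count

end Cfsg.Agent.Helper14.OElus
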