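import Mathlib
import Cfsg.Agent.Helper14.OElus
import Cfsg.Agent.Helper16.GLEmbed3

set_option autoImplicit false

namespace Cfsg.Agent.Helper14.OElus

open Matrix Cfsg.Agent.Helper14.SpInv2 Cfsg.Agent.Helper14.OInv Cfsg.Agent.Helper6
  Cfsg.Agent.Helper14.SpCent Cfsg.Agent.Helper14.OCent Cfsg.Agent.Helper14.OCentB
  Cfsg.Agent.Helper14.OInvGen Cfsg.Agent.Helper16

variable {F : Type*} [Field F]

theorem exists_order_ext2 [Fintype F] [CharP F 2] [Fact (Nat.Prime 2)] (m : ℕ) [NeZero m] (e : ℕ)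
    (he : e ∣ Fintype.card F ^ m - 1) : ∃ y : FiniteField.Extension F 2 m, orderOf y = e := by
  classical
  have hK : Nat.card (FiniteField.Extension F 2 m) = Nat.card F ^ m :=
    FiniteField.natCard_extension F 2 m
  have : Fintype (FiniteField.Extension F 2 m) := Fintype.ofFinite _
  obtain ⟨γ, hγ⟩ := IsCyclic.exists_generator (α := (FiniteField.Extension F 2 m)ˣ)
  have hγo : orderOf γ = Fintype.card F ^ m - 1 := by
    rw [orderOf_eq_card_of_forall_mem_zpowers hγ, Nat.card_units, hK, Nat.card_eq_fintype_card]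
  have hpos : orderOf γ ≠ 0 := (orderOf_pos γ).ne'
  refine ⟨((γ ^ (orderOf γ / e) : (FiniteField.Extension F 2 m)ˣ) :
    FiniteField.Extension F 2 m), ?_⟩
  rw [orderOf_units]
  exact orderOf_pow_orderOf_div hpos (hγo ▸ he)

theorem exists_singer [Fintype F] [CharP F 2] (d : ℕ) [NeZero d] (r : ℕ) (hr : r.Prime)
    (hdvd : r ∣ Fintype.card F ^ d - 1) :
    ∃ A : GL (Fin d) F, A ^ r = 1 ∧
      (∀ v : Fin d → F, (A : Matrix (Fin d) (Fin d) F) *ᵥ v = v → v = 0) ∧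
      (∀ v : Fin d → F, ((A⁻¹ : GL (Fin d) F) : Matrix (Fin d) (Fin d) F)ᵀ *ᵥ v = v → v = 0) := by
  classical
  have : Fact (Nat.Prime 2) := ⟨Nat.prime_two⟩
  obtain ⟨y, hy⟩ := exists_order_ext2 (F := F) d r hdvd
  have hfr : Module.finrank F (FiniteField.Extension F 2 d) = d :=
    FiniteField.finrank_extension F 2 d
  let b : Module.Basis (Fin d) F (FiniteField.Extension F 2 d) :=
    Module.finBasisOfFinrankEq F (FiniteField.Extension F 2 d) hfr
  have hM : (Algebra.leftMulMatrix b y) ^ r = 1 := by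
    rw [← map_pow, ← hy, pow_orderOf_eq_one, map_one]
  have hy1 : y ≠ 1 := by
    intro h1
    rw [h1, orderOf_one] at hy
    exact hr.ne_one hy.symm
  have hfix : ∀ v : Fin d → F, (Algebra.leftMulMatrix b y) *ᵥ v = v → v = 0 := by
    intro v hv
    have h1 := Algebra.leftMulMatrix_mulVec_repr b y (b.equivFun.symm v)
    have h2 : (⇑(b.repr (b.equivFun.symm v)) : Fin d → F) = v := by
      rw [← Module.Basis.equivFun_apply, LinearEquiv.apply_symm_apply]
    rw [h2, hv] at h1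
    have h3 : b.equivFun (y * b.equivFun.symm v) = v := by
      rw [Module.Basis.equivFun_apply]; exact h1.symm
    have h4 : y * b.equivFun.symm v = b.equivFun.symm v :=
      (b.equivFun.eq_symm_apply).2 h3
    have h5 : (y - 1) * b.equivFun.symm v = 0 := by rw [sub_mul, h4, one_mul, sub_self]
    rcases mul_eq_zero.1 h5 with h | h
    · exact absurd (sub_eq_zero.1 h) hy1
    · have := congrArg b.equivFun h
      rwa [LinearEquiv.apply_symm_apply, map_zero] at this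
  have hdet : (Algebra.leftMulMatrix b y - 1).det ≠ 0 := by
    intro h0
    obtain ⟨v, hv0, hv⟩ := Matrix.exists_mulVec_eq_zero_iff.2 h0
    rw [Matrix.sub_mulVec, Matrix.one_mulVec, sub_eq_zero] at hv
    exact hv0 (hfix v hv)
  refine ⟨Units.ofPowEqOne _ r hM hr.ne_zero, ?_, ?_, ?_⟩
  · apply Units.ext
    rw [Units.val_pow_eq_pow_val, Units.val_ofPowEqOne, Units.val_one]
    exact hM
  · intro v hv
    rw [Units.val_ofPowEqOne] at hv
    exact hfix v hv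
  · intro v hv
    rw [Matrix.mulVec_transpose] at hv
    have h1 : v ᵥ* (Algebra.leftMulMatrix b y) = v := by
      have := congrArg (fun w => w ᵥ* (Algebra.leftMulMatrix b y)) hv
      simp only [Matrix.vecMul_vecMul] at this
      have hinv : ((Units.ofPowEqOne _ r hM hr.ne_zero)⁻¹ : GL (Fin d) F).1 *
          (Algebra.leftMulMatrix b y) = 1 := by
        have := (Units.ofPowEqOne _ r hM hr.ne_zero).inv_val
        rw [Units.val_ofPowEqOne] at this
        exact this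
      rw [hinv, Matrix.vecMul_one] at this
      exact this.symm
    by_contra hv0
    apply hdet
    apply Matrix.exists_vecMul_eq_zero_iff.1
    exact ⟨v, hv0, by rw [Matrix.vecMul_sub, Matrix.vecMul_one, h1, sub_self]⟩

theorem omegaGL_isom {d : ℕ} (x : GL (Fin d ⊕ Fin d) F)
    (hx : x ∈ Cfsg.Geo.omegaGL (Cfsg.quadFormPlus d F)) :
    ∃ g : ↥(Cfsg.isometryGroup F (Cfsg.quadFormPlus d F)),
      g ∈ Cfsg.Omega F (Cfsg.quadFormPlus d F) ∧ (g : GL (Fin d ⊕ Fin d) F) = x := by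
  obtain ⟨g, hg, rfl⟩ := hx
  exact ⟨g, hg, rfl⟩

theorem mem_omegaGL {d : ℕ} (g : ↥(Cfsg.isometryGroup F (Cfsg.quadFormPlus d F)))
    (hg : g ∈ Cfsg.Omega F (Cfsg.quadFormPlus d F)) :
    (g : GL (Fin d ⊕ Fin d) F) ∈ Cfsg.Geo.omegaGL (Cfsg.quadFormPlus d F) :=
  ⟨g, hg, rfl⟩

theorem singer_bad [Fintype F] [CharP F 2] (d : ℕ) (hd : 3 ≤ d) (r : ℕ) (hr : r.Prime)
    (hdvd : r ∣ Fintype.card F ^ d - 1) :
    ∃ x : GL (Fin d ⊕ Fin d) F, x ∈ Cfsg.Geo.omegaGL (Cfsg.quadFormPlus d F) ∧ x ^ r = 1 ∧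
      ∀ w : Fin d ⊕ Fin d → F,
        (x : Matrix (Fin d ⊕ Fin d) (Fin d ⊕ Fin d) F) *ᵥ w = w → w = 0 := by
  classical
  have : NeZero d := ⟨by omega⟩
  obtain ⟨A, hAr, hA1, hA2⟩ := exists_singer (F := F) d r hr hdvd
  have hmem : glEmbed d F A ∈ Cfsg.Omega F (Cfsg.quadFormPlus d F) :=
    (mem_NGrp A).1 (mem_NGrp_of_even (CharTwo.two_eq_zero) (Or.inr (by omega)) A)
  refine ⟨(glEmbed d F A : GL (Fin d ⊕ Fin d) F), mem_omegaGL _ hmem, ?_, ?_⟩
  · rw [← Subgroup.coe_pow, ← map_pow, hAr, map_one, Subgroup.coe_one]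
  · intro w hw
    rw [glEmbed_coe] at hw
    have h1 := blockMat_mulVec_inl A w
    have h2 := blockMat_mulVec_inr A w
    rw [hw] at h1 h2
    have h3 := hA1 _ h1.symm
    have h4 := hA2 _ h2.symm
    ext (i | i)
    · exact congrFun h3 i
    · exact congrFun h4 i

theorem Dn_full (d : ℕ) : Dn F d d = 1 := by
  rw [Dn, ← Matrix.diagonal_one]
  congr 1
  funext i
  rw [if_pos i.2]

theorem inv_bad [Fintype F] [CharP F 2] (d : ℕ) (hd : 3 ≤ d) (hev : Even d) :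
    ∃ x : GL (Fin d ⊕ Fin d) F, x ∈ Cfsg.Geo.omegaGL (Cfsg.quadFormPlus d F) ∧ x ^ 2 = 1 ∧
      ∀ w : Fin d ⊕ Fin d → F,
        (x : Matrix (Fin d ⊕ Fin d) (Fin d ⊕ Fin d) F) *ᵥ w = w →
          Cfsg.quadFormPlus d F w = 0 := by
  classical
  obtain ⟨hidx, hmem, -⟩ := omega_facts (Cfsg.quadFormPlus d F) rfl
    (Or.inr (by omega : d ≠ 2)) (by omega : 1 ≤ d)
  have h2k : 2 * (d / 2) = d := by
    obtain ⟨k, hk⟩ := hev
    omega
  have hS : (Da F d (d / 2))ᵀ = Da F d (d / 2) := Da_transpose d _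
  let g : ↥(Cfsg.isometryGroup F (Cfsg.quadFormPlus d F)) :=
    ofSp (TS (Da F d (d / 2))) (TS_isom _ hS (Da_alt d _))
  have hts : toSp d g = TS (Da F d (d / 2)) := toSp_ofSp _ _
  have hgΩ : g ∈ Cfsg.Omega F (Cfsg.quadFormPlus d F) := by
    rw [hmem]
    have hrk : (((g : GL (Fin d ⊕ Fin d) F) : Matrix (Fin d ⊕ Fin d) (Fin d ⊕ Fin d) F) - 1).rank
        = (Da F d (d / 2)).rank :=
      rank_of_conj_TS (toSp d g) (Da F d (d / 2)) hS (by rw [hts])
    rw [hrk, rank_Da (by omega)]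
    exact even_two_mul _
  have hgg : g ^ 2 = 1 := by
    apply toSp_injective d
    rw [map_pow, hts, map_one, pow_two]
    exact TS_sq _ hS
  refine ⟨(g : GL (Fin d ⊕ Fin d) F), mem_omegaGL _ hgΩ, ?_, ?_⟩
  · rw [← Subgroup.coe_pow, hgg, Subgroup.coe_one]
  · intro w hw
    have hmat : ((g : GL (Fin d ⊕ Fin d) F) : Matrix (Fin d ⊕ Fin d) (Fin d ⊕ Fin d) F)
        = Matrix.fromBlocks 1 (Da F d (d / 2)) 0 1 := coe_TS _ hS
    rw [hmat, Matrix.fromBlocks_mulVec] at hw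
    have h1 : (1 : Matrix (Fin d) (Fin d) F) *ᵥ (w ∘ Sum.inl) + Da F d (d / 2) *ᵥ (w ∘ Sum.inr)
        = w ∘ Sum.inl := by
      have := congrArg (fun u : Fin d ⊕ Fin d → F => u ∘ Sum.inl) hw
      simpa using this
    rw [Matrix.one_mulVec, add_eq_left] at h1
    have h2 : (Da F d (d / 2) * Da F d (d / 2)) *ᵥ (w ∘ Sum.inr) = 0 := by
      rw [← Matrix.mulVec_mulVec, h1, Matrix.mulVec_zero]
    rw [Da_mul_Da (by omega), h2k, Dn_full, Matrix.one_mulVec] at h2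
    have h3 : Cfsg.quadFormPlus d F w = (w ∘ Sum.inl) ⬝ᵥ (w ∘ Sum.inr) := rfl
    rw [h3, h2, dotProduct_zero]

theorem inv_good [Fintype F] [CharP F 2] (d : ℕ) (hodd : Odd d)
    (g : ↥(Cfsg.isometryGroup F (Cfsg.quadFormPlus d F))) (hg : orderOf g = 2) :
    ∃ w : Fin d ⊕ Fin d → F,
      ((g : GL (Fin d ⊕ Fin d) F) : Matrix (Fin d ⊕ Fin d) (Fin d ⊕ Fin d) F) *ᵥ w = w ∧
        Cfsg.quadFormPlus d F w ≠ 0 := by
  classical
  have hd : 1 ≤ d := by
    obtain ⟨k, hk⟩ := hodd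
    omega
  obtain ⟨hgg, hg1⟩ := inv_facts g hg
  obtain ⟨a, hc⟩ := exists_repS _ hgg hg1
  show ∃ w : Fin d ⊕ Fin d → F,
      (toSp d g : Matrix (Fin d ⊕ Fin d) (Fin d ⊕ Fin d) F) *ᵥ w = w ∧
        Cfsg.quadFormPlus d F w ≠ 0
  rcases a with i | j
  · have hna : ∃ v, Cfsg.sympForm d F v
        ((toSp d g : Matrix (Fin d ⊕ Fin d) (Fin d ⊕ Fin d) F) *ᵥ v) ≠ 0 := by
      by_contra hcon
      push Not at hcon
      have hD : ∀ b : Fin d → F, b ⬝ᵥ repS F d (Sum.inl i) *ᵥ b = 0 :=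
        alt_of_conj_TS' (toSp d g) (repS F d (Sum.inl i)) (repS_transpose _) hc hcon
      exact Dn_nalt (F := F) hd (i.val + 1) (by omega) hD
    obtain ⟨v, hv⟩ := hna
    refine ⟨(toSp d g : Matrix (Fin d ⊕ Fin d) (Fin d ⊕ Fin d) F) *ᵥ v + v, ?_, ?_⟩
    · rw [Matrix.mulVec_add, Matrix.mulVec_mulVec, ← sp_coe_mul, hgg, sp_coe_one,
        Matrix.one_mulVec, add_comm]
    · rw [Q_add, toSp_isom, sf_symm, CharTwo.add_self_eq_zero, zero_add]; exact hv
  · have hlt : 2 * (j.val + 1) < d := by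
      have := j.2
      obtain ⟨k, hk⟩ := hodd
      omega
    have hr : (repS F d (Sum.inr j)).rank < d := by
      have : (repS F d (Sum.inr j)).rank = 2 * (j.val + 1) := rank_Da (by omega)
      omega
    obtain ⟨u, v, hu, hv, huv⟩ := Cfsg.Agent.Helper14.OCentM.exists_fixed_pair (toSp d g)
      (repS F d (Sum.inr j)) (repS_transpose _) hc hr
    by_cases h1 : Cfsg.quadFormPlus d F u = 0
    · by_cases h2 : Cfsg.quadFormPlus d F v = 0
      · refine ⟨u + v, by rw [Matrix.mulVec_add, hu, hv], ?_⟩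
        rw [Q_add, h1, h2, zero_add, zero_add]; exact huv
      · exact ⟨v, hv, h2⟩
    · exact ⟨u, hu, h1⟩

theorem main [Fintype F] [CharP F 2] (d : ℕ) (hd : 4 ≤ d) (r : ℕ) (hr : r.Prime)
    (hrΩ : r ∣ Nat.card {W : Submodule F (Fin d ⊕ Fin d → F) //
      Module.finrank F ↥W = 1 ∧ ∃ v ∈ W, Cfsg.quadFormPlus d F v ≠ 0}) :
    (∀ x : GL (Fin d ⊕ Fin d) F, x ∈ Cfsg.Geo.omegaGL (Cfsg.quadFormPlus d F) →
      (∃ z : F, ((x ^ r : GL (Fin d ⊕ Fin d) F) : Matrix (Fin d ⊕ Fin d) (Fin d ⊕ Fin d) F)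
        = z • (1 : Matrix (Fin d ⊕ Fin d) (Fin d ⊕ Fin d) F)) →
      (∀ z : F, (x : Matrix (Fin d ⊕ Fin d) (Fin d ⊕ Fin d) F)
        ≠ z • (1 : Matrix (Fin d ⊕ Fin d) (Fin d ⊕ Fin d) F)) →
      ∃ W : Submodule F (Fin d ⊕ Fin d → F),
        (Module.finrank F ↥W = 1 ∧ ∃ v ∈ W, Cfsg.quadFormPlus d F v ≠ 0) ∧
          W.map (Matrix.toLin' (x : Matrix (Fin d ⊕ Fin d) (Fin d ⊕ Fin d) F)) ≤ W)
      ↔ (r = 2 ∧ Odd d) := by
  classical
  have hisoOf : ∀ x : GL (Fin d ⊕ Fin d) F, x ∈ Cfsg.Geo.omegaGL (Cfsg.quadFormPlus d F) →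
      ∀ u, Cfsg.quadFormPlus d F ((x : Matrix (Fin d ⊕ Fin d) (Fin d ⊕ Fin d) F) *ᵥ u)
        = Cfsg.quadFormPlus d F u := by
    intro x hx
    obtain ⟨g, -, rfl⟩ := omegaGL_isom x hx
    exact (mem_isom_iff _).1 g.2
  have hv0 : Cfsg.quadFormPlus d F (v0 F d ⟨0, by omega⟩) = 1 := Q_v0 d _
  constructor
  · intro H
    by_contra hne
    by_cases hr2 : r = 2
    · have hev : Even d := by
        rw [← Nat.not_odd_iff_even]
        exact fun ho => hne ⟨hr2, ho⟩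
      obtain ⟨x, hx, hx2, hfix⟩ := inv_bad (F := F) d (by omega) hev
      have hiso := hisoOf x hx
      have hns : ∀ z : F, (x : Matrix (Fin d ⊕ Fin d) (Fin d ⊕ Fin d) F)
          ≠ z • (1 : Matrix (Fin d ⊕ Fin d) (Fin d ⊕ Fin d) F) := by
        intro z hz
        have h1 := scalar_isom (by omega) _ hiso z hz
        have h2 := hfix (v0 F d ⟨0, by omega⟩) (by rw [h1, Matrix.one_mulVec])
        rw [hv0] at h2
        exact one_ne_zero h2
      obtain ⟨w, hw, hQw⟩ := (fixline_iff _ hiso).1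
        (H x hx ⟨1, by rw [hr2, hx2, one_smul]; rfl⟩ hns)
      exact hQw (hfix w hw)
    · have hdvd : r ∣ Fintype.card F ^ d - 1 := by
        rw [card_lines] at hrΩ
        rcases (Nat.Prime.dvd_mul hr).1 hrΩ with h | h
        · exact h
        · exfalso
          have h1 := hr.dvd_of_dvd_pow h
          obtain ⟨n, -, hn⟩ := FiniteField.card F 2
          rw [hn] at h1
          have h2 := hr.dvd_of_dvd_pow h1
          exact hr2 ((Nat.prime_dvd_prime_iff_eq hr Nat.prime_two).1 h2)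
      obtain ⟨x, hx, hxr, hfix⟩ := singer_bad (F := F) d (by omega) r hr hdvd
      have hiso := hisoOf x hx
      have hns : ∀ z : F, (x : Matrix (Fin d ⊕ Fin d) (Fin d ⊕ Fin d) F)
          ≠ z • (1 : Matrix (Fin d ⊕ Fin d) (Fin d ⊕ Fin d) F) := by
        intro z hz
        have h1 := scalar_isom (by omega) _ hiso z hz
        have h2 := hfix (v0 F d ⟨0, by omega⟩) (by rw [h1, Matrix.one_mulVec])
        rw [h2, Q_zero] at hv0
        exact zero_ne_one hv0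
      obtain ⟨w, hw, hQw⟩ := (fixline_iff _ hiso).1
        (H x hx ⟨1, by rw [hxr, one_smul]; rfl⟩ hns)
      rw [hfix w hw, Q_zero] at hQw
      exact hQw rfl
  · rintro ⟨rfl, hodd⟩ x hx ⟨z, hz⟩ hns
    have hiso := hisoOf x hx
    obtain ⟨g, hgΩ, rfl⟩ := omegaGL_isom x hx
    have hiso2 : ∀ u, Cfsg.quadFormPlus d F
        ((((g : GL (Fin d ⊕ Fin d) F) ^ 2 : GL (Fin d ⊕ Fin d) F) :
          Matrix (Fin d ⊕ Fin d) (Fin d ⊕ Fin d) F) *ᵥ u) = Cfsg.quadFormPlus d F u := by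
      intro u
      have : ((g : GL (Fin d ⊕ Fin d) F) ^ 2 : GL (Fin d ⊕ Fin d) F) = ((g ^ 2 : ↥(Cfsg.isometryGroup F (Cfsg.quadFormPlus d F))) : GL (Fin d ⊕ Fin d) F) := rfl
      rw [this]
      exact (mem_isom_iff _).1 (g ^ 2).2 u
    have h1 := scalar_isom (by omega) _ hiso2 z hz
    have hgg : g ^ 2 = 1 := by
      apply Subtype.ext
      apply Units.ext
      exact h1
    have hg1 : g ≠ 1 := by
      intro h
      apply hns 1
      rw [h, one_smul]
      rfl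
    have : Fact (Nat.Prime 2) := ⟨Nat.prime_two⟩
    have hord : orderOf g = 2 := orderOf_eq_prime hgg hg1
    obtain ⟨w, hw, hQw⟩ := inv_good d hodd g hord
    exact (fixline_iff _ hiso).2 ⟨w, hw, hQw⟩

end Cfsg.Agent.Helper14.OElus
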