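import Mathlib
import Cfsg.Agent.Helper14.OElus2

set_option autoImplicit false

namespace Cfsg.Agent.Helper14.OElusM

open Matrix Cfsg.Agent.Helper14.SpInv2 Cfsg.Agent.Helper14.OInv Cfsg.Agent.Helper6
  Cfsg.Agent.Helper14.SpCent Cfsg.Agent.Helper14.OCent Cfsg.Agent.Helper14.OElus

variable {F : Type*} [Field F]

theorem mem_sp_of_form {m : ℕ} (A : Matrix (Fin m ⊕ Fin m) (Fin m ⊕ Fin m) F)
    (hg : ∀ u v, Cfsg.sympForm m F (A *ᵥ u) (A *ᵥ v) = Cfsg.sympForm m F u v) :
    A ∈ Matrix.symplecticGroup (Fin m) F := by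
  classical
  rw [SymplecticGroup.mem_iff']
  ext i j
  have h := hg (Pi.single i 1) (Pi.single j 1)
  unfold Cfsg.sympForm at h
  rw [← Matrix.vecMul_transpose, ← Matrix.dotProduct_mulVec, Matrix.mulVec_mulVec,
    Matrix.mulVec_mulVec] at h
  simpa [Matrix.mulVec_single_one, Matrix.mul_assoc] using h

theorem sf_formula {m : ℕ} (u v : Fin m ⊕ Fin m → F) :
    Cfsg.sympForm m F u v = (u ∘ Sum.inr) ⬝ᵥ (v ∘ Sum.inl) - (u ∘ Sum.inl) ⬝ᵥ (v ∘ Sum.inr) := by
  unfold Cfsg.sympForm
  rw [Cfsg.Agent.S0764.J_mulVec, dotProduct, Fintype.sum_sum_type]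
  simp only [Sum.elim_inl, Sum.elim_inr, dotProduct, Function.comp_apply, mul_neg,
    Finset.sum_neg_distrib]
  ring

theorem det2_mulVec {K : Type*} [CommRing K] (A : Matrix (Fin 2) (Fin 2) K) (w w' : Fin 2 → K) :
    (A *ᵥ w) 1 * (A *ᵥ w') 0 - (A *ᵥ w) 0 * (A *ᵥ w') 1
      = A.det * (w 1 * w' 0 - w 0 * w' 1) := by
  simp only [Matrix.mulVec, dotProduct, Fin.sum_univ_two, Matrix.det_fin_two]
  ring

theorem exists_sp_fpf [Fintype F] [CharP F 2] (M : ℕ) [NeZero M] (r : ℕ) (hr : r.Prime)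
    (hr2 : r ≠ 2) (hdvd : r ∣ Fintype.card F ^ M + 1) :
    ∃ t : Matrix.symplecticGroup (Fin M) F, t ^ r = 1 ∧
      ∀ v : Fin M ⊕ Fin M → F,
        (t : Matrix (Fin M ⊕ Fin M) (Fin M ⊕ Fin M) F) *ᵥ v = v → v = 0 := by
  classical
  have : Fact (Nat.Prime 2) := ⟨Nat.prime_two⟩
  have : Fintype (FiniteField.Extension F 2 M) := Fintype.ofFinite _
  have : CharP (FiniteField.Extension F 2 M) 2 :=
    charP_of_injective_algebraMap (algebraMap F (FiniteField.Extension F 2 M)).injective 2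
  have hKc : Fintype.card (FiniteField.Extension F 2 M) = Fintype.card F ^ M := by
    rw [← Nat.card_eq_fintype_card, FiniteField.natCard_extension, Nat.card_eq_fintype_card]
  have h1le : 1 ≤ Fintype.card F ^ M := Nat.one_le_pow _ _ Fintype.card_pos
  have hdvd2 : r ∣ Fintype.card (FiniteField.Extension F 2 M) ^ 2 - 1 := by
    rw [hKc]
    have h3 : (Fintype.card F ^ M) ^ 2 - 1
        = (Fintype.card F ^ M - 1) * (Fintype.card F ^ M + 1) := by
      obtain ⟨k, hk⟩ : ∃ k, Fintype.card F ^ M = k + 1 := ⟨Fintype.card F ^ M - 1, by omega⟩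
      rw [hk]
      have : (k + 1) ^ 2 - 1 = k * (k + 1 + 1) := by
        have : (k + 1) ^ 2 = k * (k + 1 + 1) + 1 := by ring
        omega
      rw [this, Nat.add_sub_cancel]
    rw [h3]
    exact Dvd.dvd.mul_left hdvd _
  obtain ⟨A, hAr, hA1, -⟩ := exists_singer (F := FiniteField.Extension F 2 M) 2 r hr hdvd2
  have hdet : (A : Matrix (Fin 2) (Fin 2) (FiniteField.Extension F 2 M)).det = 1 := by
    have h1 : (A : Matrix (Fin 2) (Fin 2) (FiniteField.Extension F 2 M)).det ^ r = 1 := by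
      rw [← Matrix.det_pow, ← Units.val_pow_eq_pow_val, hAr, Units.val_one, Matrix.det_one]
    have h0 : (A : Matrix (Fin 2) (Fin 2) (FiniteField.Extension F 2 M)).det ≠ 0 :=
      (Matrix.isUnits_det_units A).ne_zero
    have h2 := FiniteField.pow_card_sub_one_eq_one _ h0
    have hcop : Nat.Coprime r (Fintype.card (FiniteField.Extension F 2 M) - 1) := by
      rw [Nat.Prime.coprime_iff_not_dvd hr, hKc]
      intro h3
      have h4 : r ∣ 2 := by
        have h5 := Nat.dvd_sub hdvd h3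
        have h6 : Fintype.card F ^ M + 1 - (Fintype.card F ^ M - 1) = 2 := by omega
        rwa [h6] at h5
      exact hr2 ((Nat.prime_dvd_prime_iff_eq hr Nat.prime_two).1 h4)
    have h5 : orderOf (A : Matrix (Fin 2) (Fin 2) (FiniteField.Extension F 2 M)).det ∣ 1 := by
      rw [← hcop.gcd_eq_one]
      exact Nat.dvd_gcd (orderOf_dvd_of_pow_eq_one h1) (orderOf_dvd_of_pow_eq_one h2)
    exact orderOf_eq_one_iff.1 (Nat.dvd_one.1 h5)
  have hfr : Module.finrank F (FiniteField.Extension F 2 M) = M :=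
    FiniteField.finrank_extension F 2 M
  let b : Module.Basis (Fin M) F (FiniteField.Extension F 2 M) :=
    Module.finBasisOfFinrankEq F (FiniteField.Extension F 2 M) hfr
  have hnd : (Algebra.traceForm F (FiniteField.Extension F 2 M)).Nondegenerate :=
    traceForm_nondegenerate F (FiniteField.Extension F 2 M)
  let b' : Module.Basis (Fin M) F (FiniteField.Extension F 2 M) :=
    (Algebra.traceForm F (FiniteField.Extension F 2 M)).dualBasis hnd b
  have hdual : ∀ i j, Algebra.trace F (FiniteField.Extension F 2 M) (b i * b' j)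
      = if i = j then 1 else 0 := by
    intro i j
    have := LinearMap.BilinForm.apply_dualBasis_right hnd (Algebra.traceForm_isSymm F) b i j
    rwa [Algebra.traceForm_apply] at this
  have htr : ∀ x y : Fin M → F, Algebra.trace F (FiniteField.Extension F 2 M)
      ((∑ i, x i • b i) * (∑ j, y j • b' j)) = x ⬝ᵥ y := by
    intro x y
    rw [Finset.sum_mul, map_sum, dotProduct]
    refine Finset.sum_congr rfl fun i _ => ?_
    rw [Finset.mul_sum, map_sum, Finset.sum_eq_single i]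
    · rw [smul_mul_smul_comm, map_smul, hdual, if_pos rfl, smul_eq_mul, mul_one]
    · intro j _ hji
      rw [smul_mul_smul_comm, map_smul, hdual, if_neg (Ne.symm hji), smul_zero]
    · intro h; exact absurd (Finset.mem_univ _) h
  let Φ : (Fin M ⊕ Fin M → F) →ₗ[F] (Fin 2 → FiniteField.Extension F 2 M) :=
    { toFun := fun v => ![∑ i, v (Sum.inl i) • b i, ∑ i, v (Sum.inr i) • b' i]
      map_add' := fun u v => by
        ext j; fin_cases j <;> simp [add_smul, Finset.sum_add_distrib]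
      map_smul' := fun c v => by
        ext j; fin_cases j <;> simp [mul_smul, Finset.smul_sum] }
  let Ψ : (Fin 2 → FiniteField.Extension F 2 M) →ₗ[F] (Fin M ⊕ Fin M → F) :=
    { toFun := fun w => Sum.elim (fun i => b.repr (w 0) i) (fun i => b'.repr (w 1) i)
      map_add' := fun u v => by
        ext (i | i) <;> simp
      map_smul' := fun c v => by
        ext (i | i) <;> simp }
  have hΨΦ : ∀ v, Ψ (Φ v) = v := by
    intro v
    ext (i | i)
    · show b.repr (∑ i, v (Sum.inl i) • b i) i = v (Sum.inl i)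
      rw [Module.Basis.repr_sum_self]
    · show b'.repr (∑ i, v (Sum.inr i) • b' i) i = v (Sum.inr i)
      rw [Module.Basis.repr_sum_self]
  have hΦΨ : ∀ w, Φ (Ψ w) = w := by
    intro w
    ext j
    fin_cases j
    · show ∑ i, b.repr (w 0) i • b i = w 0
      exact b.sum_repr _
    · show ∑ i, b'.repr (w 1) i • b' i = w 1
      exact b'.sum_repr _
  let T : (Fin M ⊕ Fin M → F) →ₗ[F] (Fin M ⊕ Fin M → F) :=
    Ψ ∘ₗ (Matrix.toLin' (A : Matrix (Fin 2) (Fin 2) (FiniteField.Extension F 2 M))).restrictScalars F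
      ∘ₗ Φ
  have hT : ∀ v, LinearMap.toMatrix' T *ᵥ v
      = Ψ ((A : Matrix (Fin 2) (Fin 2) (FiniteField.Extension F 2 M)) *ᵥ Φ v) := by
    intro v
    rw [← Matrix.toLin'_apply, Matrix.toLin'_toMatrix']
    rfl
  have hsf : ∀ u v : Fin M ⊕ Fin M → F, Cfsg.sympForm M F u v
      = Algebra.trace F (FiniteField.Extension F 2 M) (Φ u 1 * Φ v 0 - Φ u 0 * Φ v 1) := by
    intro u v
    rw [sf_formula, map_sub]
    have e1 : Φ u 1 * Φ v 0 = (∑ i, v (Sum.inl i) • b i) * (∑ j, u (Sum.inr j) • b' j) :=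
      mul_comm _ _
    have e2 : Φ u 0 * Φ v 1 = (∑ i, u (Sum.inl i) • b i) * (∑ j, v (Sum.inr j) • b' j) := rfl
    rw [e1, e2, htr, htr, dotProduct_comm]
    rfl
  have hform : ∀ u v, Cfsg.sympForm M F (LinearMap.toMatrix' T *ᵥ u) (LinearMap.toMatrix' T *ᵥ v)
      = Cfsg.sympForm M F u v := by
    intro u v
    rw [hsf, hT, hT, hΦΨ, hΦΨ, det2_mulVec, hdet, one_mul, ← hsf]
  have hpow : ∀ k : ℕ, ∀ v, (LinearMap.toMatrix' T ^ k) *ᵥ v
      = Ψ (((A ^ k : GL (Fin 2) (FiniteField.Extension F 2 M)) :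
        Matrix (Fin 2) (Fin 2) (FiniteField.Extension F 2 M)) *ᵥ Φ v) := by
    intro k
    induction k with
    | zero =>
      intro v
      rw [pow_zero, pow_zero, Matrix.one_mulVec, Units.val_one, Matrix.one_mulVec, hΨΦ]
    | succ k ih =>
      intro v
      rw [pow_succ, ← Matrix.mulVec_mulVec, ih, hT, hΦΨ, Matrix.mulVec_mulVec, pow_succ,
        Units.val_mul]
  refine ⟨⟨LinearMap.toMatrix' T, mem_sp_of_form _ hform⟩, ?_, ?_⟩
  · apply Subtype.ext
    rw [SubmonoidClass.coe_pow, sp_coe_one]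
    apply Matrix.mulVec_injective
    funext v
    rw [hpow, hAr, Units.val_one, Matrix.one_mulVec, hΨΦ, Matrix.one_mulVec]
  · intro v hv
    have h1 : LinearMap.toMatrix' T *ᵥ v = v := hv
    rw [hT] at h1
    have h2 := congrArg Φ h1
    rw [hΦΨ] at h2
    have h3 := hA1 _ h2
    rw [← hΨΦ v, h3, map_zero]

end Cfsg.Agent.Helper14.OElusM
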