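import Mathlib
import Cfsg.Agent.Helper14.OElusM

set_option autoImplicit false

namespace Cfsg.Agent.Helper14.OElusM

open Matrix Cfsg.Agent.Helper14.SpInv2 Cfsg.Agent.Helper14.OInv Cfsg.Agent.Helper6
  Cfsg.Agent.Helper14.SpCent Cfsg.Agent.Helper14.OCent Cfsg.Agent.Helper14.OElus
  Cfsg.Agent.Helper14.OMinusInv Cfsg.Agent.Helper14.OInvGen

variable {F : Type*} [Field F]

theorem free_dvd {X : Type*} [Fintype X] [DecidableEq X] (f : Function.End X) (r : ℕ)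
    [Fact r.Prime] (hf : f ^ r = 1) (hfree : ∀ x, f x ≠ x) : r ∣ Fintype.card X := by
  have h := Equiv.Perm.card_fixedPoints_modEq (p := r) (n := 1) (f := f) (by rwa [pow_one])
  have hE : IsEmpty ↑(Function.fixedPoints f) := ⟨fun x => hfree x.1 x.2⟩
  rw [Fintype.card_eq_nat_card (α := ↑(Function.fixedPoints f)), Nat.card_of_isEmpty] at h
  exact (Nat.modEq_zero_iff_dvd).1 h

theorem sp_inv_mulVec {m : ℕ} (g : Matrix.symplecticGroup (Fin m) F) (x : Fin m ⊕ Fin m → F) :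
    ((g⁻¹ : Matrix.symplecticGroup (Fin m) F) : Matrix (Fin m ⊕ Fin m) (Fin m ⊕ Fin m) F) *ᵥ
      ((g : Matrix (Fin m ⊕ Fin m) (Fin m ⊕ Fin m) F) *ᵥ x) = x := by
  rw [Matrix.mulVec_mulVec, ← sp_coe_mul, inv_mul_cancel, sp_coe_one, Matrix.one_mulVec]

theorem exists_tv_gen [CharP F 2] {m : ℕ} (Q : (Fin m ⊕ Fin m → F) → F)
    (hadd : ∀ u v, Q (u + v) = Q u + Q v + Cfsg.sympForm m F u v)
    (hsmul : ∀ (c : F) u, Q (c • u) = c ^ 2 * Q u)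
    (a : Fin m ⊕ Fin m → F) (hν : ∃ ν : F, Q a = ν ^ 2 + ν) :
    ∃ k : Matrix.symplecticGroup (Fin m) F,
      ∀ x, Q ((k : Matrix (Fin m ⊕ Fin m) (Fin m ⊕ Fin m) F) *ᵥ x)
        = Q x + (Cfsg.sympForm m F x a) ^ 2 := by
  obtain ⟨ν, hν⟩ := hν
  have h2 : (2 : F) = 0 := CharTwo.two_eq_zero
  obtain ⟨μ, hμ⟩ : ∃ μ : F, μ ^ 2 * Q a + μ + 1 = 0 := by
    by_cases hQa : Q a = 0
    · exact ⟨1, by rw [hQa]; simp [CharTwo.add_self_eq_zero]⟩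
    · refine ⟨ν / Q a, ?_⟩
      have : (ν / Q a) ^ 2 * Q a + ν / Q a = 1 := by
        field_simp
        rw [hν]
        ring
      rw [this]; exact CharTwo.add_self_eq_zero 1
  refine ⟨⟨Cfsg.sympTransvection m a μ, Cfsg.Agent.S0764.result m a μ⟩, ?_⟩
  intro x
  show Q (Cfsg.sympTransvection m a μ *ᵥ x) = _
  rw [tv_mulVec, hadd, hsmul, sf_smul_right]
  linear_combination (Cfsg.sympForm m F x a) ^ 2 * hμ - (Cfsg.sympForm m F x a) ^ 2 * h2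

theorem fpf_plus_dvd [Fintype F] [CharP F 2] (M : ℕ) (s : Matrix.symplecticGroup (Fin M) F)
    (r : ℕ) (hr : r.Prime) (hsr : s ^ r = 1)
    (hiso : ∀ x, Cfsg.quadFormPlus M F ((s : Matrix (Fin M ⊕ Fin M) (Fin M ⊕ Fin M) F) *ᵥ x)
      = Cfsg.quadFormPlus M F x)
    (hfix : ∀ v : Fin M ⊕ Fin M → F,
      (s : Matrix (Fin M ⊕ Fin M) (Fin M ⊕ Fin M) F) *ᵥ v = v → v = 0) :
    r ∣ (Fintype.card F ^ M - 1) * Fintype.card F ^ (M - 1) := by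
  classical
  have : Fact r.Prime := ⟨hr⟩
  rw [← card_Q_one, Nat.card_eq_fintype_card]
  let f : Function.End {v : Fin M ⊕ Fin M → F // Cfsg.quadFormPlus M F v = 1} :=
    fun v => ⟨(s : Matrix (Fin M ⊕ Fin M) (Fin M ⊕ Fin M) F) *ᵥ v.1, by rw [hiso]; exact v.2⟩
  have hfk : ∀ (j : ℕ) (v : {v : Fin M ⊕ Fin M → F // Cfsg.quadFormPlus M F v = 1}),
      ((f ^ j) v).1 = ((s ^ j : Matrix.symplecticGroup (Fin M) F) :
        Matrix (Fin M ⊕ Fin M) (Fin M ⊕ Fin M) F) *ᵥ v.1 := by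
    intro j
    induction j with
    | zero => intro v; rw [pow_zero, pow_zero, sp_coe_one, Matrix.one_mulVec]; rfl
    | succ j ih =>
      intro v
      rw [pow_succ, pow_succ, sp_coe_mul, ← Matrix.mulVec_mulVec, Function.End.mul_def]
      exact ih (f v)
  apply free_dvd f r
  · funext v
    apply Subtype.ext
    rw [hfk, hsr, sp_coe_one, Matrix.one_mulVec]
    rfl
  · intro v hv
    have h1 : (s : Matrix (Fin M ⊕ Fin M) (Fin M ⊕ Fin M) F) *ᵥ v.1 = v.1 :=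
      congrArg Subtype.val hv
    have h2 := hfix _ h1
    have h3 := v.2
    rw [h2, Q_zero] at h3
    exact zero_ne_one h3

theorem exists_conj_Qm [Fintype F] [CharP F 2] (n : ℕ) (c γ : F) (hγ : γ ^ 2 = c)
    (hanis : ∀ ν : F, γ ≠ ν ^ 2 + ν) (r : ℕ) (hr : r.Prime) (hr2 : r ≠ 2)
    (hrq : ¬ r ∣ Fintype.card F ^ (n + 1) - 1)
    (t : Matrix.symplecticGroup (Fin (n + 1)) F) (htr : t ^ r = 1)
    (hfix : ∀ v : Fin (n + 1) ⊕ Fin (n + 1) → F,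
      (t : Matrix (Fin (n + 1) ⊕ Fin (n + 1)) (Fin (n + 1) ⊕ Fin (n + 1)) F) *ᵥ v = v → v = 0) :
    ∃ k : Matrix.symplecticGroup (Fin (n + 1)) F,
      ∀ x, Qm F n c (((k * t * k⁻¹ : Matrix.symplecticGroup (Fin (n + 1)) F) :
        Matrix (Fin (n + 1) ⊕ Fin (n + 1)) (Fin (n + 1) ⊕ Fin (n + 1)) F) *ᵥ x) = Qm F n c x := by
  classical
  have h2 : (2 : F) = 0 := CharTwo.two_eq_zero
  have hadd := Qm_add (F := F) n c
  have hsmul : ∀ (k : F) u, Qm F n c (k • u) = k ^ 2 * Qm F n c u := fun k u => Qm_smul n c k u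
  obtain ⟨a, ha, -⟩ := sp_defect_gen (Qm F n c) hadd hsmul t
  have hdet : ((t : Matrix (Fin (n + 1) ⊕ Fin (n + 1)) (Fin (n + 1) ⊕ Fin (n + 1)) F) - 1).det
      ≠ 0 := by
    intro h0
    obtain ⟨v, hv0, hv⟩ := Matrix.exists_mulVec_eq_zero_iff.2 h0
    rw [Matrix.sub_mulVec, Matrix.one_mulVec, sub_eq_zero] at hv
    exact hv0 (hfix v hv)
  obtain ⟨e, he⟩ : ∃ e, (t : Matrix (Fin (n + 1) ⊕ Fin (n + 1)) (Fin (n + 1) ⊕ Fin (n + 1)) F) *ᵥ e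
      + e = (t : Matrix (Fin (n + 1) ⊕ Fin (n + 1)) (Fin (n + 1) ⊕ Fin (n + 1)) F) *ᵥ a := by
    refine ⟨((t : Matrix (Fin (n + 1) ⊕ Fin (n + 1)) (Fin (n + 1) ⊕ Fin (n + 1)) F) - 1)⁻¹ *ᵥ
      ((t : Matrix (Fin (n + 1) ⊕ Fin (n + 1)) (Fin (n + 1) ⊕ Fin (n + 1)) F) *ᵥ a), ?_⟩
    have h1 : ((t : Matrix (Fin (n + 1) ⊕ Fin (n + 1)) (Fin (n + 1) ⊕ Fin (n + 1)) F) - 1) *ᵥ
        (((t : Matrix (Fin (n + 1) ⊕ Fin (n + 1)) (Fin (n + 1) ⊕ Fin (n + 1)) F) - 1)⁻¹ *ᵥ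
          ((t : Matrix (Fin (n + 1) ⊕ Fin (n + 1)) (Fin (n + 1) ⊕ Fin (n + 1)) F) *ᵥ a))
        = (t : Matrix (Fin (n + 1) ⊕ Fin (n + 1)) (Fin (n + 1) ⊕ Fin (n + 1)) F) *ᵥ a := by
      rw [Matrix.mulVec_mulVec, Matrix.mul_nonsing_inv _ (Ne.isUnit hdet), Matrix.one_mulVec]
    rw [Matrix.sub_mulVec, Matrix.one_mulVec] at h1
    ext i
    have h3 := congrFun h1 i
    simp only [Pi.sub_apply, Pi.add_apply] at h3 ⊢
    rw [← h3]
    exact (CharTwo.sub_eq_add _ _).symm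
  have he_inv : ∀ y, Qm F n c
      ((t : Matrix (Fin (n + 1) ⊕ Fin (n + 1)) (Fin (n + 1) ⊕ Fin (n + 1)) F) *ᵥ y)
      + (Cfsg.sympForm (n + 1) F
        ((t : Matrix (Fin (n + 1) ⊕ Fin (n + 1)) (Fin (n + 1) ⊕ Fin (n + 1)) F) *ᵥ y) e) ^ 2
      = Qm F n c y + (Cfsg.sympForm (n + 1) F y e) ^ 2 := by
    intro y
    have h3 : Cfsg.sympForm (n + 1) F y a = Cfsg.sympForm (n + 1) F y e
        + Cfsg.sympForm (n + 1) F
          ((t : Matrix (Fin (n + 1) ⊕ Fin (n + 1)) (Fin (n + 1) ⊕ Fin (n + 1)) F) *ᵥ y) e := by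
      rw [← sp_preserves t y a, ← he, sf_add_right, sp_preserves]
    rw [ha y, h3, CharTwo.add_sq]
    linear_combination (Cfsg.sympForm (n + 1) F
      ((t : Matrix (Fin (n + 1) ⊕ Fin (n + 1)) (Fin (n + 1) ⊕ Fin (n + 1)) F) *ᵥ y) e) ^ 2 * h2
  by_cases hν : ∃ ν : F, Qm F n c e = ν ^ 2 + ν
  · obtain ⟨k, hk⟩ := exists_tv_gen (Qm F n c) hadd hsmul e hν
    refine ⟨k, fun x => ?_⟩
    rw [sp_coe_mul, sp_coe_mul, ← Matrix.mulVec_mulVec, ← Matrix.mulVec_mulVec, hk, he_inv, ← hk,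
      sp_mulVec_inv]
  · exfalso
    have hQe : ∀ x, Qm F n c x + (Cfsg.sympForm (n + 1) F x e) ^ 2
        = Cfsg.quadFormPlus (n + 1) F x + (Cfsg.sympForm (n + 1) F x (a0 n γ + e)) ^ 2 := by
      intro x
      rw [Qm_eq n c γ hγ, sf_add_right, CharTwo.add_sq]
      ring
    have hwp : ∃ ν : F, Cfsg.quadFormPlus (n + 1) F (a0 n γ + e) = ν ^ 2 + ν := by
      have h1 : ∃ ν : F, γ + Qm F n c e = ν ^ 2 + ν :=
        as_add γ (Qm F n c e) (fun ⟨ν, h⟩ => hanis ν h) hν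
      have h3 : Cfsg.quadFormPlus (n + 1) F (a0 n γ + e) = (γ + Qm F n c e)
          + ((Cfsg.sympForm (n + 1) F e (a0 n γ)) ^ 2 + Cfsg.sympForm (n + 1) F e (a0 n γ)) := by
        rw [Q_add, Q_a0, Qm_eq n c γ hγ, sf_symm (a0 n γ) e]
        linear_combination (-(Cfsg.sympForm (n + 1) F e (a0 n γ)) ^ 2) * h2
      rw [h3]
      exact as_mem_add _ _ h1 ⟨_, rfl⟩
    obtain ⟨k, -, hk⟩ := exists_tv (1 : Matrix.symplecticGroup (Fin (n + 1)) F) (a0 n γ + e)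
      (by rw [sp_coe_one, Matrix.one_mulVec]) hwp
    have hiso : ∀ x, Cfsg.quadFormPlus (n + 1) F
        (((k * t * k⁻¹ : Matrix.symplecticGroup (Fin (n + 1)) F) :
          Matrix (Fin (n + 1) ⊕ Fin (n + 1)) (Fin (n + 1) ⊕ Fin (n + 1)) F) *ᵥ x)
        = Cfsg.quadFormPlus (n + 1) F x := by
      intro x
      rw [sp_coe_mul, sp_coe_mul, ← Matrix.mulVec_mulVec, ← Matrix.mulVec_mulVec, hk, ← hQe,
        he_inv, hQe, ← hk, sp_mulVec_inv]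
    have hfix' : ∀ v : Fin (n + 1) ⊕ Fin (n + 1) → F,
        ((k * t * k⁻¹ : Matrix.symplecticGroup (Fin (n + 1)) F) :
          Matrix (Fin (n + 1) ⊕ Fin (n + 1)) (Fin (n + 1) ⊕ Fin (n + 1)) F) *ᵥ v = v → v = 0 := by
      intro v hv
      rw [sp_coe_mul, sp_coe_mul, ← Matrix.mulVec_mulVec, ← Matrix.mulVec_mulVec] at hv
      have h4 := congrArg (fun w => ((k⁻¹ : Matrix.symplecticGroup (Fin (n + 1)) F) :
        Matrix (Fin (n + 1) ⊕ Fin (n + 1)) (Fin (n + 1) ⊕ Fin (n + 1)) F) *ᵥ w) hv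
      simp only [sp_inv_mulVec] at h4
      have h5 := hfix _ h4
      rw [← sp_mulVec_inv k v, h5, Matrix.mulVec_zero]
    have hdvd := fpf_plus_dvd (n + 1) (k * t * k⁻¹) r hr
      (by rw [conj_pow, htr, mul_one, mul_inv_cancel]) hiso hfix'
    rcases (Nat.Prime.dvd_mul hr).1 hdvd with h | h
    · exact hrq h
    · have h6 := hr.dvd_of_dvd_pow h
      obtain ⟨j, -, hj⟩ := FiniteField.card F 2
      rw [hj] at h6
      exact hr2 ((Nat.prime_dvd_prime_iff_eq hr Nat.prime_two).1 (hr.dvd_of_dvd_pow h6))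

theorem exists_Ominus_fpf [Fintype F] [CharP F 2] (n : ℕ) (a b : F)
    (hab : ∀ z₁ z₂ : F, z₁ ^ 2 + a * z₁ * z₂ + b * z₂ ^ 2 = 0 → z₁ = 0 ∧ z₂ = 0)
    (r : ℕ) (hr : r.Prime) (hr2 : r ≠ 2) (hdvd : r ∣ Fintype.card F ^ (n + 1) + 1) :
    ∃ g : ↥(Cfsg.isometryGroup F (Cfsg.quadFormMinus n F a b)), g ^ r = 1 ∧
      ∀ u : (Fin n ⊕ Fin n) ⊕ Fin 2 → F,
        ((g : GL ((Fin n ⊕ Fin n) ⊕ Fin 2) F) :
          Matrix ((Fin n ⊕ Fin n) ⊕ Fin 2) ((Fin n ⊕ Fin n) ⊕ Fin 2) F) *ᵥ u = u → u = 0 := by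
  classical
  have ha : a ≠ 0 := by
    rintro rfl
    obtain ⟨d, hd⟩ := exists_sqrt b
    have := hab d 1 (by
      rw [← hd]
      have := CharTwo.add_self_eq_zero (d ^ 2)
      linear_combination this)
    exact one_ne_zero this.2
  obtain ⟨γ, hγ'⟩ := exists_sqrt (b / a ^ 2)
  have hγ : γ ^ 2 = b / a ^ 2 := by rw [pow_two]; exact hγ'
  have hanis : ∀ ν : F, γ ≠ ν ^ 2 + ν := by
    intro ν h
    have h1 : b * (1 / a) ^ 2 = γ ^ 2 := by rw [hγ]; field_simp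
    have := hab (ν ^ 2) (1 / a) (by
      rw [h1, h, CharTwo.add_sq]
      have h2 := CharTwo.add_self_eq_zero ((ν ^ 2) ^ 2 + ν ^ 2)
      field_simp
      linear_combination h2)
    exact ha (by simpa using this.2)
  have h1le : 1 ≤ Fintype.card F ^ (n + 1) := Nat.one_le_pow _ _ Fintype.card_pos
  have hrq : ¬ r ∣ Fintype.card F ^ (n + 1) - 1 := by
    intro h3
    have h4 : r ∣ 2 := by
      have h5 := Nat.dvd_sub hdvd h3
      have h6 : Fintype.card F ^ (n + 1) + 1 - (Fintype.card F ^ (n + 1) - 1) = 2 := by omega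
      rwa [h6] at h5
    exact hr2 ((Nat.prime_dvd_prime_iff_eq hr Nat.prime_two).1 h4)
  obtain ⟨t, htr, hfix⟩ := exists_sp_fpf (F := F) (n + 1) r hr hr2 hdvd
  obtain ⟨k, hk⟩ := exists_conj_Qm n (b / a ^ 2) γ hγ hanis r hr hr2 hrq t htr hfix
  obtain ⟨g, hg⟩ := toSpM_surj n a b ha (k * t * k⁻¹) hk
  refine ⟨g, ?_, ?_⟩
  · apply toSpM_injective n a b ha
    rw [map_pow, hg, map_one, conj_pow, htr, mul_one, mul_inv_cancel]
  · intro u hu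
    have h3 : ((k * t * k⁻¹ : Matrix.symplecticGroup (Fin (n + 1)) F) :
        Matrix (Fin (n + 1) ⊕ Fin (n + 1)) (Fin (n + 1) ⊕ Fin (n + 1)) F) *ᵥ psi n a u
        = psi n a u := by
      rw [← hg]
      have h4 := conjMat_mulVec n a ((g : GL ((Fin n ⊕ Fin n) ⊕ Fin 2) F) :
        Matrix ((Fin n ⊕ Fin n) ⊕ Fin 2) ((Fin n ⊕ Fin n) ⊕ Fin 2) F) (psi n a u)
      rw [psiInv_psi n ha, hu] at h4
      exact h4
    rw [sp_coe_mul, sp_coe_mul, ← Matrix.mulVec_mulVec, ← Matrix.mulVec_mulVec] at h3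
    have h4 := congrArg (fun w => ((k⁻¹ : Matrix.symplecticGroup (Fin (n + 1)) F) :
      Matrix (Fin (n + 1) ⊕ Fin (n + 1)) (Fin (n + 1) ⊕ Fin (n + 1)) F) *ᵥ w) h3
    simp only [sp_inv_mulVec] at h4
    have h5 := hfix _ h4
    have h6 : psi n a u = 0 := by
      rw [← sp_mulVec_inv k (psi n a u), h5, Matrix.mulVec_zero]
    rw [← psiInv_psi n ha u, h6, map_zero]

end Cfsg.Agent.Helper14.OElusM
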