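import Mathlib
import Cfsg.Agent.Helper14.OElusM2

set_option autoImplicit false

namespace Cfsg.Agent.Helper14.OElusM

open Matrix Cfsg.Agent.Helper14.SpInv2 Cfsg.Agent.Helper14.OInv Cfsg.Agent.Helper6
  Cfsg.Agent.Helper14.SpCent Cfsg.Agent.Helper14.OCent Cfsg.Agent.Helper14.OElus
  Cfsg.Agent.Helper14.OMinusInv Cfsg.Agent.Helper14.OInvGen Cfsg.Agent.Helper14.OCentB

variable {F : Type*} [Field F]

section lines

variable {ι : Type*} [Fintype ι]

theorem fixline_iff_gen [DecidableEq ι] [CharP F 2] (Q : (ι → F) → F)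
    (hsmul : ∀ (c : F) u, Q (c • u) = c ^ 2 * Q u) (A : Matrix ι ι F)
    (hA : ∀ u, Q (A *ᵥ u) = Q u) :
    (∃ W : Submodule F (ι → F),
      (Module.finrank F ↥W = 1 ∧ ∃ v ∈ W, Q v ≠ 0) ∧ W.map (Matrix.toLin' A) ≤ W) ↔
    ∃ w, A *ᵥ w = w ∧ Q w ≠ 0 := by
  have hQ0 : Q 0 = 0 := by
    have := hsmul 0 0
    rwa [zero_smul, zero_pow two_ne_zero, zero_mul] at this
  constructor
  · rintro ⟨W, ⟨hW, v, hv, hQv⟩, hmap⟩
    have hv0 : (⟨v, hv⟩ : W) ≠ 0 := by
      intro h0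
      have : v = 0 := congrArg Subtype.val h0
      rw [this, hQ0] at hQv
      exact hQv rfl
    have hAv : A *ᵥ v ∈ W := hmap ⟨v, hv, by rw [Matrix.toLin'_apply]⟩
    obtain ⟨c, hc⟩ := (finrank_eq_one_iff_of_nonzero' (⟨v, hv⟩ : W) hv0).1 hW ⟨A *ᵥ v, hAv⟩
    have hc' : c • v = A *ᵥ v := congrArg Subtype.val hc
    have h1 := hA v
    rw [← hc', hsmul] at h1
    have hcc : c * c = 1 := by
      have : (c ^ 2 - 1) * Q v = 0 := by rw [sub_mul, h1, one_mul, sub_self]
      rcases mul_eq_zero.1 this with h | h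
      · rw [← pow_two]; exact sub_eq_zero.1 h
      · exact absurd h hQv
    have hc1 : c = 1 := sq_eq_one' hcc
    refine ⟨v, ?_, hQv⟩
    rw [← hc', hc1, one_smul]
  · rintro ⟨w, hw, hQw⟩
    have hw0 : w ≠ 0 := by
      intro h0
      rw [h0, hQ0] at hQw
      exact hQw rfl
    refine ⟨F ∙ w, ⟨finrank_span_singleton hw0, w, Submodule.mem_span_singleton_self w, hQw⟩, ?_⟩
    rw [Submodule.map_span, Set.image_singleton, Submodule.span_singleton_le_iff_mem,
      Matrix.toLin'_apply, hw]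
    exact Submodule.mem_span_singleton_self w

theorem card_lines_gen [Fintype F] [CharP F 2] (Q : (ι → F) → F)
    (hsmul : ∀ (c : F) u, Q (c • u) = c ^ 2 * Q u) :
    Nat.card {W : Submodule F (ι → F) // Module.finrank F ↥W = 1 ∧ ∃ v ∈ W, Q v ≠ 0}
      = Nat.card {v : ι → F // Q v = 1} := by
  classical
  have hQ0 : Q 0 = 0 := by
    have := hsmul 0 0
    rwa [zero_smul, zero_pow two_ne_zero, zero_mul] at this
  symm
  apply Nat.card_congr
  refine Equiv.ofBijective (fun v => ⟨F ∙ v.1, finrank_span_singleton (by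
      intro h0
      have := v.2
      rw [h0, hQ0] at this
      exact zero_ne_one this), v.1, Submodule.mem_span_singleton_self v.1, by
      rw [v.2]; exact one_ne_zero⟩) ⟨?_, ?_⟩
  · rintro ⟨v, hv⟩ ⟨v', hv'⟩ h
    have h' : F ∙ v = F ∙ v' := congrArg Subtype.val h
    have hmem : v ∈ F ∙ v' := by rw [← h']; exact Submodule.mem_span_singleton_self v
    obtain ⟨c, hc⟩ := Submodule.mem_span_singleton.1 hmem
    have h1 := hv
    rw [← hc, hsmul, hv', mul_one] at h1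
    have hc1 : c = 1 := sq_eq_one' (by rw [← pow_two]; exact h1)
    apply Subtype.ext
    show v = v'
    rw [← hc, hc1, one_smul]
  · rintro ⟨W, hW, v, hv, hQv⟩
    obtain ⟨c, hc⟩ := exists_sqrt (Q v)⁻¹
    have hQ : Q (c • v) = 1 := by
      rw [hsmul, pow_two, hc, inv_mul_cancel₀ hQv]
    refine ⟨⟨c • v, hQ⟩, ?_⟩
    apply Subtype.ext
    show F ∙ (c • v) = W
    have hcv0 : c • v ≠ 0 := by
      intro h0
      rw [h0, hQ0] at hQ
      exact zero_ne_one hQ
    apply Submodule.eq_of_le_of_finrank_eq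
    · rw [Submodule.span_singleton_le_iff_mem]
      exact W.smul_mem c hv
    · rw [finrank_span_singleton hcv0, hW]

end lines

section count
variable [Fintype F] [CharP F 2]

theorem card_fiber_scale {X : Type*} [AddCommGroup X] [Module F X] (Φ : X → F)
    (hΦ : ∀ (s : F) x, Φ (s • x) = s ^ 2 * Φ x) (c : F) (hc : c ≠ 0) :
    Nat.card {x // Φ x = c} = Nat.card {x // Φ x = 1} := by
  obtain ⟨s, hs⟩ := exists_sqrt c
  have hs0 : s ≠ 0 := by rintro rfl; exact hc (by rw [← hs, mul_zero])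
  symm
  apply Nat.card_congr
  exact
    { toFun := fun x => ⟨s • x.1, by rw [hΦ, x.2, mul_one, pow_two, hs]⟩
      invFun := fun y => ⟨s⁻¹ • y.1, by
        rw [hΦ, y.2, ← hs]
        field_simp⟩
      left_inv := fun x => Subtype.ext (inv_smul_smul₀ hs0 _)
      right_inv := fun y => Subtype.ext (smul_inv_smul₀ hs0 _) }

theorem card_total {X : Type*} [AddCommGroup X] [Module F X] [Fintype X] (Φ : X → F)
    (hΦ : ∀ (s : F) x, Φ (s • x) = s ^ 2 * Φ x) :
    Fintype.card X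
      = Nat.card {x // Φ x = 0} + (Fintype.card F - 1) * Nat.card {x // Φ x = 1} := by
  classical
  have e := Equiv.sigmaFiberEquiv Φ
  rw [← Nat.card_eq_fintype_card, ← Nat.card_congr e, Nat.card_sigma,
    ← Finset.add_sum_erase Finset.univ _ (Finset.mem_univ (0 : F))]
  congr 1
  rw [Finset.sum_congr rfl (fun c hc => card_fiber_scale Φ hΦ c (Finset.ne_of_mem_erase hc)),
    Finset.sum_const, smul_eq_mul, Finset.card_erase_of_mem (Finset.mem_univ _), Finset.card_univ]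

theorem card_Qminus_one (k : ℕ) (a b : F)
    (hab : ∀ z₁ z₂ : F, z₁ ^ 2 + a * z₁ * z₂ + b * z₂ ^ 2 = 0 → z₁ = 0 ∧ z₂ = 0) :
    Nat.card {u : (Fin (k + 1) ⊕ Fin (k + 1)) ⊕ Fin 2 → F //
      Cfsg.quadFormMinus (k + 1) F a b u = 1}
      = Fintype.card F ^ (k + 1) * (Fintype.card F ^ (k + 2) + 1) := by
  classical
  let N : (Fin 2 → F) → F := fun z => z 0 ^ 2 + a * z 0 * z 1 + b * z 1 ^ 2
  have hN : ∀ (s : F) z, N (s • z) = s ^ 2 * N z := by
    intro s z
    simp only [N, Pi.smul_apply, smul_eq_mul]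
    ring
  have hN0 : Nat.card {z // N z = 0} = 1 := by
    rw [Nat.card_eq_one_iff_unique]
    refine ⟨⟨?_⟩, ⟨⟨0, by simp [N]⟩⟩⟩
    rintro ⟨z, hz⟩ ⟨z', hz'⟩
    apply Subtype.ext
    obtain ⟨h1, h2⟩ := hab _ _ hz
    obtain ⟨h1', h2'⟩ := hab _ _ hz'
    ext i
    fin_cases i
    · exact h1.trans h1'.symm
    · exact h2.trans h2'.symm
  have hq1 : 1 < Fintype.card F := Fintype.one_lt_card
  obtain ⟨s, hs⟩ : ∃ s, Fintype.card F = s + 1 := ⟨Fintype.card F - 1, by omega⟩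
  have hs0 : 0 < s := by omega
  have hK : Nat.card {z // N z = 1} = s + 2 := by
    have h1 := card_total N hN
    rw [hN0, Fintype.card_fun, Fintype.card_fin, hs, Nat.add_sub_cancel] at h1
    have : s * Nat.card {z // N z = 1} = s * (s + 2) := by nlinarith
    exact Nat.eq_of_mul_eq_mul_left hs0 this
  have hP : Nat.card {w : Fin (k + 1) ⊕ Fin (k + 1) → F // Cfsg.quadFormPlus (k + 1) F w = 1}
      + (s + 1) ^ k = (s + 1) ^ (k + 1) * (s + 1) ^ k := by
    rw [card_Q_one, hs, Nat.add_sub_cancel, Nat.sub_mul, one_mul]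
    exact Nat.sub_add_cancel (Nat.le_mul_of_pos_left _ (by positivity))
  have hZ : (s + 1) ^ (2 * (k + 1))
      = Nat.card {w : Fin (k + 1) ⊕ Fin (k + 1) → F // Cfsg.quadFormPlus (k + 1) F w = 0}
      + s * Nat.card {w : Fin (k + 1) ⊕ Fin (k + 1) → F // Cfsg.quadFormPlus (k + 1) F w = 1} := by
    have h1 := card_total (Cfsg.quadFormPlus (k + 1) F) (fun s x => Q_smul s x)
    rw [Fintype.card_fun, Fintype.card_sum, Fintype.card_fin, hs, Nat.add_sub_cancel,
      ← two_mul] at h1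
    exact h1
  have e : {u : (Fin (k + 1) ⊕ Fin (k + 1)) ⊕ Fin 2 → F //
      Cfsg.quadFormMinus (k + 1) F a b u = 1} ≃
      (Σ z : Fin 2 → F, {w : Fin (k + 1) ⊕ Fin (k + 1) → F //
        Cfsg.quadFormPlus (k + 1) F w = 1 + N z}) :=
    { toFun := fun u => ⟨u.1 ∘ Sum.inr, ⟨u.1 ∘ Sum.inl, by
        have h1 : Cfsg.quadFormMinus (k + 1) F a b u.1
            = Cfsg.quadFormPlus (k + 1) F (u.1 ∘ Sum.inl) + N (u.1 ∘ Sum.inr) := rfl
        have h2 := u.2
        rw [h1] at h2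
        have h3 := CharTwo.add_self_eq_zero (N (u.1 ∘ Sum.inr))
        linear_combination h2 - h3⟩⟩
      invFun := fun s => ⟨Sum.elim s.2.1 s.1, by
        have h1 : Cfsg.quadFormMinus (k + 1) F a b (Sum.elim s.2.1 s.1)
            = Cfsg.quadFormPlus (k + 1) F s.2.1 + N s.1 := rfl
        rw [h1, s.2.2]
        have h3 := CharTwo.add_self_eq_zero (N s.1)
        linear_combination h3⟩
      left_inv := fun u => Subtype.ext (Sum.elim_comp_inl_inr u.1)
      right_inv := fun s => rfl }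
  rw [Nat.card_congr e, Nat.card_sigma]
  have hfib : ∀ z : Fin 2 → F, Nat.card {w : Fin (k + 1) ⊕ Fin (k + 1) → F //
        Cfsg.quadFormPlus (k + 1) F w = 1 + N z}
      = if N z = 1 then
          Nat.card {w : Fin (k + 1) ⊕ Fin (k + 1) → F // Cfsg.quadFormPlus (k + 1) F w = 0}
        else
          Nat.card {w : Fin (k + 1) ⊕ Fin (k + 1) → F // Cfsg.quadFormPlus (k + 1) F w = 1} := by
    intro z
    split_ifs with h
    · rw [h, CharTwo.add_self_eq_zero]
    · exact card_fiber_scale _ (fun s x => Q_smul s x) _ (by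
        intro h0
        exact h (CharTwo.add_eq_zero.1 h0).symm)
  rw [Finset.sum_congr rfl (fun z _ => hfib z), Finset.sum_ite, Finset.sum_const,
    Finset.sum_const, smul_eq_mul, smul_eq_mul]
  have hc1 : (Finset.univ.filter (fun z : Fin 2 → F => N z = 1)).card = s + 2 := by
    rw [← hK, Nat.card_eq_fintype_card, Fintype.card_subtype]
  have hc2 : (Finset.univ.filter (fun z : Fin 2 → F => ¬ N z = 1)).card + (s + 2)
      = (s + 1) ^ 2 := by
    rw [← hc1, add_comm, Finset.card_filter_add_card_filter_not, Finset.card_univ,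
      Fintype.card_fun, Fintype.card_fin, hs]
  rw [hc1, hs]
  generalize (Finset.univ.filter (fun z : Fin 2 → F => ¬ N z = 1)).card = C₂ at hc2 ⊢
  generalize Nat.card {w : Fin (k + 1) ⊕ Fin (k + 1) → F //
    Cfsg.quadFormPlus (k + 1) F w = 0} = Z at hZ ⊢
  generalize Nat.card {w : Fin (k + 1) ⊕ Fin (k + 1) → F //
    Cfsg.quadFormPlus (k + 1) F w = 1} = P at hZ hP ⊢
  have key : ((s : ℤ) + 2) * Z + C₂ * P = ((s : ℤ) + 1) ^ (k + 1) * (((s : ℤ) + 1) ^ (k + 2) + 1) := by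
    have hZ' : ((s : ℤ) + 1) ^ (2 * (k + 1)) = Z + s * P := by exact_mod_cast hZ
    have hc2' : (C₂ : ℤ) + (s + 2) = (s + 1) ^ 2 := by exact_mod_cast hc2
    have hP' : (P : ℤ) + (s + 1) ^ k = (s + 1) ^ (k + 1) * (s + 1) ^ k := by exact_mod_cast hP
    linear_combination (-(s : ℤ) - 2) * hZ' + (P : ℤ) * hc2' - ((s : ℤ) + 1) * hP'
  exact_mod_cast key

end count

theorem inv_good_minus [Fintype F] [CharP F 2] (n : ℕ) (a b : F)
    (hab : ∀ z₁ z₂ : F, z₁ ^ 2 + a * z₁ * z₂ + b * z₂ ^ 2 = 0 → z₁ = 0 ∧ z₂ = 0)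
    (g : ↥(Cfsg.isometryGroup F (Cfsg.quadFormMinus n F a b))) (hg : orderOf g = 2) :
    ∃ w : (Fin n ⊕ Fin n) ⊕ Fin 2 → F,
      ((g : GL ((Fin n ⊕ Fin n) ⊕ Fin 2) F) :
        Matrix ((Fin n ⊕ Fin n) ⊕ Fin 2) ((Fin n ⊕ Fin n) ⊕ Fin 2) F) *ᵥ w = w ∧
      Cfsg.quadFormMinus n F a b w ≠ 0 := by
  classical
  have ha : a ≠ 0 := by
    rintro rfl
    obtain ⟨d, hd⟩ := exists_sqrt b
    have := hab d 1 (by
      rw [← hd]
      have := CharTwo.add_self_eq_zero (d ^ 2)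
      linear_combination this)
    exact one_ne_zero this.2
  obtain ⟨γ, hγ'⟩ := exists_sqrt (b / a ^ 2)
  have hγ : γ ^ 2 = b / a ^ 2 := by rw [pow_two]; exact hγ'
  have hanis : ∀ ν : F, γ ≠ ν ^ 2 + ν := by
    intro ν h
    have h1 : b * (1 / a) ^ 2 = γ ^ 2 := by rw [hγ]; field_simp
    have := hab (ν ^ 2) (1 / a) (by
      rw [h1, h, CharTwo.add_sq]
      have h2 := CharTwo.add_self_eq_zero ((ν ^ 2) ^ 2 + ν ^ 2)
      field_simp
      linear_combination h2)
    exact ha (by simpa using this.2)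
  have hord : orderOf (toSpM n a b ha g) = 2 := by
    rw [orderOf_injective (toSpM n a b ha) (toSpM_injective n a b ha) g, hg]
  have htt : toSpM n a b ha g * toSpM n a b ha g = 1 := by
    have h1 := pow_orderOf_eq_one (toSpM n a b ha g)
    rw [hord, pow_two] at h1
    exact h1
  have ht1 : toSpM n a b ha g ≠ 1 := by
    intro h1
    rw [h1, orderOf_one] at hord; omega
  have hiso : ∀ u, Qm F n (b / a ^ 2) ((toSpM n a b ha g :
      Matrix (Fin (n + 1) ⊕ Fin (n + 1)) (Fin (n + 1) ⊕ Fin (n + 1)) F) *ᵥ u)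
      = Qm F n (b / a ^ 2) u := fun u => conjMat_isom n a b ha g u
  have hfix : ∃ w', (toSpM n a b ha g :
      Matrix (Fin (n + 1) ⊕ Fin (n + 1)) (Fin (n + 1) ⊕ Fin (n + 1)) F) *ᵥ w' = w' ∧
      Qm F n (b / a ^ 2) w' ≠ 0 := by
    obtain ⟨a', hc⟩ := exists_repS _ htt ht1
    rcases a' with i | j
    · have hna : ∃ v, Cfsg.sympForm (n + 1) F v ((toSpM n a b ha g :
          Matrix (Fin (n + 1) ⊕ Fin (n + 1)) (Fin (n + 1) ⊕ Fin (n + 1)) F) *ᵥ v) ≠ 0 := by
        by_contra hcon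
        push Not at hcon
        have hD : ∀ v : Fin (n + 1) → F, v ⬝ᵥ repS F (n + 1) (Sum.inl i) *ᵥ v = 0 :=
          alt_of_conj_TS' (toSpM n a b ha g) (repS F (n + 1) (Sum.inl i)) (repS_transpose _) hc
            hcon
        exact Dn_nalt (F := F) (by omega) (i.val + 1) (by omega) hD
      obtain ⟨v, hv⟩ := hna
      refine ⟨(toSpM n a b ha g :
        Matrix (Fin (n + 1) ⊕ Fin (n + 1)) (Fin (n + 1) ⊕ Fin (n + 1)) F) *ᵥ v + v, ?_, ?_⟩
      · rw [Matrix.mulVec_add, Matrix.mulVec_mulVec, ← sp_coe_mul, htt, sp_coe_one,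
          Matrix.one_mulVec]
        exact add_comm _ _
      · rw [Qm_add, hiso, sf_symm, CharTwo.add_self_eq_zero, zero_add]; exact hv
    · have hr2 : (repS F (n + 1) (Sum.inr j)).rank = 2 * (j.val + 1) :=
        rank_Da (by have := j.2; omega)
      by_cases hj : 2 * (j.val + 1) = n + 1
      · exfalso
        have hrank := rank_of_conj_TS (toSpM n a b ha g) _ (repS_transpose (Sum.inr j)) hc
        rw [hr2, hj] at hrank
        have halt : ∀ x, Cfsg.sympForm (n + 1) F x ((toSpM n a b ha g :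
            Matrix (Fin (n + 1) ⊕ Fin (n + 1)) (Fin (n + 1) ⊕ Fin (n + 1)) F) *ᵥ x) = 0 :=
          alt_of_conj_TS (toSpM n a b ha g) (repS F (n + 1) (Sum.inr j)) (repS_transpose _) hc
            (Da_alt (n + 1) _)
        exact no_alt_full n _ γ hγ hanis (toSpM n a b ha g) hiso halt hrank
      · have hr : (repS F (n + 1) (Sum.inr j)).rank < n + 1 := by
          have := j.2
          omega
        obtain ⟨u, v, hu, hv, huv⟩ := Cfsg.Agent.Helper14.OCentM.exists_fixed_pair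
          (toSpM n a b ha g) (repS F (n + 1) (Sum.inr j)) (repS_transpose _) hc hr
        by_cases h1 : Qm F n (b / a ^ 2) u = 0
        · by_cases h2 : Qm F n (b / a ^ 2) v = 0
          · refine ⟨u + v, by rw [Matrix.mulVec_add, hu, hv], ?_⟩
            rw [Qm_add, h1, h2, zero_add, zero_add]; exact huv
          · exact ⟨v, hv, h2⟩
        · exact ⟨u, hu, h1⟩
  obtain ⟨w', hw', hQw'⟩ := hfix
  refine ⟨psiInv n a w', ?_, ?_⟩
  · have h4 := conjMat_mulVec n a ((g : GL ((Fin n ⊕ Fin n) ⊕ Fin 2) F) :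
      Matrix ((Fin n ⊕ Fin n) ⊕ Fin 2) ((Fin n ⊕ Fin n) ⊕ Fin 2) F) w'
    have h5 : psi n a (((g : GL ((Fin n ⊕ Fin n) ⊕ Fin 2) F) :
        Matrix ((Fin n ⊕ Fin n) ⊕ Fin 2) ((Fin n ⊕ Fin n) ⊕ Fin 2) F) *ᵥ psiInv n a w') = w' :=
      h4.symm.trans hw'
    have h6 := congrArg (psiInv n a) h5
    rwa [psiInv_psi n ha] at h6
  · rw [Qminus_eq n a b ha, psi_psiInv n ha]
    exact hQw'

end Cfsg.Agent.Helper14.OElusM
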