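import Mathlib
import Cfsg.Agent.Helper14.OElusM3

set_option autoImplicit false

namespace Cfsg.Agent.Helper14.OElusM

open Matrix Cfsg.Agent.Helper14.SpInv2 Cfsg.Agent.Helper14.OInv Cfsg.Agent.Helper6
  Cfsg.Agent.Helper14.SpCent Cfsg.Agent.Helper14.OCent Cfsg.Agent.Helper14.OElus
  Cfsg.Agent.Helper14.OMinusInv Cfsg.Agent.Helper14.OInvGen Cfsg.Agent.Helper14.OCentB
  Cfsg.Agent.Helper14.OCentM

variable {F : Type*} [Field F]

theorem main_minus [Fintype F] [CharP F 2] (n : ℕ) (hn : 3 ≤ n) (a b : F)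
    (hab : ∀ x y : F, x ^ 2 + a * x * y + b * y ^ 2 = 0 → x = 0 ∧ y = 0) (r : ℕ) (hr : r.Prime)
    (hrΩ : r ∣ Nat.card {W : Submodule F ((Fin n ⊕ Fin n) ⊕ Fin 2 → F) //
      Module.finrank F ↥W = 1 ∧ ∃ v ∈ W, Cfsg.quadFormMinus n F a b v ≠ 0}) :
    (∀ x : GL ((Fin n ⊕ Fin n) ⊕ Fin 2) F,
      x ∈ Cfsg.Geo.omegaGL (Cfsg.quadFormMinus n F a b) →
      (∃ z : F, ((x ^ r : GL ((Fin n ⊕ Fin n) ⊕ Fin 2) F) :
        Matrix ((Fin n ⊕ Fin n) ⊕ Fin 2) ((Fin n ⊕ Fin n) ⊕ Fin 2) F)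
          = z • (1 : Matrix ((Fin n ⊕ Fin n) ⊕ Fin 2) ((Fin n ⊕ Fin n) ⊕ Fin 2) F)) →
      (∀ z : F, (x : Matrix ((Fin n ⊕ Fin n) ⊕ Fin 2) ((Fin n ⊕ Fin n) ⊕ Fin 2) F)
          ≠ z • (1 : Matrix ((Fin n ⊕ Fin n) ⊕ Fin 2) ((Fin n ⊕ Fin n) ⊕ Fin 2) F)) →
      ∃ W : Submodule F ((Fin n ⊕ Fin n) ⊕ Fin 2 → F),
        (Module.finrank F ↥W = 1 ∧ ∃ v ∈ W, Cfsg.quadFormMinus n F a b v ≠ 0) ∧
          W.map (Matrix.toLin'
            (x : Matrix ((Fin n ⊕ Fin n) ⊕ Fin 2) ((Fin n ⊕ Fin n) ⊕ Fin 2) F)) ≤ W) ↔ r = 2 := by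
  classical
  have ha : a ≠ 0 := by
    rintro rfl
    obtain ⟨d, hd⟩ := exists_sqrt b
    have := hab d 1 (by
      rw [← hd]
      have := CharTwo.add_self_eq_zero (d ^ 2)
      linear_combination this)
    exact one_ne_zero this.2
  have hsmul : ∀ (c : F) u, Cfsg.quadFormMinus n F a b (c • u)
      = c ^ 2 * Cfsg.quadFormMinus n F a b u := by
    intro c u
    rw [Qminus_eq n a b ha, map_smul, Qm_smul, ← Qminus_eq n a b ha]
  have hQ0 : Cfsg.quadFormMinus n F a b 0 = 0 := by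
    have := hsmul 0 0
    rwa [zero_smul, zero_pow two_ne_zero, zero_mul] at this
  have hv₀ : Cfsg.quadFormMinus n F a b (Pi.single (Sum.inr 0) 1) = 1 := by
    simp [Cfsg.quadFormMinus]
  have hisoOf : ∀ x : GL ((Fin n ⊕ Fin n) ⊕ Fin 2) F,
      x ∈ Cfsg.Geo.omegaGL (Cfsg.quadFormMinus n F a b) →
      ∀ u, Cfsg.quadFormMinus n F a b
        ((x : Matrix ((Fin n ⊕ Fin n) ⊕ Fin 2) ((Fin n ⊕ Fin n) ⊕ Fin 2) F) *ᵥ u)
        = Cfsg.quadFormMinus n F a b u := by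
    rintro x ⟨g, -, rfl⟩
    exact (mem_isomM_iff n a b _).1 g.2
  have hscalar : ∀ (A : Matrix ((Fin n ⊕ Fin n) ⊕ Fin 2) ((Fin n ⊕ Fin n) ⊕ Fin 2) F),
      (∀ u, Cfsg.quadFormMinus n F a b (A *ᵥ u) = Cfsg.quadFormMinus n F a b u) →
      ∀ z : F, A = z • (1 : Matrix ((Fin n ⊕ Fin n) ⊕ Fin 2) ((Fin n ⊕ Fin n) ⊕ Fin 2) F) →
        A = 1 := by
    intro A hA z hz
    have h1 := hA (Pi.single (Sum.inr 0) 1)
    rw [hz, Matrix.smul_mulVec, Matrix.one_mulVec, hsmul, hv₀, mul_one] at h1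
    have hz1 : z = 1 := sq_eq_one' (by rw [← pow_two]; exact h1)
    rw [hz, hz1, one_smul]
  obtain ⟨-, hmemΩ, -⟩ := omega_facts_minus n a b ha (Cfsg.quadFormMinus n F a b) rfl
    (fun h => absurd h (by omega))
  constructor
  · intro H
    by_contra hr2
    obtain ⟨k, rfl⟩ : ∃ k, n = k + 1 := ⟨n - 1, by omega⟩
    rw [card_lines_gen _ hsmul, card_Qminus_one k a b hab] at hrΩ
    have hdvd : r ∣ Fintype.card F ^ (k + 1 + 1) + 1 := by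
      rcases (Nat.Prime.dvd_mul hr).1 hrΩ with h | h
      · exfalso
        have h6 := hr.dvd_of_dvd_pow h
        obtain ⟨j, -, hj⟩ := FiniteField.card F 2
        rw [hj] at h6
        exact hr2 ((Nat.prime_dvd_prime_iff_eq hr Nat.prime_two).1 (hr.dvd_of_dvd_pow h6))
      · exact h
    obtain ⟨g, hgr, hfix⟩ := exists_Ominus_fpf (k + 1) a b hab r hr hr2 hdvd
    have hgΩ : g ∈ Cfsg.Omega F (Cfsg.quadFormMinus (k + 1) F a b) := by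
      rw [hmemΩ]
      have hdet : IsUnit (((g : GL ((Fin (k + 1) ⊕ Fin (k + 1)) ⊕ Fin 2) F) :
          Matrix ((Fin (k + 1) ⊕ Fin (k + 1)) ⊕ Fin 2) ((Fin (k + 1) ⊕ Fin (k + 1)) ⊕ Fin 2) F)
          - 1).det := by
        apply Ne.isUnit
        intro h0
        obtain ⟨v, hv0, hv⟩ := Matrix.exists_mulVec_eq_zero_iff.2 h0
        rw [Matrix.sub_mulVec, Matrix.one_mulVec, sub_eq_zero] at hv
        exact hv0 (hfix v hv)
      rw [Matrix.rank_of_isUnit _ ((Matrix.isUnit_iff_isUnit_det _).2 hdet)]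
      simp only [Fintype.card_sum, Fintype.card_fin]
      exact ⟨k + 1 + 1, by omega⟩
    have hx : (g : GL ((Fin (k + 1) ⊕ Fin (k + 1)) ⊕ Fin 2) F)
        ∈ Cfsg.Geo.omegaGL (Cfsg.quadFormMinus (k + 1) F a b) := ⟨g, hgΩ, rfl⟩
    have hiso := hisoOf _ hx
    have hns : ∀ z : F, ((g : GL ((Fin (k + 1) ⊕ Fin (k + 1)) ⊕ Fin 2) F) :
        Matrix ((Fin (k + 1) ⊕ Fin (k + 1)) ⊕ Fin 2) ((Fin (k + 1) ⊕ Fin (k + 1)) ⊕ Fin 2) F)
        ≠ z • (1 : Matrix ((Fin (k + 1) ⊕ Fin (k + 1)) ⊕ Fin 2)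
          ((Fin (k + 1) ⊕ Fin (k + 1)) ⊕ Fin 2) F) := by
      intro z hz
      have h1 := hscalar _ hiso z hz
      have h2 := hfix (Pi.single (Sum.inr 0) 1) (by rw [h1, Matrix.one_mulVec])
      rw [h2, hQ0] at hv₀
      exact zero_ne_one hv₀
    obtain ⟨w, hw, hQw⟩ := (fixline_iff_gen _ hsmul _ hiso).1
      (H _ hx ⟨1, by rw [← Subgroup.coe_pow, hgr, one_smul]; rfl⟩ hns)
    rw [hfix w hw, hQ0] at hQw
    exact hQw rfl
  · rintro rfl x hx ⟨z, hz⟩ hns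
    have hiso := hisoOf x hx
    obtain ⟨g, hgΩ, rfl⟩ := hx
    have hiso2 : ∀ u, Cfsg.quadFormMinus n F a b
        ((((g ^ 2 : ↥(Cfsg.isometryGroup F (Cfsg.quadFormMinus n F a b))) :
          GL ((Fin n ⊕ Fin n) ⊕ Fin 2) F) :
          Matrix ((Fin n ⊕ Fin n) ⊕ Fin 2) ((Fin n ⊕ Fin n) ⊕ Fin 2) F) *ᵥ u)
        = Cfsg.quadFormMinus n F a b u :=
      fun u => (mem_isomM_iff n a b _).1 (g ^ 2).2 u
    have h1 := hscalar _ hiso2 z hz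
    have hgg : g ^ 2 = 1 := by
      apply Subtype.ext
      apply Units.ext
      exact h1
    have hg1 : g ≠ 1 := by
      intro h
      apply hns 1
      rw [h, one_smul]
      rfl
    have : Fact (Nat.Prime 2) := ⟨Nat.prime_two⟩
    have hord : orderOf g = 2 := orderOf_eq_prime hgg hg1
    obtain ⟨w, hw, hQw⟩ := inv_good_minus n a b hab g hord
    exact (fixline_iff_gen _ hsmul _ hiso).2 ⟨w, hw, hQw⟩

end Cfsg.Agent.Helper14.OElusM
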