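import Mathlib
import Cfsg.Agent.Helper14.OElusM4

set_option autoImplicit false

namespace Cfsg.Agent.Helper14.OType

open Matrix Cfsg.Agent.Helper14.SpInv2 Cfsg.Agent.Helper14.OInv Cfsg.Agent.Helper6
  Cfsg.Agent.Helper14.SpCent Cfsg.Agent.Helper14.OCent Cfsg.Agent.Helper14.OElus
  Cfsg.Agent.Helper14.OMinusInv Cfsg.Agent.Helper14.OInvGen Cfsg.Agent.Helper14.OCentB
  Cfsg.Agent.Helper14.OCentM Cfsg.Agent.Helper14.OElusM

variable {F : Type*} [Field F]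

theorem exists_c0 [Fintype F] [CharP F 2] {d : ℕ} (Q : (Fin d ⊕ Fin d → F) → F)
    (hadd : ∀ u v, Q (u + v) = Q u + Q v + Cfsg.sympForm d F u v)
    (hsmul : ∀ (c : F) u, Q (c • u) = c ^ 2 * Q u) :
    ∃ c₀ : Fin d ⊕ Fin d → F,
      ∀ x, Q x = Cfsg.quadFormPlus d F x + (Cfsg.sympForm d F x c₀) ^ 2 := by
  classical
  have h2 : (2 : F) = 0 := CharTwo.two_eq_zero
  have hsq : ∀ x, ∃ l : F, l * l = Q x + Cfsg.quadFormPlus d F x := fun x => exists_sqrt _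
  choose lam hlam using hsq
  have hla : ∀ x y, lam (x + y) = lam x + lam y := by
    intro x y
    apply sq_inj'
    rw [hlam, hadd, Q_add]
    linear_combination (-1 : F) * hlam x - hlam y
      + (Cfsg.sympForm d F x y - lam x * lam y) * h2
  have hls : ∀ (c : F) x, lam (c • x) = c * lam x := by
    intro c x
    apply sq_inj'
    rw [hlam, hsmul, Q_smul]
    linear_combination (-(c ^ 2)) * hlam x
  let L : (Fin d ⊕ Fin d → F) →ₗ[F] F :=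
    { toFun := lam
      map_add' := hla
      map_smul' := fun c x => by rw [hls]; rfl }
  have hL : ∀ x, lam x = x ⬝ᵥ (fun i => lam (Pi.single i 1)) := by
    intro x
    have h1 := LinearMap.pi_apply_eq_sum_univ L x
    have h3 : L x = lam x := rfl
    rw [← h3, h1, dotProduct]
    refine Finset.sum_congr rfl fun i _ => ?_
    rw [smul_eq_mul]
    have h4 : (fun j => if i = j then (1 : F) else 0) = Pi.single i 1 := by
      ext j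
      simp [Pi.single_apply, eq_comm]
    rw [h4]
    rfl
  refine ⟨-(Matrix.J (Fin d) F *ᵥ (fun i => lam (Pi.single i 1))), fun x => ?_⟩
  have h1 : Cfsg.sympForm d F x (-(Matrix.J (Fin d) F *ᵥ (fun i => lam (Pi.single i 1))))
      = lam x := by
    rw [hL x]
    unfold Cfsg.sympForm
    rw [Matrix.mulVec_neg, Cfsg.Agent.S0764.J_mulVec_J, neg_neg]
  rw [h1, pow_two, hlam]
  have := CharTwo.add_self_eq_zero (Cfsg.quadFormPlus d F x)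
  linear_combination -this

theorem exists_std_plus [Fintype F] [CharP F 2] {d : ℕ} (Q : (Fin d ⊕ Fin d → F) → F)
    (c₀ : Fin d ⊕ Fin d → F)
    (hc₀ : ∀ x, Q x = Cfsg.quadFormPlus d F x + (Cfsg.sympForm d F x c₀) ^ 2)
    (hν : ∃ ν : F, Cfsg.quadFormPlus d F c₀ = ν ^ 2 + ν) :
    ∃ k : Matrix.symplecticGroup (Fin d) F,
      ∀ x, Cfsg.quadFormPlus d F ((k : Matrix (Fin d ⊕ Fin d) (Fin d ⊕ Fin d) F) *ᵥ x) = Q x := by
  obtain ⟨k, -, hk⟩ := exists_tv (1 : Matrix.symplecticGroup (Fin d) F) c₀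
    (by rw [sp_coe_one, Matrix.one_mulVec]) hν
  exact ⟨k, fun x => by rw [hk, hc₀]⟩

theorem exists_std_minus [Fintype F] [CharP F 2] (n : ℕ)
    (Q : (Fin (n + 1) ⊕ Fin (n + 1) → F) → F) (c₀ : Fin (n + 1) ⊕ Fin (n + 1) → F)
    (hc₀ : ∀ x, Q x = Cfsg.quadFormPlus (n + 1) F x + (Cfsg.sympForm (n + 1) F x c₀) ^ 2)
    (hν : ¬ ∃ ν : F, Cfsg.quadFormPlus (n + 1) F c₀ = ν ^ 2 + ν)
    (γ : F) (hanis : ∀ ν : F, γ ≠ ν ^ 2 + ν) :
    ∃ k : Matrix.symplecticGroup (Fin (n + 1)) F,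
      ∀ x, Qm F n (γ ^ 2)
        ((k : Matrix (Fin (n + 1) ⊕ Fin (n + 1)) (Fin (n + 1) ⊕ Fin (n + 1)) F) *ᵥ x) = Q x := by
  have h2 : (2 : F) = 0 := CharTwo.two_eq_zero
  have hwp : ∃ ν : F, Qm F n (γ ^ 2) (a0 n γ + c₀) = ν ^ 2 + ν := by
    have h1 : ∃ ν : F, γ + Cfsg.quadFormPlus (n + 1) F c₀ = ν ^ 2 + ν :=
      as_add γ _ (fun ⟨ν, h⟩ => hanis ν h) hν
    have h3 : Qm F n (γ ^ 2) (a0 n γ + c₀) = (γ + Cfsg.quadFormPlus (n + 1) F c₀)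
        + ((Cfsg.sympForm (n + 1) F c₀ (a0 n γ)) ^ 2 + Cfsg.sympForm (n + 1) F c₀ (a0 n γ)) := by
      rw [Qm_eq n (γ ^ 2) γ rfl, Q_add, Q_a0, sf_add_left, sf_self, zero_add,
        sf_symm (a0 n γ) c₀]
      ring
    rw [h3]
    exact as_mem_add _ _ h1 ⟨_, rfl⟩
  obtain ⟨k, hk⟩ := exists_tv_gen (Qm F n (γ ^ 2)) (Qm_add n _)
    (fun c u => Qm_smul n _ c u) _ hwp
  refine ⟨k, fun x => ?_⟩
  rw [hk, Qm_eq n (γ ^ 2) γ rfl, hc₀, sf_add_right, CharTwo.add_sq]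
  linear_combination (Cfsg.sympForm (n + 1) F x (a0 n γ)) ^ 2 * h2

theorem iso_transfer {m : ℕ} (Q Q₀ : (Fin m ⊕ Fin m → F) → F)
    (k : Matrix.symplecticGroup (Fin m) F)
    (hk : ∀ x, Q₀ ((k : Matrix (Fin m ⊕ Fin m) (Fin m ⊕ Fin m) F) *ᵥ x) = Q x)
    (t : Matrix.symplecticGroup (Fin m) F) :
    (∀ x, Q ((t : Matrix (Fin m ⊕ Fin m) (Fin m ⊕ Fin m) F) *ᵥ x) = Q x) ↔
    (∀ x, Q₀ (((k * t * k⁻¹ : Matrix.symplecticGroup (Fin m) F) :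
      Matrix (Fin m ⊕ Fin m) (Fin m ⊕ Fin m) F) *ᵥ x) = Q₀ x) := by
  constructor
  · intro h x
    rw [sp_coe_mul, sp_coe_mul, ← Matrix.mulVec_mulVec, ← Matrix.mulVec_mulVec, hk, h, ← hk,
      sp_mulVec_inv]
  · intro h x
    have h1 := h ((k : Matrix (Fin m ⊕ Fin m) (Fin m ⊕ Fin m) F) *ᵥ x)
    rw [sp_coe_mul, sp_coe_mul, ← Matrix.mulVec_mulVec, ← Matrix.mulVec_mulVec,
      Cfsg.Agent.Helper14.OElusM.sp_inv_mulVec, hk, hk] at h1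
    exact h1

theorem fpf_inv_zero [CharP F 2] {m : ℕ} (s : Matrix.symplecticGroup (Fin m) F)
    (hfix : ∀ v : Fin m ⊕ Fin m → F,
      (s : Matrix (Fin m ⊕ Fin m) (Fin m ⊕ Fin m) F) *ᵥ v = v → v = 0)
    (e : Fin m ⊕ Fin m → F)
    (h : ∀ x, Cfsg.sympForm m F ((s : Matrix (Fin m ⊕ Fin m) (Fin m ⊕ Fin m) F) *ᵥ x) e
      = Cfsg.sympForm m F x e) : e = 0 := by
  apply hfix
  by_contra hne
  have hne' : (s : Matrix (Fin m ⊕ Fin m) (Fin m ⊕ Fin m) F) *ᵥ e - e ≠ 0 := sub_ne_zero.mpr hne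
  obtain ⟨z, hz⟩ := Cfsg.Agent.S0768.nondeg _ hne'
  apply hz
  obtain ⟨y, rfl⟩ : ∃ y, (s : Matrix (Fin m ⊕ Fin m) (Fin m ⊕ Fin m) F) *ᵥ y = z :=
    ⟨_, sp_mulVec_inv s z⟩
  rw [sf_sub_left, sp_preserves, sf_symm e ((s : Matrix (Fin m ⊕ Fin m) (Fin m ⊕ Fin m) F) *ᵥ y),
    h, sf_symm e y, sub_self]

theorem sim_iso {d : ℕ} (hd : 1 ≤ d) (Q : (Fin d ⊕ Fin d → F) → F)
    (hadd : ∀ u v, Q (u + v) = Q u + Q v + Cfsg.sympForm d F u v)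
    (A : Matrix (Fin d ⊕ Fin d) (Fin d ⊕ Fin d) F)
    (hA : ∀ u v, Cfsg.sympForm d F (A *ᵥ u) (A *ᵥ v) = Cfsg.sympForm d F u v) (c : F)
    (hc : ∀ v, Q (A *ᵥ v) = c * Q v) : ∀ v, Q (A *ᵥ v) = Q v := by
  classical
  have h1 := hadd (A *ᵥ (Pi.single (Sum.inr ⟨0, hd⟩) 1)) (A *ᵥ (Pi.single (Sum.inl ⟨0, hd⟩) 1))
  rw [← Matrix.mulVec_add, hc, hc, hc, hadd, hA, sf_single_inl] at h1
  simp only [Pi.single_eq_same] at h1
  have hc1 : c = 1 := by linear_combination h1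
  intro v
  rw [hc, hc1, one_mul]

end Cfsg.Agent.Helper14.OType
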