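import Mathlib
import Cfsg.Agent.Helper14.OType

set_option autoImplicit false

namespace Cfsg.Agent.Helper14.OType

open Matrix Cfsg.Agent.Helper14.SpInv2 Cfsg.Agent.Helper14.OInv Cfsg.Agent.Helper6
  Cfsg.Agent.Helper14.SpCent Cfsg.Agent.Helper14.OCent Cfsg.Agent.Helper14.OElus
  Cfsg.Agent.Helper14.OMinusInv Cfsg.Agent.Helper14.OInvGen Cfsg.Agent.Helper14.OCentB
  Cfsg.Agent.Helper14.OCentM

variable {F : Type*} [Field F]

local notation "MM" m => Matrix (Fin m ⊕ Fin m) (Fin m ⊕ Fin m) F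

theorem no_ts_frame [Finite F] [CharP F 2] {m : ℕ} (Q : (Fin m ⊕ Fin m → F) → F)
    (c₀ : Fin m ⊕ Fin m → F)
    (hc₀ : ∀ x, Q x = Cfsg.quadFormPlus m F x + (Cfsg.sympForm m F x c₀) ^ 2)
    (hα : ¬ ∃ ν : F, Cfsg.quadFormPlus m F c₀ = ν ^ 2 + ν)
    (w : Fin m → (Fin m ⊕ Fin m → F)) (hwLI : LinearIndependent F w)
    (hwQ : ∀ i, Q (w i) = 0) (hw0 : ∀ i j, Cfsg.sympForm m F (w i) (w j) = 0) : False := by
  classical
  have h2 : (2 : F) = 0 := CharTwo.two_eq_zero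
  set e : Fin m → (Fin m ⊕ Fin m → F) := fun i => Pi.single (Sum.inl i) 1 with he
  have heLI : LinearIndependent F e := by
    have := (Pi.basisFun F (Fin m ⊕ Fin m)).linearIndependent.comp
      (Sum.inl : Fin m → Fin m ⊕ Fin m) Sum.inl_injective
    convert this using 1
    ext i k
    simp [he]
  have he0 : ∀ i j, Cfsg.sympForm m F (e i) (e j) = 0 := by
    intro i j
    simp only [he]
    rw [sf_single_inl]; simp
  obtain ⟨C, hC⟩ := sp_frames_trans m w e hwLI heLI hw0 he0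
  obtain ⟨ah, hah, ν, hν⟩ := sp_defect (F := F) (C⁻¹)
  have hkey : ∀ i, Cfsg.sympForm m F (e i) (ah + (C : MM m) *ᵥ c₀) = 0 := by
    intro i
    have h1 : Q (((C⁻¹ : Matrix.symplecticGroup (Fin m) F) : MM m) *ᵥ e i) = 0 := by
      rw [← hC i, Cfsg.Agent.Helper6.sp_inv_mulVec]
      exact hwQ i
    rw [hc₀, hah] at h1
    have h2 : Cfsg.sympForm m F (((C⁻¹ : Matrix.symplecticGroup (Fin m) F) : MM m) *ᵥ e i) c₀
        = Cfsg.sympForm m F (e i) ((C : MM m) *ᵥ c₀) := by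
      rw [← sp_preserves C, sp_mulVec_inv]
    have h3 : Cfsg.quadFormPlus m F (e i) = 0 := by simp [Cfsg.quadFormPlus, he]
    rw [h2, h3, zero_add, ← CharTwo.add_sq, ← sf_add_right] at h1
    exact pow_eq_zero_iff (two_ne_zero) |>.mp h1
  have ha1r : ∀ i, (ah + (C : MM m) *ᵥ c₀) (Sum.inr i) = 0 := by
    intro i
    have := hkey i
    rw [sf_symm, sf_single_inl] at this
    exact this
  have hQa1 : Cfsg.quadFormPlus m F (ah + (C : MM m) *ᵥ c₀) = 0 := by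
    rw [Cfsg.quadFormPlus]
    exact Finset.sum_eq_zero fun i _ => by rw [ha1r, mul_zero]
  have h4 := hah ((C : MM m) *ᵥ c₀)
  rw [Cfsg.Agent.Helper6.sp_inv_mulVec, sf_symm] at h4
  rw [Q_add, hν] at hQa1
  apply hα
  refine ⟨ν + Cfsg.sympForm m F ah ((C : MM m) *ᵥ c₀), ?_⟩
  rw [CharTwo.add_sq]
  linear_combination h4 + hQa1 - (ν ^ 2 + ν + Cfsg.sympForm m F ah ((C : MM m) *ᵥ c₀)) * h2

theorem plus_of_std {d : ℕ} (Q : (Fin d ⊕ Fin d → F) → F)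
    (k : Matrix.symplecticGroup (Fin d) F)
    (hk : ∀ x, Cfsg.quadFormPlus d F ((k : MM d) *ᵥ x) = Q x) :
    Cfsg.Geo.IsPlusTypeOn Q ⊤ := by
  classical
  let φ : (Fin d ⊕ Fin d → F) →ₗ[F] (Fin d → F) :=
    (LinearMap.funLeft F F Sum.inr).comp (Matrix.mulVecLin (k : MM d))
  have hφ : ∀ x i, φ x i = ((k : MM d) *ᵥ x) (Sum.inr i) := fun x i => rfl
  have hsurj : Function.Surjective φ := by
    intro y
    refine ⟨((k⁻¹ : Matrix.symplecticGroup (Fin d) F) : MM d) *ᵥ (Sum.elim 0 y), ?_⟩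
    ext i
    rw [hφ, sp_mulVec_inv]
    rfl
  refine ⟨LinearMap.ker φ, le_top, ?_, ?_⟩
  · intro w hw
    rw [← hk, Cfsg.quadFormPlus]
    refine Finset.sum_eq_zero fun i _ => ?_
    have : φ w i = 0 := by rw [LinearMap.mem_ker.mp hw]; rfl
    rw [← hφ, this, mul_zero]
  · have h1 := LinearMap.finrank_range_add_finrank_ker φ
    rw [LinearMap.range_eq_top.mpr hsurj, finrank_top] at h1
    rw [finrank_top]
    simp only [Module.finrank_fintype_fun_eq_card, Fintype.card_sum, Fintype.card_fin] at h1 ⊢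
    omega

theorem not_plus_of_minus [Finite F] [CharP F 2] {d : ℕ} (Q : (Fin d ⊕ Fin d → F) → F)
    (hadd : ∀ u v, Q (u + v) = Q u + Q v + Cfsg.sympForm d F u v)
    (c₀ : Fin d ⊕ Fin d → F)
    (hc₀ : ∀ x, Q x = Cfsg.quadFormPlus d F x + (Cfsg.sympForm d F x c₀) ^ 2)
    (hα : ¬ ∃ ν : F, Cfsg.quadFormPlus d F c₀ = ν ^ 2 + ν)
    (hP : Cfsg.Geo.IsPlusTypeOn Q ⊤) : False := by
  classical
  obtain ⟨U, -, hU, hfr⟩ := hP
  have hfr' : Module.finrank F U = d := by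
    rw [finrank_top] at hfr
    simp only [Module.finrank_fintype_fun_eq_card, Fintype.card_sum, Fintype.card_fin] at hfr
    omega
  let bU : Module.Basis (Fin d) F U := (Module.finBasis F U).reindex (finCongr hfr')
  refine no_ts_frame Q c₀ hc₀ hα (fun i => (bU i : Fin d ⊕ Fin d → F))
    (bU.linearIndependent.map' (Submodule.subtype _) (Submodule.ker_subtype _))
    (fun i => hU _ (bU i).2) (fun i j => ?_)
  have h1 := hadd (bU i) (bU j)
  rw [hU _ (bU i).2, hU _ (bU j).2, hU _ (U.add_mem (bU i).2 (bU j).2)] at h1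
  simpa using h1.symm

theorem coe_mulVec {d : ℕ} (a b : ↥(Cfsg.spGL d F)) (v : Fin d ⊕ Fin d → F) :
    (((a * b : ↥(Cfsg.spGL d F)) : GL (Fin d ⊕ Fin d) F) : MM d) *ᵥ v
      = ((a : GL (Fin d ⊕ Fin d) F) : MM d) *ᵥ (((b : GL (Fin d ⊕ Fin d) F) : MM d) *ᵥ v) := by
  rw [Matrix.mulVec_mulVec]; rfl

theorem coe_one_mulVec {d : ℕ} (v : Fin d ⊕ Fin d → F) :
    (((1 : ↥(Cfsg.spGL d F)) : GL (Fin d ⊕ Fin d) F) : MM d) *ᵥ v = v := by
  simp

theorem mem_spGL {d : ℕ} (g : GL (Fin d ⊕ Fin d) F) :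
    g ∈ Cfsg.spGL d F ↔ ∀ u v, Cfsg.sympForm d F ((g : MM d) *ᵥ u) ((g : MM d) *ᵥ v)
      = Cfsg.sympForm d F u v := Iff.rfl

theorem relIndex_eq [Fintype F] [CharP F 2] {d : ℕ} (hd : 1 ≤ d) (Q : (Fin d ⊕ Fin d → F) → F)
    (hadd : ∀ u v, Q (u + v) = Q u + Q v + Cfsg.sympForm d F u v)
    (hsmul : ∀ (c : F) u, Q (c • u) = c ^ 2 * Q u) :
    (Cfsg.Geo.quadSimilarityGroup Q).relIndex (Cfsg.spGL d F)
      = Nat.card {a : Fin d ⊕ Fin d → F // ∃ ν : F, Q a = ν ^ 2 + ν} := by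
  classical
  have hdef : ∀ g : ↥(Cfsg.spGL d F), ∃ a : Fin d ⊕ Fin d → F,
      (∀ x, Q ((((g⁻¹ : ↥(Cfsg.spGL d F)) : GL (Fin d ⊕ Fin d) F) : MM d) *ᵥ x)
        = Q x + Cfsg.sympForm d F x a ^ 2) ∧ ∃ ν : F, Q a = ν ^ 2 + ν := by
    intro g
    exact sp_defect_gen Q hadd hsmul
      ⟨_, Cfsg.Agent.Helper14.OElusM.mem_sp_of_form _ ((mem_spGL _).mp (g⁻¹).2)⟩
  choose δ hδ hδν using hdef
  have hinvmul : ∀ (g : ↥(Cfsg.spGL d F)) (v : Fin d ⊕ Fin d → F),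
      (((g⁻¹ : ↥(Cfsg.spGL d F)) : GL (Fin d ⊕ Fin d) F) : MM d) *ᵥ
        (((g : GL (Fin d ⊕ Fin d) F) : MM d) *ᵥ v) = v := by
    intro g v
    rw [← coe_mulVec, inv_mul_cancel, coe_one_mulVec]
  have hmulinv : ∀ (g : ↥(Cfsg.spGL d F)) (v : Fin d ⊕ Fin d → F),
      ((g : GL (Fin d ⊕ Fin d) F) : MM d) *ᵥ
        ((((g⁻¹ : ↥(Cfsg.spGL d F)) : GL (Fin d ⊕ Fin d) F) : MM d) *ᵥ v) = v := by
    intro g v
    rw [← coe_mulVec, mul_inv_cancel, coe_one_mulVec]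
  have hrel : ∀ g g' : ↥(Cfsg.spGL d F), δ g = δ g' ↔
      g⁻¹ * g' ∈ (Cfsg.Geo.quadSimilarityGroup Q).subgroupOf (Cfsg.spGL d F) := by
    intro g g'
    rw [Subgroup.mem_subgroupOf]
    constructor
    · intro h
      refine ⟨1, fun v => ?_⟩
      have h1 := hδ g (((g' : GL (Fin d ⊕ Fin d) F) : MM d) *ᵥ v)
      have h2 := hδ g' (((g' : GL (Fin d ⊕ Fin d) F) : MM d) *ᵥ v)
      rw [hinvmul] at h2
      rw [coe_mulVec, h1, h, ← h2]
      simp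
    · rintro ⟨c, hc⟩
      have hiso := sim_iso hd Q hadd _ ((mem_spGL _).mp (g⁻¹ * g').2) c hc
      apply defect_unique
      intro x
      have h1 := hδ g x
      have h2 := hδ g' x
      have h3 := hiso ((((g'⁻¹ : ↥(Cfsg.spGL d F)) : GL (Fin d ⊕ Fin d) F) : MM d) *ᵥ x)
      rw [coe_mulVec, hmulinv] at h3
      rw [h3] at h1
      have := h1.symm.trans h2
      exact add_left_cancel this
  let φ : ↥(Cfsg.spGL d F) ⧸ (Cfsg.Geo.quadSimilarityGroup Q).subgroupOf (Cfsg.spGL d F) →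
      {a : Fin d ⊕ Fin d → F // ∃ ν : F, Q a = ν ^ 2 + ν} :=
    Quotient.lift (fun g => ⟨δ g, hδν g⟩)
      (fun g g' h => Subtype.ext ((hrel g g').mpr (QuotientGroup.leftRel_apply.mp h)))
  have hinj : Function.Injective φ := by
    intro a b
    induction a using QuotientGroup.induction_on
    induction b using QuotientGroup.induction_on
    intro h
    exact QuotientGroup.eq.mpr ((hrel _ _).mp (congrArg Subtype.val h))
  have hsurj : Function.Surjective φ := by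
    rintro ⟨a, ha⟩
    obtain ⟨k, hk⟩ := Cfsg.Agent.Helper14.OElusM.exists_tv_gen Q hadd hsmul a ha
    have hkinv : ((k⁻¹ : Matrix.symplecticGroup (Fin d) F) : MM d) * (k : MM d) = 1 := by
      rw [← sp_coe_mul, inv_mul_cancel, sp_coe_one]
    have hkinv' : (k : MM d) * ((k⁻¹ : Matrix.symplecticGroup (Fin d) F) : MM d) = 1 := by
      rw [← sp_coe_mul, mul_inv_cancel, sp_coe_one]
    let G : GL (Fin d ⊕ Fin d) F := ⟨(k : MM d), ((k⁻¹ : Matrix.symplecticGroup (Fin d) F) : MM d),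
      hkinv', hkinv⟩
    have hG : G ∈ Cfsg.spGL d F := (mem_spGL _).mpr (fun u v => sp_preserves k u v)
    refine ⟨QuotientGroup.mk (⟨G, hG⟩⁻¹ : ↥(Cfsg.spGL d F)), ?_⟩
    apply Subtype.ext
    show δ (⟨G, hG⟩⁻¹ : ↥(Cfsg.spGL d F)) = a
    apply defect_unique
    intro x
    have h1 := hδ (⟨G, hG⟩⁻¹ : ↥(Cfsg.spGL d F)) x
    rw [inv_inv] at h1
    have h2 := hk x
    have h3 : (((⟨G, hG⟩ : ↥(Cfsg.spGL d F)) : GL (Fin d ⊕ Fin d) F) : MM d) = (k : MM d) := rfl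
    rw [h3, h2] at h1
    exact (add_left_cancel h1).symm
  rw [Subgroup.relIndex, Subgroup.index]
  exact Nat.card_congr (Equiv.ofBijective φ ⟨hinj, hsurj⟩)

end Cfsg.Agent.Helper14.OType
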