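import Mathlib
import Cfsg.Agent.Helper14.OType2

set_option autoImplicit false

namespace Cfsg.Agent.Helper14.OType

open Matrix Cfsg.Agent.Helper14.SpInv2 Cfsg.Agent.Helper14.OInv Cfsg.Agent.Helper6
  Cfsg.Agent.Helper14.SpCent Cfsg.Agent.Helper14.OCent Cfsg.Agent.Helper14.OElus
  Cfsg.Agent.Helper14.OMinusInv Cfsg.Agent.Helper14.OInvGen Cfsg.Agent.Helper14.OCentB
  Cfsg.Agent.Helper14.OCentM

variable {F : Type*} [Field F]

local notation "MM" m => Matrix (Fin m ⊕ Fin m) (Fin m ⊕ Fin m) F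

theorem card_plus_wp [Fintype F] [CharP F 2] (d : ℕ) (hd : 1 ≤ d) :
    2 * Nat.card {c : Fin d ⊕ Fin d → F // ∃ ν : F, Cfsg.quadFormPlus d F c = ν ^ 2 + ν}
      = Fintype.card F ^ d * (Fintype.card F ^ d + 1) := by
  classical
  have hN₁ := card_Q_one (F := F) d
  have htot := Cfsg.Agent.Helper14.OElusM.card_total (F := F) (Cfsg.quadFormPlus d F)
    (fun s x => Q_smul s x)
  have hfib := Cfsg.Agent.Helper14.OElusM.card_fiber_scale (F := F) (Cfsg.quadFormPlus d F)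
    (fun s x => Q_smul s x)
  let W : Finset F := Finset.univ.image (fun ν : F => ν ^ 2 + ν)
  have hmemW : ∀ x : F, x ∈ W ↔ ∃ ν : F, x = ν ^ 2 + ν := by
    intro x
    simp only [W, Finset.mem_image, Finset.mem_univ, true_and]
    exact ⟨fun ⟨ν, h⟩ => ⟨ν, h.symm⟩, fun ⟨ν, h⟩ => ⟨ν, h.symm⟩⟩
  have hW : W.card * 2 = Fintype.card F := by
    have h3 := AddSubgroup.card_mul_index (wp F).range
    rw [wp_range_index, Nat.card_eq_fintype_card (α := F)] at h3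
    rw [← h3]
    congr 1
    rw [← Nat.card_eq_finsetCard W]
    apply Nat.card_congr
    refine Equiv.subtypeEquivRight fun x => ?_
    rw [hmemW, AddMonoidHom.mem_range]
    exact ⟨fun ⟨ν, h⟩ => ⟨ν, h.symm⟩, fun ⟨ν, h⟩ => ⟨ν, h.symm⟩⟩
  have hcount : ∀ b : F, Nat.card {x : Fin d ⊕ Fin d → F // Cfsg.quadFormPlus d F x = b}
      = (Finset.univ.filter (fun x : Fin d ⊕ Fin d → F => Cfsg.quadFormPlus d F x = b)).card := by
    intro b
    rw [Nat.card_eq_fintype_card, Fintype.card_subtype]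
  have hsum : Nat.card {c : Fin d ⊕ Fin d → F // ∃ ν : F, Cfsg.quadFormPlus d F c = ν ^ 2 + ν}
      = ∑ b ∈ W, Nat.card {x : Fin d ⊕ Fin d → F // Cfsg.quadFormPlus d F x = b} := by
    rw [Nat.card_eq_fintype_card, Fintype.card_subtype,
      Finset.card_eq_sum_card_fiberwise (f := Cfsg.quadFormPlus d F) (t := W)
        (fun x hx => Finset.mem_coe.mpr
          ((hmemW _).mpr (Finset.mem_filter.mp (Finset.mem_coe.mp hx)).2))]
    refine Finset.sum_congr rfl fun b hb => ?_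
    rw [hcount b]
    congr 1
    ext x
    simp only [Finset.mem_filter, Finset.mem_univ, true_and]
    constructor
    · exact fun h => h.2
    · intro h
      exact ⟨by rw [h]; exact (hmemW b).mp hb, h⟩
  have h0W : (0 : F) ∈ W := (hmemW 0).mpr ⟨0, by ring⟩
  rw [hsum, ← Finset.add_sum_erase W _ h0W]
  have herase : ∑ b ∈ W.erase 0, Nat.card {x : Fin d ⊕ Fin d → F // Cfsg.quadFormPlus d F x = b}
      = (W.card - 1) * Nat.card {x : Fin d ⊕ Fin d → F // Cfsg.quadFormPlus d F x = 1} := by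
    rw [Finset.sum_congr rfl (fun b hb => hfib b (Finset.ne_of_mem_erase hb)),
      Finset.sum_const, Finset.card_erase_of_mem h0W, smul_eq_mul]
  rw [herase]
  have hVcard : Fintype.card (Fin d ⊕ Fin d → F) = Fintype.card F ^ d * Fintype.card F ^ d := by
    rw [Fintype.card_fun, Fintype.card_sum, Fintype.card_fin, pow_add]
  rw [hVcard] at htot
  have hWpos : 1 ≤ W.card := Finset.card_pos.mpr ⟨0, h0W⟩
  obtain ⟨w', hw'⟩ : ∃ w', W.card = w' + 1 := ⟨W.card - 1, by omega⟩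
  have hq : Fintype.card F = 2 * w' + 2 := by omega
  have hApos : 1 ≤ Fintype.card F ^ d := Nat.one_le_pow _ _ Fintype.card_pos
  obtain ⟨B, hB⟩ : ∃ B, Fintype.card F ^ d = B + 1 := ⟨Fintype.card F ^ d - 1, by omega⟩
  have hqd : Fintype.card F * Fintype.card F ^ (d - 1) = Fintype.card F ^ d := by
    rw [← pow_succ']
    congr 1
    omega
  set N₁ := Nat.card {x : Fin d ⊕ Fin d → F // Cfsg.quadFormPlus d F x = 1} with hN₁def
  set N₀ := Nat.card {x : Fin d ⊕ Fin d → F // Cfsg.quadFormPlus d F x = 0} with hN₀def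
  have hqN : Fintype.card F * N₁ = B * (B + 1) := by
    rw [hN₁, hB, Nat.add_sub_cancel, ← hB, mul_comm (Fintype.card F), mul_assoc,
      mul_comm (Fintype.card F ^ (d - 1)), hqd]
  rw [hw', hB, Nat.add_sub_cancel]
  rw [hB, hq] at htot
  rw [hq] at hqN
  have e1 : 2 * w' + 2 - 1 = 2 * w' + 1 := by omega
  rw [e1] at htot
  nlinarith [htot, hqN]

theorem card_compl_wp [Fintype F] [CharP F 2] (d : ℕ) (hd : 1 ≤ d) :
    2 * Nat.card {c : Fin d ⊕ Fin d → F // ¬ ∃ ν : F, Cfsg.quadFormPlus d F c = ν ^ 2 + ν}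
      = Fintype.card F ^ d * (Fintype.card F ^ d - 1) := by
  classical
  have h1 := card_plus_wp (F := F) d hd
  have hVcard : Fintype.card (Fin d ⊕ Fin d → F) = Fintype.card F ^ d * Fintype.card F ^ d := by
    rw [Fintype.card_fun, Fintype.card_sum, Fintype.card_fin, pow_add]
  have h2 := Fintype.card_subtype_compl
    (fun c : Fin d ⊕ Fin d → F => ∃ ν : F, Cfsg.quadFormPlus d F c = ν ^ 2 + ν)
  have h3 := Fintype.card_subtype_le
    (fun c : Fin d ⊕ Fin d → F => ∃ ν : F, Cfsg.quadFormPlus d F c = ν ^ 2 + ν)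
  rw [Nat.card_eq_fintype_card] at h1 ⊢
  rw [h2, hVcard]
  rw [hVcard] at h3
  have hApos : 1 ≤ Fintype.card F ^ d := Nat.one_le_pow _ _ Fintype.card_pos
  obtain ⟨B, hB⟩ : ∃ B, Fintype.card F ^ d = B + 1 := ⟨Fintype.card F ^ d - 1, by omega⟩
  rw [hB] at h1 h3 ⊢
  rw [Nat.add_sub_cancel]
  set N := Fintype.card {c : Fin d ⊕ Fin d → F // ∃ ν : F, Cfsg.quadFormPlus d F c = ν ^ 2 + ν}
  have h4 : 2 * ((B + 1) * (B + 1) - N) = 2 * ((B + 1) * (B + 1)) - 2 * N := by omega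
  rw [h4, h1]
  have h5 : 2 * ((B + 1) * (B + 1)) = (B + 1) * (B + 1 + 1) + (B + 1) * B := by ring
  rw [h5, Nat.add_sub_cancel_left]

theorem card_Q_wp_plus [Fintype F] [CharP F 2] {d : ℕ} (hd : 1 ≤ d)
    (Q : (Fin d ⊕ Fin d → F) → F) (c₀ : Fin d ⊕ Fin d → F)
    (hc₀ : ∀ x, Q x = Cfsg.quadFormPlus d F x + (Cfsg.sympForm d F x c₀) ^ 2)
    (hα : ∃ ν : F, Cfsg.quadFormPlus d F c₀ = ν ^ 2 + ν) :
    2 * Nat.card {a : Fin d ⊕ Fin d → F // ∃ ν : F, Q a = ν ^ 2 + ν}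
      = Fintype.card F ^ d * (Fintype.card F ^ d + 1) := by
  have h2 : (2 : F) = 0 := CharTwo.two_eq_zero
  rw [← card_plus_wp d hd]
  congr 1
  apply Nat.card_congr
  refine Equiv.subtypeEquiv (Equiv.addRight c₀) fun a => ?_
  have hrel : Cfsg.quadFormPlus d F (a + c₀) = Q a
      + ((Cfsg.sympForm d F a c₀) ^ 2 + Cfsg.sympForm d F a c₀) + Cfsg.quadFormPlus d F c₀ := by
    rw [Q_add, hc₀]
    linear_combination (-(Cfsg.sympForm d F a c₀) ^ 2) * h2
  constructor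
  · intro h
    show ∃ ν : F, Cfsg.quadFormPlus d F (a + c₀) = ν ^ 2 + ν
    rw [hrel]
    exact as_mem_add _ _ (as_mem_add _ _ h ⟨_, rfl⟩) hα
  · intro h
    have h' : ∃ ν : F, Cfsg.quadFormPlus d F (a + c₀) = ν ^ 2 + ν := h
    have e : Q a = Cfsg.quadFormPlus d F (a + c₀)
        + ((Cfsg.sympForm d F a c₀) ^ 2 + Cfsg.sympForm d F a c₀) + Cfsg.quadFormPlus d F c₀ := by
      rw [hrel]
      linear_combination (-((Cfsg.sympForm d F a c₀) ^ 2 + Cfsg.sympForm d F a c₀)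
        - Cfsg.quadFormPlus d F c₀) * h2
    rw [e]
    exact as_mem_add _ _ (as_mem_add _ _ h' ⟨_, rfl⟩) hα

theorem card_Q_wp_minus [Fintype F] [CharP F 2] {d : ℕ} (hd : 1 ≤ d)
    (Q : (Fin d ⊕ Fin d → F) → F) (c₀ : Fin d ⊕ Fin d → F)
    (hc₀ : ∀ x, Q x = Cfsg.quadFormPlus d F x + (Cfsg.sympForm d F x c₀) ^ 2)
    (hα : ¬ ∃ ν : F, Cfsg.quadFormPlus d F c₀ = ν ^ 2 + ν) :
    2 * Nat.card {a : Fin d ⊕ Fin d → F // ∃ ν : F, Q a = ν ^ 2 + ν}
      = Fintype.card F ^ d * (Fintype.card F ^ d - 1) := by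
  have h2 : (2 : F) = 0 := CharTwo.two_eq_zero
  rw [← card_compl_wp d hd]
  congr 1
  apply Nat.card_congr
  refine Equiv.subtypeEquiv (Equiv.addRight c₀) fun a => ?_
  have hrel : Cfsg.quadFormPlus d F (a + c₀) = Q a
      + ((Cfsg.sympForm d F a c₀) ^ 2 + Cfsg.sympForm d F a c₀) + Cfsg.quadFormPlus d F c₀ := by
    rw [Q_add, hc₀]
    linear_combination (-(Cfsg.sympForm d F a c₀) ^ 2) * h2
  constructor
  · intro h h'
    have h'' : ∃ ν : F, Cfsg.quadFormPlus d F (a + c₀) = ν ^ 2 + ν := h'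
    apply hα
    have e : Cfsg.quadFormPlus d F c₀ = Cfsg.quadFormPlus d F (a + c₀)
        + (Q a + ((Cfsg.sympForm d F a c₀) ^ 2 + Cfsg.sympForm d F a c₀)) := by
      rw [hrel]
      linear_combination (-(Q a + ((Cfsg.sympForm d F a c₀) ^ 2 + Cfsg.sympForm d F a c₀))) * h2
    rw [e]
    exact as_mem_add _ _ h'' (as_mem_add _ _ h ⟨_, rfl⟩)
  · intro h
    have h' : ¬ ∃ ν : F, Cfsg.quadFormPlus d F (a + c₀) = ν ^ 2 + ν := h
    have e : Q a = (Cfsg.quadFormPlus d F (a + c₀) + Cfsg.quadFormPlus d F c₀)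
        + ((Cfsg.sympForm d F a c₀) ^ 2 + Cfsg.sympForm d F a c₀) := by
      rw [hrel]
      linear_combination (-((Cfsg.sympForm d F a c₀) ^ 2 + Cfsg.sympForm d F a c₀)
        - Cfsg.quadFormPlus d F c₀) * h2
    rw [e]
    exact as_mem_add _ _ (as_add _ _ h' hα) ⟨_, rfl⟩

end Cfsg.Agent.Helper14.OType
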