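import Mathlib
import Cfsg.Agent.Helper14.OType3

set_option autoImplicit false

namespace Cfsg.Agent.Helper14.OType

open Matrix Cfsg.Agent.Helper14.SpInv2 Cfsg.Agent.Helper14.OInv Cfsg.Agent.Helper6
  Cfsg.Agent.Helper14.SpCent Cfsg.Agent.Helper14.OCent Cfsg.Agent.Helper14.OElus
  Cfsg.Agent.Helper14.OMinusInv Cfsg.Agent.Helper14.OInvGen Cfsg.Agent.Helper14.OCentB
  Cfsg.Agent.Helper14.OCentM Cfsg.Agent.Helper16

variable {F : Type*} [Field F]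

local notation "MM" m => Matrix (Fin m ⊕ Fin m) (Fin m ⊕ Fin m) F

theorem not_dvd_q [Fintype F] [CharP F 2] (r : ℕ) (hr : r.Prime) (hr2 : r ≠ 2) (k : ℕ) :
    ¬ r ∣ Fintype.card F ^ k := by
  intro h
  have h1 := hr.dvd_of_dvd_pow h
  obtain ⟨n, -, hn⟩ := FiniteField.card F 2
  rw [hn] at h1
  have h2 := hr.dvd_of_dvd_pow h1
  exact hr2 ((Nat.prime_dvd_prime_iff_eq hr Nat.prime_two).mp h2)

theorem odd_bad [Fintype F] [CharP F 2] {d : ℕ} (hd : 1 ≤ d) (Q : (Fin d ⊕ Fin d → F) → F)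
    (hadd : ∀ u v, Q (u + v) = Q u + Q v + Cfsg.sympForm d F u v)
    (hsmul : ∀ (c : F) u, Q (c • u) = c ^ 2 * Q u)
    (c₀ : Fin d ⊕ Fin d → F)
    (hc₀ : ∀ x, Q x = Cfsg.quadFormPlus d F x + (Cfsg.sympForm d F x c₀) ^ 2)
    (r : ℕ) (hr : r.Prime) (hr2 : r ≠ 2)
    (hdvd : r ∣ Nat.card {a : Fin d ⊕ Fin d → F // ∃ ν : F, Q a = ν ^ 2 + ν}) :
    ∃ x : Matrix.symplecticGroup (Fin d) F, x ^ r = 1 ∧ x ≠ 1 ∧
      ∀ g : Matrix.symplecticGroup (Fin d) F,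
        ¬ ∀ v, Q (((g⁻¹ * x * g : Matrix.symplecticGroup (Fin d) F) : MM d) *ᵥ v) = Q v := by
  classical
  have : NeZero d := ⟨by omega⟩
  have hne1 : ∀ t : Matrix.symplecticGroup (Fin d) F,
      (∀ v : Fin d ⊕ Fin d → F, (t : MM d) *ᵥ v = v → v = 0) → t ≠ 1 := by
    intro t hfix h1
    have := hfix (Pi.single (Sum.inl ⟨0, hd⟩) 1) (by rw [h1, sp_coe_one, Matrix.one_mulVec])
    have h3 := congrFun this (Sum.inl ⟨0, hd⟩)
    simp at h3
  have hdvd2 : r ∣ 2 * Nat.card {a : Fin d ⊕ Fin d → F // ∃ ν : F, Q a = ν ^ 2 + ν} :=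
    Dvd.dvd.mul_left hdvd 2
  by_cases hα : ∃ ν : F, Cfsg.quadFormPlus d F c₀ = ν ^ 2 + ν
  · rw [card_Q_wp_plus hd Q c₀ hc₀ hα] at hdvd2
    have hr1 : r ∣ Fintype.card F ^ d + 1 :=
      (hr.dvd_mul.mp hdvd2).resolve_left (not_dvd_q r hr hr2 d)
    obtain ⟨t, htr, hfix⟩ := Cfsg.Agent.Helper14.OElusM.exists_sp_fpf (F := F) d r hr hr2 hr1
    refine ⟨t, htr, hne1 t hfix, fun g hg => ?_⟩
    obtain ⟨k, hk⟩ := exists_std_plus Q c₀ hc₀ hα
    have hs := (iso_transfer Q (Cfsg.quadFormPlus d F) k hk (g⁻¹ * t * g)).mp hg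
    have e : k * (g⁻¹ * t * g) * k⁻¹ = (k * g⁻¹) * t * (k * g⁻¹)⁻¹ := by group
    have hsr : (k * (g⁻¹ * t * g) * k⁻¹) ^ r = 1 := by
      rw [e, conj_pow, htr]; group
    have hsfix : ∀ v : Fin d ⊕ Fin d → F,
        ((k * (g⁻¹ * t * g) * k⁻¹ : Matrix.symplecticGroup (Fin d) F) : MM d) *ᵥ v = v → v = 0 := by
      intro v hv
      rw [e, sp_coe_mul, sp_coe_mul, ← Matrix.mulVec_mulVec, ← Matrix.mulVec_mulVec] at hv
      have h1 := congrArg
        (fun z => (((k * g⁻¹)⁻¹ : Matrix.symplecticGroup (Fin d) F) : MM d) *ᵥ z) hv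
      beta_reduce at h1
      rw [Cfsg.Agent.Helper6.sp_inv_mulVec] at h1
      have h3 := hfix _ h1
      have h4 := congrArg (fun z => ((k * g⁻¹ : Matrix.symplecticGroup (Fin d) F) : MM d) *ᵥ z) h3
      beta_reduce at h4
      rw [sp_mulVec_inv, Matrix.mulVec_zero] at h4
      exact h4
    have hdv := Cfsg.Agent.Helper14.OElusM.fpf_plus_dvd d _ r hr hsr hs hsfix
    have hr3 : r ∣ Fintype.card F ^ d - 1 :=
      (hr.dvd_mul.mp hdv).resolve_right (not_dvd_q r hr hr2 (d - 1))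
    have hApos : 1 ≤ Fintype.card F ^ d := Nat.one_le_pow _ _ Fintype.card_pos
    have h5 : r ∣ 2 := by
      have := Nat.dvd_sub hr1 hr3
      have e' : Fintype.card F ^ d + 1 - (Fintype.card F ^ d - 1) = 2 := by omega
      rwa [e'] at this
    exact hr2 ((Nat.prime_dvd_prime_iff_eq hr Nat.prime_two).mp h5)
  · rw [card_Q_wp_minus hd Q c₀ hc₀ hα] at hdvd2
    have hr1 : r ∣ Fintype.card F ^ d - 1 :=
      (hr.dvd_mul.mp hdvd2).resolve_left (not_dvd_q r hr hr2 d)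
    obtain ⟨A, hAr, hA1, hA2⟩ := exists_singer (F := F) d r hr hr1
    let t : Matrix.symplecticGroup (Fin d) F := toSp d (glEmbed d F A)
    have htr : t ^ r = 1 := by
      show (toSp d (glEmbed d F A)) ^ r = 1
      rw [← map_pow, ← map_pow, hAr, map_one, map_one]
    have hfix : ∀ v : Fin d ⊕ Fin d → F, (t : MM d) *ᵥ v = v → v = 0 := by
      intro w hw
      change ((glEmbed d F A : GL (Fin d ⊕ Fin d) F) : MM d) *ᵥ w = w at hw
      rw [glEmbed_coe] at hw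
      have h1 := blockMat_mulVec_inl A w
      have h2 := blockMat_mulVec_inr A w
      rw [hw] at h1 h2
      have h3 := hA1 _ h1.symm
      have h4 := hA2 _ h2.symm
      ext (i | i)
      · exact congrFun h3 i
      · exact congrFun h4 i
    have htQ : ∀ u, Cfsg.quadFormPlus d F ((t : MM d) *ᵥ u) = Cfsg.quadFormPlus d F u :=
      fun u => toSp_isom (glEmbed d F A) u
    refine ⟨t, htr, hne1 t hfix, fun g hg => ?_⟩
    obtain ⟨a, ha, haν⟩ := sp_defect_gen Q hadd hsmul (g⁻¹)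
    have hQ' : ∀ x, Q (((g⁻¹ : Matrix.symplecticGroup (Fin d) F) : MM d) *ᵥ ((t : MM d) *ᵥ x))
        = Q (((g⁻¹ : Matrix.symplecticGroup (Fin d) F) : MM d) *ᵥ x) := by
      intro x
      have h1 := hg (((g⁻¹ : Matrix.symplecticGroup (Fin d) F) : MM d) *ᵥ x)
      rw [sp_coe_mul, sp_coe_mul, ← Matrix.mulVec_mulVec, ← Matrix.mulVec_mulVec,
        sp_mulVec_inv] at h1
      exact h1
    have h2 : (2 : F) = 0 := CharTwo.two_eq_zero
    have he : c₀ + a = 0 := by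
      apply fpf_inv_zero t hfix
      intro x
      apply sq_inj'
      have h1 := hQ' x
      rw [ha, ha, hc₀, hc₀, htQ] at h1
      rw [sf_add_right, sf_add_right]
      linear_combination h1 + (Cfsg.sympForm d F ((t : MM d) *ᵥ x) c₀
        * Cfsg.sympForm d F ((t : MM d) *ᵥ x) a - Cfsg.sympForm d F x c₀ * Cfsg.sympForm d F x a) * h2
    have hac : a = c₀ := by
      have h3 : c₀ + a + a = a := by rw [he, zero_add]
      rw [← h3, add_assoc, ← two_smul F a, h2, zero_smul, add_zero]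
    apply hα
    rw [hac, hc₀, sf_self] at haν
    obtain ⟨ν, hν⟩ := haν
    exact ⟨ν, by rw [← hν]; ring⟩

theorem inv_all_of_reps [Finite F] [CharP F 2] {M : ℕ} (Q Q₀ : (Fin M ⊕ Fin M → F) → F)
    (k : Matrix.symplecticGroup (Fin M) F) (hk : ∀ x, Q₀ ((k : MM M) *ᵥ x) = Q x)
    (hrep : ∀ a : Fin M ⊕ Fin (M / 2), ∃ A : Matrix.symplecticGroup (Fin M) F,
      (∀ u, Q₀ ((A : MM M) *ᵥ u) = Q₀ u) ∧ IsConj A (TS (repS F M a)))
    (x : Matrix.symplecticGroup (Fin M) F) (hx : x * x = 1) (hx1 : x ≠ 1) :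
    ∃ g : Matrix.symplecticGroup (Fin M) F,
      ∀ v, Q (((g⁻¹ * x * g : Matrix.symplecticGroup (Fin M) F) : MM M) *ᵥ v) = Q v := by
  obtain ⟨a, ha⟩ := exists_repS x hx hx1
  obtain ⟨A, hA, hAc⟩ := hrep a
  obtain ⟨c, hc⟩ := isConj_iff.mp (ha.trans hAc.symm)
  have e : k * ((c⁻¹ * k)⁻¹ * x * (c⁻¹ * k)) * k⁻¹ = A := by rw [← hc]; group
  refine ⟨c⁻¹ * k, (iso_transfer Q Q₀ k hk _).mpr ?_⟩
  rw [e]
  exact hA

theorem reps_plus [Finite F] [CharP F 2] {d : ℕ} (hd : 1 ≤ d) (a : Fin d ⊕ Fin (d / 2)) :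
    ∃ A : Matrix.symplecticGroup (Fin d) F,
      (∀ u, Cfsg.quadFormPlus d F ((A : MM d) *ᵥ u) = Cfsg.quadFormPlus d F u) ∧
        IsConj A (TS (repS F d a)) := by
  rcases a with i | j
  · exact ⟨toSp d (swapO F d (i.val + 1)), fun u => toSp_isom _ u, swapO_type hd i⟩
  · exact ⟨TS (Da F d (j.val + 1)), TS_isom _ (Da_transpose d _) (Da_alt d _), IsConj.refl _⟩

theorem reps_minus [Finite F] [CharP F 2] (n : ℕ) (c : F) (hodd : Odd (n + 1))
    (a : Fin (n + 1) ⊕ Fin ((n + 1) / 2)) :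
    ∃ A : Matrix.symplecticGroup (Fin (n + 1)) F,
      (∀ u, Qm F n c ((A : MM (n + 1)) *ᵥ u) = Qm F n c u) ∧
        IsConj A (TS (repS F (n + 1) a)) := by
  obtain ⟨m, hm⟩ := hodd
  rcases a with i | j
  · by_cases hi : i.val < n
    · exact ⟨OInv.toSp (n + 1) (swapO F (n + 1) (i.val + 1)),
        fun u => Pm_Qm n _ (i.val + 1) (by omega) u, swapO_type (by omega) i⟩
    · have : i = Fin.last n := by ext; simp only [Fin.val_last]; omega
      subst this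
      exact ⟨⟨Rm F n, mem_sp_of_isom_gen (Qm F n c) (Qm_add n _) _ (Rm_Qm n _)⟩,
        Rm_Qm n _, Rm_type n _ rfl⟩
  · exact ⟨TS (Da F (n + 1) (j.val + 1)), TS_Qm n _ (j.val + 1) (by have := j.2; omega),
      IsConj.refl _⟩

theorem inv_bad_minus [Finite F] [CharP F 2] (n : ℕ) (Q : (Fin (n + 1) ⊕ Fin (n + 1) → F) → F)
    (γ : F) (hanis : ∀ ν : F, γ ≠ ν ^ 2 + ν)
    (k : Matrix.symplecticGroup (Fin (n + 1)) F)
    (hk : ∀ x, Qm F n (γ ^ 2) ((k : MM (n + 1)) *ᵥ x) = Q x) (heven : Even (n + 1)) :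
    ∃ x : Matrix.symplecticGroup (Fin (n + 1)) F, x * x = 1 ∧ x ≠ 1 ∧
      ∀ g : Matrix.symplecticGroup (Fin (n + 1)) F,
        ¬ ∀ v, Q (((g⁻¹ * x * g : Matrix.symplecticGroup (Fin (n + 1)) F) : MM (n + 1)) *ᵥ v)
          = Q v := by
  obtain ⟨m, hm⟩ := heven
  have hjlt : (n + 1) / 2 - 1 < (n + 1) / 2 := by omega
  obtain ⟨j, hj2⟩ : ∃ j : Fin ((n + 1) / 2), 2 * (j.val + 1) = n + 1 :=
    ⟨⟨(n + 1) / 2 - 1, hjlt⟩, by show 2 * ((n + 1) / 2 - 1 + 1) = n + 1; omega⟩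
  refine ⟨TS (repS F (n + 1) (Sum.inr j)), TS_sq _ (repS_transpose _),
    TS_ne_one _ (repS_transpose _) (repS_ne_zero _), fun g hg => ?_⟩
  have hA := (iso_transfer Q (Qm F n (γ ^ 2)) k hk _).mp hg
  have hc : IsConj (k * (g⁻¹ * TS (repS F (n + 1) (Sum.inr j)) * g) * k⁻¹)
      (TS (repS F (n + 1) (Sum.inr j))) := by
    rw [isConj_iff]
    exact ⟨g * k⁻¹, by group⟩
  have hrank := rank_of_conj_TS _ _ (repS_transpose (Sum.inr j)) hc
  have hD : repS F (n + 1) (Sum.inr j) = Da F (n + 1) (j.val + 1) := rfl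
  rw [hD, rank_Da (by omega), hj2] at hrank
  exact no_alt_full n _ γ rfl hanis _ hA
    (alt_of_conj_TS _ _ (repS_transpose (Sum.inr j)) hc (Da_alt (n + 1) _)) hrank

end Cfsg.Agent.Helper14.OType
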