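import Mathlib
import Cfsg.Agent.Helper14.OType4

set_option autoImplicit false

namespace Cfsg.Agent.Helper14.OType

open Matrix Cfsg.Agent.Helper14.SpInv2 Cfsg.Agent.Helper14.OInv Cfsg.Agent.Helper6
  Cfsg.Agent.Helper14.SpCent Cfsg.Agent.Helper14.OCent Cfsg.Agent.Helper14.OElus
  Cfsg.Agent.Helper14.OMinusInv Cfsg.Agent.Helper14.OInvGen Cfsg.Agent.Helper14.OCentB
  Cfsg.Agent.Helper14.OCentM Cfsg.Agent.Helper16

variable {F : Type*} [Field F]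

local notation "MM" m => Matrix (Fin m ⊕ Fin m) (Fin m ⊕ Fin m) F

theorem main_sp [Fintype F] [CharP F 2] {d : ℕ} (hd : 1 ≤ d) (Q : (Fin d ⊕ Fin d → F) → F)
    (hadd : ∀ u v, Q (u + v) = Q u + Q v + Cfsg.sympForm d F u v)
    (hsmul : ∀ (c : F) u, Q (c • u) = c ^ 2 * Q u)
    (r : ℕ) (hr : r.Prime)
    (hΩ : r ∣ (Cfsg.Geo.quadSimilarityGroup Q).relIndex (Cfsg.spGL d F)) :
    (∀ x : Matrix.symplecticGroup (Fin d) F, x ^ r = 1 → x ≠ 1 →
      ∃ g : Matrix.symplecticGroup (Fin d) F,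
        ∀ v, Q (((g⁻¹ * x * g : Matrix.symplecticGroup (Fin d) F) : MM d) *ᵥ v) = Q v) ↔
    (r = 2 ∧ (Cfsg.Geo.IsPlusTypeOn Q ⊤ ∨ Odd d)) := by
  classical
  rw [relIndex_eq hd Q hadd hsmul] at hΩ
  obtain ⟨c₀, hc₀⟩ := exists_c0 Q hadd hsmul
  have hr2 : (∀ x : Matrix.symplecticGroup (Fin d) F, x ^ r = 1 → x ≠ 1 →
      ∃ g : Matrix.symplecticGroup (Fin d) F,
        ∀ v, Q (((g⁻¹ * x * g : Matrix.symplecticGroup (Fin d) F) : MM d) *ᵥ v) = Q v) →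
      r = 2 := by
    intro h
    by_contra hne
    obtain ⟨x, hxr, hx1, hbad⟩ := odd_bad hd Q hadd hsmul c₀ hc₀ r hr hne hΩ
    obtain ⟨g, hg⟩ := h x hxr hx1
    exact hbad g hg
  by_cases hα : ∃ ν : F, Cfsg.quadFormPlus d F c₀ = ν ^ 2 + ν
  · obtain ⟨k, hk⟩ := exists_std_plus Q c₀ hc₀ hα
    have hP := plus_of_std Q k hk
    constructor
    · intro h
      exact ⟨hr2 h, Or.inl hP⟩
    · rintro ⟨rfl, -⟩ x hx hx1
      exact inv_all_of_reps Q (Cfsg.quadFormPlus d F) k hk (reps_plus hd) x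
        (by rw [← pow_two]; exact hx) hx1
  · obtain ⟨n, rfl⟩ : ∃ n, d = n + 1 := ⟨d - 1, by omega⟩
    obtain ⟨γ, hγ⟩ := as_exists_not (F := F)
    have hanis : ∀ ν : F, γ ≠ ν ^ 2 + ν := fun ν h => hγ ⟨ν, h⟩
    obtain ⟨k, hk⟩ := exists_std_minus n Q c₀ hc₀ hα γ hanis
    constructor
    · intro h
      refine ⟨hr2 h, ?_⟩
      by_contra hcon
      rw [not_or] at hcon
      have heven : Even (n + 1) := Nat.not_odd_iff_even.mp hcon.2
      obtain ⟨x, hxx, hx1, hbad⟩ := inv_bad_minus n Q γ hanis k hk heven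
      have hr2' := hr2 h
      subst hr2'
      obtain ⟨g, hg⟩ := h x (by rw [pow_two]; exact hxx) hx1
      exact hbad g hg
    · rintro ⟨rfl, hor⟩ x hx hx1
      rcases hor with hP | hodd
      · exact (not_plus_of_minus Q hadd c₀ hc₀ hα hP).elim
      · exact inv_all_of_reps Q (Qm F n (γ ^ 2)) k hk (reps_minus n _ hodd) x
          (by rw [← pow_two]; exact hx) hx1

noncomputable def toGLs (d : ℕ) : Matrix.symplecticGroup (Fin d) F →* ↥(Cfsg.spGL d F) where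
  toFun k := ⟨⟨(k : MM d), ((k⁻¹ : Matrix.symplecticGroup (Fin d) F) : MM d),
      by rw [← sp_coe_mul, mul_inv_cancel, sp_coe_one],
      by rw [← sp_coe_mul, inv_mul_cancel, sp_coe_one]⟩,
    (mem_spGL _).mpr (fun u v => sp_preserves k u v)⟩
  map_one' := Subtype.ext (Units.ext rfl)
  map_mul' a b := Subtype.ext (Units.ext rfl)

theorem toGLs_surj {d : ℕ} (X : ↥(Cfsg.spGL d F)) : ∃ k, toGLs d k = X :=
  ⟨⟨((X : GL (Fin d ⊕ Fin d) F) : MM d),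
    Cfsg.Agent.Helper14.OElusM.mem_sp_of_form _ ((mem_spGL _).mp X.2)⟩,
    Subtype.ext (Units.ext rfl)⟩

theorem scalar_one [CharP F 2] {d : ℕ} (hd : 1 ≤ d) (A : MM d)
    (hA : ∀ u v, Cfsg.sympForm d F (A *ᵥ u) (A *ᵥ v) = Cfsg.sympForm d F u v) (z : F)
    (hz : A = z • (1 : MM d)) : z = 1 := by
  classical
  have h := hA (Pi.single (Sum.inr ⟨0, hd⟩) 1) (Pi.single (Sum.inl ⟨0, hd⟩) 1)
  rw [hz] at h
  simp only [Matrix.smul_mulVec, Matrix.one_mulVec] at h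
  rw [sf_smul_left, sf_smul_right, sf_single_inl] at h
  simp only [Pi.single_eq_same] at h
  apply sq_inj'
  linear_combination h

theorem main_gl [Fintype F] [CharP F 2] {d : ℕ} (hd : 1 ≤ d) (Q : (Fin d ⊕ Fin d → F) → F)
    (hadd : ∀ u v, Q (u + v) = Q u + Q v + Cfsg.sympForm d F u v)
    (hsmul : ∀ (c : F) u, Q (c • u) = c ^ 2 * Q u)
    (r : ℕ) (hr : r.Prime)
    (hΩ : r ∣ (Cfsg.Geo.quadSimilarityGroup Q).relIndex (Cfsg.spGL d F)) :
    (∀ x ∈ Cfsg.spGL d F,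
      (∃ z : F, ((x ^ r : GL (Fin d ⊕ Fin d) F) : MM d) = z • (1 : MM d)) →
      (∀ z : F, (x : MM d) ≠ z • (1 : MM d)) →
      ∃ g ∈ Cfsg.spGL d F, g⁻¹ * x * g ∈ Cfsg.Geo.quadSimilarityGroup Q) ↔
    (r = 2 ∧ (Cfsg.Geo.IsPlusTypeOn Q ⊤ ∨ Odd d)) := by
  rw [← main_sp hd Q hadd hsmul r hr hΩ]
  constructor
  · intro h x hxr hx1
    obtain ⟨g, hg, hgx⟩ := h (toGLs d x : GL (Fin d ⊕ Fin d) F) (toGLs d x).2
      ⟨1, by
        rw [one_smul, ← Subgroup.coe_pow, ← map_pow, hxr, map_one]; rfl⟩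
      (fun z hz => hx1 (by
        have hz' : (x : MM d) = z • (1 : MM d) := hz
        have hz1 := scalar_one hd _ (fun u v => sp_preserves x u v) z hz'
        apply Subtype.ext
        rw [sp_coe_one, hz', hz1, one_smul]))
    obtain ⟨g', hg'⟩ := toGLs_surj (⟨g, hg⟩ : ↥(Cfsg.spGL d F))
    refine ⟨g', ?_⟩
    have e : g⁻¹ * (toGLs d x : GL (Fin d ⊕ Fin d) F) * g
        = ((toGLs d (g'⁻¹ * x * g') : ↥(Cfsg.spGL d F)) : GL (Fin d ⊕ Fin d) F) := by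
      rw [map_mul, map_mul, map_inv, hg']; rfl
    rw [e] at hgx
    obtain ⟨c, hc⟩ := hgx
    exact sim_iso hd Q hadd _ (fun u v => sp_preserves (g'⁻¹ * x * g') u v) c hc
  · intro h x hx hz hns
    obtain ⟨x', hx'⟩ := toGLs_surj (⟨x, hx⟩ : ↥(Cfsg.spGL d F))
    obtain ⟨z, hz⟩ := hz
    have hcoe : ((x' ^ r : Matrix.symplecticGroup (Fin d) F) : MM d)
        = ((x ^ r : GL (Fin d ⊕ Fin d) F) : MM d) := by
      have h1 : toGLs d (x' ^ r) = (⟨x, hx⟩ : ↥(Cfsg.spGL d F)) ^ r := by rw [map_pow, hx']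
      have h2 := congrArg (fun y : ↥(Cfsg.spGL d F) => ((y : GL (Fin d ⊕ Fin d) F) : MM d)) h1
      exact h2
    have hz1 : z = 1 := scalar_one hd _ (fun u v => sp_preserves (x' ^ r) u v) z (hcoe.trans hz)
    have hxr : x' ^ r = 1 := by
      apply Subtype.ext
      rw [hcoe, hz, hz1, one_smul, sp_coe_one]
    have hxm : (x' : MM d) = (x : MM d) := by
      have h2 := congrArg (fun y : ↥(Cfsg.spGL d F) => ((y : GL (Fin d ⊕ Fin d) F) : MM d)) hx'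
      exact h2
    have hx1 : x' ≠ 1 := by
      intro h1
      apply hns 1
      rw [← hxm, h1, sp_coe_one, one_smul]
    obtain ⟨g, hg⟩ := h x' hxr hx1
    refine ⟨(toGLs d g : GL (Fin d ⊕ Fin d) F), (toGLs d g).2, ?_⟩
    have e : (toGLs d g : GL (Fin d ⊕ Fin d) F)⁻¹ * x * (toGLs d g : GL (Fin d ⊕ Fin d) F)
        = ((toGLs d (g⁻¹ * x' * g) : ↥(Cfsg.spGL d F)) : GL (Fin d ⊕ Fin d) F) := by
      rw [map_mul, map_mul, map_inv, hx']; rfl
    rw [e]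
    exact ⟨1, fun v => by rw [Units.val_one, one_mul]; exact hg v⟩

end Cfsg.Agent.Helper14.OType
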