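import Mathlib
import Cfsg.Agent.Helper14.SemiConj
import Cfsg.Agent.Helper14.GLPrimeOrd
import Cfsg.Agent.Helper14.PGLInv
set_option autoImplicit false
open Polynomial

namespace Cfsg.Agent.Helper14.PGLPrime

variable {F : Type*} [Field F] {n : ℕ}

/-- scalar matrices as a homomorphism. -/
noncomputable abbrev Sc (F : Type*) [Field F] (n : ℕ) : Fˣ →* GL (Fin n) F :=
  Matrix.GeneralLinearGroup.scalar (Fin n)

theorem Sc_comm (c : Fˣ) (x : GL (Fin n) F) : Sc F n c * x = x * Sc F n c :=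
  PGLInv.scalar_comm' c x

theorem coe_Sc (c : Fˣ) : ((Sc F n c : GL (Fin n) F) : Matrix (Fin n) (Fin n) F) = (c : F) • 1 :=
  PGLInv.coe_scalar' c

theorem Sc_inj (hn : 0 < n) : Function.Injective (Sc F n) := by
  intro c c' h
  have h1 := congrArg Units.val h
  rw [coe_Sc, coe_Sc] at h1
  have h2 := congrFun (congrFun h1 ⟨0, hn⟩) ⟨0, hn⟩
  simp only [Matrix.smul_apply, Matrix.one_apply_eq, smul_eq_mul, mul_one] at h2
  exact Units.ext h2

/-- projective conjugacy in group form. -/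
theorem mk_eq_iff' (g g' : GL (Fin n) F) :
    ConjClasses.mk (QuotientGroup.mk g : GL (Fin n) F ⧸ Subgroup.center (GL (Fin n) F)) =
      ConjClasses.mk (QuotientGroup.mk g') ↔
    ∃ x : GL (Fin n) F, ∃ c : Fˣ, g' = Sc F n c * (x * g * x⁻¹) := by
  rw [ConjClasses.mk_eq_mk_iff_isConj, isConj_iff]
  constructor
  · rintro ⟨y, hy⟩
    obtain ⟨x, rfl⟩ := QuotientGroup.mk_surjective y
    rw [← QuotientGroup.mk_inv, ← QuotientGroup.mk_mul, ← QuotientGroup.mk_mul, QuotientGroup.eq,
      Matrix.GeneralLinearGroup.center_eq_range_scalar] at hy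
    obtain ⟨c, hc⟩ := hy
    refine ⟨x, c, ?_⟩
    have h1 : g' = (x * g * x⁻¹) * Sc F n c := by
      change g' = (x * g * x⁻¹) * Matrix.GeneralLinearGroup.scalar (Fin n) c
      rw [hc]
      group
    rw [Sc_comm]
    exact h1
  · rintro ⟨x, c, rfl⟩
    refine ⟨QuotientGroup.mk x, ?_⟩
    rw [← QuotientGroup.mk_inv, ← QuotientGroup.mk_mul, ← QuotientGroup.mk_mul, QuotientGroup.eq,
      Matrix.GeneralLinearGroup.center_eq_range_scalar]
    refine ⟨c, ?_⟩
    have := Sc_comm c (x * g * x⁻¹)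
    change Sc F n c = (x * g * x⁻¹)⁻¹ * (Sc F n c * (x * g * x⁻¹))
    rw [this]
    group

theorem order_iff (r : ℕ) (hr : r.Prime) (g : GL (Fin n) F) :
    orderOf (QuotientGroup.mk g : GL (Fin n) F ⧸ Subgroup.center (GL (Fin n) F)) = r ↔
      (∀ c : Fˣ, g ≠ Sc F n c) ∧ ∃ κ : Fˣ, g ^ r = Sc F n κ := by
  have : Fact r.Prime := ⟨hr⟩
  rw [orderOf_eq_prime_iff, ← QuotientGroup.mk_pow, QuotientGroup.eq_one_iff, ne_eq,
    QuotientGroup.eq_one_iff, Matrix.GeneralLinearGroup.center_eq_range_scalar]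
  constructor
  · rintro ⟨⟨κ, hκ⟩, h2⟩
    exact ⟨fun c hc => h2 ⟨c, hc.symm⟩, κ, hκ.symm⟩
  · rintro ⟨h1, κ, hκ⟩
    exact ⟨⟨κ, hκ.symm⟩, fun ⟨c, hc⟩ => h1 c hc.symm⟩

/-- eigenspace dimension. -/
noncomputable def dd (g : GL (Fin n) F) (z : Fˣ) : ℕ :=
  Module.finrank F (LinearMap.ker (aeval (Matrix.toLin' g.1) (X - C (z : F))))

theorem dd_conj (g g' : GL (Fin n) F) (h : IsConj g g') (z : Fˣ) : dd g z = dd g' z :=
  GLPrimeOrd.finrank_of_isConj g g' h _

theorem aeval_lin_sub (A : Matrix (Fin n) (Fin n) F) (z : F) :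
    aeval (Matrix.toLin' A) (X - C z) = Matrix.toLin' A - z • LinearMap.id := by
  rw [map_sub, aeval_X, aeval_C]
  congr 1

theorem dd_shift (g : GL (Fin n) F) (w z : Fˣ) : dd (Sc F n w * g) z = dd g (w⁻¹ * z) := by
  unfold dd
  rw [aeval_lin_sub, aeval_lin_sub, Units.val_mul, coe_Sc, Matrix.smul_mul, Matrix.one_mul,
    map_smul]
  have : (w : F) • Matrix.toLin' g.1 - (z : F) • LinearMap.id =
      (w : F) • (Matrix.toLin' g.1 - ((w⁻¹ * z : Fˣ) : F) • LinearMap.id) := by
    rw [smul_sub, smul_smul, Units.val_mul, ← mul_assoc, Units.mul_inv, one_mul]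
  rw [this, LinearMap.ker_smul _ _ w.ne_zero]

theorem dd_scalar_ne (c z : Fˣ) (h : c ≠ z) : dd (Sc F n c) z = 0 := by
  unfold dd
  have e : (c : F) • (LinearMap.id : (Fin n → F) →ₗ[F] (Fin n → F)) - (z : F) • LinearMap.id =
      ((c : F) - z) • LinearMap.id := (sub_smul _ _ _).symm
  rw [aeval_lin_sub, coe_Sc, map_smul, Matrix.toLin'_one, e, LinearMap.ker_smul _ _
    (sub_ne_zero.mpr (fun h' => h (Units.ext h'))), LinearMap.ker_id, finrank_bot]

theorem dd_scalar_eq (c : Fˣ) : dd (Sc F n c) c = n := by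
  unfold dd
  rw [aeval_lin_sub, coe_Sc, map_smul, Matrix.toLin'_one, sub_self, LinearMap.ker_zero,
    finrank_top, Module.finrank_fin_fun]

theorem eq_scalar_of_dd (g : GL (Fin n) F) (z : Fˣ) (h : dd g z = n) : g = Sc F n z := by
  unfold dd at h
  have h2 : LinearMap.ker (aeval (Matrix.toLin' g.1) (X - C (z : F))) = ⊤ := by
    apply Submodule.eq_top_of_finrank_eq
    rw [h, Module.finrank_fin_fun]
  rw [aeval_lin_sub, LinearMap.ker_eq_top, sub_eq_zero] at h2
  apply Units.ext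
  rw [coe_Sc]
  apply Matrix.toLin'.injective
  rw [h2, map_smul, Matrix.toLin'_one]

theorem Sc_mul_pow (c : Fˣ) (y : GL (Fin n) F) (k : ℕ) :
    (Sc F n c * y) ^ k = Sc F n (c ^ k) * y ^ k := by
  rw [(show Commute (Sc F n c) y from Sc_comm c y).mul_pow, map_pow]

theorem Sc_conj (c : Fˣ) (x y : GL (Fin n) F) :
    x * (Sc F n c * y) * x⁻¹ = Sc F n c * (x * y * x⁻¹) := by
  have := Sc_comm c x
  calc x * (Sc F n c * y) * x⁻¹ = (x * Sc F n c) * y * x⁻¹ := by group
    _ = (Sc F n c * x) * y * x⁻¹ := by rw [this]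
    _ = Sc F n c * (x * y * x⁻¹) := by group

section roots

variable (r : ℕ) [Fintype ↥(rootsOfUnity r F)]

/-- the linear factors of `X ^ r - 1`. -/
noncomputable def TT (F : Type*) [Field F] (r : ℕ) [Fintype ↥(rootsOfUnity r F)]
    [DecidableEq F[X]] : Finset F[X] :=
  Finset.univ.image (fun z : rootsOfUnity r F => X - C (((z : Fˣ) : F)))

omit [Fintype ↥(rootsOfUnity r F)] in
theorem lin_inj :
    Function.Injective (fun z : rootsOfUnity r F => (X - C (((z : Fˣ) : F)) : F[X])) := by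
  intro z z' h
  have h1 : C (((z : Fˣ) : F)) = C (((z' : Fˣ) : F)) := by
    have := congrArg (fun p : F[X] => X - p) h
    simpa using this
  exact Subtype.ext (Units.ext (C_injective h1))

theorem sum_TT [DecidableEq F[X]] (h : F[X] → ℕ) :
    ∑ f ∈ TT F r, h f = ∑ z : rootsOfUnity r F, h (X - C (((z : Fˣ) : F))) := by
  unfold TT
  rw [Finset.sum_image (fun z _ z' _ hzz => lin_inj r hzz)]

theorem TT_irr [DecidableEq F[X]] : ∀ f ∈ TT F r, Irreducible f := by
  intro f hf
  obtain ⟨z, _, rfl⟩ := Finset.mem_image.mp hf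
  exact irreducible_X_sub_C _

theorem TT_coprime [DecidableEq F[X]] : ((TT F r : Finset F[X]) : Set F[X]).Pairwise IsCoprime := by
  intro f hf g hg hfg
  obtain ⟨z, _, rfl⟩ := Finset.mem_image.mp hf
  obtain ⟨z', _, rfl⟩ := Finset.mem_image.mp hg
  apply Polynomial.isCoprime_X_sub_C_of_isUnit_sub
  apply IsUnit.mk0
  intro h0
  apply hfg
  rw [sub_eq_zero] at h0
  rw [h0]

theorem TT_prod [DecidableEq F[X]] (hr : 0 < r) (hcard : Fintype.card (rootsOfUnity r F) = r) :
    ∏ f ∈ TT F r, f = X ^ r - 1 := by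
  have hmon : ∀ f ∈ TT F r, f.Monic := by
    intro f hf
    obtain ⟨z, _, rfl⟩ := Finset.mem_image.mp hf
    exact monic_X_sub_C _
  have hm : (∏ f ∈ TT F r, f).Monic := Polynomial.monic_prod_of_monic _ _ hmon
  have he : (X ^ r - 1 : F[X]) = X ^ r - C 1 := by rw [map_one]
  have hm2 : (X ^ r - 1 : F[X]).Monic := by
    rw [he]
    exact monic_X_pow_sub_C (1 : F) hr.ne'
  have hdvd : ∏ f ∈ TT F r, f ∣ X ^ r - 1 := by
    apply Finset.prod_dvd_of_coprime (TT_coprime r)
    intro f hf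
    obtain ⟨z, _, rfl⟩ := Finset.mem_image.mp hf
    rw [dvd_iff_isRoot, IsRoot, eval_sub, eval_pow, eval_X, eval_one, sub_eq_zero]
    have := z.2
    rw [mem_rootsOfUnity] at this
    rw [← Units.val_pow_eq_pow_val, this, Units.val_one]
  have hdeg : (X ^ r - 1 : F[X]).natDegree ≤ (∏ f ∈ TT F r, f).natDegree := by
    rw [natDegree_prod_of_monic _ _ hmon, sum_TT]
    simp only [natDegree_X_sub_C, Finset.sum_const, Finset.card_univ, hcard, smul_eq_mul, mul_one]
    rw [he, natDegree_X_pow_sub_C]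
  exact (Polynomial.eq_of_monic_of_dvd_of_natDegree_le hm hm2 hdvd hdeg).symm

theorem sum_dd (hr : 0 < r) (hcard : Fintype.card (rootsOfUnity r F) = r) (g : GL (Fin n) F)
    (hg : g ^ r = 1) : ∑ z : rootsOfUnity r F, dd g (z : Fˣ) = n := by
  classical
  have h := SemiConj.finrank_eq_sum_ker (TT F r) (TT_coprime r) (Matrix.toLin' g.1) (by
    rw [TT_prod r hr hcard]
    exact (GLPrimeOrd.pow_eq_one_iff g r).mp hg)
  rw [Module.finrank_fin_fun, sum_TT] at h
  exact h.symm

theorem conj_of_dd (hr : 0 < r) (hcard : Fintype.card (rootsOfUnity r F) = r)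
    (g g' : GL (Fin n) F) (hg : g ^ r = 1) (hg' : g' ^ r = 1)
    (h : ∀ z : rootsOfUnity r F, dd g (z : Fˣ) = dd g' (z : Fˣ)) : IsConj g g' := by
  classical
  apply GLPrimeOrd.isConj_of_finrank (TT F r) (TT_irr r) (TT_coprime r) g g'
    (by rw [TT_prod r hr hcard]; exact (GLPrimeOrd.pow_eq_one_iff g r).mp hg)
    (by rw [TT_prod r hr hcard]; exact (GLPrimeOrd.pow_eq_one_iff g' r).mp hg')
  intro f hf
  obtain ⟨z, _, rfl⟩ := Finset.mem_image.mp hf
  exact h z

theorem exists_of_tuple (hr : 0 < r) (hcard : Fintype.card (rootsOfUnity r F) = r)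
    (a : rootsOfUnity r F → ℕ) (ha : ∑ z, a z = n) :
    ∃ g : GL (Fin n) F, g ^ r = 1 ∧ ∀ z : rootsOfUnity r F, dd g (z : Fˣ) = a z := by
  classical
  let b' : F[X] → ℕ := fun f =>
    if h : ∃ z : rootsOfUnity r F, X - C (((z : Fˣ) : F)) = f then a (Classical.choose h) else 0
  have hb' : ∀ z : rootsOfUnity r F, b' (X - C (((z : Fˣ) : F))) = a z := by
    intro z
    have h : ∃ z' : rootsOfUnity r F, X - C (((z' : Fˣ) : F)) = X - C (((z : Fˣ) : F)) := ⟨z, rfl⟩
    simp only [b']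
    rw [dif_pos h]
    congr 1
    exact lin_inj r (Classical.choose_spec h)
  have hsum : ∑ f : ↥(TT F r), b' f.1 * f.1.natDegree = n := by
    rw [Finset.sum_coe_sort (TT F r) (fun f => b' f * f.natDegree), sum_TT]
    simp only [hb', natDegree_X_sub_C, mul_one]
    exact ha
  obtain ⟨φ, hφ, hker⟩ := SemiConj.exists_endo (TT F r) (fun f => b' f.1)
    (fun f hf => (TT_irr r f hf).ne_zero) (TT_coprime r) n hsum
  let A : Matrix (Fin n) (Fin n) F := LinearMap.toMatrix' φ
  have hA : Matrix.toLin' A = φ := Matrix.toLin'_toMatrix' φ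
  have hAr : A ^ r = 1 := by
    rw [TT_prod r hr hcard, ← hA, GLPrimeOrd.aeval_toLin', map_sub, map_pow, aeval_X, map_one,
      LinearEquiv.map_eq_zero_iff, sub_eq_zero] at hφ
    exact hφ
  let g : GL (Fin n) F := ⟨A, A ^ (r - 1), by rw [mul_pow_sub_one hr.ne' A, hAr],
    by rw [pow_sub_one_mul hr.ne' A, hAr]⟩
  refine ⟨g, Units.ext (by rw [Units.val_pow_eq_pow_val, Units.val_one]; exact hAr), ?_⟩
  intro z
  have h3 := hker ⟨X - C (((z : Fˣ) : F)), Finset.mem_image.mpr ⟨z, Finset.mem_univ _, rfl⟩⟩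
  change Module.finrank F (LinearMap.ker (aeval (Matrix.toLin' A) (X - C (((z : Fˣ) : F))))) = a z
  rw [hA, h3]
  simp only [hb', natDegree_X_sub_C, mul_one]

theorem pc_torsion (hn : 0 < n) (hr : 0 < r) (hcard : Fintype.card (rootsOfUnity r F) = r)
    (g g' : GL (Fin n) F) (hg : g ^ r = 1) (hg' : g' ^ r = 1) :
    (∃ x : GL (Fin n) F, ∃ c : Fˣ, g' = Sc F n c * (x * g * x⁻¹)) ↔
      ∃ w : rootsOfUnity r F, ∀ z : rootsOfUnity r F,
        dd g' (z : Fˣ) = dd g ((w⁻¹ * z : rootsOfUnity r F) : Fˣ) := by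
  constructor
  · rintro ⟨x, c, rfl⟩
    have h1 : Sc F n (c ^ r) = Sc F n 1 := by
      rw [Sc_mul_pow, conj_pow, hg, mul_one, mul_inv_cancel, mul_one] at hg'
      rw [hg', map_one]
    have h2 : c ^ r = 1 := Sc_inj hn h1
    refine ⟨⟨c, (mem_rootsOfUnity r c).mpr h2⟩, ?_⟩
    intro z
    rw [dd_shift, dd_conj (x * g * x⁻¹) g (isConj_iff.mpr ⟨x⁻¹, by group⟩)]
    rfl
  · rintro ⟨w, hw⟩
    have h1 : (Sc F n (w : Fˣ) * g) ^ r = 1 := by
      rw [Sc_mul_pow, hg, mul_one, (mem_rootsOfUnity r _).mp w.2, map_one]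
    have h2 : IsConj (Sc F n (w : Fˣ) * g) g' := by
      apply conj_of_dd r hr hcard _ _ h1 hg'
      intro z
      rw [dd_shift, hw z]
      rfl
    obtain ⟨x, hx⟩ := isConj_iff.mp h2
    refine ⟨x, w, ?_⟩
    rw [← hx, Sc_conj]

end roots

section Btype

variable (r : ℕ)

/-- the subgroup of `r`-th powers. -/
def Pw (F : Type*) [Field F] (r : ℕ) : Subgroup Fˣ := (powMonoidHom r : Fˣ →* Fˣ).range

theorem mem_Pw (c : Fˣ) : c ∈ Pw F r ↔ ∃ l : Fˣ, l ^ r = c := by
  unfold Pw
  rw [MonoidHom.mem_range]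
  rfl

theorem aeval_pow_sub (A : Matrix (Fin n) (Fin n) F) (c : F) :
    aeval (Matrix.toLin' A) (X ^ r - C c) = Matrix.toLin' (A ^ r - c • 1) := by
  rw [GLPrimeOrd.aeval_toLin', map_sub, map_pow, aeval_X, aeval_C, Algebra.algebraMap_eq_smul_one]

theorem pow_eq_Sc_iff (g : GL (Fin n) F) (c : Fˣ) :
    g ^ r = Sc F n c ↔ aeval (Matrix.toLin' g.1) (X ^ r - C (c : F)) = 0 := by
  rw [aeval_pow_sub, LinearEquiv.map_eq_zero_iff, sub_eq_zero, Units.ext_iff,
    Units.val_pow_eq_pow_val, coe_Sc]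

theorem irr_of_not_pow (hr : r.Prime) (c : Fˣ) (hc : c ∉ Pw F r) :
    Irreducible (X ^ r - C (c : F) : F[X]) := by
  apply X_pow_sub_C_irreducible_of_prime hr
  intro b hb
  have hb0 : b ≠ 0 := by
    rintro rfl
    rw [zero_pow hr.ne_zero] at hb
    exact c.ne_zero hb.symm
  apply hc
  rw [mem_Pw]
  exact ⟨Units.mk0 b hb0, Units.ext (by rw [Units.val_pow_eq_pow_val]; exact hb)⟩

theorem exists_B (hr : r.Prime) (c : Fˣ) (hc : c ∉ Pw F r) (hrn : r ∣ n) :
    ∃ g : GL (Fin n) F, g ^ r = Sc F n c := by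
  classical
  have hirr := irr_of_not_pow r hr c hc
  have hdeg : (X ^ r - C (c : F) : F[X]).natDegree = r := natDegree_X_pow_sub_C
  obtain ⟨φ, hφ, -⟩ := SemiConj.exists_endo ({X ^ r - C (c : F)} : Finset F[X])
    (fun _ => n / r) (fun f hf => by
      rw [Finset.mem_singleton] at hf
      rw [hf]
      exact hirr.ne_zero) (by simp [Set.Pairwise]) n (by
      rw [Finset.sum_coe_sort ({X ^ r - C (c : F)} : Finset F[X]) (fun f => n / r * f.natDegree),
        Finset.sum_singleton, hdeg]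
      exact Nat.div_mul_cancel hrn)
  rw [Finset.prod_singleton] at hφ
  let A : Matrix (Fin n) (Fin n) F := LinearMap.toMatrix' φ
  have hA : Matrix.toLin' A = φ := Matrix.toLin'_toMatrix' φ
  have hAr : A ^ r = (c : F) • 1 := by
    rw [← hA, aeval_pow_sub, LinearEquiv.map_eq_zero_iff, sub_eq_zero] at hφ
    exact hφ
  let g : GL (Fin n) F := ⟨A, ((c⁻¹ : Fˣ) : F) • A ^ (r - 1), by
      rw [Matrix.mul_smul, mul_pow_sub_one hr.ne_zero A, hAr, smul_smul, Units.inv_mul, one_smul], by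
      rw [Matrix.smul_mul, pow_sub_one_mul hr.ne_zero A, hAr, smul_smul, Units.inv_mul, one_smul]⟩
  refine ⟨g, Units.ext ?_⟩
  rw [Units.val_pow_eq_pow_val, coe_Sc]
  exact hAr

theorem conj_B (hr : r.Prime) (c : Fˣ) (hc : c ∉ Pw F r) (g g' : GL (Fin n) F)
    (hg : g ^ r = Sc F n c) (hg' : g' ^ r = Sc F n c) : IsConj g g' := by
  have hirr := irr_of_not_pow r hr c hc
  obtain ⟨E, hE⟩ := SemiConj.irr_conj _ hirr (Matrix.toLin' g.1) (Matrix.toLin' g'.1)
    ((pow_eq_Sc_iff r g c).mp hg) ((pow_eq_Sc_iff r g' c).mp hg') rfl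
  obtain ⟨x, hx⟩ := PGLInv.mat_conj_of_lin g.1 g'.1 E hE
  rw [isConj_iff]
  refine ⟨x, ?_⟩
  have : x * g = g' * x := Units.ext hx
  rw [this]
  group

theorem dvd_B (hr : r.Prime) (c : Fˣ) (hc : c ∉ Pw F r) (g : GL (Fin n) F)
    (hg : g ^ r = Sc F n c) : r ∣ n := by
  have hirr := irr_of_not_pow r hr c hc
  have : Fact (Irreducible (X ^ r - C (c : F) : F[X])) := ⟨hirr⟩
  obtain ⟨m, e, he, hm⟩ := SemiConj.irr_struct _ (Matrix.toLin' g.1) ((pow_eq_Sc_iff r g c).mp hg)
  rw [natDegree_X_pow_sub_C, Module.finrank_fin_fun] at hm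
  exact ⟨m, hm.symm⟩

theorem card_roots [Fintype F] (hr : r.Prime) (hrq : r ∣ Fintype.card F - 1) :
    Nat.card (rootsOfUnity r F) = r := by
  have : Fact r.Prime := ⟨hr⟩
  have : NeZero r := ⟨hr.ne_zero⟩
  have hcard : Nat.card Fˣ = Fintype.card F - 1 := by
    rw [Nat.card_units, Nat.card_eq_fintype_card]
  obtain ⟨ζ, hζ⟩ := exists_prime_orderOf_dvd_card' (G := Fˣ) r (by rw [hcard]; exact hrq)
  have hp : IsPrimitiveRoot ζ r := by
    rw [← hζ]
    exact IsPrimitiveRoot.orderOf ζ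
  exact hp.card_rootsOfUnity'

theorem index_Pw [Fintype F] (hr : r.Prime) (hrq : r ∣ Fintype.card F - 1) :
    (Pw F r).index = r := by
  have hk : (powMonoidHom r : Fˣ →* Fˣ).ker = rootsOfUnity r F := by
    ext x
    rw [MonoidHom.mem_ker, mem_rootsOfUnity]
    rfl
  have h1 := Subgroup.card_mul_index (powMonoidHom r : Fˣ →* Fˣ).ker
  rw [Subgroup.index_ker, hk, card_roots r hr hrq] at h1
  have h2 := Subgroup.card_mul_index (Pw F r)
  have h3 : Nat.card (Pw F r) = Nat.card (powMonoidHom r : Fˣ →* Fˣ).range := rfl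
  rw [← h3] at h1
  have hpos : 0 < Nat.card (Pw F r) := Nat.card_pos
  rw [← h1] at h2
  exact Nat.eq_of_mul_eq_mul_left hpos (h2.trans (mul_comm _ _))

end Btype

section orbits

variable (r n : ℕ) [Fintype ↥(rootsOfUnity r F)]

/-- multiplicity tuples with all entries `< n`. -/
abbrev YY (F : Type*) [Field F] (r n : ℕ) [Fintype ↥(rootsOfUnity r F)] : Type _ :=
  {a : rootsOfUnity r F → Fin n // ∑ z, (a z : ℕ) = n}

noncomputable instance instYY : MulAction (rootsOfUnity r F) (YY F r n) where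
  smul w a := ⟨fun z => a.1 (w⁻¹ * z),
    (Fintype.sum_equiv (Equiv.mulLeft w⁻¹) (fun z => ((a.1 (w⁻¹ * z) : Fin n) : ℕ))
      (fun z => ((a.1 z : Fin n) : ℕ)) (fun z => rfl)).trans a.2⟩
  one_smul a := by
    apply Subtype.ext
    funext z
    change a.1 (1⁻¹ * z) = a.1 z
    rw [inv_one, one_mul]
  mul_smul w w' a := by
    apply Subtype.ext
    funext z
    change a.1 ((w * w')⁻¹ * z) = a.1 (w'⁻¹ * (w⁻¹ * z))
    rw [mul_inv_rev, mul_assoc]

theorem smul_apply (w : rootsOfUnity r F) (a : YY F r n) (z : rootsOfUnity r F) :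
    (w • a).1 z = a.1 (w⁻¹ * z) := rfl

theorem const_of_fixed (hr : r.Prime) (hcard : Nat.card (rootsOfUnity r F) = r)
    (w : rootsOfUnity r F) (hw : w ≠ 1) (a : YY F r n) (ha : w • a = a) :
    ∀ z, a.1 z = a.1 1 := by
  have : Fact r.Prime := ⟨hr⟩
  have htop := zpowers_eq_top_of_prime_card hcard hw
  have h1 : ∀ z, a.1 (w * z) = a.1 z := by
    intro z
    have := congrFun (congrArg Subtype.val ha) (w * z)
    rw [smul_apply, inv_mul_cancel_left] at this
    exact this.symm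
  have h2 : ∀ k : ℕ, a.1 (w ^ k) = a.1 1 := by
    intro k
    induction k with
    | zero => rw [pow_zero]
    | succ k ih => rw [pow_succ', h1, ih]
  intro z
  have hz : z ∈ Subgroup.zpowers w := by
    rw [htop]
    trivial
  rw [← mem_powers_iff_mem_zpowers] at hz
  obtain ⟨k, rfl⟩ := hz
  exact h2 k

theorem card_fixed (hr : r.Prime) (hcardF : Fintype.card (rootsOfUnity r F) = r) (hn : 2 ≤ n)
    (w : rootsOfUnity r F) (hw : w ≠ 1) [Fintype (MulAction.fixedBy (YY F r n) w)] :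
    Fintype.card (MulAction.fixedBy (YY F r n) w) = if r ∣ n then 1 else 0 := by
  have hcardN : Nat.card (rootsOfUnity r F) = r := by
    rw [Nat.card_eq_fintype_card]
    exact hcardF
  split_ifs with hrn
  · rw [Fintype.card_eq_one_iff]
    obtain ⟨m, hm⟩ := hrn
    have h2 : 2 * m ≤ r * m := Nat.mul_le_mul_right m hr.two_le
    have hmn : m < n := by omega
    let a₀ : YY F r n := ⟨fun _ => ⟨m, hmn⟩, by
      rw [Finset.sum_const, Finset.card_univ, hcardF, smul_eq_mul]
      exact hm.symm⟩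
    refine ⟨⟨a₀, ?_⟩, ?_⟩
    · rw [MulAction.mem_fixedBy]
      apply Subtype.ext
      funext z
      rfl
    · rintro ⟨a, ha⟩
      rw [MulAction.mem_fixedBy] at ha
      apply Subtype.ext
      apply Subtype.ext
      funext z
      have hc := const_of_fixed r n hr hcardN w hw a ha
      have hs' : ∑ z : rootsOfUnity r F, ((a.1 z : Fin n) : ℕ) =
          ∑ _z : rootsOfUnity r F, ((a.1 1 : Fin n) : ℕ) :=
        Finset.sum_congr rfl (fun z _ => by rw [hc z])
      have hs : r * ((a.1 1 : Fin n) : ℕ) = n := by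
        have := hs'.symm.trans a.2
        rw [Finset.sum_const, Finset.card_univ, hcardF, smul_eq_mul] at this
        exact this
      apply Fin.ext
      rw [hc z]
      exact Nat.eq_of_mul_eq_mul_left hr.pos (hs.trans hm)
  · rw [Fintype.card_eq_zero_iff]
    constructor
    rintro ⟨a, ha⟩
    rw [MulAction.mem_fixedBy] at ha
    have hc := const_of_fixed r n hr hcardN w hw a ha
    have hs' : ∑ z : rootsOfUnity r F, ((a.1 z : Fin n) : ℕ) =
        ∑ _z : rootsOfUnity r F, ((a.1 1 : Fin n) : ℕ) :=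
      Finset.sum_congr rfl (fun z _ => by rw [hc z])
    have hs : r * ((a.1 1 : Fin n) : ℕ) = n := by
      have := hs'.symm.trans a.2
      rw [Finset.sum_const, Finset.card_univ, hcardF, smul_eq_mul] at this
      exact this
    apply hrn
    exact ⟨(a.1 1 : ℕ), hs.symm⟩

end orbits

section count

variable (r n : ℕ) [Fintype ↥(rootsOfUnity r F)]

theorem card_YY [Fintype (YY F r n)] (hr : 1 ≤ r) (hcardF : Fintype.card (rootsOfUnity r F) = r)
    (hn : 1 ≤ n) :
    Fintype.card (YY F r n) = Nat.choose (n + r - 1) (r - 1) - r := by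
  classical
  let P : Finset (rootsOfUnity r F → ℕ) := Finset.piAntidiag Finset.univ n
  let B : Finset (rootsOfUnity r F → ℕ) := Finset.univ.image (fun z => Pi.single z n)
  have hP : ∀ b, b ∈ P ↔ ∑ z, b z = n := by
    intro b
    simp [P, Finset.mem_piAntidiag]
  have hBP : B ⊆ P := by
    intro b hb
    obtain ⟨z, _, rfl⟩ := Finset.mem_image.mp hb
    rw [hP]
    simp
  have hBcard : B.card = r := by
    rw [Finset.card_image_of_injective, Finset.card_univ, hcardF]
    intro z z' h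
    by_contra hne
    have := congrFun h z
    simp only at this
    rw [Pi.single_eq_same, Pi.single_eq_of_ne hne] at this
    omega
  have hPcard : P.card = Nat.choose (n + r - 1) (r - 1) := by
    have h1 : P.card =
        (Finset.finsuppAntidiag (Finset.univ : Finset (rootsOfUnity r F)) n).card := by
      unfold Finset.finsuppAntidiag
      rw [Finset.card_map, Finset.card_attach]
    rw [h1, Finset.card_finsuppAntidiag_nat_eq_choose, Finset.card_univ, hcardF]
    have h2 : r + n - 1 = n + (r - 1) := by omega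
    have h3 : n + r - 1 = n + (r - 1) := by omega
    rw [h2, h3, Nat.choose_symm_add]
  have hcard : Fintype.card (YY F r n) = (P \ B).card := by
    rw [← Finset.card_univ]
    apply Finset.card_bij (fun a _ => fun z => ((a.1 z : Fin n) : ℕ))
    · intro a _
      rw [Finset.mem_sdiff, hP]
      refine ⟨a.2, ?_⟩
      intro hb
      obtain ⟨z, _, hz⟩ := Finset.mem_image.mp hb
      have h1 := congrFun hz z
      rw [Pi.single_eq_same] at h1
      have h2 := (a.1 z).isLt
      omega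
    · intro a _ a' _ h
      apply Subtype.ext
      funext z
      exact Fin.ext (congrFun h z)
    · intro b hb
      rw [Finset.mem_sdiff, hP] at hb
      obtain ⟨hb1, hb2⟩ := hb
      have hlt : ∀ z, b z < n := by
        intro z
        have hle : b z ≤ n := by
          rw [← hb1]
          exact Finset.single_le_sum (fun _ _ => Nat.zero_le _) (Finset.mem_univ z)
        rcases Nat.lt_or_ge (b z) n with h | h
        · exact h
        · exfalso
          apply hb2
          rw [Finset.mem_image]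
          refine ⟨z, Finset.mem_univ _, ?_⟩
          funext z'
          by_cases hz : z' = z
          · subst hz
            rw [Pi.single_eq_same]
            omega
          · rw [Pi.single_eq_of_ne hz]
            have h3 := Finset.add_sum_erase Finset.univ b (Finset.mem_univ z)
            rw [hb1] at h3
            have h4 : ∑ x ∈ Finset.univ.erase z, b x = 0 := by omega
            have h5 := (Finset.sum_eq_zero_iff.mp h4) z'
              (Finset.mem_erase.mpr ⟨hz, Finset.mem_univ _⟩)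
            exact h5.symm
      exact ⟨⟨fun z => ⟨b z, hlt z⟩, hb1⟩, Finset.mem_univ _, rfl⟩
  rw [hcard, Finset.card_sdiff_of_subset hBP, hPcard, hBcard]

theorem card_orbits (hr : r.Prime) (hcardF : Fintype.card (rootsOfUnity r F) = r) (hn : 2 ≤ n) :
    Nat.card (Quotient (MulAction.orbitRel (rootsOfUnity r F) (YY F r n))) * r =
      Nat.choose (n + r - 1) (r - 1) - r + (r - 1) * (if r ∣ n then 1 else 0) := by
  classical
  have hB := MulAction.sum_card_fixedBy_eq_card_orbits_mul_card_group (rootsOfUnity r F)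
    (YY F r n)
  rw [hcardF] at hB
  rw [Nat.card_eq_fintype_card, ← hB,
    ← Finset.add_sum_erase Finset.univ _ (Finset.mem_univ (1 : rootsOfUnity r F))]
  congr 1
  · rw [← card_YY r n hr.one_le hcardF (by omega)]
    apply Fintype.card_congr
    exact Equiv.subtypeUnivEquiv (fun a => by rw [MulAction.mem_fixedBy, one_smul])
  · rw [Finset.sum_congr rfl (fun w hw => card_fixed r n hr hcardF hn w
      (Finset.ne_of_mem_erase hw)), Finset.sum_const, Finset.card_erase_of_mem (Finset.mem_univ _),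
      Finset.card_univ, hcardF, smul_eq_mul]

end count

theorem pow_conj_Sc (c κ : Fˣ) (x g : GL (Fin n) F) (k : ℕ) (hg : g ^ k = Sc F n κ) :
    (Sc F n c * (x * g * x⁻¹)) ^ k = Sc F n (c ^ k * κ) := by
  rw [Sc_mul_pow, conj_pow, hg, ← Sc_comm κ x, mul_inv_cancel_right, ← map_mul]

/-- the number of classes of elements of prime order `r ∣ q - 1` in `PGL_n(q)`. -/
theorem card_classes [Fintype F] {q : ℕ} (hF : Fintype.card F = q) {n r : ℕ} (hn : 2 ≤ n)
    (hr : r.Prime) (hrq : r ∣ q - 1) :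
    Nat.card {C : ConjClasses (GL (Fin n) F ⧸ Subgroup.center (GL (Fin n) F)) //
      ∃ g : GL (Fin n) F ⧸ Subgroup.center (GL (Fin n) F), ConjClasses.mk g = C ∧ orderOf g = r} =
    (Nat.choose (n + r - 1) (r - 1) - r - (if r ∣ n then 1 else 0)) / r +
      r * (if r ∣ n then 1 else 0) := by
  classical
  subst hF
  have hcardN := card_roots r hr hrq
  have : Fintype ↥(rootsOfUnity r F) := Fintype.ofFinite _
  have hcardF : Fintype.card (rootsOfUnity r F) = r := by
    rw [← Nat.card_eq_fintype_card]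
    exact hcardN
  have hn0 : 0 < n := by omega
  -- type A representatives
  have hexA : ∀ a : YY F r n, ∃ g : GL (Fin n) F, g ^ r = 1 ∧
      ∀ z : rootsOfUnity r F, dd g (z : Fˣ) = (a.1 z : ℕ) :=
    fun a => exists_of_tuple r hr.pos hcardF (fun z => (a.1 z : ℕ)) a.2
  choose gA hgA1 hgA2 using hexA
  -- type B representatives
  have hexB : ∀ c : Fˣ, ∃ g : GL (Fin n) F, (c ∉ Pw F r → r ∣ n → g ^ r = Sc F n c) := by
    intro c
    by_cases h : c ∉ Pw F r ∧ r ∣ n
    · obtain ⟨g, hg⟩ := exists_B r hr c h.1 h.2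
      exact ⟨g, fun _ _ => hg⟩
    · exact ⟨1, fun h1 h2 => absurd ⟨h1, h2⟩ h⟩
  choose gB hgB using hexB
  let Rep : Quotient (MulAction.orbitRel (rootsOfUnity r F) (YY F r n)) ⊕
      {u : Fˣ ⧸ Pw F r // u ≠ 1 ∧ r ∣ n} → GL (Fin n) F := fun idx =>
    match idx with
    | Sum.inl o => gA (Quotient.out o)
    | Sum.inr u => gB (Quotient.out u.1)
  have hBout : ∀ u : {u : Fˣ ⧸ Pw F r // u ≠ 1 ∧ r ∣ n}, Quotient.out u.1 ∉ Pw F r := by
    intro u hmem
    apply u.2.1
    rw [← QuotientGroup.out_eq' u.1, QuotientGroup.eq_one_iff]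
    exact hmem
  have hRepB : ∀ u : {u : Fˣ ⧸ Pw F r // u ≠ 1 ∧ r ∣ n},
      gB (Quotient.out u.1) ^ r = Sc F n (Quotient.out u.1) :=
    fun u => hgB _ (hBout u) u.2.2
  have hnsA : ∀ (a : YY F r n) (c : Fˣ), gA a ≠ Sc F n c := by
    intro a c h
    have hex : ∃ z : rootsOfUnity r F, (a.1 z : ℕ) ≠ 0 := by
      by_contra hcon
      push Not at hcon
      have := a.2
      rw [Finset.sum_congr rfl (fun z _ => hcon z), Finset.sum_const_zero] at this
      omega
    obtain ⟨z, hz⟩ := hex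
    have h1 := hgA2 a z
    rw [h] at h1
    by_cases hcz : c = (z : Fˣ)
    · rw [hcz, dd_scalar_eq] at h1
      have := (a.1 z).isLt
      omega
    · rw [dd_scalar_ne c z hcz] at h1
      exact hz h1.symm
  -- each representative has order r
  have R1 : ∀ idx, orderOf (QuotientGroup.mk (Rep idx) :
      GL (Fin n) F ⧸ Subgroup.center (GL (Fin n) F)) = r := by
    intro idx
    rw [order_iff r hr]
    rcases idx with o | u
    · exact ⟨hnsA _, 1, by rw [map_one]; exact hgA1 _⟩
    · refine ⟨fun c h => hBout u ?_, _, hRepB u⟩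
      have h1 := hRepB u
      have h2 : gB (Quotient.out u.1) = Sc F n c := h
      rw [h2, ← map_pow] at h1
      rw [mem_Pw]
      exact ⟨c, Sc_inj hn0 h1⟩
  -- distinct representatives are not projectively conjugate
  have R2 : ∀ idx idx', (∃ x : GL (Fin n) F, ∃ c : Fˣ,
      Rep idx' = Sc F n c * (x * Rep idx * x⁻¹)) → idx = idx' := by
    intro idx idx' hpc
    rcases idx with o | u <;> rcases idx' with o' | u'
    · obtain ⟨w, hw⟩ := (pc_torsion r hn0 hr.pos hcardF _ _ (hgA1 _) (hgA1 _)).mp hpc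
      have h1 : Quotient.out o' = w • Quotient.out o := by
        apply Subtype.ext
        funext z
        apply Fin.ext
        have := hw z
        rw [hgA2, hgA2] at this
        exact this
      have h2 : o' = o := by
        rw [← Quotient.out_eq o', ← Quotient.out_eq o]
        apply Quotient.sound
        change (MulAction.orbitRel (rootsOfUnity r F) (YY F r n)).r _ _
        rw [MulAction.orbitRel_apply, MulAction.mem_orbit_iff]
        exact ⟨w, h1.symm⟩
      rw [h2]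
    · exfalso
      obtain ⟨x, c, hx⟩ := hpc
      have h1 := hRepB u'
      have h2 : gB (Quotient.out u'.1) = Sc F n c * (x * gA (Quotient.out o) * x⁻¹) := hx
      rw [h2, pow_conj_Sc c 1 x _ r (by rw [map_one]; exact hgA1 _), mul_one] at h1
      apply hBout u'
      rw [mem_Pw]
      exact ⟨c, Sc_inj hn0 h1⟩
    · exfalso
      obtain ⟨x, c, hx⟩ := hpc
      have h1 := hgA1 (Quotient.out o')
      have h2 : gA (Quotient.out o') = Sc F n c * (x * gB (Quotient.out u.1) * x⁻¹) := hx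
      rw [h2, pow_conj_Sc c _ x _ r (hRepB u), ← map_one (Sc F n)] at h1
      have h3 := Sc_inj hn0 h1
      apply hBout u
      rw [mem_Pw]
      refine ⟨c⁻¹, ?_⟩
      rw [inv_pow]
      exact inv_eq_of_mul_eq_one_right h3
    · obtain ⟨x, c, hx⟩ := hpc
      have h1 := hRepB u'
      have h2 : gB (Quotient.out u'.1) = Sc F n c * (x * gB (Quotient.out u.1) * x⁻¹) := hx
      rw [h2, pow_conj_Sc c _ x _ r (hRepB u)] at h1
      have h3 := Sc_inj hn0 h1
      have h4 : u.1 = u'.1 := by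
        rw [← QuotientGroup.out_eq' u.1, ← QuotientGroup.out_eq' u'.1, QuotientGroup.eq, mem_Pw]
        refine ⟨c, ?_⟩
        rw [← h3, mul_comm (c ^ r), inv_mul_cancel_left]
      rw [Subtype.ext h4]
  -- every element of order r is projectively conjugate to a representative
  have R3 : ∀ g : GL (Fin n) F, orderOf (QuotientGroup.mk g :
      GL (Fin n) F ⧸ Subgroup.center (GL (Fin n) F)) = r →
      ∃ idx, ∃ x : GL (Fin n) F, ∃ c : Fˣ, Rep idx = Sc F n c * (x * g * x⁻¹) := by
    intro g hg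
    rw [order_iff r hr] at hg
    obtain ⟨hns, κ, hκ⟩ := hg
    by_cases hP : κ ∈ Pw F r
    · obtain ⟨l, hl⟩ := (mem_Pw r κ).mp hP
      have hg0 : (Sc F n l⁻¹ * g) ^ r = 1 := by
        rw [Sc_mul_pow, hκ, ← map_mul, inv_pow, hl, inv_mul_cancel, map_one]
      have hsum := sum_dd r hr.pos hcardF _ hg0
      have hlt : ∀ z : rootsOfUnity r F, dd (Sc F n l⁻¹ * g) (z : Fˣ) < n := by
        intro z
        have hle : dd (Sc F n l⁻¹ * g) (z : Fˣ) ≤ n :=
          (Finset.single_le_sum (f := fun z : rootsOfUnity r F => dd (Sc F n l⁻¹ * g) (z : Fˣ))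
            (fun _ _ => Nat.zero_le _) (Finset.mem_univ z)).trans_eq hsum
        rcases Nat.lt_or_ge (dd (Sc F n l⁻¹ * g) (z : Fˣ)) n with h | h
        · exact h
        · exfalso
          have h1 := eq_scalar_of_dd _ _ (le_antisymm hle h)
          apply hns (l * z)
          rw [map_mul, ← h1, ← mul_assoc, ← map_mul, mul_inv_cancel, map_one, one_mul]
      let a : YY F r n := ⟨fun z => ⟨dd (Sc F n l⁻¹ * g) (z : Fˣ), hlt z⟩, hsum⟩
      have hout : ∃ w : rootsOfUnity r F, w • a = Quotient.out (Quotient.mk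
          (MulAction.orbitRel (rootsOfUnity r F) (YY F r n)) a) := by
        have h1 := Quotient.mk_out (s := MulAction.orbitRel (rootsOfUnity r F) (YY F r n)) a
        change (MulAction.orbitRel (rootsOfUnity r F) (YY F r n)).r _ _ at h1
        rw [MulAction.orbitRel_apply, MulAction.mem_orbit_iff] at h1
        exact h1
      obtain ⟨w, hw⟩ := hout
      have hpc := (pc_torsion r hn0 hr.pos hcardF (Sc F n l⁻¹ * g)
        (gA (Quotient.out (Quotient.mk (MulAction.orbitRel (rootsOfUnity r F) (YY F r n)) a)))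
        hg0 (hgA1 _)).mpr ⟨w, fun z => by
          rw [hgA2, ← hw]
          rfl⟩
      obtain ⟨x, c, hx⟩ := hpc
      refine ⟨Sum.inl (Quotient.mk (MulAction.orbitRel (rootsOfUnity r F) (YY F r n)) a),
        x, c * l⁻¹, ?_⟩
      change gA _ = _
      rw [hx, Sc_conj, ← mul_assoc, ← map_mul]
    · have hrn := dvd_B r hr κ hP g hκ
      have hne : (QuotientGroup.mk κ : Fˣ ⧸ Pw F r) ≠ 1 := by
        rw [ne_eq, QuotientGroup.eq_one_iff]
        exact hP
      have h1 : κ⁻¹ * Quotient.out (QuotientGroup.mk κ : Fˣ ⧸ Pw F r) ∈ Pw F r := by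
        rw [← QuotientGroup.eq, QuotientGroup.out_eq']
      obtain ⟨l, hl⟩ := (mem_Pw r _).mp h1
      have h2 : (Sc F n l * g) ^ r = Sc F n (Quotient.out (QuotientGroup.mk κ : Fˣ ⧸ Pw F r)) := by
        rw [Sc_mul_pow, hκ, ← map_mul, hl]
        congr 1
        rw [mul_comm, ← mul_assoc, mul_inv_cancel, one_mul]
      have h3 := hRepB ⟨QuotientGroup.mk κ, hne, hrn⟩
      have h4 := conj_B r hr _ (hBout ⟨QuotientGroup.mk κ, hne, hrn⟩) _ _ h2 h3
      obtain ⟨x, hx⟩ := isConj_iff.mp h4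
      refine ⟨Sum.inr ⟨QuotientGroup.mk κ, hne, hrn⟩, x, l, ?_⟩
      change gB _ = _
      rw [← hx, Sc_conj]
  -- the bijection
  let Ξ : Quotient (MulAction.orbitRel (rootsOfUnity r F) (YY F r n)) ⊕
      {u : Fˣ ⧸ Pw F r // u ≠ 1 ∧ r ∣ n} →
      {C : ConjClasses (GL (Fin n) F ⧸ Subgroup.center (GL (Fin n) F)) //
        ∃ g : GL (Fin n) F ⧸ Subgroup.center (GL (Fin n) F), ConjClasses.mk g = C ∧ orderOf g = r} :=
    fun idx => ⟨ConjClasses.mk (QuotientGroup.mk (Rep idx)), QuotientGroup.mk (Rep idx), rfl, R1 idx⟩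
  have hΞ : Function.Bijective Ξ := by
    constructor
    · intro idx idx' h
      have h1 := congrArg Subtype.val h
      simp only [Ξ] at h1
      rw [mk_eq_iff'] at h1
      exact R2 idx idx' h1
    · rintro ⟨C, gbar, rfl, hg⟩
      obtain ⟨g, rfl⟩ := QuotientGroup.mk_surjective gbar
      obtain ⟨idx, hidx⟩ := R3 g hg
      refine ⟨idx, ?_⟩
      apply Subtype.ext
      simp only [Ξ]
      exact ((mk_eq_iff' g (Rep idx)).mpr hidx).symm
  rw [← Nat.card_congr (Equiv.ofBijective Ξ hΞ), Nat.card_sum]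
  have hQ := card_orbits (F := F) r n hr hcardF hn
  have hIB : Nat.card {u : Fˣ ⧸ Pw F r // u ≠ 1 ∧ r ∣ n} = (r - 1) * (if r ∣ n then 1 else 0) := by
    by_cases hrn : r ∣ n
    · rw [if_pos hrn, mul_one]
      change Nat.card ↥{u : Fˣ ⧸ Pw F r | u ≠ 1 ∧ r ∣ n} = r - 1
      rw [Nat.card_coe_set_eq]
      have h1 : {u : Fˣ ⧸ Pw F r | u ≠ 1 ∧ r ∣ n} = Set.univ \ {1} := by
        ext u
        simp [hrn]
      rw [h1, Set.ncard_sdiff_singleton_of_mem (Set.mem_univ _), Set.ncard_univ,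
        ← Subgroup.index_eq_card, index_Pw r hr hrq]
    · rw [if_neg hrn, mul_zero, Nat.card_eq_zero]
      left
      exact ⟨fun u => hrn u.2.2⟩
  rw [hIB]
  generalize Nat.card (Quotient (MulAction.orbitRel (rootsOfUnity r F) (YY F r n))) = N at hQ ⊢
  generalize Nat.choose (n + r - 1) (r - 1) = Cc at hQ ⊢
  have hr2 := hr.two_le
  by_cases hrn : r ∣ n
  · rw [if_pos hrn, mul_one] at hQ ⊢
    have hN : 1 ≤ N := by
      rcases Nat.eq_zero_or_pos N with h | h
      · rw [h, zero_mul] at hQ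
        omega
      · exact h
    obtain ⟨N', rfl⟩ : ∃ N', N = N' + 1 := ⟨N - 1, by omega⟩
    rw [add_mul, one_mul] at hQ
    have h5 : Cc - r - 1 = N' * r := by omega
    rw [h5, Nat.mul_div_cancel _ hr.pos]
    omega
  · rw [if_neg hrn, mul_zero, add_zero] at hQ ⊢
    rw [Nat.sub_zero, ← hQ, Nat.mul_div_cancel _ hr.pos, mul_zero, add_zero]

end Cfsg.Agent.Helper14.PGLPrime
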