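import Mathlib
import Cfsg.Prelude.Def_LieRecognition

set_option autoImplicit false

namespace Cfsg.Agent.Helper14

open MulAction

variable {G Ω : Type*} [Group G] [MulAction G Ω] {a : Ω} {t : G} {Q : Subgroup G}

theorem ro_tt (hS : Cfsg.IsRankOneSetup G Ω a t Q) : t • t • a = a := by
  rw [← mul_smul, hS.mul_self, one_smul]

theorem ro_ne (hS : Cfsg.IsRankOneSetup G Ω a t Q) : t • a ≠ a :=
  fun h => hS.not_mem (mem_stabilizer_iff.mpr h)

theorem ro_inv (hS : Cfsg.IsRankOneSetup G Ω a t Q) : t⁻¹ = t :=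
  inv_eq_of_mul_eq_one_left hS.mul_self

theorem ro_Q_fix (hS : Cfsg.IsRankOneSetup G Ω a t Q) {x : G} (hx : x ∈ Q) : x • a = a :=
  mem_stabilizer_iff.mp (hS.le hx)

/-- decomposition `G_a = Q D` -/
theorem ro_decomp (hS : Cfsg.IsRankOneSetup G Ω a t Q) {h : G} (hh : h ∈ stabilizer G a) :
    ∃ x ∈ Q, ∃ d ∈ stabilizer G a ⊓ stabilizer G (t • a), h = x * d := by
  let S : Subgroup G :=
    { carrier := {g | ∃ x ∈ Q, ∃ d ∈ stabilizer G a ⊓ stabilizer G (t • a), g = x * d}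
      mul_mem' := by
        rintro _ _ ⟨x, hx, d, hd, rfl⟩ ⟨x', hx', d', hd', rfl⟩
        exact ⟨x * (d * x' * d⁻¹), Q.mul_mem hx (hS.conj_mem d hd.1 x' hx'), d * d',
          mul_mem hd hd', by group⟩
      one_mem' := ⟨1, Q.one_mem, 1, one_mem _, by simp⟩
      inv_mem' := by
        rintro _ ⟨x, hx, d, hd, rfl⟩
        exact ⟨d⁻¹ * x⁻¹ * d⁻¹⁻¹, hS.conj_mem d⁻¹ (inv_mem hd.1) x⁻¹ (inv_mem hx), d⁻¹,
          inv_mem hd, by group⟩ }
  have hle : Q ⊔ (stabilizer G a ⊓ stabilizer G (t • a)) ≤ S :=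
    sup_le (fun x hx => ⟨x, hx, 1, one_mem _, by simp⟩) (fun d hd => ⟨1, Q.one_mem, d, hd, by simp⟩)
  rw [hS.sup_eq] at hle
  exact hle hh

theorem ro_QD_bot (hS : Cfsg.IsRankOneSetup G Ω a t Q) {x : G} (hx : x ∈ Q)
    (hxb : x • (t • a) = t • a) : x = 1 := by
  have : x ∈ Q ⊓ stabilizer G (t • a) := ⟨hx, mem_stabilizer_iff.mpr hxb⟩
  rw [hS.inf_eq_bot] at this
  exact Subgroup.mem_bot.mp this

/-- `Q` is transitive on the points other than `a` -/
theorem ro_trans (hS : Cfsg.IsRankOneSetup G Ω a t Q) {c : Ω} (hc : c ≠ a) :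
    ∃ x ∈ Q, x • (t • a) = c := by
  obtain ⟨h, h1, h2⟩ := (is_two_pretransitive_iff.mp hS.two_transitive) (ro_ne hS).symm hc.symm
  obtain ⟨x, hx, d, hd, rfl⟩ := ro_decomp hS (mem_stabilizer_iff.mpr h1)
  refine ⟨x, hx, ?_⟩
  rw [mul_smul, mem_stabilizer_iff.mp hd.2] at h2
  exact h2

/-- `Q` is semiregular off `a` -/
theorem ro_semireg (hS : Cfsg.IsRankOneSetup G Ω a t Q) {x : G} (hx : x ∈ Q) {c : Ω} (hc : c ≠ a)
    (hxc : x • c = c) : x = 1 := by
  obtain ⟨y, hy, rfl⟩ := ro_trans hS hc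
  have h1 : (y⁻¹ * x * y) • (t • a) = t • a := by
    rw [mul_smul, mul_smul, hxc, inv_smul_smul]
  have h2 : y⁻¹ * x * y ∈ Q := Q.mul_mem (Q.mul_mem (Q.inv_mem hy) hx) hy
  have h3 := ro_QD_bot hS h2 h1
  have : x = y * (y⁻¹ * x * y) * y⁻¹ := by group
  rw [this, h3]
  group

theorem ro_fix_iff (hS : Cfsg.IsRankOneSetup G Ω a t Q) {x : G} (hx : x ∈ Q) (hx1 : x ≠ 1) (c : Ω) :
    x • c = c ↔ c = a :=
  ⟨fun h => by_contra fun hc => hx1 (ro_semireg hS hx hc h), fun h => by rw [h]; exact ro_Q_fix hS hx⟩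

theorem ro_regular (hS : Cfsg.IsRankOneSetup G Ω a t Q) {c d : Ω} (hc : c ≠ a) (hd : d ≠ a) :
    ∃! x : Q, (x : G) • c = d := by
  obtain ⟨y, hy, rfl⟩ := ro_trans hS hc
  obtain ⟨z, hz, rfl⟩ := ro_trans hS hd
  refine ⟨⟨z * y⁻¹, Q.mul_mem hz (Q.inv_mem hy)⟩, ?_, ?_⟩
  · show (z * y⁻¹) • y • t • a = z • t • a
    rw [mul_smul, inv_smul_smul]
  · rintro ⟨w, hw⟩ hwc
    apply Subtype.ext
    show w = z * y⁻¹
    have hwc' : w • y • t • a = z • t • a := hwc
    have h1 : (z⁻¹ * w * y) • (t • a) = t • a := by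
      rw [mul_smul, mul_smul, hwc', inv_smul_smul]
    have h3 := ro_QD_bot hS (Q.mul_mem (Q.mul_mem (Q.inv_mem hz) hw) hy) h1
    have : w = z * (z⁻¹ * w * y) * y⁻¹ := by group
    rw [this, h3]
    group

/-- uniqueness of the `Q D` decomposition -/
theorem ro_decomp_unique (hS : Cfsg.IsRankOneSetup G Ω a t Q) {x x' d d' : G} (hx : x ∈ Q)
    (hx' : x' ∈ Q) (hd : d ∈ stabilizer G a ⊓ stabilizer G (t • a))
    (hd' : d' ∈ stabilizer G a ⊓ stabilizer G (t • a)) (h : x * d = x' * d') : x = x' ∧ d = d' := by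
  have h1 : x'⁻¹ * x = d' * d⁻¹ := by
    calc x'⁻¹ * x = x'⁻¹ * (x * d) * d⁻¹ := by group
      _ = x'⁻¹ * (x' * d') * d⁻¹ := by rw [h]
      _ = d' * d⁻¹ := by group
  have h2 : x'⁻¹ * x ∈ Q := Q.mul_mem (Q.inv_mem hx') hx
  have h3 : (x'⁻¹ * x) • (t • a) = t • a := by
    rw [h1]
    exact mem_stabilizer_iff.mp (mul_mem hd' (inv_mem hd)).2
  have h4 := ro_QD_bot hS h2 h3
  constructor
  · exact (inv_mul_eq_one.mp h4).symm
  · rw [h4] at h1
    exact (mul_inv_eq_one.mp h1.symm).symm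

/-- elements of the odd-order group `D` of order dividing 2 are trivial -/
theorem ro_D_sq [Finite G] (hS : Cfsg.IsRankOneSetup G Ω a t Q) {d : G}
    (hd : d ∈ stabilizer G a ⊓ stabilizer G (t • a)) (hdd : d * d = 1) : d = 1 := by
  have hodd := hS.odd_card
  have ho : orderOf (⟨d, hd⟩ : ↥(stabilizer G a ⊓ stabilizer G (t • a))) ∣
      Nat.card ↥(stabilizer G a ⊓ stabilizer G (t • a)) := orderOf_dvd_natCard _
  have ho2 : orderOf (⟨d, hd⟩ : ↥(stabilizer G a ⊓ stabilizer G (t • a))) ∣ 2 :=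
    orderOf_dvd_of_pow_eq_one (by
      apply Subtype.ext
      simp [pow_two, hdd])
  have h1 : orderOf (⟨d, hd⟩ : ↥(stabilizer G a ⊓ stabilizer G (t • a))) = 1 := by
    rcases (Nat.dvd_prime Nat.prime_two).mp ho2 with h | h
    · exact h
    · exfalso
      rw [h] at ho
      exact (Nat.not_even_iff_odd.mpr hodd) (even_iff_two_dvd.mpr ho)
  have := orderOf_eq_one_iff.mp h1
  exact congrArg Subtype.val this

/-- involutions of `G_a` lie in `Q` -/
theorem ro_invol_mem_Q [Finite G] (hS : Cfsg.IsRankOneSetup G Ω a t Q) {s : G}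
    (hs : s ∈ stabilizer G a) (hs2 : s * s = 1) : s ∈ Q := by
  obtain ⟨x, hx, d, hd, rfl⟩ := ro_decomp hS hs
  have hdd : d * d ∈ Q := by
    have h' : d * x * d = x⁻¹ := by
      calc d * x * d = x⁻¹ * (x * d * (x * d)) := by group
        _ = x⁻¹ := by rw [hs2, mul_one]
    have : d * d = (d * x * d⁻¹)⁻¹ * x⁻¹ := by
      calc d * d = (d * x * d⁻¹)⁻¹ * (d * x * d) := by group
        _ = (d * x * d⁻¹)⁻¹ * x⁻¹ := by rw [h']
    rw [this]
    exact Q.mul_mem (Q.inv_mem (hS.conj_mem d hd.1 x hx)) (Q.inv_mem hx)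
  have hdd1 : d * d = 1 := ro_QD_bot hS hdd (by
    rw [mul_smul, mem_stabilizer_iff.mp hd.2, mem_stabilizer_iff.mp hd.2])
  rw [ro_D_sq hS hd hdd1, mul_one]
  exact hx

/-- an involution of `G_a` fixes only `a` -/
theorem ro_invol_fix [Finite G] (hS : Cfsg.IsRankOneSetup G Ω a t Q) {s : G}
    (hs : s ∈ stabilizer G a) (hs1 : s ≠ 1) (hs2 : s * s = 1) (c : Ω) : s • c = c ↔ c = a :=
  ro_fix_iff hS (ro_invol_mem_Q hS hs hs2) hs1 c

/-- `Q` contains an involution -/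
theorem ro_exists_invol [Finite G] (hS : Cfsg.IsRankOneSetup G Ω a t Q) :
    ∃ s ∈ Q, s ≠ 1 ∧ s * s = 1 := by
  have h2 : 2 ∣ Nat.card Q := even_iff_two_dvd.mp hS.even_card
  obtain ⟨x, hx⟩ := exists_prime_orderOf_dvd_card' (G := Q) 2 h2
  refine ⟨x.1, x.2, ?_, ?_⟩
  · intro h
    have : x = 1 := Subtype.ext h
    rw [this, orderOf_one] at hx
    exact absurd hx (by norm_num)
  · have := pow_orderOf_eq_one x
    rw [hx] at this
    have := congrArg Subtype.val this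
    simpa [pow_two] using this

theorem ro_card_Omega [Finite G] (hS : Cfsg.IsRankOneSetup G Ω a t Q) :
    Nat.card Ω = Nat.card Q + 1 := by
  classical
  let f : Option Q → Ω := fun o => match o with
    | none => a
    | some x => (x : G) • (t • a)
  have hne : ∀ x : Q, (x : G) • (t • a) ≠ a := by
    intro x h
    have h1 : (x : G)⁻¹ • a = a := ro_Q_fix hS (Q.inv_mem x.2)
    have h2 : t • a = a := by
      calc t • a = (x : G)⁻¹ • ((x : G) • (t • a)) := (inv_smul_smul _ _).symm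
        _ = (x : G)⁻¹ • a := by rw [h]
        _ = a := h1
    exact ro_ne hS h2
  have hf : Function.Bijective f := by
    constructor
    · intro o o' h
      rcases o with _ | x <;> rcases o' with _ | x'
      · rfl
      · exact absurd h.symm (hne x')
      · exact absurd h (hne x)
      · have h' : (x : G) • (t • a) = (x' : G) • (t • a) := h
        have := (ro_regular hS (ro_ne hS) (hne x')).unique h' rfl
        rw [this]
    · intro c
      by_cases hc : c = a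
      · exact ⟨none, hc.symm⟩
      · obtain ⟨x, hx, hxc⟩ := ro_trans hS hc
        exact ⟨some ⟨x, hx⟩, hxc⟩
  rw [← Nat.card_congr (Equiv.ofBijective f hf), Finite.card_option]

theorem ro_card_stab [Finite G] (hS : Cfsg.IsRankOneSetup G Ω a t Q) :
    Nat.card (stabilizer G a) =
      Nat.card Q * Nat.card ↥(stabilizer G a ⊓ stabilizer G (t • a)) := by
  let f : Q × ↥(stabilizer G a ⊓ stabilizer G (t • a)) → stabilizer G a := fun p =>
    ⟨(p.1 : G) * (p.2 : G), mul_mem (hS.le p.1.2) p.2.2.1⟩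
  have hf : Function.Bijective f := by
    constructor
    · rintro ⟨x, d⟩ ⟨x', d'⟩ h
      have h' : (x : G) * (d : G) = (x' : G) * (d' : G) := congrArg Subtype.val h
      obtain ⟨h1, h2⟩ := ro_decomp_unique hS x.2 x'.2 d.2 d'.2 h'
      exact Prod.ext (Subtype.ext h1) (Subtype.ext h2)
    · rintro ⟨h, hh⟩
      obtain ⟨x, hx, d, hd, rfl⟩ := ro_decomp hS hh
      exact ⟨(⟨x, hx⟩, ⟨d, hd⟩), rfl⟩
  rw [← Nat.card_congr (Equiv.ofBijective f hf), Nat.card_prod]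

theorem ro_pretrans (hS : Cfsg.IsRankOneSetup G Ω a t Q) : IsPretransitive G Ω :=
  have := hS.two_transitive
  isPretransitive_of_is_two_pretransitive

theorem ro_card_G [Finite G] (hS : Cfsg.IsRankOneSetup G Ω a t Q) :
    Nat.card G =
      Nat.card Q * Nat.card ↥(stabilizer G a ⊓ stabilizer G (t • a)) * (Nat.card Q + 1) := by
  have := ro_pretrans hS
  rw [← ro_card_stab hS, ← ro_card_Omega hS, ← index_stabilizer_of_transitive G a,
    Subgroup.card_mul_index]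

/-- involutions whose product has odd order are conjugate -/
theorem conj_of_odd {H : Type*} [Group H] (s u : H) (hs : s * s = 1) (hu : u * u = 1)
    (hodd : Odd (orderOf (s * u))) : ∃ g, g * s * g⁻¹ = u := by
  obtain ⟨k, hk⟩ := hodd
  obtain ⟨ρ, hρ⟩ : ∃ ρ, ρ = s * u := ⟨_, rfl⟩
  rw [← hρ] at hk
  have hsinv : s⁻¹ = s := inv_eq_of_mul_eq_one_left hs
  have huinv : u⁻¹ = u := inv_eq_of_mul_eq_one_left hu
  have h1 : s * ρ * s⁻¹ = ρ⁻¹ := by
    rw [hρ, mul_inv_rev, hsinv, huinv, ← mul_assoc, hs, one_mul]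
  have h2 : s * ρ ^ k * s⁻¹ = (ρ ^ k)⁻¹ := by rw [← conj_pow, h1, inv_pow]
  have h3 : ρ ^ (2 * k) * ρ = 1 := by
    rw [← pow_succ, ← hk]
    exact pow_orderOf_eq_one ρ
  have h4 : s * (ρ ^ k)⁻¹ = ρ ^ k * s := by
    have h5 : s * (ρ ^ k)⁻¹ * s⁻¹ = ρ ^ k := by
      calc s * (ρ ^ k)⁻¹ * s⁻¹ = (s * ρ ^ k * s⁻¹)⁻¹ := by group
        _ = ρ ^ k := by rw [h2, inv_inv]
    calc s * (ρ ^ k)⁻¹ = (s * (ρ ^ k)⁻¹ * s⁻¹) * s := by group
      _ = ρ ^ k * s := by rw [h5]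
  have h6 : ρ ^ (2 * k) = ρ⁻¹ := eq_inv_of_mul_eq_one_left h3
  refine ⟨ρ ^ k * s, ?_⟩
  calc ρ ^ k * s * s * (ρ ^ k * s)⁻¹ = ρ ^ k * (s * (ρ ^ k)⁻¹) := by
        rw [mul_inv_rev, hsinv, mul_assoc (ρ ^ k) s s, hs, mul_one, ← mul_assoc]
    _ = ρ ^ (2 * k) * s := by rw [h4, ← mul_assoc, ← pow_add, two_mul]
    _ = u := by rw [h6, hρ, mul_inv_rev, hsinv, huinv, mul_assoc, hs, mul_one]

/-- the product of an involution of `G_a` and an involution outside `G_a` has odd order -/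
theorem ro_odd_order [Finite G] (hS : Cfsg.IsRankOneSetup G Ω a t Q) {s u : G}
    (hs : s ∈ stabilizer G a) (hs1 : s ≠ 1) (hs2 : s * s = 1) (hu : u ∉ stabilizer G a)
    (hu2 : u * u = 1) : Odd (orderOf (s * u)) := by
  by_contra hodd
  rw [Nat.not_odd_iff_even] at hodd
  obtain ⟨k, hk⟩ := hodd
  have hpos : 0 < orderOf (s * u) := orderOf_pos _
  obtain ⟨ρ, hρ⟩ : ∃ ρ, ρ = s * u := ⟨_, rfl⟩
  rw [← hρ] at hk hpos
  have hk0 : 0 < k := by omega
  obtain ⟨z, hz⟩ : ∃ z, z = ρ ^ k := ⟨_, rfl⟩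
  have hz1 : z ≠ 1 := by
    intro h
    rw [hz] at h
    have := orderOf_le_of_pow_eq_one hk0 h
    omega
  have hz2 : z * z = 1 := by
    rw [hz, ← pow_add, ← hk]
    exact pow_orderOf_eq_one ρ
  have hzinv : z⁻¹ = z := inv_eq_of_mul_eq_one_left hz2
  have hsinv : s⁻¹ = s := inv_eq_of_mul_eq_one_left hs2
  have huinv : u⁻¹ = u := inv_eq_of_mul_eq_one_left hu2
  have hsρ : s * ρ * s⁻¹ = ρ⁻¹ := by
    rw [hρ, mul_inv_rev, hsinv, huinv, ← mul_assoc, hs2, one_mul]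
  have huρ : u * ρ * u⁻¹ = ρ⁻¹ := by
    rw [hρ, mul_inv_rev, hsinv, huinv, mul_assoc, mul_assoc, hu2, mul_one]
  have hsz : s * z * s⁻¹ = z := by
    rw [hz, ← conj_pow, hsρ, inv_pow, ← hz]
    exact hzinv
  have huz : u * z * u⁻¹ = z := by
    rw [hz, ← conj_pow, huρ, inv_pow, ← hz]
    exact hzinv
  have hza : z • a = a := by
    have h1 : s • (z • a) = z • a := by
      have hcomm : s * z = z * s := by
        calc s * z = (s * z * s⁻¹) * s := by group
          _ = z * s := by rw [hsz]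
      rw [← mul_smul, hcomm, mul_smul, mem_stabilizer_iff.mp hs]
    exact (ro_invol_fix hS hs hs1 hs2 (z • a)).mp h1
  have hzG : z ∈ stabilizer G a := mem_stabilizer_iff.mpr hza
  have hua : u • a = a := by
    have h1 : z • (u • a) = u • a := by
      have hcomm : z * u = u * z := by
        calc z * u = (u * z * u⁻¹) * u := by rw [huz]
          _ = u * z := by group
      rw [← mul_smul, hcomm, mul_smul, hza]
    exact (ro_invol_fix hS hzG hz1 hz2 (u • a)).mp h1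
  exact hu (mem_stabilizer_iff.mpr hua)

/-- all involutions are conjugate -/
theorem ro_all_conj [Finite G] (hS : Cfsg.IsRankOneSetup G Ω a t Q) {u v : G} (hu1 : u ≠ 1)
    (hu2 : u * u = 1) (hv1 : v ≠ 1) (hv2 : v * v = 1) : IsConj u v := by
  obtain ⟨s, hsQ, hs1, hs2⟩ := ro_exists_invol hS
  have hsG := hS.le hsQ
  have key : ∀ {x y : G}, x ∈ stabilizer G a → x ≠ 1 → x * x = 1 → y ∉ stabilizer G a →
      y * y = 1 → IsConj x y := by
    intro x y hx hx1 hx2 hy hy2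
    obtain ⟨g, hg⟩ := conj_of_odd x y hx2 hy2 (ro_odd_order hS hx hx1 hx2 hy hy2)
    exact isConj_iff.mpr ⟨g, hg⟩
  by_cases hu : u ∈ stabilizer G a
  · by_cases hv : v ∈ stabilizer G a
    · exact (key hu hu1 hu2 hS.not_mem hS.mul_self).trans
        (key hv hv1 hv2 hS.not_mem hS.mul_self).symm
    · exact key hu hu1 hu2 hv hv2
  · by_cases hv : v ∈ stabilizer G a
    · exact (key hv hv1 hv2 hu hu2).symm
    · exact (key hsG hs1 hs2 hu hu2).symm.trans (key hsG hs1 hs2 hv hv2)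

/-- every involution fixes exactly one point -/
theorem ro_invol_unique_fix [Finite G] (hS : Cfsg.IsRankOneSetup G Ω a t Q) {u : G} (hu1 : u ≠ 1)
    (hu2 : u * u = 1) : ∃! c : Ω, u • c = c := by
  obtain ⟨s, hsQ, hs1, hs2⟩ := ro_exists_invol hS
  obtain ⟨g, hg⟩ := isConj_iff.mp (ro_all_conj hS hs1 hs2 hu1 hu2)
  refine ⟨g • a, ?_, ?_⟩
  · show u • g • a = g • a
    rw [← hg, mul_smul, mul_smul, inv_smul_smul, ro_Q_fix hS hsQ]
  · intro c hc
    have h1 : s • (g⁻¹ • c) = g⁻¹ • c := by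
      have h2 : (g * s * g⁻¹) • c = c := by rw [hg]; exact hc
      rw [mul_smul, mul_smul] at h2
      calc s • (g⁻¹ • c) = g⁻¹ • (g • s • g⁻¹ • c) := by rw [inv_smul_smul]
        _ = g⁻¹ • c := by rw [h2]
    have h3 := (ro_fix_iff hS hsQ hs1 _).mp h1
    rw [← h3, smul_inv_smul]

end Cfsg.Agent.Helper14
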