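import Cfsg.Agent.Helper14.RankOne

set_option autoImplicit false

namespace Cfsg.Agent.Helper14

open MulAction

variable {G Ω : Type*} [Group G] [MulAction G Ω] {a : Ω} {t : G} {Q : Subgroup G}

/-- involutions whose product has odd order are conjugate by an involution (or the identity) -/
theorem conj_of_odd' {H : Type*} [Group H] (s u : H) (hs : s * s = 1) (hu : u * u = 1)
    (hodd : Odd (orderOf (s * u))) : ∃ j, j * j = 1 ∧ j * s * j = u := by
  obtain ⟨k, hk⟩ := hodd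
  obtain ⟨ρ, hρ⟩ : ∃ ρ, ρ = s * u := ⟨_, rfl⟩
  rw [← hρ] at hk
  have hsinv : s⁻¹ = s := inv_eq_of_mul_eq_one_left hs
  have huinv : u⁻¹ = u := inv_eq_of_mul_eq_one_left hu
  have h1 : s * ρ * s⁻¹ = ρ⁻¹ := by
    rw [hρ, mul_inv_rev, hsinv, huinv, ← mul_assoc, hs, one_mul]
  have h2 : s * ρ ^ k * s⁻¹ = (ρ ^ k)⁻¹ := by rw [← conj_pow, h1, inv_pow]
  have h2' : s * ρ ^ k * s = (ρ ^ k)⁻¹ := by rw [hsinv] at h2; exact h2
  have h3 : ρ ^ (2 * k) * ρ = 1 := by
    rw [← pow_succ, ← hk]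
    exact pow_orderOf_eq_one ρ
  have h6 : ρ ^ (2 * k) = ρ⁻¹ := eq_inv_of_mul_eq_one_left h3
  have h7 : s * ρ ^ k = (ρ ^ k)⁻¹ * s := by
    calc s * ρ ^ k = (s * ρ ^ k * s) * s⁻¹ := by group
      _ = (ρ ^ k)⁻¹ * s := by rw [h2', hsinv]
  have hjj : ρ ^ k * s * (ρ ^ k * s) = 1 := by
    calc ρ ^ k * s * (ρ ^ k * s) = ρ ^ k * (s * ρ ^ k * s) := by group
      _ = 1 := by rw [h2']; group
  refine ⟨ρ ^ k * s, hjj, ?_⟩
  have h8 : s * (ρ ^ k)⁻¹ = ρ ^ k * s := by
    calc s * (ρ ^ k)⁻¹ = s * (s * ρ ^ k * s) := by rw [h2']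
      _ = (s * s) * ρ ^ k * s := by group
      _ = ρ ^ k * s := by rw [hs, one_mul]
  calc ρ ^ k * s * s * (ρ ^ k * s) = ρ ^ k * (s * s) * ρ ^ k * s := by group
    _ = ρ ^ (2 * k) * s := by rw [hs, mul_one, ← pow_add, two_mul]
    _ = u := by rw [h6, hρ, mul_inv_rev, hsinv, huinv, mul_assoc, hs, mul_one]

/-- `t` normalises the two-point stabiliser -/
theorem ro_t_norm_D (hS : Cfsg.IsRankOneSetup G Ω a t Q) {d : G}
    (hd : d ∈ stabilizer G a ⊓ stabilizer G (t • a)) :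
    t * d * t⁻¹ ∈ stabilizer G a ⊓ stabilizer G (t • a) := by
  rw [ro_inv hS]
  refine Subgroup.mem_inf.mpr ⟨mem_stabilizer_iff.mpr ?_, mem_stabilizer_iff.mpr ?_⟩
  · rw [mul_smul, mul_smul, mem_stabilizer_iff.mp hd.2, ro_tt hS]
  · rw [mul_smul, mul_smul, ro_tt hS, mem_stabilizer_iff.mp hd.1]

/-- an involution swapping `a` and `t • a` gives an element of `K` -/
theorem ro_K_of_invol (hS : Cfsg.IsRankOneSetup G Ω a t Q) {u : G} (hu2 : u * u = 1)
    (hua : u • a = t • a) :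
    t * u ∈ Cfsg.invertedBy (stabilizer G a ⊓ stabilizer G (t • a)) t := by
  have huinv : u⁻¹ = u := inv_eq_of_mul_eq_one_left hu2
  have hub : u • (t • a) = a := by rw [← hua, ← mul_smul, hu2, one_smul]
  refine ⟨Subgroup.mem_inf.mpr ⟨mem_stabilizer_iff.mpr ?_, mem_stabilizer_iff.mpr ?_⟩, ?_⟩
  · rw [mul_smul, hua, ro_tt hS]
  · rw [mul_smul, hub]
  · rw [ro_inv hS, mul_inv_rev, ro_inv hS, huinv, ← mul_assoc, hS.mul_self, one_mul]

/-- an element of `K` gives an involution swapping `a` and `t • a` -/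
theorem ro_invol_of_K (hS : Cfsg.IsRankOneSetup G Ω a t Q) {k : G}
    (hk : k ∈ Cfsg.invertedBy (stabilizer G a ⊓ stabilizer G (t • a)) t) :
    (t * k) * (t * k) = 1 ∧ (t * k) • a = t • a := by
  constructor
  · have h := hk.2
    rw [ro_inv hS] at h
    calc t * k * (t * k) = (t * k * t) * k := by group
      _ = 1 := by rw [h]; group
  · rw [mul_smul, mem_stabilizer_iff.mp hk.1.1]

/-- `K`-conjugation is transitive on the involutions of `G_a` -/
theorem ro_K_conj [Finite G] (hS : Cfsg.IsRankOneSetup G Ω a t Q) {s s' : G}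
    (hs : s ∈ Cfsg.involutionsIn (stabilizer G a : Set G))
    (hs' : s' ∈ Cfsg.involutionsIn (stabilizer G a : Set G)) :
    ∃ k ∈ Cfsg.invertedBy (stabilizer G a ⊓ stabilizer G (t • a)) t, k⁻¹ * s * k = s' := by
  obtain ⟨hsG, hs1, hs2⟩ := hs
  obtain ⟨hs'G, hs'1, hs'2⟩ := hs'
  have htt := hS.mul_self
  have htinv := ro_inv hS
  -- v = t s t fixes only t • a
  have hv2 : (t * s * t) * (t * s * t) = 1 := by
    calc (t * s * t) * (t * s * t) = t * s * (t * t) * s * t := by group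
      _ = t * (s * s) * t := by rw [htt]; group
      _ = 1 := by rw [hs2, mul_one, htt]
  have hvfix : ∀ c : Ω, (t * s * t) • c = c → c = t • a := by
    intro c hc
    rw [mul_smul, mul_smul] at hc
    have h1 : s • (t • c) = t • c := by
      calc s • (t • c) = t • (t • s • t • c) := by rw [← mul_smul t t, htt, one_smul]
        _ = t • c := by rw [hc]
    have h2 := (ro_invol_fix hS hsG hs1 hs2 (t • c)).mp h1
    calc c = t • (t • c) := by rw [← mul_smul, htt, one_smul]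
      _ = t • a := by rw [h2]
  have hvG : t * s * t ∉ stabilizer G a := by
    intro h
    have := hvfix a (mem_stabilizer_iff.mp h)
    exact ro_ne hS this.symm
  obtain ⟨j, hjj, hj⟩ := conj_of_odd' s' (t * s * t) hs'2 hv2
    (ro_odd_order hS hs'G hs'1 hs'2 hvG hv2)
  have hja : j • a = t • a := by
    apply hvfix
    rw [← hj, mul_smul, mul_smul, ← mul_smul j j, hjj, one_smul, mem_stabilizer_iff.mp hs'G]
  have hjinv : j⁻¹ = j := inv_eq_of_mul_eq_one_left hjj
  refine ⟨t * j, ro_K_of_invol hS hjj hja, ?_⟩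
  rw [mul_inv_rev, hjinv, htinv]
  calc j * t * s * (t * j) = j * (t * s * t) * j := by group
    _ = j * (j * s' * j) * j := by rw [hj]
    _ = (j * j) * s' * (j * j) := by group
    _ = s' := by rw [hjj, one_mul, mul_one]

/-- the setup is unchanged when `t` is replaced by another involution swapping `a` and `t • a` -/
theorem ro_swap_setup (hS : Cfsg.IsRankOneSetup G Ω a t Q) {j : G} (hj2 : j * j = 1)
    (hja : j • a = t • a) : Cfsg.IsRankOneSetup G Ω a j Q where
  two_transitive := hS.two_transitive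
  mul_self := hj2
  ne_one := by
    rintro rfl
    rw [one_smul] at hja
    exact ro_ne hS hja.symm
  not_mem := by
    intro h
    rw [mem_stabilizer_iff, hja] at h
    exact ro_ne hS h
  le := hS.le
  conj_mem := hS.conj_mem
  inf_eq_bot := by rw [hja]; exact hS.inf_eq_bot
  sup_eq := by rw [hja]; exact hS.sup_eq
  even_card := hS.even_card
  odd_card := by rw [hja]; exact hS.odd_card

theorem ro_Q_smul_ne (hS : Cfsg.IsRankOneSetup G Ω a t Q) {x : G} (hx : x ∈ Q) :
    x • (t • a) ≠ a := by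
  intro h
  have h1 : x⁻¹ • a = a := ro_Q_fix hS (Q.inv_mem hx)
  have h2 : t • a = a := by
    calc t • a = x⁻¹ • (x • (t • a)) := (inv_smul_smul _ _).symm
      _ = x⁻¹ • a := by rw [h]
      _ = a := h1
  exact ro_ne hS h2

theorem ro_Q_inj (hS : Cfsg.IsRankOneSetup G Ω a t Q) {r r' : G} (hr : r ∈ Q) (hr' : r' ∈ Q)
    (h : r • (t • a) = r' • (t • a)) : r = r' := by
  have h1 : (r'⁻¹ * r) • (t • a) = t • a := by rw [mul_smul, h, inv_smul_smul]
  have h2 := ro_QD_bot hS (Q.mul_mem (Q.inv_mem hr') hr) h1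
  calc r = r' * (r'⁻¹ * r) := by group
    _ = r' := by rw [h2, mul_one]

/-- `|K|` equals the number of involutions of `G_a` -/
theorem ro_card_K [Finite G] (hS : Cfsg.IsRankOneSetup G Ω a t Q) :
    Nat.card (Cfsg.invertedBy (stabilizer G a ⊓ stabilizer G (t • a)) t) =
      Nat.card (Cfsg.involutionsIn (stabilizer G a : Set G)) := by
  classical
  have htt := hS.mul_self
  have htinv := ro_inv hS
  obtain ⟨J, hJ⟩ : ∃ J : Set G, J = {u | u ∉ stabilizer G a ∧ u * u = 1} := ⟨_, rfl⟩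
  have hmemJ : ∀ u, u ∈ J ↔ u ∉ stabilizer G a ∧ u * u = 1 := by
    intro u
    rw [hJ]
    rfl
  -- first map
  have h₁ : ∀ p : ↥Q × ↥(Cfsg.invertedBy (stabilizer G a ⊓ stabilizer G (t • a)) t),
      (p.1 : G) * (t * (p.2 : G)) * (p.1 : G)⁻¹ ∈ J := by
    rintro ⟨⟨r, hr⟩, ⟨k, hk⟩⟩
    obtain ⟨e1, e2⟩ := ro_invol_of_K hS hk
    rw [hmemJ]
    constructor
    · intro h
      rw [mem_stabilizer_iff, mul_smul, mul_smul, ro_Q_fix hS (Q.inv_mem hr), e2] at h
      exact ro_Q_smul_ne hS hr h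
    · show r * (t * k) * r⁻¹ * (r * (t * k) * r⁻¹) = 1
      calc r * (t * k) * r⁻¹ * (r * (t * k) * r⁻¹) = r * ((t * k) * (t * k)) * r⁻¹ := by group
        _ = 1 := by rw [e1]; group
  have hb₁ : Function.Bijective (fun p : ↥Q × ↥(Cfsg.invertedBy
      (stabilizer G a ⊓ stabilizer G (t • a)) t) => (⟨_, h₁ p⟩ : ↥J)) := by
    constructor
    · rintro ⟨⟨r, hr⟩, ⟨k, hk⟩⟩ ⟨⟨r', hr'⟩, ⟨k', hk'⟩⟩ h
      have h' : r * (t * k) * r⁻¹ = r' * (t * k') * r'⁻¹ := congrArg Subtype.val h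
      obtain ⟨_, e2⟩ := ro_invol_of_K hS hk
      obtain ⟨_, e2'⟩ := ro_invol_of_K hS hk'
      have h2 := congrArg (fun g : G => g • a) h'
      simp only [mul_smul] at h2
      rw [ro_Q_fix hS (Q.inv_mem hr), ro_Q_fix hS (Q.inv_mem hr')] at h2
      rw [← mul_smul t k, ← mul_smul t k', e2, e2'] at h2
      have hrr := ro_Q_inj hS hr hr' h2
      subst hrr
      have hkk : k = k' := by
        have : t * k = t * k' := by
          calc t * k = r⁻¹ * (r * (t * k) * r⁻¹) * r := by group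
            _ = r⁻¹ * (r * (t * k') * r⁻¹) * r := by rw [h']
            _ = t * k' := by group
        exact mul_left_cancel this
      subst hkk
      rfl
    · rintro ⟨u, hu⟩
      rw [hmemJ] at hu
      obtain ⟨huG, hu2⟩ := hu
      have hc : u • a ≠ a := fun h => huG (mem_stabilizer_iff.mpr h)
      obtain ⟨r, hr, hrc⟩ := ro_trans hS hc
      have hu'2 : (r⁻¹ * u * r) * (r⁻¹ * u * r) = 1 := by
        calc (r⁻¹ * u * r) * (r⁻¹ * u * r) = r⁻¹ * (u * u) * r := by group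
          _ = 1 := by rw [hu2]; group
      have hu'a : (r⁻¹ * u * r) • a = t • a := by
        rw [mul_smul, mul_smul, ro_Q_fix hS hr, ← hrc, inv_smul_smul]
      refine ⟨(⟨r, hr⟩, ⟨t * (r⁻¹ * u * r), ro_K_of_invol hS hu'2 hu'a⟩), ?_⟩
      apply Subtype.ext
      show r * (t * (t * (r⁻¹ * u * r))) * r⁻¹ = u
      calc r * (t * (t * (r⁻¹ * u * r))) * r⁻¹ = r * (t * t) * r⁻¹ * u * (r * r⁻¹) := by group
        _ = u := by rw [htt]; group
  -- second map
  have hfixpt : ∀ (r s : G), r ∈ Q → s ∈ Cfsg.involutionsIn (stabilizer G a : Set G) →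
      ∀ c : Ω, ((r * t) * s * (r * t)⁻¹) • c = c → c = r • (t • a) := by
    intro r s hr hs c hc
    have h1 : s • ((r * t)⁻¹ • c) = (r * t)⁻¹ • c := by
      rw [mul_smul, mul_smul] at hc
      calc s • ((r * t)⁻¹ • c) = (r * t)⁻¹ • ((r * t) • s • (r * t)⁻¹ • c) := by
            rw [inv_smul_smul]
        _ = (r * t)⁻¹ • c := by rw [hc]
    have h2 := (ro_invol_fix hS hs.1 hs.2.1 hs.2.2 _).mp h1
    calc c = (r * t) • ((r * t)⁻¹ • c) := by rw [smul_inv_smul]
      _ = r • (t • a) := by rw [h2, mul_smul]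
  have h₂ : ∀ p : ↥Q × ↥(Cfsg.involutionsIn (stabilizer G a : Set G)),
      ((p.1 : G) * t) * (p.2 : G) * ((p.1 : G) * t)⁻¹ ∈ J := by
    rintro ⟨⟨r, hr⟩, ⟨s, hs⟩⟩
    rw [hmemJ]
    constructor
    · intro h
      have := hfixpt r s hr hs a (mem_stabilizer_iff.mp h)
      exact ro_Q_smul_ne hS hr this.symm
    · show (r * t) * s * (r * t)⁻¹ * ((r * t) * s * (r * t)⁻¹) = 1
      calc (r * t) * s * (r * t)⁻¹ * ((r * t) * s * (r * t)⁻¹)
          = (r * t) * (s * s) * (r * t)⁻¹ := by group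
        _ = 1 := by rw [hs.2.2]; group
  have hb₂ : Function.Bijective (fun p : ↥Q × ↥(Cfsg.involutionsIn (stabilizer G a : Set G)) =>
      (⟨_, h₂ p⟩ : ↥J)) := by
    constructor
    · rintro ⟨⟨r, hr⟩, ⟨s, hs⟩⟩ ⟨⟨r', hr'⟩, ⟨s', hs'⟩⟩ h
      have h' : (r * t) * s * (r * t)⁻¹ = (r' * t) * s' * (r' * t)⁻¹ := congrArg Subtype.val h
      have hfix' : ((r * t) * s * (r * t)⁻¹) • (r' • (t • a)) = r' • (t • a) := by
        rw [h', mul_smul, mul_smul, ← mul_smul r' t a, inv_smul_smul,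
          mem_stabilizer_iff.mp hs'.1]
      have h2 := hfixpt r s hr hs _ hfix'
      have hrr := ro_Q_inj hS hr' hr h2
      subst hrr
      have hss : s = s' := by
        calc s = (r' * t)⁻¹ * ((r' * t) * s * (r' * t)⁻¹) * (r' * t) := by group
          _ = (r' * t)⁻¹ * ((r' * t) * s' * (r' * t)⁻¹) * (r' * t) := by rw [h']
          _ = s' := by group
      subst hss
      rfl
    · rintro ⟨u, hu⟩
      rw [hmemJ] at hu
      obtain ⟨huG, hu2⟩ := hu
      have hu1 : u ≠ 1 := by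
        rintro rfl
        exact huG (one_mem _)
      obtain ⟨c, hc, _⟩ := ro_invol_unique_fix hS hu1 hu2
      have hca : c ≠ a := by
        rintro rfl
        exact huG (mem_stabilizer_iff.mpr hc)
      obtain ⟨r, hr, hrc⟩ := ro_trans hS hca
      have hs : (r * t)⁻¹ * u * (r * t) ∈ Cfsg.involutionsIn (stabilizer G a : Set G) := by
        refine ⟨?_, ?_, ?_⟩
        · show (r * t)⁻¹ * u * (r * t) ∈ stabilizer G a
          rw [mem_stabilizer_iff, mul_smul, mul_smul, mul_smul r t a, hrc, hc, ← hrc,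
            ← mul_smul r t a, inv_smul_smul]
        · intro h
          apply hu1
          calc u = (r * t) * ((r * t)⁻¹ * u * (r * t)) * (r * t)⁻¹ := by group
            _ = 1 := by rw [h]; group
        · calc (r * t)⁻¹ * u * (r * t) * ((r * t)⁻¹ * u * (r * t))
              = (r * t)⁻¹ * (u * u) * (r * t) := by group
            _ = 1 := by rw [hu2]; group
      refine ⟨(⟨r, hr⟩, ⟨_, hs⟩), ?_⟩
      apply Subtype.ext
      show (r * t) * ((r * t)⁻¹ * u * (r * t)) * (r * t)⁻¹ = u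
      group
  have c₁ := Nat.card_congr (Equiv.ofBijective _ hb₁)
  have c₂ := Nat.card_congr (Equiv.ofBijective _ hb₂)
  rw [Nat.card_prod] at c₁ c₂
  have hQpos : 0 < Nat.card Q := Nat.card_pos
  exact Nat.eq_of_mul_eq_mul_left hQpos (c₁.trans c₂.symm)

end Cfsg.Agent.Helper14
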