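import Cfsg.Agent.Helper14.RankOne2

set_option autoImplicit false

/-!
# Rank-one setup: elements inverted by `t` act fixed-point-freely on `Q`
-/

namespace Cfsg.Agent.Helper14

open MulAction

variable {G Ω : Type*} [Group G] [MulAction G Ω] {a : Ω} {t : G} {Q : Subgroup G}

theorem ro_one_mem_K (hS : Cfsg.IsRankOneSetup G Ω a t Q) :
    (1 : G) ∈ Cfsg.invertedBy (stabilizer G a ⊓ stabilizer G (t • a)) t :=
  ⟨Subgroup.one_mem _, by simp⟩

/-- `K` acts regularly on the involutions of `G_a`: injectivity part -/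
theorem ro_K_inj [Finite G] (hS : Cfsg.IsRankOneSetup G Ω a t Q) {s : G}
    (hs : s ∈ Cfsg.involutionsIn (stabilizer G a : Set G)) {k₁ k₂ : G}
    (hk₁ : k₁ ∈ Cfsg.invertedBy (stabilizer G a ⊓ stabilizer G (t • a)) t)
    (hk₂ : k₂ ∈ Cfsg.invertedBy (stabilizer G a ⊓ stabilizer G (t • a)) t)
    (h : k₁⁻¹ * s * k₁ = k₂⁻¹ * s * k₂) : k₁ = k₂ := by
  obtain ⟨hsG, hs1, hs2⟩ := hs
  have hmem : ∀ k : Cfsg.invertedBy (stabilizer G a ⊓ stabilizer G (t • a)) t,
      (k : G)⁻¹ * s * k ∈ Cfsg.involutionsIn (stabilizer G a : Set G) := by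
    intro k
    have hkG : (k : G) ∈ stabilizer G a := k.2.1.1
    refine ⟨Subgroup.mul_mem _ (Subgroup.mul_mem _ (Subgroup.inv_mem _ hkG) hsG) hkG, ?_, ?_⟩
    · intro h1
      apply hs1
      calc s = (k : G) * ((k : G)⁻¹ * s * k) * (k : G)⁻¹ := by group
        _ = 1 := by rw [h1]; group
    · calc (k : G)⁻¹ * s * k * ((k : G)⁻¹ * s * k) = (k : G)⁻¹ * (s * s) * k := by group
        _ = 1 := by rw [hs2]; group
  obtain ⟨f, hf⟩ : ∃ f : Cfsg.invertedBy (stabilizer G a ⊓ stabilizer G (t • a)) t →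
      Cfsg.involutionsIn (stabilizer G a : Set G), ∀ k, (f k : G) = (k : G)⁻¹ * s * k :=
    ⟨fun k => ⟨_, hmem k⟩, fun k => rfl⟩
  have hsurj : Function.Surjective f := by
    rintro ⟨s', hs'⟩
    obtain ⟨k, hk, hks⟩ := ro_K_conj hS ⟨hsG, hs1, hs2⟩ hs'
    exact ⟨⟨k, hk⟩, Subtype.ext (by rw [hf]; exact hks)⟩
  haveI : Finite (Cfsg.invertedBy (stabilizer G a ⊓ stabilizer G (t • a)) t) :=
    Finite.of_injective (fun k => (k : G)) Subtype.val_injective
  have hbij := hsurj.bijective_of_nat_card_le (le_of_eq (ro_card_K hS))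
  have := hbij.1 (a₁ := ⟨k₁, hk₁⟩) (a₂ := ⟨k₂, hk₂⟩) (Subtype.ext (by rw [hf, hf]; exact h))
  exact congrArg Subtype.val this

/-- no involution of `G_a` commutes with a non-identity element of `K` -/
theorem ro_K_comm_invol [Finite G] (hS : Cfsg.IsRankOneSetup G Ω a t Q) {j k : G}
    (hj : j ∈ Cfsg.involutionsIn (stabilizer G a : Set G))
    (hk : k ∈ Cfsg.invertedBy (stabilizer G a ⊓ stabilizer G (t • a)) t)
    (hjk : j * k = k * j) : k = 1 := by
  apply ro_K_inj hS hj hk (ro_one_mem_K hS)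
  calc k⁻¹ * j * k = k⁻¹ * (j * k) := by group
    _ = k⁻¹ * (k * j) := by rw [hjk]
    _ = 1⁻¹ * j * 1 := by group

/-- no element of `G_a` inverts a non-identity element of `K` -/
theorem ro_no_invert [Finite G] (hS : Cfsg.IsRankOneSetup G Ω a t Q) {h k : G}
    (hh : h ∈ stabilizer G a)
    (hk : k ∈ Cfsg.invertedBy (stabilizer G a ⊓ stabilizer G (t • a)) t)
    (hhk : h * k * h⁻¹ = k⁻¹) : k = 1 := by
  have hkD := hk.1
  have hsq : k * k = 1 → k = 1 := fun h2 => ro_D_sq hS hkD h2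
  have hkinv : k⁻¹ = k → k = 1 := by
    intro h1
    apply hsq
    calc k * k = k * k⁻¹ := by rw [h1]
      _ = 1 := mul_inv_cancel k
  have hhk' : h * k⁻¹ * h⁻¹ = k := by
    calc h * k⁻¹ * h⁻¹ = (h * k * h⁻¹)⁻¹ := by group
      _ = k := by rw [hhk, inv_inv]
  have hpow : ∀ i : ℕ, h ^ i * k * (h ^ i)⁻¹ = if Even i then k else k⁻¹ := by
    intro i
    induction i with
    | zero => simp
    | succ i ih =>
      have e : h ^ (i + 1) * k * (h ^ (i + 1))⁻¹ = h * (h ^ i * k * (h ^ i)⁻¹) * h⁻¹ := by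
        rw [pow_succ']; group
      rw [e, ih]
      by_cases hi : Even i
      · rw [if_pos hi, if_neg (by rw [Nat.even_add_one]; exact not_not.mpr hi), hhk]
      · rw [if_neg hi, if_pos (by rw [Nat.even_add_one]; exact hi), hhk']
  obtain ⟨o, ho⟩ : ∃ o, o = orderOf h := ⟨_, rfl⟩
  have hopos : 0 < o := by rw [ho]; exact orderOf_pos h
  rcases Nat.even_or_odd o with heven | hodd
  · obtain ⟨m, hm⟩ := heven
    have hmpos : 0 < m := by omega
    have hjj : h ^ m * h ^ m = 1 := by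
      rw [← pow_add, ← hm, ho, pow_orderOf_eq_one]
    have hj1 : h ^ m ≠ 1 := pow_ne_one_of_lt_orderOf hmpos.ne' (by omega)
    have hjG : h ^ m ∈ stabilizer G a := Subgroup.pow_mem _ hh m
    have hjI : h ^ m ∈ Cfsg.involutionsIn (stabilizer G a : Set G) := ⟨hjG, hj1, hjj⟩
    have hjQ : h ^ m ∈ Q := ro_invol_mem_Q hS hjG hjj
    have hm' := hpow m
    by_cases hme : Even m
    · rw [if_pos hme] at hm'
      apply ro_K_comm_invol hS hjI hk
      calc h ^ m * k = h ^ m * k * (h ^ m)⁻¹ * h ^ m := by group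
        _ = k * h ^ m := by rw [hm']
    · rw [if_neg hme] at hm'
      -- then `k⁻¹ * k⁻¹ ∈ Q ⊓ D`
      have h1 : h ^ m * (k * (h ^ m)⁻¹ * k⁻¹) ∈ Q :=
        Q.mul_mem hjQ (hS.conj_mem k hkD.1 _ (Q.inv_mem hjQ))
      have h2 : h ^ m * (k * (h ^ m)⁻¹ * k⁻¹) = k⁻¹ * k⁻¹ := by
        calc h ^ m * (k * (h ^ m)⁻¹ * k⁻¹) = (h ^ m * k * (h ^ m)⁻¹) * k⁻¹ := by group
          _ = k⁻¹ * k⁻¹ := by rw [hm']
      rw [h2] at h1
      have h3 : (k⁻¹ * k⁻¹) • (t • a) = t • a :=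
        mem_stabilizer_iff.mp (Subgroup.mul_mem _ (Subgroup.inv_mem _ hkD.2)
          (Subgroup.inv_mem _ hkD.2))
      have h4 := ro_QD_bot hS h1 h3
      apply hsq
      calc k * k = (k⁻¹ * k⁻¹)⁻¹ := by rw [mul_inv_rev, inv_inv]
        _ = 1 := by rw [h4, inv_one]
  · have h1 := hpow o
    rw [if_neg (Nat.not_even_iff_odd.mpr hodd), ho, pow_orderOf_eq_one, one_mul, inv_one,
      mul_one] at h1
    exact hkinv h1.symm

/-- **Fixed-point-freeness**: a non-identity element of `K` (the elements of the two-point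
stabiliser inverted by `t`) centralises no non-identity element of `Q`. -/
theorem ro_K_fpf [Finite G] (hS : Cfsg.IsRankOneSetup G Ω a t Q) {k x : G}
    (hk : k ∈ Cfsg.invertedBy (stabilizer G a ⊓ stabilizer G (t • a)) t)
    (hx : x ∈ Q) (hkx : k * x * k⁻¹ = x) (hk1 : k ≠ 1) : x = 1 := by
  by_contra hx1
  apply hk1
  have htt := hS.mul_self
  have htinv := ro_inv hS
  have hkD := hk.1
  have hka : k • a = a := mem_stabilizer_iff.mp hkD.1
  have hkb : k • (t • a) = t • a := mem_stabilizer_iff.mp hkD.2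
  have htk : t * k * t = k⁻¹ := by
    have := hk.2
    rwa [htinv] at this
  have htk' : t * k⁻¹ * t = k := by
    calc t * k⁻¹ * t = t * (t * k * t) * t := by rw [htk]
      _ = (t * t) * k * (t * t) := by group
      _ = k := by rw [htt, one_mul, mul_one]
  have hcomm : k * x = x * k := by
    calc k * x = k * x * k⁻¹ * k := by group
      _ = x * k := by rw [hkx]
  have hxk : x * k⁻¹ * x⁻¹ = k⁻¹ := by
    calc x * k⁻¹ * x⁻¹ = k⁻¹ * (k * x) * k⁻¹ * x⁻¹ := by group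
      _ = k⁻¹ * (x * k) * k⁻¹ * x⁻¹ := by rw [hcomm]
      _ = k⁻¹ := by group
  -- y = t x t commutes with k
  obtain ⟨y, hy⟩ : ∃ y : G, y = t * x * t := ⟨_, rfl⟩
  have hyk : y * k = k * y := by
    have e : y * k * y⁻¹ = k := by
      calc y * k * y⁻¹ = t * x * (t * k * t) * x⁻¹ * t := by
            rw [hy, mul_inv_rev, mul_inv_rev, htinv]; group
        _ = t * (x * k⁻¹ * x⁻¹) * t := by rw [htk]; group
        _ = k := by rw [hxk, htk']
    calc y * k = y * k * y⁻¹ * y := by group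
      _ = k * y := by rw [e]
  have hya : y • a ≠ a := by
    intro h
    rw [hy, mul_smul, mul_smul] at h
    have h1 : x • (t • a) = t • a := by
      calc x • (t • a) = t • (t • x • t • a) := by rw [← mul_smul t t, htt, one_smul]
        _ = t • a := by rw [h]
    exact hx1 (ro_QD_bot hS hx h1)
  obtain ⟨x', hx', hx'b⟩ := ro_trans hS hya
  -- x' commutes with k
  have hkya : k • (y • a) = y • a := by
    rw [← mul_smul, ← hyk, mul_smul, hka]
  have hx'k : k * x' * k⁻¹ = x' := by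
    apply ro_Q_inj hS (hS.conj_mem k hkD.1 x' hx') hx'
    rw [mul_smul, mul_smul, inv_smul_eq_iff.mpr hkb.symm, hx'b, hkya]
  obtain ⟨c, hc⟩ : ∃ c : G, c = x'⁻¹ * y := ⟨_, rfl⟩
  have hca : c • a = t • a := by
    rw [hc, mul_smul, ← hx'b, inv_smul_smul]
  have hck : c * k = k * c := by
    have hc' : k * x' = x' * k := by
      calc k * x' = k * x' * k⁻¹ * k := by group
        _ = x' * k := by rw [hx'k]
    have e : x'⁻¹ * k = k * x'⁻¹ := by
      calc x'⁻¹ * k = x'⁻¹ * (k * x') * x'⁻¹ := by group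
        _ = x'⁻¹ * (x' * k) * x'⁻¹ := by rw [hc']
        _ = k * x'⁻¹ := by group
    calc c * k = x'⁻¹ * (y * k) := by rw [hc]; group
      _ = x'⁻¹ * (k * y) := by rw [hyk]
      _ = (x'⁻¹ * k) * y := by group
      _ = k * x'⁻¹ * y := by rw [e]
      _ = k * c := by rw [hc]; group
  have hck' : k⁻¹ * c = c * k⁻¹ := by
    calc k⁻¹ * c = k⁻¹ * (c * k) * k⁻¹ := by group
      _ = k⁻¹ * (k * c) * k⁻¹ := by rw [hck]
      _ = c * k⁻¹ := by group
  apply ro_no_invert hS (h := c⁻¹ * t) ?_ hk ?_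
  · rw [mem_stabilizer_iff, mul_smul, ← hca, inv_smul_smul]
  · calc c⁻¹ * t * k * (c⁻¹ * t)⁻¹ = c⁻¹ * (t * k * t⁻¹) * c := by group
      _ = c⁻¹ * (k⁻¹ * c) := by rw [htinv, htk]; group
      _ = c⁻¹ * (c * k⁻¹) := by rw [hck']
      _ = k⁻¹ := by group

end Cfsg.Agent.Helper14
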