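import Mathlib

set_option autoImplicit false
set_option linter.unusedSectionVars false

/-! Regular nilpotent matrices over an arbitrary finite index type: cyclic vector,
the commutant consists of polynomials, powers are linearly independent. -/

namespace Cfsg.Agent.Helper14.RegNil

open Matrix Module

variable {F : Type*} [Field F] {ι : Type*} [Fintype ι] [DecidableEq ι]

/-- the polynomial in `s` with coefficient vector `a` -/
def Phi (n : ℕ) (s : Matrix ι ι F) (a : Fin n → F) : Matrix ι ι F :=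
  ∑ i : Fin n, a i • s ^ (i : ℕ)

theorem exists_cyclic {n : ℕ} (hcard : Fintype.card ι = n) (hn : 0 < n) (N : Matrix ι ι F)
    (hN : N ^ n = 0) (hr : N.rank = n - 1) :
    ∃ v : ι → F, Submodule.span F (Set.range (fun i : Fin n => (N ^ (i : ℕ)) *ᵥ v)) = ⊤ := by
  classical
  have hR : finrank F (LinearMap.range N.mulVecLin) = n - 1 := hr
  have hfr : finrank F (ι → F) = n := by rw [Module.finrank_fintype_fun_eq_card, hcard]
  have hne : LinearMap.range N.mulVecLin ≠ ⊤ := by
    intro h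
    rw [h, finrank_top, hfr] at hR
    omega
  obtain ⟨v, hv⟩ : ∃ v : ι → F, v ∉ LinearMap.range N.mulVecLin := by
    by_contra hcon
    push Not at hcon
    exact hne (Submodule.eq_top_iff'.mpr hcon)
  refine ⟨v, ?_⟩
  set U : Submodule F (ι → F) :=
    Submodule.span F (Set.range (fun i : Fin n => (N ^ (i : ℕ)) *ᵥ v)) with hU
  have hvU : v ∈ U := by
    apply Submodule.subset_span
    refine ⟨⟨0, hn⟩, ?_⟩
    simp
  have hUinv : ∀ x ∈ U, N *ᵥ x ∈ U := by
    have h1 : U.map N.mulVecLin ≤ U := by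
      rw [Submodule.map_span_le]
      rintro _ ⟨i, rfl⟩
      show N *ᵥ ((N ^ (i : ℕ)) *ᵥ v) ∈ U
      rw [Matrix.mulVec_mulVec, ← pow_succ']
      by_cases h : (i : ℕ) + 1 < n
      · exact Submodule.subset_span ⟨⟨i + 1, h⟩, rfl⟩
      · have h2 : (i : ℕ) + 1 = n := by have := i.2; omega
        rw [h2, hN, Matrix.zero_mulVec]
        exact Submodule.zero_mem _
    intro x hx
    exact h1 (Submodule.mem_map_of_mem hx)
  have hUpow : ∀ (k : ℕ) (x : ι → F), x ∈ U → (N ^ k) *ᵥ x ∈ U := by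
    intro k
    induction k with
    | zero => intro x hx; simpa using hx
    | succ k ih =>
      intro x hx
      rw [pow_succ', ← Matrix.mulVec_mulVec]
      exact hUinv _ (ih x hx)
  have hsup : U ⊔ LinearMap.range N.mulVecLin = ⊤ := by
    apply Submodule.eq_top_of_finrank_eq
    have h1 : LinearMap.range N.mulVecLin < U ⊔ LinearMap.range N.mulVecLin := by
      refine lt_of_le_of_ne le_sup_right ?_
      intro h2
      apply hv
      rw [h2]
      exact Submodule.mem_sup_left hvU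
    have h2 := Submodule.finrank_lt_finrank_of_lt h1
    have h3 := Submodule.finrank_le (U ⊔ LinearMap.range N.mulVecLin)
    rw [hfr] at h3 ⊢
    omega
  have hdec : ∀ y : ι → F, ∃ u ∈ U, ∃ z : ι → F, y = u + N *ᵥ z := by
    intro y
    have h1 : y ∈ U ⊔ LinearMap.range N.mulVecLin := by rw [hsup]; trivial
    obtain ⟨u, hu, w, ⟨z, rfl⟩, rfl⟩ := Submodule.mem_sup.mp h1
    exact ⟨u, hu, z, rfl⟩
  have hall : ∀ (k : ℕ) (x : ι → F), ∃ u ∈ U, ∃ y : ι → F, x = u + (N ^ k) *ᵥ y := by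
    intro k
    induction k with
    | zero => intro x; exact ⟨0, Submodule.zero_mem _, x, by simp⟩
    | succ k ih =>
      intro x
      obtain ⟨u, hu, y, rfl⟩ := ih x
      obtain ⟨u', hu', z, rfl⟩ := hdec y
      refine ⟨u + (N ^ k) *ᵥ u', Submodule.add_mem _ hu (hUpow k u' hu'), z, ?_⟩
      rw [Matrix.mulVec_add, Matrix.mulVec_mulVec, ← pow_succ, add_assoc]
  apply Submodule.eq_top_iff'.mpr
  intro x
  obtain ⟨u, hu, y, rfl⟩ := hall n x
  rw [hN, Matrix.zero_mulVec, add_zero]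
  exact hu

theorem Phi_mulVec (n : ℕ) (s : Matrix ι ι F) (a : Fin n → F) (v : ι → F) :
    Phi n s a *ᵥ v = ∑ i : Fin n, a i • ((s ^ (i : ℕ)) *ᵥ v) := by
  unfold Phi
  rw [Matrix.sum_mulVec]
  exact Finset.sum_congr rfl fun i _ => Matrix.smul_mulVec _ _ _

theorem Phi_comm (n : ℕ) (s : Matrix ι ι F) (a : Fin n → F) (X : Matrix ι ι F)
    (hX : Commute X s) : Commute (Phi n s a) X := by
  unfold Phi
  exact Commute.sum_left _ _ _ fun i _ => ((hX.pow_right _).symm).smul_left _

theorem Phi_inj {n : ℕ} (hcard : Fintype.card ι = n) (s : Matrix ι ι F) (v : ι → F)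
    (hspan : Submodule.span F (Set.range (fun i : Fin n => (s ^ (i : ℕ)) *ᵥ v)) = ⊤)
    {a b : Fin n → F} (h : Phi n s a = Phi n s b) : a = b := by
  have hli : LinearIndependent F (fun i : Fin n => (s ^ (i : ℕ)) *ᵥ v) :=
    linearIndependent_of_top_le_span_of_card_eq_finrank (by rw [hspan])
      (by rw [Module.finrank_fintype_fun_eq_card, hcard, Fintype.card_fin])
  have h1 := congrArg (fun M : Matrix ι ι F => M *ᵥ v) h
  simp only [Phi_mulVec] at h1
  have h2 : ∑ i : Fin n, (a i - b i) • ((s ^ (i : ℕ)) *ᵥ v) = 0 := by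
    simp only [sub_smul, Finset.sum_sub_distrib, h1, sub_self]
  have h3 := Fintype.linearIndependent_iff.mp hli _ h2
  funext i
  exact sub_eq_zero.mp (h3 i)

theorem comm_eq_Phi {n : ℕ} (s : Matrix ι ι F) (v : ι → F)
    (hspan : Submodule.span F (Set.range (fun i : Fin n => (s ^ (i : ℕ)) *ᵥ v)) = ⊤)
    (X : Matrix ι ι F) (hX : X * s = s * X) : ∃ a : Fin n → F, X = Phi n s a := by
  have hXv : X *ᵥ v ∈ Submodule.span F (Set.range (fun i : Fin n => (s ^ (i : ℕ)) *ᵥ v)) := by
    rw [hspan]; trivial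
  obtain ⟨a, ha⟩ := (Submodule.mem_span_range_iff_exists_fun F).mp hXv
  refine ⟨a, ?_⟩
  have hXc : Commute X s := hX
  have hlin : X.mulVecLin = (Phi n s a).mulVecLin := by
    apply LinearMap.ext_on_range hspan
    intro j
    show X *ᵥ ((s ^ (j : ℕ)) *ᵥ v) = Phi n s a *ᵥ ((s ^ (j : ℕ)) *ᵥ v)
    rw [Matrix.mulVec_mulVec, Matrix.mulVec_mulVec, (hXc.pow_right _).eq,
      ((Phi_comm n s a (s ^ (j : ℕ)) (Commute.pow_left (Commute.refl s) _)).eq),
      ← Matrix.mulVec_mulVec, ← Matrix.mulVec_mulVec, Phi_mulVec, ha]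
  exact Matrix.ext_iff_mulVec.mpr fun w => LinearMap.congr_fun hlin w

end Cfsg.Agent.Helper14.RegNil
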