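import Mathlib

set_option autoImplicit false
set_option linter.unusedSectionVars false
set_option linter.style.haveILetI false

/-!
# Regular nilpotent matrices

* `J F n`: the shift matrix `e_k ↦ e_{k+1}`; `J_pow`, `J_pow_self`, `rank_J`, `det_one_add_J`.
* `det_of_comm`: a matrix commuting with `J` has determinant `(X 0 0) ^ n`.
* `exists_conj_J`: a nilpotent matrix of rank `n - 1` is conjugate to `J`.
-/

namespace Cfsg.Agent.Helper14.RegUnip

open Matrix Module

variable {F : Type*} [Field F] {n : ℕ}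

/-- The shift matrix: `J e_k = e_{k+1}`. -/
def J (F : Type*) [Field F] (n : ℕ) : Matrix (Fin n) (Fin n) F :=
  Matrix.of fun i k => if (i : ℕ) = k + 1 then 1 else 0

theorem J_apply (i k : Fin n) : J F n i k = if (i : ℕ) = k + 1 then 1 else 0 := rfl

theorem J_pow (m : ℕ) (i k : Fin n) : (J F n ^ m) i k = if (i : ℕ) = k + m then 1 else 0 := by
  induction m generalizing i k with
  | zero => simp [Matrix.one_apply, Fin.ext_iff]
  | succ m ih =>
    rw [pow_succ, Matrix.mul_apply]
    simp only [ih, J_apply]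
    by_cases h : (k : ℕ) + 1 < n
    · rw [Finset.sum_eq_single ⟨k + 1, h⟩]
      · simp only [if_true, mul_one]
        have h1 : ((i : ℕ) = (k : ℕ) + 1 + m) ↔ ((i : ℕ) = k + (m + 1)) := by omega
        simp only [h1]
      · intro l _ hl
        have h1 : (l : ℕ) ≠ k + 1 := fun h' => hl (Fin.ext h')
        simp [h1]
      · intro h1
        exact absurd (Finset.mem_univ _) h1
    · rw [Finset.sum_eq_zero]
      · rw [if_neg]
        have := i.2
        omega
      · intro l _
        have h1 : (l : ℕ) ≠ k + 1 := by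
          have := l.2
          omega
        simp [h1]

theorem J_pow_self : J F n ^ n = 0 := by
  ext i k
  rw [J_pow, if_neg]
  · rfl
  · have := i.2
    omega

theorem det_one_add_J : (1 + J F n).det = 1 := by
  rw [Matrix.det_of_isLowerTriangular]
  · apply Finset.prod_eq_one
    intro i _
    simp [Matrix.add_apply, J_apply]
  · intro i k hik
    have h1 : i < k := hik
    have h2 : (i : ℕ) < k := h1
    rw [Matrix.add_apply, Matrix.one_apply, J_apply, if_neg (ne_of_lt h1), if_neg (by omega),
      add_zero]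

theorem rank_J [DecidableEq F] (hn : 0 < n) : (J F n).rank = n - 1 := by
  obtain ⟨m, rfl⟩ : ∃ m, n = m + 1 := ⟨n - 1, by omega⟩
  have h1 : (J F (m + 1)).submatrix (finRotate (m + 1)) (Equiv.refl _) =
      Matrix.diagonal (fun i : Fin (m + 1) => if i = Fin.last m then (0 : F) else 1) := by
    ext i k
    rw [Matrix.submatrix_apply, J_apply, Matrix.diagonal_apply, Equiv.refl_apply]
    by_cases hi : i = Fin.last m
    · subst hi
      rw [finRotate_last]
      simp
    · rw [coe_finRotate_of_ne_last hi, if_neg hi]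
      by_cases hik : i = k
      · subst hik
        simp
      · rw [if_neg hik, if_neg]
        intro h2
        apply hik
        apply Fin.ext
        omega
  rw [← Matrix.rank_submatrix (J F (m + 1)) (finRotate (m + 1)) (Equiv.refl _), h1,
    Matrix.rank_diagonal]
  have h2 : Fintype.card {i : Fin (m + 1) // (if i = Fin.last m then (0 : F) else 1) ≠ 0} =
      Fintype.card {i : Fin (m + 1) // i ≠ Fin.last m} := by
    apply Fintype.card_congr
    apply Equiv.subtypeEquivRight
    intro i
    by_cases hi : i = Fin.last m <;> simp [hi]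
  rw [h2, Fintype.card_subtype_compl, Fintype.card_fin]
  simp

/-- A matrix commuting with the shift is lower triangular with constant diagonal. -/
theorem det_of_comm (hn : 0 < n) (X : Matrix (Fin n) (Fin n) F)
    (hX : X * J F n = J F n * X) : X.det = (X ⟨0, hn⟩ ⟨0, hn⟩) ^ n := by
  have hrel : ∀ (i k : Fin n) (hk : (k : ℕ) + 1 < n), X i ⟨k + 1, hk⟩ =
      if h : 1 ≤ (i : ℕ) then X ⟨i - 1, by have := i.2; omega⟩ k else 0 := by
    intro i k hk
    have h1 := congrFun (congrFun hX i) k
    rw [Matrix.mul_apply, Matrix.mul_apply] at h1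
    simp only [J_apply] at h1
    rw [Finset.sum_eq_single ⟨k + 1, hk⟩] at h1
    · simp only [if_true, mul_one] at h1
      rw [h1]
      by_cases h : 1 ≤ (i : ℕ)
      · rw [dif_pos h, Finset.sum_eq_single ⟨i - 1, by have := i.2; omega⟩]
        · rw [if_pos (by simp; omega), one_mul]
        · intro l _ hl
          have h2 : (i : ℕ) ≠ l + 1 := by
            intro h3
            apply hl
            apply Fin.ext
            simp
            omega
          simp [h2]
        · intro h2
          exact absurd (Finset.mem_univ _) h2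
      · rw [dif_neg h]
        apply Finset.sum_eq_zero
        intro l _
        have h2 : (i : ℕ) ≠ l + 1 := by omega
        simp [h2]
    · intro l _ hl
      have h2 : (l : ℕ) ≠ k + 1 := fun h' => hl (Fin.ext h')
      simp [h2]
    · intro h2
      exact absurd (Finset.mem_univ _) h2
  have hupper : ∀ (i : ℕ) (hi : i < n) (k : ℕ) (hk : k < n), i < k → X ⟨i, hi⟩ ⟨k, hk⟩ = 0 := by
    intro i
    induction i with
    | zero =>
      intro hi k hk hik
      obtain ⟨k', rfl⟩ : ∃ k', k = k' + 1 := ⟨k - 1, by omega⟩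
      have h1 := hrel ⟨0, hi⟩ ⟨k', by omega⟩ hk
      rw [dif_neg (by simp)] at h1
      exact h1
    | succ i ih =>
      intro hi k hk hik
      obtain ⟨k', rfl⟩ : ∃ k', k = k' + 1 := ⟨k - 1, by omega⟩
      have h1 := hrel ⟨i + 1, hi⟩ ⟨k', by omega⟩ hk
      rw [dif_pos (by simp)] at h1
      rw [h1]
      exact ih (by omega) k' (by omega) (by omega)
  have hdiag : ∀ (i : ℕ) (hi : i < n), X ⟨i, hi⟩ ⟨i, hi⟩ = X ⟨0, hn⟩ ⟨0, hn⟩ := by
    intro i
    induction i with
    | zero => intro hi; rfl
    | succ i ih =>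
      intro hi
      have h1 := hrel ⟨i + 1, hi⟩ ⟨i, by omega⟩ hi
      rw [dif_pos (by simp)] at h1
      rw [h1]
      exact ih (by omega)
  rw [Matrix.det_of_isLowerTriangular]
  · rw [Finset.prod_congr rfl (fun i _ => hdiag i.1 i.2), Finset.prod_const, Finset.card_univ,
      Fintype.card_fin]
  · intro i k hik
    have h1 : i < k := hik
    exact hupper i.1 i.2 k.1 k.2 h1

/-- A nilpotent matrix of rank `n - 1` is conjugate to the shift matrix. -/
theorem exists_conj_J (hn : 0 < n) (N : Matrix (Fin n) (Fin n) F) (hN : N ^ n = 0)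
    (hr : N.rank = n - 1) :
    ∃ P : Matrix (Fin n) (Fin n) F, IsUnit P.det ∧ N * P = P * J F n := by
  classical
  -- a vector outside the range
  have hR : finrank F (LinearMap.range N.mulVecLin) = n - 1 := hr
  have hne : LinearMap.range N.mulVecLin ≠ ⊤ := by
    intro h
    rw [h, finrank_top, Module.finrank_fin_fun] at hR
    omega
  obtain ⟨v, hv⟩ : ∃ v : Fin n → F, v ∉ LinearMap.range N.mulVecLin := by
    by_contra hcon
    push Not at hcon
    exact hne (Submodule.eq_top_iff'.mpr hcon)
  let U : Submodule F (Fin n → F) :=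
    Submodule.span F (Set.range (fun i : Fin n => (N ^ (i : ℕ)) *ᵥ v))
  have hvU : v ∈ U := by
    apply Submodule.subset_span
    refine ⟨⟨0, hn⟩, ?_⟩
    simp
  have hUinv : ∀ x ∈ U, N *ᵥ x ∈ U := by
    have h1 : U.map N.mulVecLin ≤ U := by
      rw [Submodule.map_span_le]
      rintro _ ⟨i, rfl⟩
      show N *ᵥ ((N ^ (i : ℕ)) *ᵥ v) ∈ U
      rw [Matrix.mulVec_mulVec, ← pow_succ']
      by_cases h : (i : ℕ) + 1 < n
      · exact Submodule.subset_span ⟨⟨i + 1, h⟩, rfl⟩
      · have h2 : (i : ℕ) + 1 = n := by have := i.2; omega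
        rw [h2, hN, Matrix.zero_mulVec]
        exact Submodule.zero_mem _
    intro x hx
    exact h1 (Submodule.mem_map_of_mem hx)
  have hUpow : ∀ (k : ℕ) (x : Fin n → F), x ∈ U → (N ^ k) *ᵥ x ∈ U := by
    intro k
    induction k with
    | zero => intro x hx; simpa using hx
    | succ k ih =>
      intro x hx
      rw [pow_succ', ← Matrix.mulVec_mulVec]
      exact hUinv _ (ih x hx)
  have hsup : U ⊔ LinearMap.range N.mulVecLin = ⊤ := by
    apply Submodule.eq_top_of_finrank_eq
    have h1 : LinearMap.range N.mulVecLin < U ⊔ LinearMap.range N.mulVecLin := by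
      refine lt_of_le_of_ne le_sup_right ?_
      intro h2
      apply hv
      rw [h2]
      exact Submodule.mem_sup_left hvU
    have h2 := Submodule.finrank_lt_finrank_of_lt h1
    have h3 := Submodule.finrank_le (U ⊔ LinearMap.range N.mulVecLin)
    rw [Module.finrank_fin_fun] at h3 ⊢
    omega
  have hdec : ∀ y : Fin n → F, ∃ u ∈ U, ∃ z : Fin n → F, y = u + N *ᵥ z := by
    intro y
    have h1 : y ∈ U ⊔ LinearMap.range N.mulVecLin := by rw [hsup]; trivial
    obtain ⟨u, hu, w, ⟨z, rfl⟩, rfl⟩ := Submodule.mem_sup.mp h1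
    exact ⟨u, hu, z, rfl⟩
  have hall : ∀ (k : ℕ) (x : Fin n → F), ∃ u ∈ U, ∃ y : Fin n → F, x = u + (N ^ k) *ᵥ y := by
    intro k
    induction k with
    | zero => intro x; exact ⟨0, Submodule.zero_mem _, x, by simp⟩
    | succ k ih =>
      intro x
      obtain ⟨u, hu, y, rfl⟩ := ih x
      obtain ⟨u', hu', z, rfl⟩ := hdec y
      refine ⟨u + (N ^ k) *ᵥ u', Submodule.add_mem _ hu (hUpow k u' hu'), z, ?_⟩
      rw [Matrix.mulVec_add, Matrix.mulVec_mulVec, ← pow_succ, add_assoc]
  have hUtop : U = ⊤ := by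
    apply Submodule.eq_top_iff'.mpr
    intro x
    obtain ⟨u, hu, y, rfl⟩ := hall n x
    rw [hN, Matrix.zero_mulVec, add_zero]
    exact hu
  let P : Matrix (Fin n) (Fin n) F := Matrix.of (fun r i => ((N ^ (i : ℕ)) *ᵥ v) r)
  have hPcol : ∀ i : Fin n, P.col i = (N ^ (i : ℕ)) *ᵥ v := fun i => rfl
  have hPunit : IsUnit P := by
    rw [← Matrix.mulVec_surjective_iff_isUnit]
    have h1 : LinearMap.range P.mulVecLin = ⊤ := by
      rw [Matrix.range_mulVecLin]
      have h2 : Set.range P.col = Set.range (fun i : Fin n => (N ^ (i : ℕ)) *ᵥ v) := by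
        congr 1
      rw [h2]
      exact hUtop
    intro x
    have h2 : x ∈ LinearMap.range P.mulVecLin := by rw [h1]; trivial
    obtain ⟨y, hy⟩ := h2
    exact ⟨y, hy⟩
  refine ⟨P, (Matrix.isUnit_iff_isUnit_det P).mp hPunit, ?_⟩
  ext r i
  rw [Matrix.mul_apply, Matrix.mul_apply]
  have h1 : ∑ l, N r l * P l i = ((N ^ ((i : ℕ) + 1)) *ᵥ v) r := by
    rw [pow_succ', ← Matrix.mulVec_mulVec]
    rfl
  rw [h1]
  simp only [J_apply]
  by_cases h : (i : ℕ) + 1 < n
  · rw [Finset.sum_eq_single ⟨i + 1, h⟩]
    · simp only [if_true, mul_one]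
      rfl
    · intro l _ hl
      have h2 : (l : ℕ) ≠ i + 1 := fun h' => hl (Fin.ext h')
      simp [h2]
    · intro h2
      exact absurd (Finset.mem_univ _) h2
  · have h2 : (i : ℕ) + 1 = n := by have := i.2; omega
    rw [Finset.sum_eq_zero]
    · rw [h2, hN, Matrix.zero_mulVec]
      rfl
    · intro l _
      have h3 : (l : ℕ) ≠ i + 1 := by have := l.2; omega
      simp [h3]

end Cfsg.Agent.Helper14.RegUnip
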