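import Mathlib
import Cfsg.Agent.Helper14.RegNil

set_option autoImplicit false
set_option linter.unusedSectionVars false
set_option linter.unusedVariables false

namespace Cfsg.Agent.Helper14.SpReg

open Matrix Cfsg.Agent.Helper14.RegNil

variable {F : Type*} [Field F] {m : ℕ}

/-- the adjoint involution of the standard symplectic form -/
def sig (X : Matrix (Fin m ⊕ Fin m) (Fin m ⊕ Fin m) F) : Matrix (Fin m ⊕ Fin m) (Fin m ⊕ Fin m) F :=
  (-Matrix.J (Fin m) F) * Xᵀ * Matrix.J (Fin m) F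

theorem negJ_mul_J : (-Matrix.J (Fin m) F) * Matrix.J (Fin m) F = 1 := by
  rw [Matrix.neg_mul, Matrix.J_squared, neg_neg]

theorem J_mul_negJ : Matrix.J (Fin m) F * (-Matrix.J (Fin m) F) = 1 := by
  rw [Matrix.mul_neg, Matrix.J_squared, neg_neg]

theorem sig_one : sig (1 : Matrix (Fin m ⊕ Fin m) (Fin m ⊕ Fin m) F) = 1 := by
  unfold sig
  rw [Matrix.transpose_one, Matrix.mul_one, negJ_mul_J]

theorem sig_mul (X Y : Matrix (Fin m ⊕ Fin m) (Fin m ⊕ Fin m) F) :
    sig (X * Y) = sig Y * sig X := by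
  unfold sig
  rw [Matrix.transpose_mul]
  calc -J (Fin m) F * (Yᵀ * Xᵀ) * J (Fin m) F
      = -J (Fin m) F * Yᵀ * 1 * Xᵀ * J (Fin m) F := by simp only [Matrix.mul_one, Matrix.mul_assoc]
    _ = -J (Fin m) F * Yᵀ * (J (Fin m) F * (-J (Fin m) F)) * Xᵀ * J (Fin m) F := by
        rw [J_mul_negJ]
    _ = _ := by simp only [Matrix.mul_assoc]

theorem sig_add (X Y : Matrix (Fin m ⊕ Fin m) (Fin m ⊕ Fin m) F) :
    sig (X + Y) = sig X + sig Y := by
  unfold sig
  rw [Matrix.transpose_add, Matrix.mul_add, Matrix.add_mul]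

theorem sig_neg (X : Matrix (Fin m ⊕ Fin m) (Fin m ⊕ Fin m) F) : sig (-X) = -sig X := by
  unfold sig
  rw [Matrix.transpose_neg, Matrix.mul_neg, Matrix.neg_mul]

theorem sig_sub (X Y : Matrix (Fin m ⊕ Fin m) (Fin m ⊕ Fin m) F) :
    sig (X - Y) = sig X - sig Y := by
  rw [sub_eq_add_neg, sig_add, sig_neg, sub_eq_add_neg]

theorem sig_smul (c : F) (X : Matrix (Fin m ⊕ Fin m) (Fin m ⊕ Fin m) F) :
    sig (c • X) = c • sig X := by
  unfold sig
  rw [Matrix.transpose_smul, Matrix.mul_smul, Matrix.smul_mul]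

theorem sig_zero : sig (0 : Matrix (Fin m ⊕ Fin m) (Fin m ⊕ Fin m) F) = 0 := by
  unfold sig; simp

theorem sig_sig (X : Matrix (Fin m ⊕ Fin m) (Fin m ⊕ Fin m) F) : sig (sig X) = X := by
  unfold sig
  simp only [Matrix.transpose_mul, Matrix.transpose_neg, Matrix.J_transpose,
    Matrix.transpose_transpose, neg_neg]
  calc -J (Fin m) F * (-J (Fin m) F * (X * J (Fin m) F)) * J (Fin m) F
      = (J (Fin m) F * J (Fin m) F) * X * (J (Fin m) F * J (Fin m) F) := by
        simp only [Matrix.mul_assoc, Matrix.neg_mul, Matrix.mul_neg, neg_neg]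
    _ = X := by rw [Matrix.J_squared]; simp

theorem sig_pow (X : Matrix (Fin m ⊕ Fin m) (Fin m ⊕ Fin m) F) (k : ℕ) :
    sig (X ^ k) = (sig X) ^ k := by
  induction k with
  | zero => simp [sig_one]
  | succ k ih => rw [pow_succ, sig_mul, ih, pow_succ']

theorem sig_sum {κ : Type*} (t : Finset κ) (f : κ → Matrix (Fin m ⊕ Fin m) (Fin m ⊕ Fin m) F) :
    sig (∑ i ∈ t, f i) = ∑ i ∈ t, sig (f i) := by
  classical
  induction t using Finset.induction_on with
  | empty => simp [sig_zero]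
  | insert a t ha ih => rw [Finset.sum_insert ha, Finset.sum_insert ha, sig_add, ih]

theorem sig_nilp {X : Matrix (Fin m ⊕ Fin m) (Fin m ⊕ Fin m) F} (h : IsNilpotent X) :
    IsNilpotent (sig X) := by
  obtain ⟨k, hk⟩ := h
  exact ⟨k, by rw [← sig_pow, hk, sig_zero]⟩

theorem sig_coe (g : Matrix.symplecticGroup (Fin m) F) :
    sig (g : Matrix (Fin m ⊕ Fin m) (Fin m ⊕ Fin m) F) =
      ((g⁻¹ : Matrix.symplecticGroup (Fin m) F) : Matrix (Fin m ⊕ Fin m) (Fin m ⊕ Fin m) F) :=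
  (SymplecticGroup.coe_inv g).symm

theorem mem_sp_of_mul_sig {X : Matrix (Fin m ⊕ Fin m) (Fin m ⊕ Fin m) F} (h : X * sig X = 1) :
    X ∈ Matrix.symplecticGroup (Fin m) F := by
  rw [SymplecticGroup.mem_iff]
  unfold sig at h
  have h1 : X * (-J (Fin m) F * Xᵀ * J (Fin m) F) * (-J (Fin m) F) = -J (Fin m) F := by
    rw [h, Matrix.one_mul]
  have h2 : X * (-J (Fin m) F * Xᵀ * J (Fin m) F) * (-J (Fin m) F) =
      -(X * J (Fin m) F * Xᵀ) * (J (Fin m) F * (-J (Fin m) F)) := by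
    simp only [Matrix.mul_assoc, Matrix.neg_mul, Matrix.mul_neg, neg_neg]
  rw [h2, J_mul_negJ, Matrix.mul_one] at h1
  exact neg_injective h1


/-- the commutant of `s` -/
def cen (s : Matrix (Fin m ⊕ Fin m) (Fin m ⊕ Fin m) F) :
    Subalgebra F (Matrix (Fin m ⊕ Fin m) (Fin m ⊕ Fin m) F) :=
  Subalgebra.centralizer F {s}

theorem mem_cen {s X : Matrix (Fin m ⊕ Fin m) (Fin m ⊕ Fin m) F} :
    X ∈ cen s ↔ s * X = X * s := by
  unfold cen
  rw [Subalgebra.mem_centralizer_iff]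
  simp

theorem scalar_nilp (hm : 0 < m) {c : F}
    (h : IsNilpotent (c • (1 : Matrix (Fin m ⊕ Fin m) (Fin m ⊕ Fin m) F))) : c = 0 := by
  obtain ⟨k, hk⟩ := h
  rw [smul_pow, one_pow] at hk
  have h1 := congrFun (congrFun hk (Sum.inl ⟨0, hm⟩)) (Sum.inl ⟨0, hm⟩)
  simp only [Matrix.smul_apply, Matrix.one_apply_eq, smul_eq_mul, mul_one, Matrix.zero_apply] at h1
  exact IsNilpotent.eq_zero ⟨k, h1⟩

/-- the data of a regular nilpotent matrix anti-fixed by the adjoint involution -/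
structure Data (m : ℕ) (s : Matrix (Fin m ⊕ Fin m) (Fin m ⊕ Fin m) F)
    (v : Fin m ⊕ Fin m → F) : Prop where
  hm : 0 < m
  h2 : (2 : F) ≠ 0
  hspan : Submodule.span F (Set.range (fun i : Fin (2 * m) => (s ^ (i : ℕ)) *ᵥ v)) = ⊤
  hnil : s ^ (2 * m) = 0
  hsig : sig s = -s

namespace Data

variable {s : Matrix (Fin m ⊕ Fin m) (Fin m ⊕ Fin m) F} {v : Fin m ⊕ Fin m → F}
  (D : Data m s v)
include D

theorem comm {X Y : Matrix (Fin m ⊕ Fin m) (Fin m ⊕ Fin m) F} (hX : X ∈ cen s)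
    (hY : Y ∈ cen s) : Commute X Y := by
  obtain ⟨a, rfl⟩ := comm_eq_Phi s v D.hspan X (mem_cen.mp hX).symm
  exact Phi_comm _ s a Y (mem_cen.mp hY).symm

theorem s_mem : s ∈ cen s := mem_cen.mpr rfl

theorem sig_mem {X : Matrix (Fin m ⊕ Fin m) (Fin m ⊕ Fin m) F} (hX : X ∈ cen s) :
    sig X ∈ cen s := by
  rw [mem_cen] at hX ⊢
  have h := congrArg sig hX
  rw [sig_mul, sig_mul, D.hsig, Matrix.mul_neg, Matrix.neg_mul, neg_inj] at h
  exact h.symm

theorem scalar {X : Matrix (Fin m ⊕ Fin m) (Fin m ⊕ Fin m) F} (hX : X ∈ cen s) :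
    ∃ c : F, IsNilpotent (X - c • (1 : Matrix (Fin m ⊕ Fin m) (Fin m ⊕ Fin m) F)) := by
  obtain ⟨a, rfl⟩ := comm_eq_Phi s v D.hspan X (mem_cen.mp hX).symm
  have h0 : 0 < 2 * m := by have := D.hm; omega
  refine ⟨a ⟨0, h0⟩, ?_⟩
  have h1 : Phi (2 * m) s a - a ⟨0, h0⟩ • (1 : Matrix (Fin m ⊕ Fin m) (Fin m ⊕ Fin m) F) =
      ∑ i ∈ Finset.univ.erase (⟨0, h0⟩ : Fin (2 * m)), a i • s ^ (i : ℕ) := by
    unfold Phi
    rw [← Finset.add_sum_erase Finset.univ _ (Finset.mem_univ (⟨0, h0⟩ : Fin (2 * m)))]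
    simp
  rw [h1]
  apply Commute.isNilpotent_sum
  · intro i hi
    have hi0 : (i : ℕ) ≠ 0 := by
      intro h; exact (Finset.mem_erase.mp hi).1 (Fin.ext h)
    refine ⟨2 * m, ?_⟩
    have e : (s ^ (i : ℕ)) ^ (2 * m) = 0 := by
      rw [← pow_mul, mul_comm, pow_mul, D.hnil, zero_pow hi0]
    rw [smul_pow, e, smul_zero]
  · intro i j _ _
    exact ((Commute.pow_pow_self s _ _).smul_left _).smul_right _

theorem anti_nilp {y : Matrix (Fin m ⊕ Fin m) (Fin m ⊕ Fin m) F} (hy : y ∈ cen s)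
    (hy' : sig y = -y) : IsNilpotent y := by
  obtain ⟨c, hc⟩ := D.scalar hy
  have hν : y - c • (1 : Matrix (Fin m ⊕ Fin m) (Fin m ⊕ Fin m) F) ∈ cen s :=
    (cen s).sub_mem hy ((cen s).smul_mem (cen s).one_mem c)
  have hσν := sig_nilp hc
  have hsum := Commute.isNilpotent_add (D.comm hν (D.sig_mem hν)) hc hσν
  have e : (y - c • (1 : Matrix (Fin m ⊕ Fin m) (Fin m ⊕ Fin m) F)) +
      sig (y - c • (1 : Matrix (Fin m ⊕ Fin m) (Fin m ⊕ Fin m) F)) =
      (-(2 * c)) • (1 : Matrix (Fin m ⊕ Fin m) (Fin m ⊕ Fin m) F) := by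
    rw [sig_sub, sig_smul, sig_one, hy']; module
  rw [e] at hsum
  have h3 := scalar_nilp D.hm hsum
  have hc0 : c = 0 := by
    have h4 : 2 * c = 0 := neg_eq_zero.mp h3
    exact (mul_eq_zero.mp h4).resolve_left D.h2
  rw [hc0, zero_smul, sub_zero] at hc
  exact hc

theorem sq_cases {x : Matrix (Fin m ⊕ Fin m) (Fin m ⊕ Fin m) F} (hx : x ∈ cen s)
    (h : IsNilpotent (x * x - 1)) : IsNilpotent (x - 1) ∨ IsNilpotent (-x - 1) := by
  obtain ⟨c, hc⟩ := D.scalar hx
  have hc1 : c • (1 : Matrix (Fin m ⊕ Fin m) (Fin m ⊕ Fin m) F) ∈ cen s :=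
    (cen s).smul_mem (cen s).one_mem c
  have hν : x - c • (1 : Matrix (Fin m ⊕ Fin m) (Fin m ⊕ Fin m) F) ∈ cen s :=
    (cen s).sub_mem hx hc1
  have hx2 : x * x - 1 ∈ cen s := (cen s).sub_mem ((cen s).mul_mem hx hx) (cen s).one_mem
  have hxc : x + c • (1 : Matrix (Fin m ⊕ Fin m) (Fin m ⊕ Fin m) F) ∈ cen s :=
    (cen s).add_mem hx hc1
  have e : (c * c - 1) • (1 : Matrix (Fin m ⊕ Fin m) (Fin m ⊕ Fin m) F) =
      (x * x - 1) - (x - c • (1 : Matrix (Fin m ⊕ Fin m) (Fin m ⊕ Fin m) F)) *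
        (x + c • (1 : Matrix (Fin m ⊕ Fin m) (Fin m ⊕ Fin m) F)) := by
    simp only [sub_mul, mul_add, smul_mul_assoc, mul_smul_comm, one_mul, mul_one]
    module
  have hn : IsNilpotent ((c * c - 1) • (1 : Matrix (Fin m ⊕ Fin m) (Fin m ⊕ Fin m) F)) := by
    rw [e]
    exact Commute.isNilpotent_sub (D.comm hx2 ((cen s).mul_mem hν hxc)) h
      (Commute.isNilpotent_mul_right (D.comm hν hxc) hc)
  have h3 := scalar_nilp D.hm hn
  have h4 : (c - 1) * (c + 1) = 0 := by linear_combination h3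
  rcases mul_eq_zero.mp h4 with h5 | h5
  · left
    have : c = 1 := by linear_combination h5
    rw [this, one_smul] at hc
    exact hc
  · right
    have : c = -1 := by linear_combination h5
    rw [this] at hc
    have e2 : -x - 1 = -(x - (-1 : F) • (1 : Matrix (Fin m ⊕ Fin m) (Fin m ⊕ Fin m) F)) := by
      module
    rw [e2]
    exact hc.neg

theorem sq_inj {x y : Matrix (Fin m ⊕ Fin m) (Fin m ⊕ Fin m) F} (hx : x ∈ cen s)
    (hy : y ∈ cen s) (hx1 : IsNilpotent (x - 1)) (hy1 : IsNilpotent (y - 1))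
    (h : x * x = y * y) : x = y := by
  have hc := D.comm hx hy
  have e : (x - y) * (x + y) = 0 := by
    rw [sub_mul, mul_add, mul_add, h, hc.eq]; abel
  have hu : IsUnit (x + y) := by
    have e2 : x + y = (2 : F) • (1 : Matrix (Fin m ⊕ Fin m) (Fin m ⊕ Fin m) F) +
        ((x - 1) + (y - 1)) := by module
    rw [e2]
    apply IsNilpotent.isUnit_add_left_of_commute
    · exact Commute.isNilpotent_add (D.comm ((cen s).sub_mem hx (cen s).one_mem)
        ((cen s).sub_mem hy (cen s).one_mem)) hx1 hy1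
    · have := (isUnit_iff_ne_zero.mpr D.h2).map
        (algebraMap F (Matrix (Fin m ⊕ Fin m) (Fin m ⊕ Fin m) F))
      rwa [Algebra.algebraMap_eq_smul_one] at this
    · exact (Commute.one_right _).smul_right _
  exact sub_eq_zero.mp ((hu.mul_left_eq_zero).mp e)

theorem exists_sqrt [Finite F] {w : Matrix (Fin m ⊕ Fin m) (Fin m ⊕ Fin m) F} (hw : w ∈ cen s)
    (hws : sig w = w) (hw1 : IsNilpotent (w - 1)) :
    ∃ r, r ∈ cen s ∧ sig r = r ∧ IsNilpotent (r - 1) ∧ r * r = w := by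
  have : Finite (Matrix (Fin m ⊕ Fin m) (Fin m ⊕ Fin m) F) :=
    inferInstanceAs (Finite (Fin m ⊕ Fin m → Fin m ⊕ Fin m → F))
  let f : {x : Matrix (Fin m ⊕ Fin m) (Fin m ⊕ Fin m) F //
        x ∈ cen s ∧ sig x = x ∧ IsNilpotent (x - 1)} →
      {x : Matrix (Fin m ⊕ Fin m) (Fin m ⊕ Fin m) F //
        x ∈ cen s ∧ sig x = x ∧ IsNilpotent (x - 1)} :=
    fun x => ⟨x.1 * x.1, (cen s).mul_mem x.2.1 x.2.1, by rw [sig_mul, x.2.2.1], by
      have e : x.1 * x.1 - 1 = (x.1 - 1) * (x.1 + 1) := by noncomm_ring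
      rw [e]
      exact Commute.isNilpotent_mul_right (D.comm ((cen s).sub_mem x.2.1 (cen s).one_mem)
        ((cen s).add_mem x.2.1 (cen s).one_mem)) x.2.2.2⟩
  have hf : Function.Injective f := fun x y h =>
    Subtype.ext (D.sq_inj x.2.1 y.2.1 x.2.2.2 y.2.2.2 (congrArg Subtype.val h))
  obtain ⟨r, hr⟩ := (Finite.injective_iff_surjective.mp hf) ⟨w, hw, hws, hw1⟩
  exact ⟨r.1, r.2.1, r.2.2.1, r.2.2.2, congrArg Subtype.val hr⟩

theorem card_sqrt [Finite F] {y : Matrix (Fin m ⊕ Fin m) (Fin m ⊕ Fin m) F} (hy : y ∈ cen s)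
    (hy' : sig y = -y) :
    Nat.card {x : Matrix (Fin m ⊕ Fin m) (Fin m ⊕ Fin m) F //
      x ∈ cen s ∧ sig x = x ∧ x * x = 1 + y * y} = 2 := by
  have hyn := D.anti_nilp hy hy'
  have hw : 1 + y * y ∈ cen s := (cen s).add_mem (cen s).one_mem ((cen s).mul_mem hy hy)
  have hws : sig (1 + y * y) = 1 + y * y := by
    rw [sig_add, sig_one, sig_mul, hy', neg_mul_neg]
  have hw1 : IsNilpotent (1 + y * y - 1) := by
    rw [add_sub_cancel_left]
    exact Commute.isNilpotent_mul_right (Commute.refl y) hyn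
  obtain ⟨r, hr, hrs, hr1, hrr⟩ := D.exists_sqrt hw hws hw1
  rw [Nat.card_eq_two_iff]
  refine ⟨⟨r, hr, hrs, hrr⟩, ⟨-r, (cen s).neg_mem hr, by rw [sig_neg, hrs],
    by rw [neg_mul_neg, hrr]⟩, ?_, ?_⟩
  · intro h
    have h1 : r = -r := congrArg Subtype.val h
    have h2 : (2 : F) • r = 0 := by
      rw [two_smul]
      nth_rewrite 2 [h1]
      exact add_neg_cancel r
    have h3 : r = 0 := (smul_eq_zero.mp h2).resolve_left D.h2
    rw [h3, zero_sub] at hr1
    have h4 : IsNilpotent ((-1 : F) • (1 : Matrix (Fin m ⊕ Fin m) (Fin m ⊕ Fin m) F)) := by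
      rw [neg_one_smul]; exact hr1
    have h5 := scalar_nilp D.hm h4
    exact one_ne_zero (neg_eq_zero.mp h5)
  · ext x
    simp only [Set.mem_insert_iff, Set.mem_singleton_iff, Set.mem_univ, iff_true]
    obtain ⟨x, hx, hxs, hxx⟩ := x
    have hnil : IsNilpotent (x * x - 1) := by rw [hxx]; exact hw1
    rcases D.sq_cases hx hnil with h | h
    · left; exact Subtype.ext (D.sq_inj hx hr h hr1 (hxx.trans hrr.symm))
    · right
      have h6 : -x = r := D.sq_inj ((cen s).neg_mem hx) hr h hr1 (by rw [neg_mul_neg, hxx, hrr])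
      exact Subtype.ext (show x = -r by rw [← h6, neg_neg])

end Data


theorem Phi_neg' (n : ℕ) (s : Matrix (Fin m ⊕ Fin m) (Fin m ⊕ Fin m) F) (a : Fin n → F) :
    Phi n s (fun k => -a k) = -Phi n s a := by
  unfold Phi
  rw [← Finset.sum_neg_distrib]
  exact Finset.sum_congr rfl fun k _ => neg_smul _ _

theorem card_even_zero [Finite F] :
    Nat.card {a : Fin (2 * m) → F // ∀ k : Fin (2 * m), Even (k : ℕ) → a k = 0} =
      Nat.card F ^ m := by
  have e : {a : Fin (2 * m) → F // ∀ k : Fin (2 * m), Even (k : ℕ) → a k = 0} ≃ (Fin m → F) :=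
    { toFun := fun a i => a.1 ⟨2 * (i : ℕ) + 1, by have := i.2; omega⟩
      invFun := fun c => ⟨fun k => if h : Even (k : ℕ) then 0 else
          c ⟨(k : ℕ) / 2, by have := k.2; omega⟩, fun k hk => by simp [hk]⟩
      left_inv := by
        intro a
        apply Subtype.ext
        funext k
        by_cases hk : Even (k : ℕ)
        · simp only [hk, dif_pos]
          exact (a.2 k hk).symm
        · simp only [hk, dif_neg, not_false_eq_true]
          have hodd := Nat.odd_iff.mp (Nat.not_even_iff_odd.mp hk)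
          exact congrArg a.1 (Fin.ext (by show 2 * ((k : ℕ) / 2) + 1 = k; omega))
      right_inv := by
        intro c
        funext i
        have h1 : ¬ Even (2 * (i : ℕ) + 1) := by
          rw [Nat.not_even_iff_odd]; exact ⟨i, rfl⟩
        simp only [h1, dif_neg, not_false_eq_true]
        congr 1
        apply Fin.ext
        show (2 * (i : ℕ) + 1) / 2 = i
        omega }
  rw [Nat.card_congr e, Nat.card_fun]
  congr 1
  simp

namespace Data

variable {s : Matrix (Fin m ⊕ Fin m) (Fin m ⊕ Fin m) F} {v : Fin m ⊕ Fin m → F}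
  (D : Data m s v)
include D

theorem sig_Phi (a : Fin (2 * m) → F) :
    sig (Phi (2 * m) s a) = Phi (2 * m) s (fun k => (-1) ^ (k : ℕ) * a k) := by
  unfold Phi
  rw [sig_sum]
  refine Finset.sum_congr rfl fun k _ => ?_
  rw [sig_smul, sig_pow, D.hsig, ← neg_one_smul F s, smul_pow, smul_smul, mul_comm]

theorem Phi_mem (a : Fin (2 * m) → F) : Phi (2 * m) s a ∈ cen s :=
  mem_cen.mpr (Phi_comm _ s a s (Commute.refl s)).eq.symm

theorem card_anti [Finite F] :
    Nat.card {y : Matrix (Fin m ⊕ Fin m) (Fin m ⊕ Fin m) F // y ∈ cen s ∧ sig y = -y} =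
      Nat.card F ^ m := by
  have hcard : Fintype.card (Fin m ⊕ Fin m) = 2 * m := by
    rw [Fintype.card_sum, Fintype.card_fin]; omega
  have key : ∀ a : Fin (2 * m) → F, sig (Phi (2 * m) s a) = -Phi (2 * m) s a ↔
      ∀ k : Fin (2 * m), Even (k : ℕ) → a k = 0 := by
    intro a
    rw [D.sig_Phi, ← Phi_neg']
    constructor
    · intro h k hk
      have h1 := congrFun (Phi_inj hcard s v D.hspan h) k
      simp only [hk.neg_one_pow, one_mul] at h1
      have h2 : (2 : F) * a k = 0 := by linear_combination h1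
      exact (mul_eq_zero.mp h2).resolve_left D.h2
    · intro h
      congr 1
      funext k
      by_cases hk : Even (k : ℕ)
      · rw [h k hk]; simp
      · rw [(Nat.not_even_iff_odd.mp hk).neg_one_pow, neg_one_mul]
  rw [← card_even_zero (F := F) (m := m)]
  symm
  refine Nat.card_congr (Equiv.ofBijective
    (fun a => ⟨Phi (2 * m) s a.1, D.Phi_mem a.1, (key a.1).mpr a.2⟩) ⟨?_, ?_⟩)
  · intro a b h
    exact Subtype.ext (Phi_inj hcard s v D.hspan (congrArg Subtype.val h))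
  · rintro ⟨y, hy, hy'⟩
    obtain ⟨a, rfl⟩ := comm_eq_Phi s v D.hspan y (mem_cen.mp hy).symm
    exact ⟨⟨a, (key a).mp hy'⟩, rfl⟩

theorem card_norm_one [Finite F] :
    Nat.card {g : Matrix (Fin m ⊕ Fin m) (Fin m ⊕ Fin m) F // g ∈ cen s ∧ g * sig g = 1} =
      2 * Nat.card F ^ m := by
  classical
  have : Finite (Matrix (Fin m ⊕ Fin m) (Fin m ⊕ Fin m) F) :=
    inferInstanceAs (Finite (Fin m ⊕ Fin m → Fin m ⊕ Fin m → F))
  have h2 := D.h2
  let π : {g : Matrix (Fin m ⊕ Fin m) (Fin m ⊕ Fin m) F // g ∈ cen s ∧ g * sig g = 1} →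
      {y : Matrix (Fin m ⊕ Fin m) (Fin m ⊕ Fin m) F // y ∈ cen s ∧ sig y = -y} :=
    fun g => ⟨(2 : F)⁻¹ • (g.1 - sig g.1),
      (cen s).smul_mem ((cen s).sub_mem g.2.1 (D.sig_mem g.2.1)) _, by
        rw [sig_smul, sig_sub, sig_sig, ← smul_neg, neg_sub]⟩
  have hfib : ∀ y : {y : Matrix (Fin m ⊕ Fin m) (Fin m ⊕ Fin m) F // y ∈ cen s ∧ sig y = -y},
      Nat.card {g // π g = y} = 2 := by
    intro y
    rw [← D.card_sqrt y.2.1 y.2.2]
    refine Nat.card_congr
      { toFun := fun g => ⟨(2 : F)⁻¹ • (g.1.1 + sig g.1.1),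
          (cen s).smul_mem ((cen s).add_mem g.1.2.1 (D.sig_mem g.1.2.1)) _, ?_, ?_⟩
        invFun := fun x => ⟨⟨x.1 + y.1, (cen s).add_mem x.2.1 y.2.1, ?_⟩, ?_⟩
        left_inv := ?_
        right_inv := ?_ }
    · rw [sig_smul, sig_add, sig_sig, add_comm]
    · have hy : y.1 = (2 : F)⁻¹ • (g.1.1 - sig g.1.1) := (congrArg Subtype.val g.2).symm
      have hg := g.1.2.2
      have hg' : sig g.1.1 * g.1.1 = 1 := by
        rw [← (D.comm g.1.2.1 (D.sig_mem g.1.2.1)).eq]; exact hg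
      rw [hy]
      simp only [smul_mul_assoc, mul_smul_comm, add_mul, mul_add, sub_mul, mul_sub,
        hg, hg']
      match_scalars <;> field_simp <;> ring
    · rw [sig_add, x.2.2.1, y.2.2]
      have hc := (D.comm x.2.1 y.2.1).eq
      have e : (x.1 + y.1) * (x.1 + -y.1) = x.1 * x.1 - y.1 * y.1 := by
        rw [add_mul, mul_add, mul_add]; simp only [mul_neg]; rw [hc]; abel
      rw [e, x.2.2.2, add_sub_cancel_right]
    · apply Subtype.ext
      show (2 : F)⁻¹ • (x.1 + y.1 - sig (x.1 + y.1)) = y.1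
      rw [sig_add, x.2.2.1, y.2.2]
      match_scalars <;> field_simp <;> ring
    · intro g
      apply Subtype.ext
      apply Subtype.ext
      have hy : y.1 = (2 : F)⁻¹ • (g.1.1 - sig g.1.1) := (congrArg Subtype.val g.2).symm
      show (2 : F)⁻¹ • (g.1.1 + sig g.1.1) + y.1 = g.1.1
      rw [hy]
      match_scalars <;> field_simp <;> ring
    · intro x
      apply Subtype.ext
      show (2 : F)⁻¹ • (x.1 + y.1 + sig (x.1 + y.1)) = x.1
      rw [sig_add, x.2.2.1, y.2.2]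
      match_scalars <;> field_simp <;> ring
  have : Fintype {y : Matrix (Fin m ⊕ Fin m) (Fin m ⊕ Fin m) F // y ∈ cen s ∧ sig y = -y} :=
    Fintype.ofFinite _
  rw [← Nat.card_congr (Equiv.sigmaFiberEquiv π), Nat.card_sigma]
  simp only [hfib, Finset.sum_const, Finset.card_univ, smul_eq_mul]
  rw [← Nat.card_eq_fintype_card, D.card_anti, mul_comm]

end Data


theorem two_ne_zero_of_odd [Fintype F] (hq : Odd (Fintype.card F)) : (2 : F) ≠ 0 := by
  intro h
  have h1 : ringChar F = 2 := CharP.ringChar_of_prime_eq_zero Nat.prime_two (by exact_mod_cast h)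
  have h2 := FiniteField.even_card_of_char_two h1
  have h3 := Nat.odd_iff.mp hq
  omega

/-- a regular unipotent element of `Sp_{2m}(q)`, `q` odd, gives the data `s = u - u⁻¹` -/
theorem data_of_reg (h2 : (2 : F) ≠ 0) (hm : 1 ≤ m)
    (u : Matrix.symplecticGroup (Fin m) F)
    (hnil : ((u : Matrix (Fin m ⊕ Fin m) (Fin m ⊕ Fin m) F) - 1) ^ (2 * m) = 0)
    (hreg : ((u : Matrix (Fin m ⊕ Fin m) (Fin m ⊕ Fin m) F) - 1).rank = 2 * m - 1) :
    ∃ v, Data m ((u : Matrix (Fin m ⊕ Fin m) (Fin m ⊕ Fin m) F) -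
      ((u⁻¹ : Matrix.symplecticGroup (Fin m) F) : Matrix (Fin m ⊕ Fin m) (Fin m ⊕ Fin m) F)) v := by
  classical
  set U : Matrix (Fin m ⊕ Fin m) (Fin m ⊕ Fin m) F := (u : Matrix (Fin m ⊕ Fin m) (Fin m ⊕ Fin m) F) with hU
  set V : Matrix (Fin m ⊕ Fin m) (Fin m ⊕ Fin m) F :=
    ((u⁻¹ : Matrix.symplecticGroup (Fin m) F) : Matrix (Fin m ⊕ Fin m) (Fin m ⊕ Fin m) F) with hV
  have hUV : U * V = 1 := by
    have := congrArg (Subtype.val) (mul_inv_cancel u)
    exact this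
  have hVU : V * U = 1 := by
    have := congrArg (Subtype.val) (inv_mul_cancel u)
    exact this
  have hcUV : Commute U V := by rw [Commute, SemiconjBy, hUV, hVU]
  have hN : IsNilpotent (U - 1) := ⟨2 * m, hnil⟩
  have hw : IsUnit (V * (U + 1)) := by
    apply IsUnit.mul
    · exact IsUnit.of_mul_eq_one _ hVU
    · have e : U + 1 = (2 : F) • (1 : Matrix (Fin m ⊕ Fin m) (Fin m ⊕ Fin m) F) + (U - 1) := by
        module
      rw [e]
      apply IsNilpotent.isUnit_add_left_of_commute hN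
      · have := (isUnit_iff_ne_zero.mpr h2).map
          (algebraMap F (Matrix (Fin m ⊕ Fin m) (Fin m ⊕ Fin m) F))
        rwa [Algebra.algebraMap_eq_smul_one] at this
      · exact (Commute.one_right _).smul_right _
  have hs : U - V = (U - 1) * (V * (U + 1)) := by
    have : (U - 1) * (V * (U + 1)) = U * V * U + U * V - V * U - V := by noncomm_ring
    rw [this, hUV, hVU]; noncomm_ring
  have hcomm : Commute (U - 1) (V * (U + 1)) := by
    apply Commute.mul_right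
    · exact (hcUV.sub_left (Commute.one_left V))
    · exact ((Commute.refl U).sub_left (Commute.one_left U)).add_right (Commute.one_right _)
  have hsn : (U - V) ^ (2 * m) = 0 := by
    rw [hs, hcomm.mul_pow, hnil, zero_mul]
  have hsr : (U - V).rank = 2 * m - 1 := by
    rw [hs, Matrix.rank_mul_eq_left_of_isUnit_det _ _ ((Matrix.isUnit_iff_isUnit_det _).mp hw)]
    exact hreg
  have hcard : Fintype.card (Fin m ⊕ Fin m) = 2 * m := by
    rw [Fintype.card_sum, Fintype.card_fin]; omega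
  obtain ⟨v, hv⟩ := exists_cyclic hcard (by omega) (U - V) hsn hsr
  refine ⟨v, ⟨hm, h2, hv, hsn, ?_⟩⟩
  rw [sig_sub, hU, hV, sig_coe, sig_coe, inv_inv, neg_sub]

/-- the centralizer of a regular unipotent element of `Sp_{2m}(q)`, `q` odd, has order `2 q^m` -/
theorem card_centralizer [Finite F] (h2 : (2 : F) ≠ 0) (hm : 1 ≤ m)
    (u : Matrix.symplecticGroup (Fin m) F)
    (hnil : ((u : Matrix (Fin m ⊕ Fin m) (Fin m ⊕ Fin m) F) - 1) ^ (2 * m) = 0)
    (hreg : ((u : Matrix (Fin m ⊕ Fin m) (Fin m ⊕ Fin m) F) - 1).rank = 2 * m - 1) :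
    Nat.card (Subgroup.centralizer ({u} : Set (Matrix.symplecticGroup (Fin m) F))) =
      2 * Nat.card F ^ m := by
  classical
  obtain ⟨v, D⟩ := data_of_reg h2 hm u hnil hreg
  rw [← D.card_norm_one]
  have hUV : (u : Matrix (Fin m ⊕ Fin m) (Fin m ⊕ Fin m) F) *
      ((u⁻¹ : Matrix.symplecticGroup (Fin m) F) : Matrix (Fin m ⊕ Fin m) (Fin m ⊕ Fin m) F) = 1 :=
    congrArg (Subtype.val) (mul_inv_cancel u)
  have hVU : ((u⁻¹ : Matrix.symplecticGroup (Fin m) F) : Matrix (Fin m ⊕ Fin m) (Fin m ⊕ Fin m) F) *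
      (u : Matrix (Fin m ⊕ Fin m) (Fin m ⊕ Fin m) F) = 1 :=
    congrArg (Subtype.val) (inv_mul_cancel u)
  refine Nat.card_congr
    { toFun := fun g => ⟨(g.1 : Matrix (Fin m ⊕ Fin m) (Fin m ⊕ Fin m) F), ?_, ?_⟩
      invFun := fun X => ⟨⟨X.1, mem_sp_of_mul_sig X.2.2⟩, ?_⟩
      left_inv := fun g => rfl
      right_inv := fun X => rfl }
  · have hg : u * g.1 = g.1 * u := (Subgroup.mem_centralizer_iff.mp g.2) u rfl
    have hg' : u⁻¹ * g.1 = g.1 * u⁻¹ := by
      rw [eq_mul_inv_iff_mul_eq, mul_assoc, ← hg, ← mul_assoc, inv_mul_cancel, one_mul]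
    rw [mem_cen, sub_mul, mul_sub]
    have e1 := congrArg (Subtype.val) hg
    have e2 := congrArg (Subtype.val) hg'
    simp only [Submonoid.coe_mul] at e1 e2
    rw [e1, e2]
  · rw [sig_coe]
    exact congrArg (Subtype.val) (mul_inv_cancel g.1)
  · rw [Subgroup.mem_centralizer_iff]
    intro h hh
    rw [Set.mem_singleton_iff] at hh
    subst hh
    apply Subtype.ext
    show (h : Matrix (Fin m ⊕ Fin m) (Fin m ⊕ Fin m) F) * X.1 = X.1 * (h : Matrix (Fin m ⊕ Fin m) (Fin m ⊕ Fin m) F)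
    obtain ⟨a, ha⟩ := comm_eq_Phi _ v D.hspan X.1 (mem_cen.mp X.2.1).symm
    rw [ha]
    refine (Phi_comm _ _ a _ ?_).eq.symm
    show Commute (h : Matrix (Fin m ⊕ Fin m) (Fin m ⊕ Fin m) F)
      ((h : Matrix (Fin m ⊕ Fin m) (Fin m ⊕ Fin m) F) -
        ((h⁻¹ : Matrix.symplecticGroup (Fin m) F) : Matrix (Fin m ⊕ Fin m) (Fin m ⊕ Fin m) F))
    rw [Commute, SemiconjBy, mul_sub, sub_mul, hUV, hVU]

end Cfsg.Agent.Helper14.SpReg
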