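import Mathlib
import Cfsg.Agent.Helper14.RegUnip
import Cfsg.Agent.Helper14.SpReg

set_option autoImplicit false
set_option linter.unusedSectionVars false
set_option linter.unusedVariables false

namespace Cfsg.Agent.Helper14.SpReg

open Matrix Cfsg.Agent.Helper14.RegNil Cfsg.Agent.Helper14.RegUnip

variable {F : Type*} [Field F] {m : ℕ}

/-- a regular nilpotent element of the symplectic Lie algebra -/
def s0 (F : Type*) [Field F] (m : ℕ) (hm : 0 < m) : Matrix (Fin m ⊕ Fin m) (Fin m ⊕ Fin m) F :=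
  Matrix.fromBlocks (J F m) (Matrix.single ⟨0, hm⟩ ⟨0, hm⟩ 1) 0 (-(J F m)ᵀ)

theorem sig_s0 (hm : 0 < m) : sig (s0 F m hm) = -s0 F m hm := by
  unfold sig s0 Matrix.J
  simp only [Matrix.fromBlocks_transpose, Matrix.fromBlocks_neg, Matrix.fromBlocks_multiply]
  simp

/-- the level of an index along the Jordan chain of `s0` -/
def lev (m : ℕ) : Fin m ⊕ Fin m → ℕ
  | Sum.inl k => m + k
  | Sum.inr k => m - 1 - k

theorem s0_lev (hm : 0 < m) (r c : Fin m ⊕ Fin m) (h : s0 F m hm r c ≠ 0) :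
    lev m r = lev m c + 1 := by
  unfold s0 at h
  rcases r with i | i <;> rcases c with k | k
  · simp only [Matrix.fromBlocks_apply₁₁, J_apply] at h
    have : (i : ℕ) = k + 1 := by by_contra h'; simp [h'] at h
    simp only [lev]; omega
  · simp only [Matrix.fromBlocks_apply₁₂] at h
    have h1 : (⟨0, hm⟩ : Fin m) = i ∧ (⟨0, hm⟩ : Fin m) = k := by
      by_contra h'
      exact h (Matrix.single_apply_of_ne _ _ _ _ _ h')
    have hi : (i : ℕ) = 0 := by rw [← h1.1]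
    have hk : (k : ℕ) = 0 := by rw [← h1.2]
    simp only [lev]; omega
  · simp at h
  · simp only [Matrix.fromBlocks_apply₂₂, Matrix.neg_apply, Matrix.transpose_apply, J_apply] at h
    have : (k : ℕ) = i + 1 := by by_contra h'; simp [h'] at h
    have := k.2
    simp only [lev]; omega

theorem pow_lev {ι : Type*} [Fintype ι] [DecidableEq ι] (M : Matrix ι ι F) (l : ι → ℕ)
    (h : ∀ r c, M r c ≠ 0 → l r = l c + 1) (k : ℕ) :
    ∀ r c, (M ^ k) r c ≠ 0 → l r = l c + k := by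
  induction k with
  | zero =>
    intro r c hrc
    rw [pow_zero] at hrc
    have : r = c := by by_contra h'; exact hrc (Matrix.one_apply_ne h')
    rw [this]; rfl
  | succ k ih =>
    intro r c hrc
    rw [pow_succ, Matrix.mul_apply] at hrc
    obtain ⟨j, _, hj⟩ := Finset.exists_ne_zero_of_sum_ne_zero hrc
    have h1 := ih r j (left_ne_zero_of_mul hj)
    have h2 := h j c (right_ne_zero_of_mul hj)
    omega

theorem s0_pow (hm : 0 < m) : s0 F m hm ^ (2 * m) = 0 := by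
  ext r c
  by_contra h
  have h1 := pow_lev (s0 F m hm) (lev m) (s0_lev hm) (2 * m) r c h
  have h2 : lev m r < 2 * m := by
    rcases r with i | i
    · have := i.2; simp only [lev]; omega
    · simp only [lev]; omega
  omega


theorem s0_mulVec_inl_zero (hm : 0 < m) (x : Fin m ⊕ Fin m → F) :
    (s0 F m hm *ᵥ x) (Sum.inl ⟨0, hm⟩) = x (Sum.inr ⟨0, hm⟩) := by
  unfold s0
  rw [Matrix.mulVec, dotProduct, Fintype.sum_sum_type]
  simp only [Matrix.fromBlocks_apply₁₁, Matrix.fromBlocks_apply₁₂, J_apply]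
  rw [Finset.sum_eq_zero, zero_add, Finset.sum_eq_single ⟨0, hm⟩]
  · rw [Matrix.single_apply_same, one_mul]
  · intro k _ hk
    rw [Matrix.single_apply_of_ne _ _ _ _ _ (fun h => hk h.2.symm), zero_mul]
  · intro h; exact absurd (Finset.mem_univ _) h
  · intro k _
    have : ¬ ((0 : ℕ) = (k : ℕ) + 1) := by omega
    simp

theorem s0_mulVec_inl_succ (hm : 0 < m) (x : Fin m ⊕ Fin m → F) (k : ℕ) (hk : k + 1 < m) :
    (s0 F m hm *ᵥ x) (Sum.inl ⟨k + 1, hk⟩) = x (Sum.inl ⟨k, by omega⟩) := by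
  unfold s0
  rw [Matrix.mulVec, dotProduct, Fintype.sum_sum_type]
  simp only [Matrix.fromBlocks_apply₁₁, Matrix.fromBlocks_apply₁₂, J_apply]
  rw [Finset.sum_eq_single ⟨k, by omega⟩, Finset.sum_eq_zero]
  · simp
  · intro j _
    rw [Matrix.single_apply_of_ne _ _ _ _ _ (fun h => by
      have := congrArg Fin.val h.1; simp at this), zero_mul]
  · intro j _ hj
    have : ¬ (k = (j : ℕ)) := fun h => hj (Fin.ext h.symm)
    simp [this]
  · intro h; exact absurd (Finset.mem_univ _) h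

theorem s0_mulVec_inr (hm : 0 < m) (x : Fin m ⊕ Fin m → F) (k : ℕ) (hk : k + 1 < m) :
    (s0 F m hm *ᵥ x) (Sum.inr ⟨k, by omega⟩) = -x (Sum.inr ⟨k + 1, hk⟩) := by
  unfold s0
  rw [Matrix.mulVec, dotProduct, Fintype.sum_sum_type]
  simp only [Matrix.fromBlocks_apply₂₁, Matrix.fromBlocks_apply₂₂, Matrix.zero_apply, zero_mul,
    Finset.sum_const_zero, zero_add, Matrix.neg_apply, Matrix.transpose_apply, J_apply]
  rw [Finset.sum_eq_single ⟨k + 1, hk⟩]
  · simp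
  · intro j _ hj
    have : ¬ ((j : ℕ) = k + 1) := fun h => hj (Fin.ext h)
    simp [this]
  · intro h; exact absurd (Finset.mem_univ _) h

theorem s0_mulVec_inr_last (hm : 0 < m) (x : Fin m ⊕ Fin m → F) :
    (s0 F m hm *ᵥ x) (Sum.inr ⟨m - 1, by omega⟩) = 0 := by
  unfold s0
  rw [Matrix.mulVec, dotProduct, Fintype.sum_sum_type]
  simp only [Matrix.fromBlocks_apply₂₁, Matrix.fromBlocks_apply₂₂, Matrix.zero_apply, zero_mul,
    Finset.sum_const_zero, zero_add, Matrix.neg_apply, Matrix.transpose_apply, J_apply]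
  apply Finset.sum_eq_zero
  intro j _
  have : ¬ ((j : ℕ) = m - 1 + 1) := by have := j.2; omega
  simp [this]

theorem s0_rank (hm : 0 < m) : (s0 F m hm).rank = 2 * m - 1 := by
  classical
  have hker : LinearMap.ker (s0 F m hm).mulVecLin =
      Submodule.span F {(Pi.single (Sum.inl ⟨m - 1, by omega⟩) (1 : F) : Fin m ⊕ Fin m → F)} := by
    apply le_antisymm
    · intro x hx
      have hx0 : s0 F m hm *ᵥ x = 0 := hx
      rw [Submodule.mem_span_singleton]
      refine ⟨x (Sum.inl ⟨m - 1, by omega⟩), ?_⟩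
      funext j
      rcases j with k | k
      · by_cases hk0 : k = ⟨m - 1, by omega⟩
        · rw [hk0]
          simp
        · have hk : (k : ℕ) ≠ m - 1 := fun h => hk0 (Fin.ext h)
          have hk' : (k : ℕ) + 1 < m := by have := k.2; omega
          have h1 := congrFun hx0 (Sum.inl ⟨k + 1, hk'⟩)
          rw [s0_mulVec_inl_succ hm x k hk'] at h1
          have hne : (Sum.inl k : Fin m ⊕ Fin m) ≠ Sum.inl ⟨m - 1, by omega⟩ := by
            intro h; exact hk (congrArg Fin.val (Sum.inl.inj h))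
          simp only [Pi.smul_apply, Pi.single_apply, hne, if_false, smul_zero]
          exact h1.symm
      · simp only [Pi.smul_apply, Pi.single_apply, reduceCtorEq, if_false, smul_zero]
        by_cases hk : (k : ℕ) = 0
        · have h1 := congrFun hx0 (Sum.inl ⟨0, hm⟩)
          rw [s0_mulVec_inl_zero hm x] at h1
          have : k = ⟨0, hm⟩ := Fin.ext hk
          rw [this]; exact h1.symm
        · obtain ⟨j, hj⟩ : ∃ j, (k : ℕ) = j + 1 := ⟨k - 1, by omega⟩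
          have hj' : j + 1 < m := by have := k.2; omega
          have h1 := congrFun hx0 (Sum.inr ⟨j, by omega⟩)
          rw [s0_mulVec_inr hm x j hj'] at h1
          have : k = ⟨j + 1, hj'⟩ := Fin.ext hj
          rw [this]
          exact (neg_eq_zero.mp h1).symm
    · rw [Submodule.span_singleton_le_iff_mem]
      show s0 F m hm *ᵥ _ = 0
      funext j
      rcases j with k | k
      · by_cases hk : (k : ℕ) = 0
        · have : k = ⟨0, hm⟩ := Fin.ext hk
          rw [this, s0_mulVec_inl_zero]; simp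
        · obtain ⟨j, hj⟩ : ∃ j, (k : ℕ) = j + 1 := ⟨k - 1, by omega⟩
          have hj' : j + 1 < m := by have := k.2; omega
          have : k = ⟨j + 1, hj'⟩ := Fin.ext hj
          rw [this, s0_mulVec_inl_succ hm _ j hj']
          have hne : (Sum.inl ⟨j, by omega⟩ : Fin m ⊕ Fin m) ≠ Sum.inl ⟨m - 1, by omega⟩ := by
            intro h
            have := congrArg Fin.val (Sum.inl.inj h)
            simp at this
            omega
          simp [hne]
      · by_cases hk : (k : ℕ) + 1 < m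
        · have : k = ⟨(k : ℕ), by omega⟩ := rfl
          rw [this, s0_mulVec_inr hm _ k hk]; simp
        · have : k = ⟨m - 1, by omega⟩ := Fin.ext (by show (k : ℕ) = m - 1; have := k.2; omega)
          rw [this, s0_mulVec_inr_last]; rfl
  have h1 := LinearMap.finrank_range_add_finrank_ker (s0 F m hm).mulVecLin
  rw [hker, finrank_span_singleton (by
    intro h
    have := congrFun h (Sum.inl ⟨m - 1, by omega⟩)
    simp at this), Module.finrank_fintype_fun_eq_card, Fintype.card_sum, Fintype.card_fin] at h1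
  show Module.finrank F (LinearMap.range (s0 F m hm).mulVecLin) = 2 * m - 1
  omega


/-- existence of a regular unipotent element of `Sp_{2m}(F)`, characteristic not 2
(Cayley transform of `s0`) -/
theorem exists_reg (h2 : (2 : F) ≠ 0) (hm : 0 < m) :
    ∃ u : Matrix.symplecticGroup (Fin m) F,
      ((u : Matrix (Fin m ⊕ Fin m) (Fin m ⊕ Fin m) F) - 1) ^ (2 * m) = 0 ∧
      ((u : Matrix (Fin m ⊕ Fin m) (Fin m ⊕ Fin m) F) - 1).rank = 2 * m - 1 := by
  classical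
  set s := s0 F m hm with hs
  set h : Matrix (Fin m ⊕ Fin m) (Fin m ⊕ Fin m) F := (2 : F)⁻¹ • s with hh
  have hnil : IsNilpotent h := ⟨2 * m, by rw [hh, smul_pow, hs, s0_pow, smul_zero]⟩
  obtain ⟨Qu, hQu⟩ := hnil.isUnit_one_sub
  set Qi : Matrix (Fin m ⊕ Fin m) (Fin m ⊕ Fin m) F := ↑Qu⁻¹ with hQi
  have hQQi : (1 - h) * Qi = 1 := by rw [← hQu]; exact Qu.mul_inv
  have hQiQ : Qi * (1 - h) = 1 := by rw [← hQu]; exact Qu.inv_mul
  have hsig_h : sig h = -h := by rw [hh, sig_smul, hs, sig_s0, smul_neg]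
  have hsigP : sig (1 + h) = 1 - h := by rw [sig_add, sig_one, hsig_h, sub_eq_add_neg]
  have hsigQ : sig (1 - h) = 1 + h := by rw [sig_sub, sig_one, hsig_h, sub_neg_eq_add]
  have h1 : (1 + h) * sig Qi = 1 := by rw [← hsigQ, ← sig_mul, hQiQ, sig_one]
  have hcPQ : Commute (1 + h) (1 - h) :=
    (Commute.one_right (1 + h)).sub_right ((Commute.one_left h).add_left (Commute.refl h))
  have hcPQi : Commute (1 + h) Qi := by
    rw [hQi]
    apply Commute.units_inv_right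
    rw [hQu]; exact hcPQ
  have hmem : (1 + h) * Qi * sig ((1 + h) * Qi) = 1 := by
    rw [sig_mul, hsigP, hcPQi.eq]
    calc Qi * (1 + h) * (sig Qi * (1 - h)) = Qi * ((1 + h) * sig Qi) * (1 - h) := by
          simp only [mul_assoc]
      _ = 1 := by rw [h1, mul_one, hQiQ]
  have hsub : (1 + h) * Qi - 1 = s * Qi := by
    calc (1 + h) * Qi - 1 = (1 + h) * Qi - (1 - h) * Qi := by rw [hQQi]
      _ = ((1 + h) - (1 - h)) * Qi := (sub_mul (1 + h) (1 - h) Qi).symm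
      _ = s * Qi := by
          congr 1
          have : (1 + h) - (1 - h) = (2 : F) • h := by module
          rw [this, hh, smul_smul, mul_inv_cancel₀ h2, one_smul]
  have hcs : Commute s Qi := by
    rw [hQi]
    apply Commute.units_inv_right
    rw [hQu]
    exact (Commute.one_right s).sub_right ((Commute.refl s).smul_right _)
  refine ⟨⟨(1 + h) * Qi, mem_sp_of_mul_sig hmem⟩, ?_, ?_⟩
  · show ((1 + h) * Qi - 1) ^ (2 * m) = 0
    rw [hsub, hcs.mul_pow, hs, s0_pow, zero_mul]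
  · show ((1 + h) * Qi - 1).rank = 2 * m - 1
    rw [hsub, Matrix.rank_mul_eq_left_of_isUnit_det _ _
      ((Matrix.isUnit_iff_isUnit_det _).mp (Qu⁻¹).isUnit), hs, s0_rank]

/-- two regular nilpotent matrices are conjugate -/
theorem exists_conj (hm : 0 < m) {N₀ N : Matrix (Fin m ⊕ Fin m) (Fin m ⊕ Fin m) F}
    (h0 : N₀ ^ (2 * m) = 0) (r0 : N₀.rank = 2 * m - 1)
    (h1 : N ^ (2 * m) = 0) (r1 : N.rank = 2 * m - 1) :
    ∃ g : (Matrix (Fin m ⊕ Fin m) (Fin m ⊕ Fin m) F)ˣ,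
      (g : Matrix (Fin m ⊕ Fin m) (Fin m ⊕ Fin m) F) * N₀ = N * g := by
  classical
  have hcard : Fintype.card (Fin m ⊕ Fin m) = 2 * m := by
    rw [Fintype.card_sum, Fintype.card_fin]; omega
  obtain ⟨v₀, hv₀⟩ := exists_cyclic hcard (by omega) N₀ h0 r0
  obtain ⟨v, hv⟩ := exists_cyclic hcard (by omega) N h1 r1
  have hli₀ : LinearIndependent F (fun i : Fin (2 * m) => (N₀ ^ (i : ℕ)) *ᵥ v₀) :=
    linearIndependent_of_top_le_span_of_card_eq_finrank (by rw [hv₀])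
      (by rw [Module.finrank_fintype_fun_eq_card, hcard, Fintype.card_fin])
  have hli : LinearIndependent F (fun i : Fin (2 * m) => (N ^ (i : ℕ)) *ᵥ v) :=
    linearIndependent_of_top_le_span_of_card_eq_finrank (by rw [hv])
      (by rw [Module.finrank_fintype_fun_eq_card, hcard, Fintype.card_fin])
  let b₀ := Module.Basis.mk hli₀ (by rw [hv₀])
  let b := Module.Basis.mk hli (by rw [hv])
  let φ := b₀.equiv b (Equiv.refl _)
  have hφ : ∀ x, φ (N₀ *ᵥ x) = N *ᵥ (φ x) := by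
    have : (φ : (Fin m ⊕ Fin m → F) →ₗ[F] (Fin m ⊕ Fin m → F)) ∘ₗ N₀.mulVecLin =
        N.mulVecLin ∘ₗ (φ : (Fin m ⊕ Fin m → F) →ₗ[F] (Fin m ⊕ Fin m → F)) := by
      apply b₀.ext
      intro i
      show φ (N₀ *ᵥ (b₀ i)) = N *ᵥ (φ (b₀ i))
      rw [Module.Basis.equiv_apply]
      simp only [b₀, b, Module.Basis.mk_apply, Equiv.refl_apply]
      rw [Matrix.mulVec_mulVec, Matrix.mulVec_mulVec, ← pow_succ', ← pow_succ']
      by_cases hi : (i : ℕ) + 1 < 2 * m
      · have e1 : (N₀ ^ ((i : ℕ) + 1)) *ᵥ v₀ = b₀ ⟨i + 1, hi⟩ := by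
          simp only [b₀, Module.Basis.mk_apply]
        have e2 : (N ^ ((i : ℕ) + 1)) *ᵥ v = b ⟨i + 1, hi⟩ := by
          simp only [b, Module.Basis.mk_apply]
        rw [e1, e2, Module.Basis.equiv_apply]
        rfl
      · have hi' : (i : ℕ) + 1 = 2 * m := by have := i.2; omega
        rw [hi', h0, h1, Matrix.zero_mulVec, Matrix.zero_mulVec, map_zero]
    intro x
    exact LinearMap.congr_fun this x
  refine ⟨⟨LinearMap.toMatrix' (φ : (Fin m ⊕ Fin m → F) →ₗ[F] (Fin m ⊕ Fin m → F)),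
    LinearMap.toMatrix' (φ.symm : (Fin m ⊕ Fin m → F) →ₗ[F] (Fin m ⊕ Fin m → F)), ?_, ?_⟩, ?_⟩
  · rw [← LinearMap.toMatrix'_comp]
    simp
  · rw [← LinearMap.toMatrix'_comp]
    simp
  · show LinearMap.toMatrix' (φ : (Fin m ⊕ Fin m → F) →ₗ[F] (Fin m ⊕ Fin m → F)) * N₀ =
      N * LinearMap.toMatrix' (φ : (Fin m ⊕ Fin m → F) →ₗ[F] (Fin m ⊕ Fin m → F))
    apply Matrix.ext_iff_mulVec.mpr
    intro x
    rw [← Matrix.mulVec_mulVec, ← Matrix.mulVec_mulVec, LinearMap.toMatrix'_mulVec,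
      LinearMap.toMatrix'_mulVec]
    exact hφ x


theorem coe_mul_inv (u : Matrix.symplecticGroup (Fin m) F) :
    (u : Matrix (Fin m ⊕ Fin m) (Fin m ⊕ Fin m) F) *
      ((u⁻¹ : Matrix.symplecticGroup (Fin m) F) : Matrix (Fin m ⊕ Fin m) (Fin m ⊕ Fin m) F) = 1 :=
  congrArg (Subtype.val) (mul_inv_cancel u)

theorem coe_inv_mul (u : Matrix.symplecticGroup (Fin m) F) :
    ((u⁻¹ : Matrix.symplecticGroup (Fin m) F) : Matrix (Fin m ⊕ Fin m) (Fin m ⊕ Fin m) F) *
      (u : Matrix (Fin m ⊕ Fin m) (Fin m ⊕ Fin m) F) = 1 :=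
  congrArg (Subtype.val) (inv_mul_cancel u)

theorem mem_cen_of_comm (u₀ : Matrix.symplecticGroup (Fin m) F)
    {X : Matrix (Fin m ⊕ Fin m) (Fin m ⊕ Fin m) F}
    (hX : X * (u₀ : Matrix (Fin m ⊕ Fin m) (Fin m ⊕ Fin m) F) = u₀ * X) :
    X ∈ cen ((u₀ : Matrix (Fin m ⊕ Fin m) (Fin m ⊕ Fin m) F) -
      ((u₀⁻¹ : Matrix.symplecticGroup (Fin m) F) : Matrix (Fin m ⊕ Fin m) (Fin m ⊕ Fin m) F)) := by
  have hUV := coe_mul_inv u₀
  have hVU := coe_inv_mul u₀
  set U : Matrix (Fin m ⊕ Fin m) (Fin m ⊕ Fin m) F :=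
    (u₀ : Matrix (Fin m ⊕ Fin m) (Fin m ⊕ Fin m) F)
  set V : Matrix (Fin m ⊕ Fin m) (Fin m ⊕ Fin m) F :=
    ((u₀⁻¹ : Matrix.symplecticGroup (Fin m) F) : Matrix (Fin m ⊕ Fin m) (Fin m ⊕ Fin m) F)
  have hV : V * X = X * V := by
    calc V * X = V * X * (U * V) := by rw [hUV, mul_one]
      _ = V * (X * U) * V := by simp only [mul_assoc]
      _ = V * (U * X) * V := by rw [hX]
      _ = (V * U) * X * V := by simp only [mul_assoc]
      _ = X * V := by rw [hVU, one_mul]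
  rw [mem_cen, sub_mul, mul_sub, hX, hV]

theorem U_mem (u₀ : Matrix.symplecticGroup (Fin m) F) :
    (u₀ : Matrix (Fin m ⊕ Fin m) (Fin m ⊕ Fin m) F) ∈
      cen ((u₀ : Matrix (Fin m ⊕ Fin m) (Fin m ⊕ Fin m) F) -
      ((u₀⁻¹ : Matrix.symplecticGroup (Fin m) F) : Matrix (Fin m ⊕ Fin m) (Fin m ⊕ Fin m) F)) :=
  mem_cen_of_comm u₀ rfl

theorem sig_unit_inv (g : (Matrix (Fin m ⊕ Fin m) (Fin m ⊕ Fin m) F)ˣ) :
    sig (↑g⁻¹ : Matrix (Fin m ⊕ Fin m) (Fin m ⊕ Fin m) F) * sig (↑g : Matrix _ _ F) = 1 ∧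
    sig (↑g : Matrix (Fin m ⊕ Fin m) (Fin m ⊕ Fin m) F) * sig (↑g⁻¹ : Matrix _ _ F) = 1 := by
  constructor
  · rw [← sig_mul, g.mul_inv, sig_one]
  · rw [← sig_mul, g.inv_mul, sig_one]

/-- the invariant `σ(g) g` of an intertwiner lies in the commutant -/
theorem b_mem (u₀ u : Matrix.symplecticGroup (Fin m) F)
    (g : (Matrix (Fin m ⊕ Fin m) (Fin m ⊕ Fin m) F)ˣ)
    (hg : (g : Matrix (Fin m ⊕ Fin m) (Fin m ⊕ Fin m) F) * u₀ = u * g) :
    sig (g : Matrix (Fin m ⊕ Fin m) (Fin m ⊕ Fin m) F) * g ∈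
      cen ((u₀ : Matrix (Fin m ⊕ Fin m) (Fin m ⊕ Fin m) F) -
      ((u₀⁻¹ : Matrix.symplecticGroup (Fin m) F) : Matrix (Fin m ⊕ Fin m) (Fin m ⊕ Fin m) F)) := by
  apply mem_cen_of_comm
  have h1 : sig (u₀ : Matrix (Fin m ⊕ Fin m) (Fin m ⊕ Fin m) F) * sig (g : Matrix _ _ F) =
      sig (g : Matrix _ _ F) * sig (u : Matrix (Fin m ⊕ Fin m) (Fin m ⊕ Fin m) F) := by
    rw [← sig_mul, ← sig_mul, hg]
  rw [sig_coe, sig_coe] at h1
  have h2 : sig (g : Matrix (Fin m ⊕ Fin m) (Fin m ⊕ Fin m) F) *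
      (u : Matrix (Fin m ⊕ Fin m) (Fin m ⊕ Fin m) F) =
      (u₀ : Matrix (Fin m ⊕ Fin m) (Fin m ⊕ Fin m) F) * sig (g : Matrix _ _ F) := by
    calc sig (g : Matrix (Fin m ⊕ Fin m) (Fin m ⊕ Fin m) F) * (u : Matrix _ _ F)
        = ((u₀ : Matrix (Fin m ⊕ Fin m) (Fin m ⊕ Fin m) F) *
            ((u₀⁻¹ : Matrix.symplecticGroup (Fin m) F) : Matrix _ _ F)) *
            sig (g : Matrix _ _ F) * (u : Matrix _ _ F) := by rw [coe_mul_inv, one_mul]
      _ = (u₀ : Matrix (Fin m ⊕ Fin m) (Fin m ⊕ Fin m) F) *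
            (((u₀⁻¹ : Matrix.symplecticGroup (Fin m) F) : Matrix _ _ F) *
            sig (g : Matrix _ _ F)) * (u : Matrix _ _ F) := by simp only [mul_assoc]
      _ = (u₀ : Matrix (Fin m ⊕ Fin m) (Fin m ⊕ Fin m) F) * sig (g : Matrix _ _ F) *
            (((u⁻¹ : Matrix.symplecticGroup (Fin m) F) : Matrix _ _ F) *
              (u : Matrix _ _ F)) := by rw [h1]; simp only [mul_assoc]
      _ = _ := by rw [coe_inv_mul, mul_one]
  rw [mul_assoc, hg, ← mul_assoc, h2, mul_assoc]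

/-- conjugacy criterion: equal invariants -/
theorem conj_of_eq (u₀ u u' : Matrix.symplecticGroup (Fin m) F)
    (g g' : (Matrix (Fin m ⊕ Fin m) (Fin m ⊕ Fin m) F)ˣ)
    (hg : (g : Matrix (Fin m ⊕ Fin m) (Fin m ⊕ Fin m) F) * u₀ = u * g)
    (hg' : (g' : Matrix (Fin m ⊕ Fin m) (Fin m ⊕ Fin m) F) * u₀ = u' * g')
    (hb : sig (g : Matrix (Fin m ⊕ Fin m) (Fin m ⊕ Fin m) F) * g =
      sig (g' : Matrix (Fin m ⊕ Fin m) (Fin m ⊕ Fin m) F) * g') : IsConj u u' := by
  set G : Matrix (Fin m ⊕ Fin m) (Fin m ⊕ Fin m) F := ↑g with hG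
  set Gi : Matrix (Fin m ⊕ Fin m) (Fin m ⊕ Fin m) F := ↑g⁻¹ with hGi
  set G' : Matrix (Fin m ⊕ Fin m) (Fin m ⊕ Fin m) F := ↑g' with hG'
  set Gi' : Matrix (Fin m ⊕ Fin m) (Fin m ⊕ Fin m) F := ↑g'⁻¹ with hGi'
  have e1 : G * Gi = 1 := g.mul_inv
  have e2 : Gi * G = 1 := g.inv_mul
  have e1' : G' * Gi' = 1 := g'.mul_inv
  have e2' : Gi' * G' = 1 := g'.inv_mul
  obtain ⟨s1, s2⟩ := sig_unit_inv g
  obtain ⟨s1', s2'⟩ := sig_unit_inv g'
  rw [← hG, ← hGi] at s1 s2
  rw [← hG', ← hGi'] at s1' s2'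
  have hXb : (Gi * sig Gi) * (sig G * G) = 1 := by
    calc (Gi * sig Gi) * (sig G * G) = Gi * (sig Gi * sig G) * G := by simp only [mul_assoc]
      _ = 1 := by rw [s1, mul_one, e2]
  have hbY : (sig G' * G') * (Gi' * sig Gi') = 1 := by
    calc (sig G' * G') * (Gi' * sig Gi') = sig G' * (G' * Gi') * sig Gi' := by
          simp only [mul_assoc]
      _ = 1 := by rw [e1', mul_one, s2']
  have hXY : Gi * sig Gi = Gi' * sig Gi' := by
    calc Gi * sig Gi = (Gi * sig Gi) * ((sig G' * G') * (Gi' * sig Gi')) := by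
          rw [hbY, mul_one]
      _ = ((Gi * sig Gi) * (sig G * G)) * (Gi' * sig Gi') := by rw [hb]; simp only [mul_assoc]
      _ = Gi' * sig Gi' := by rw [hXb, one_mul]
  have hh : (G' * Gi) * sig (G' * Gi) = 1 := by
    rw [sig_mul]
    calc G' * Gi * (sig Gi * sig G') = G' * (Gi * sig Gi) * sig G' := by simp only [mul_assoc]
      _ = G' * (Gi' * sig Gi') * sig G' := by rw [hXY]
      _ = (G' * Gi') * (sig Gi' * sig G') := by simp only [mul_assoc]
      _ = 1 := by rw [e1', s1', mul_one]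
  have hGiU : Gi * (u : Matrix (Fin m ⊕ Fin m) (Fin m ⊕ Fin m) F) =
      (u₀ : Matrix (Fin m ⊕ Fin m) (Fin m ⊕ Fin m) F) * Gi := by
    calc Gi * (u : Matrix (Fin m ⊕ Fin m) (Fin m ⊕ Fin m) F)
        = Gi * ((u : Matrix (Fin m ⊕ Fin m) (Fin m ⊕ Fin m) F) * G) * Gi := by
          rw [mul_assoc, mul_assoc, e1, mul_one]
      _ = (Gi * G) * (u₀ : Matrix (Fin m ⊕ Fin m) (Fin m ⊕ Fin m) F) * Gi := by
          rw [← hg]; simp only [mul_assoc]
      _ = _ := by rw [e2, one_mul]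
  rw [isConj_iff]
  refine ⟨⟨G' * Gi, mem_sp_of_mul_sig hh⟩, ?_⟩
  rw [mul_inv_eq_iff_eq_mul]
  apply Subtype.ext
  show G' * Gi * (u : Matrix (Fin m ⊕ Fin m) (Fin m ⊕ Fin m) F) =
    (u' : Matrix (Fin m ⊕ Fin m) (Fin m ⊕ Fin m) F) * (G' * Gi)
  rw [mul_assoc, hGiU, ← mul_assoc, hg', mul_assoc]

end Cfsg.Agent.Helper14.SpReg
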