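import Mathlib
import Cfsg.Agent.Helper14.SpReg2

set_option autoImplicit false
set_option linter.unusedSectionVars false
set_option linter.unusedVariables false

namespace Cfsg.Agent.Helper14.SpReg

open Matrix Cfsg.Agent.Helper14.RegNil Cfsg.Agent.Helper14.RegUnip

variable {F : Type*} [Field F] {m : ℕ}

section classes

variable {u₀ : Matrix.symplecticGroup (Fin m) F} {v : Fin m ⊕ Fin m → F}
  (D : Data m ((u₀ : Matrix (Fin m ⊕ Fin m) (Fin m ⊕ Fin m) F) -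
    ((u₀⁻¹ : Matrix.symplecticGroup (Fin m) F) : Matrix (Fin m ⊕ Fin m) (Fin m ⊕ Fin m) F)) v)
include D

/-- adjusting an intertwiner by a unit of the commutant -/
theorem adjust (u : Matrix.symplecticGroup (Fin m) F)
    (g : (Matrix (Fin m ⊕ Fin m) (Fin m ⊕ Fin m) F)ˣ)
    (hg : (g : Matrix (Fin m ⊕ Fin m) (Fin m ⊕ Fin m) F) * u₀ = u * g)
    (a : Matrix (Fin m ⊕ Fin m) (Fin m ⊕ Fin m) F)
    (ha : a ∈ cen ((u₀ : Matrix (Fin m ⊕ Fin m) (Fin m ⊕ Fin m) F) -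
      ((u₀⁻¹ : Matrix.symplecticGroup (Fin m) F) : Matrix (Fin m ⊕ Fin m) (Fin m ⊕ Fin m) F)))
    (hau : IsUnit a) :
    ∃ g₂ : (Matrix (Fin m ⊕ Fin m) (Fin m ⊕ Fin m) F)ˣ,
      (g₂ : Matrix (Fin m ⊕ Fin m) (Fin m ⊕ Fin m) F) * u₀ = u * g₂ ∧
      sig (g₂ : Matrix (Fin m ⊕ Fin m) (Fin m ⊕ Fin m) F) * g₂ =
        sig a * (sig (g : Matrix (Fin m ⊕ Fin m) (Fin m ⊕ Fin m) F) * g) * a := by
  refine ⟨g * hau.unit, ?_, ?_⟩
  · show (g : Matrix (Fin m ⊕ Fin m) (Fin m ⊕ Fin m) F) * a * u₀ = u * (g * a)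
    rw [mul_assoc, (D.comm ha (U_mem u₀)).eq, ← mul_assoc, hg, mul_assoc]
  · show sig ((g : Matrix (Fin m ⊕ Fin m) (Fin m ⊕ Fin m) F) * a) * (g * a) = _
    rw [sig_mul]; simp only [mul_assoc]

/-- a `σ`-fixed unit of the commutant is a scalar times a square of a unipotent -/
theorem decomp [Finite F] (b : Matrix (Fin m ⊕ Fin m) (Fin m ⊕ Fin m) F)
    (hb : b ∈ cen ((u₀ : Matrix (Fin m ⊕ Fin m) (Fin m ⊕ Fin m) F) -
      ((u₀⁻¹ : Matrix.symplecticGroup (Fin m) F) : Matrix (Fin m ⊕ Fin m) (Fin m ⊕ Fin m) F)))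
    (hbs : sig b = b) (hbu : IsUnit b) :
    ∃ c : F, c ≠ 0 ∧ ∃ r, r ∈ cen ((u₀ : Matrix (Fin m ⊕ Fin m) (Fin m ⊕ Fin m) F) -
      ((u₀⁻¹ : Matrix.symplecticGroup (Fin m) F) : Matrix (Fin m ⊕ Fin m) (Fin m ⊕ Fin m) F)) ∧
      sig r = r ∧ IsNilpotent (r - 1) ∧ b = c • (r * r) := by
  have : Nonempty (Fin m ⊕ Fin m) := ⟨Sum.inl ⟨0, D.hm⟩⟩
  obtain ⟨c, hc⟩ := D.scalar hb
  have hc0 : c ≠ 0 := by
    intro h
    rw [h, zero_smul, sub_zero] at hc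
    exact hbu.not_isNilpotent hc
  refine ⟨c, hc0, ?_⟩
  have hw : c⁻¹ • b ∈ cen ((u₀ : Matrix (Fin m ⊕ Fin m) (Fin m ⊕ Fin m) F) -
      ((u₀⁻¹ : Matrix.symplecticGroup (Fin m) F) : Matrix (Fin m ⊕ Fin m) (Fin m ⊕ Fin m) F)) :=
    (cen _).smul_mem hb _
  have hws : sig (c⁻¹ • b) = c⁻¹ • b := by rw [sig_smul, hbs]
  have hw1 : IsNilpotent (c⁻¹ • b - 1) := by
    have e : c⁻¹ • b - 1 = c⁻¹ • (b - c • (1 : Matrix (Fin m ⊕ Fin m) (Fin m ⊕ Fin m) F)) := by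
      rw [smul_sub, smul_smul, inv_mul_cancel₀ hc0, one_smul]
    rw [e]
    exact hc.smul _
  obtain ⟨r, hr, hrs, hr1, hrr⟩ := D.exists_sqrt hw hws hw1
  refine ⟨r, hr, hrs, hr1, ?_⟩
  rw [hrr, smul_smul, mul_inv_cancel₀ hc0, one_smul]

/-- conjugacy criterion: the scalar parts of the invariants differ by a square -/
theorem conj_of_sq (u u' : Matrix.symplecticGroup (Fin m) F)
    (g g' : (Matrix (Fin m ⊕ Fin m) (Fin m ⊕ Fin m) F)ˣ)
    (hg : (g : Matrix (Fin m ⊕ Fin m) (Fin m ⊕ Fin m) F) * u₀ = u * g)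
    (hg' : (g' : Matrix (Fin m ⊕ Fin m) (Fin m ⊕ Fin m) F) * u₀ = u' * g')
    (c c' d : F) (hd : d ≠ 0) (hcd : c = c' * d * d)
    (r r' : Matrix (Fin m ⊕ Fin m) (Fin m ⊕ Fin m) F)
    (hr : r ∈ cen ((u₀ : Matrix (Fin m ⊕ Fin m) (Fin m ⊕ Fin m) F) -
      ((u₀⁻¹ : Matrix.symplecticGroup (Fin m) F) : Matrix (Fin m ⊕ Fin m) (Fin m ⊕ Fin m) F)))
    (hr' : r' ∈ cen ((u₀ : Matrix (Fin m ⊕ Fin m) (Fin m ⊕ Fin m) F) -
      ((u₀⁻¹ : Matrix.symplecticGroup (Fin m) F) : Matrix (Fin m ⊕ Fin m) (Fin m ⊕ Fin m) F)))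
    (hrs : sig r = r) (hrs' : sig r' = r')
    (hr1 : IsNilpotent (r - 1)) (hr1' : IsNilpotent (r' - 1))
    (hb : sig (g : Matrix (Fin m ⊕ Fin m) (Fin m ⊕ Fin m) F) * g = c • (r * r))
    (hb' : sig (g' : Matrix (Fin m ⊕ Fin m) (Fin m ⊕ Fin m) F) * g' = c' • (r' * r')) :
    IsConj u u' := by
  have hru : IsUnit r := by
    have : r = 1 + (r - 1) := by abel
    rw [this]; exact hr1.isUnit_one_add
  have hru' : IsUnit r' := by
    have : r' = 1 + (r' - 1) := by abel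
    rw [this]; exact hr1'.isUnit_one_add
  have hdru : IsUnit (d • r) := by
    have e : d • r = (d • (1 : Matrix (Fin m ⊕ Fin m) (Fin m ⊕ Fin m) F)) * r := by
      rw [smul_mul_assoc, one_mul]
    rw [e]
    refine IsUnit.mul ?_ hru
    have := (isUnit_iff_ne_zero.mpr hd).map
      (algebraMap F (Matrix (Fin m ⊕ Fin m) (Fin m ⊕ Fin m) F))
    rwa [Algebra.algebraMap_eq_smul_one] at this
  obtain ⟨g₂, hg₂, hb₂⟩ := adjust D u g hg r' hr' hru'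
  obtain ⟨g₂', hg₂', hb₂'⟩ := adjust D u' g' hg' (d • r) ((cen _).smul_mem hr d) hdru
  apply conj_of_eq u₀ u u' g₂ g₂' hg₂ hg₂'
  rw [hb₂, hb₂', hb, hb', hrs', sig_smul, hrs]
  have hc := (D.comm hr hr').eq
  have e1 : r' * (r * r) * r' = (r * r') * (r * r') := by
    calc r' * (r * r) * r' = (r' * r) * (r * r') := by simp only [mul_assoc]
      _ = _ := by rw [← hc]
  have e2 : r * (r' * r') * r = (r * r') * (r * r') := by
    calc r * (r' * r') * r = (r * r') * (r' * r) := by simp only [mul_assoc]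
      _ = _ := by rw [← hc]
  calc r' * c • (r * r) * r' = c • (r' * (r * r) * r') := by
        simp only [mul_smul_comm, smul_mul_assoc]
    _ = (c' * d * d) • ((r * r') * (r * r')) := by rw [e1, hcd]
    _ = (d * c' * d) • (r * (r' * r') * r) := by rw [e2]; congr 1; ring
    _ = d • r * c' • (r' * r') * d • r := by
        simp only [mul_smul_comm, smul_mul_assoc, smul_smul]
        congr 1; ring

end classes


theorem sig_diag (c : F) :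
    sig (Matrix.fromBlocks (c • (1 : Matrix (Fin m) (Fin m) F)) 0 0 1) *
      Matrix.fromBlocks (c • (1 : Matrix (Fin m) (Fin m) F)) 0 0 1 =
      c • (1 : Matrix (Fin m ⊕ Fin m) (Fin m ⊕ Fin m) F) := by
  unfold sig Matrix.J
  rw [← Matrix.fromBlocks_one, Matrix.fromBlocks_smul]
  simp [Matrix.fromBlocks_transpose, Matrix.fromBlocks_multiply, Matrix.fromBlocks_neg]

/-- the regular unipotent elements of `Sp_{2m}(q)`, `q` odd, form exactly two classes -/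
theorem two_classes [Fintype F] (hq : Odd (Fintype.card F)) (hm : 1 ≤ m) :
    Nat.card {C : ConjClasses (Matrix.symplecticGroup (Fin m) F) //
      ∃ u : Matrix.symplecticGroup (Fin m) F, ConjClasses.mk u = C ∧
        ((u : Matrix (Fin m ⊕ Fin m) (Fin m ⊕ Fin m) F) - 1) ^ (2 * m) = 0 ∧
        ((u : Matrix (Fin m ⊕ Fin m) (Fin m ⊕ Fin m) F) - 1).rank = 2 * m - 1} = 2 := by
  classical
  have h2 : (2 : F) ≠ 0 := two_ne_zero_of_odd hq
  have hchar : ringChar F ≠ 2 := by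
    intro h
    have h3 := FiniteField.even_card_of_char_two h
    have h4 := Nat.odd_iff.mp hq
    omega
  obtain ⟨u₀, hn₀, hr₀⟩ := exists_reg h2 hm
  obtain ⟨v, D⟩ := data_of_reg h2 hm u₀ hn₀ hr₀
  obtain ⟨c₁, hc₁⟩ := FiniteField.exists_nonsquare hchar
  have hc₁0 : c₁ ≠ 0 := by
    rintro rfl
    exact hc₁ ⟨0, by simp⟩
  obtain ⟨G₁, hG₁def⟩ : ∃ G₁ : Matrix (Fin m ⊕ Fin m) (Fin m ⊕ Fin m) F,
      G₁ = Matrix.fromBlocks (c₁ • (1 : Matrix (Fin m) (Fin m) F)) 0 0 1 := ⟨_, rfl⟩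
  obtain ⟨G₁i, hG₁idef⟩ : ∃ G₁i : Matrix (Fin m ⊕ Fin m) (Fin m ⊕ Fin m) F,
      G₁i = Matrix.fromBlocks (c₁⁻¹ • (1 : Matrix (Fin m) (Fin m) F)) 0 0 1 := ⟨_, rfl⟩
  have hG1 : G₁ * G₁i = 1 := by
    rw [hG₁def, hG₁idef, Matrix.fromBlocks_multiply]
    simp [smul_smul, hc₁0, Matrix.fromBlocks_one]
  have hG2 : G₁i * G₁ = 1 := by
    rw [hG₁def, hG₁idef, Matrix.fromBlocks_multiply]
    simp [smul_smul, hc₁0, Matrix.fromBlocks_one]
  have hsg : sig G₁ * G₁ = c₁ • (1 : Matrix (Fin m ⊕ Fin m) (Fin m ⊕ Fin m) F) := by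
    rw [hG₁def]; exact sig_diag c₁
  have hsG : sig G₁ = c₁ • G₁i := by
    calc sig G₁ = sig G₁ * (G₁ * G₁i) := by rw [hG1, mul_one]
      _ = (sig G₁ * G₁) * G₁i := by rw [mul_assoc]
      _ = c₁ • G₁i := by rw [hsg, smul_mul_assoc, one_mul]
  have hsGi : sig G₁i = c₁⁻¹ • G₁ := by
    have h1 : sig G₁i * sig G₁ = 1 := by rw [← sig_mul, hG1, sig_one]
    rw [hsG, mul_smul_comm] at h1
    calc sig G₁i = sig G₁i * (G₁i * G₁) := by rw [hG2, mul_one]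
      _ = (sig G₁i * G₁i) * G₁ := by rw [mul_assoc]
      _ = c₁⁻¹ • (c₁ • (sig G₁i * G₁i)) * G₁ := by
          rw [smul_smul, inv_mul_cancel₀ hc₁0, one_smul]
      _ = c₁⁻¹ • G₁ := by rw [h1, smul_mul_assoc, one_mul]
  obtain ⟨U₀, hU₀⟩ : ∃ U₀ : Matrix (Fin m ⊕ Fin m) (Fin m ⊕ Fin m) F,
      U₀ = (u₀ : Matrix (Fin m ⊕ Fin m) (Fin m ⊕ Fin m) F) := ⟨_, rfl⟩
  have hmem₁ : (G₁ * U₀ * G₁i) * sig (G₁ * U₀ * G₁i) = 1 := by
    rw [sig_mul, sig_mul, hsG, hsGi, hU₀, sig_coe]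
    simp only [smul_mul_assoc, mul_smul_comm, smul_smul]
    rw [mul_inv_cancel₀ hc₁0, one_smul]
    calc G₁ * (u₀ : Matrix (Fin m ⊕ Fin m) (Fin m ⊕ Fin m) F) * G₁i *
          (G₁ * (((u₀⁻¹ : Matrix.symplecticGroup (Fin m) F) :
            Matrix (Fin m ⊕ Fin m) (Fin m ⊕ Fin m) F) * G₁i))
        = G₁ * ((u₀ : Matrix (Fin m ⊕ Fin m) (Fin m ⊕ Fin m) F) * ((G₁i * G₁) *
            ((u₀⁻¹ : Matrix.symplecticGroup (Fin m) F) :
            Matrix (Fin m ⊕ Fin m) (Fin m ⊕ Fin m) F))) * G₁i := by simp only [mul_assoc]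
      _ = 1 := by rw [hG2, one_mul, coe_mul_inv, mul_one, hG1]
  obtain ⟨u₁, hu₁⟩ : ∃ u₁ : Matrix.symplecticGroup (Fin m) F,
      (u₁ : Matrix (Fin m ⊕ Fin m) (Fin m ⊕ Fin m) F) = G₁ * U₀ * G₁i :=
    ⟨⟨G₁ * U₀ * G₁i, mem_sp_of_mul_sig hmem₁⟩, rfl⟩
  obtain ⟨g₁, hg₁, hg₁i⟩ : ∃ g₁ : (Matrix (Fin m ⊕ Fin m) (Fin m ⊕ Fin m) F)ˣ,
      (g₁ : Matrix (Fin m ⊕ Fin m) (Fin m ⊕ Fin m) F) = G₁ ∧
      ((g₁⁻¹ : (Matrix (Fin m ⊕ Fin m) (Fin m ⊕ Fin m) F)ˣ) :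
        Matrix (Fin m ⊕ Fin m) (Fin m ⊕ Fin m) F) = G₁i :=
    ⟨⟨G₁, G₁i, hG1, hG2⟩, rfl, rfl⟩
  have hint₁ : (g₁ : Matrix (Fin m ⊕ Fin m) (Fin m ⊕ Fin m) F) * u₀ = u₁ * g₁ := by
    rw [hg₁, hu₁, ← hU₀, mul_assoc _ G₁i, hG2, mul_one]
  have hsub₁ : (u₁ : Matrix (Fin m ⊕ Fin m) (Fin m ⊕ Fin m) F) - 1 =
      G₁ * (U₀ - 1) * G₁i := by
    rw [hu₁, mul_sub, sub_mul, mul_one, hG1]
  have hn₁ : ((u₁ : Matrix (Fin m ⊕ Fin m) (Fin m ⊕ Fin m) F) - 1) ^ (2 * m) = 0 := by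
    rw [hsub₁, ← hg₁, ← hg₁i, Units.conj_pow, hU₀, hn₀]
    simp
  have hr₁ : ((u₁ : Matrix (Fin m ⊕ Fin m) (Fin m ⊕ Fin m) F) - 1).rank = 2 * m - 1 := by
    rw [hsub₁, Matrix.rank_mul_eq_left_of_isUnit_det _ _
      ((Matrix.isUnit_iff_isUnit_det _).mp (hg₁i ▸ (g₁⁻¹).isUnit)),
      Matrix.rank_mul_eq_right_of_isUnit_det _ _
      ((Matrix.isUnit_iff_isUnit_det _).mp (hg₁ ▸ g₁.isUnit)), hU₀, hr₀]
  -- every regular unipotent is conjugate to `u₀` or `u₁`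
  have claimA : ∀ u : Matrix.symplecticGroup (Fin m) F,
      ((u : Matrix (Fin m ⊕ Fin m) (Fin m ⊕ Fin m) F) - 1) ^ (2 * m) = 0 →
      ((u : Matrix (Fin m ⊕ Fin m) (Fin m ⊕ Fin m) F) - 1).rank = 2 * m - 1 →
      IsConj u u₀ ∨ IsConj u u₁ := by
    intro u hn hr
    obtain ⟨g, hgN⟩ := exists_conj hm hn₀ hr₀ hn hr
    have hg : (g : Matrix (Fin m ⊕ Fin m) (Fin m ⊕ Fin m) F) * u₀ = u * g := by
      rw [mul_sub, sub_mul, mul_one, one_mul] at hgN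
      exact sub_left_inj.mp hgN
    have hbm := b_mem u₀ u g hg
    have hbs : sig (sig (g : Matrix (Fin m ⊕ Fin m) (Fin m ⊕ Fin m) F) *
        (g : Matrix (Fin m ⊕ Fin m) (Fin m ⊕ Fin m) F)) =
        sig (g : Matrix (Fin m ⊕ Fin m) (Fin m ⊕ Fin m) F) *
        (g : Matrix (Fin m ⊕ Fin m) (Fin m ⊕ Fin m) F) := by rw [sig_mul, sig_sig]
    have hbu : IsUnit (sig (g : Matrix (Fin m ⊕ Fin m) (Fin m ⊕ Fin m) F) *
        (g : Matrix (Fin m ⊕ Fin m) (Fin m ⊕ Fin m) F)) := by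
      obtain ⟨s1, s2⟩ := sig_unit_inv g
      exact IsUnit.mul ⟨⟨_, _, s2, s1⟩, rfl⟩ g.isUnit
    obtain ⟨c, hc0, r, hr', hrs, hr1, hb⟩ := decomp D _ hbm hbs hbu
    have h11 : IsNilpotent ((1 : Matrix (Fin m ⊕ Fin m) (Fin m ⊕ Fin m) F) - 1) := by
      rw [sub_self]; exact IsNilpotent.zero
    by_cases hsq : IsSquare c
    · obtain ⟨d, hd⟩ := hsq
      left
      have hd0 : d ≠ 0 := by rintro rfl; exact hc0 (by rw [hd, mul_zero])
      exact conj_of_sq D u u₀ g 1 hg (by simp) c 1 d hd0 (by rw [hd]; ring) r 1 hr'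
        (cen _).one_mem hrs sig_one hr1 h11 hb (by simp [sig_one])
    · right
      have h1 : quadraticChar F c = -1 := quadraticChar_neg_one_iff_not_isSquare.mpr hsq
      have h2' : quadraticChar F c₁ = -1 := quadraticChar_neg_one_iff_not_isSquare.mpr hc₁
      have h3 : quadraticChar F (c * c₁) = 1 := by rw [map_mul, h1, h2']; norm_num
      obtain ⟨e, he⟩ := (quadraticChar_one_iff_isSquare (mul_ne_zero hc0 hc₁0)).mp h3
      have he0 : e ≠ 0 := by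
        rintro rfl
        rw [mul_zero] at he
        exact (mul_ne_zero hc0 hc₁0) he
      exact conj_of_sq D u u₁ g g₁ hg hint₁ c c₁ (e * c₁⁻¹)
        (mul_ne_zero he0 (inv_ne_zero hc₁0)) (by field_simp; linear_combination he) r 1 hr'
        (cen _).one_mem hrs sig_one hr1 h11 hb (by rw [hg₁, hsg, mul_one])
  -- `u₀` and `u₁` are not conjugate
  have claimB : ¬ IsConj u₀ u₁ := by
    intro hconj
    obtain ⟨k, hk⟩ := isConj_iff.mp hconj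
    have hk' : k * u₀ = u₁ * k := mul_inv_eq_iff_eq_mul.mp hk
    have hK : (k : Matrix (Fin m ⊕ Fin m) (Fin m ⊕ Fin m) F) * U₀ =
        G₁ * U₀ * G₁i * (k : Matrix (Fin m ⊕ Fin m) (Fin m ⊕ Fin m) F) := by
      have := congrArg Subtype.val hk'
      rw [← hu₁, hU₀]; exact this
    obtain ⟨a, ha_def⟩ : ∃ a : Matrix (Fin m ⊕ Fin m) (Fin m ⊕ Fin m) F,
        a = G₁i * (k : Matrix (Fin m ⊕ Fin m) (Fin m ⊕ Fin m) F) := ⟨_, rfl⟩
    have haU : a * U₀ = U₀ * a := by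
      rw [ha_def]
      calc G₁i * (k : Matrix (Fin m ⊕ Fin m) (Fin m ⊕ Fin m) F) * U₀
          = G₁i * (G₁ * U₀ * G₁i * (k : Matrix (Fin m ⊕ Fin m) (Fin m ⊕ Fin m) F)) := by
            rw [mul_assoc, hK]
        _ = (G₁i * G₁) * U₀ * (G₁i * (k : Matrix (Fin m ⊕ Fin m) (Fin m ⊕ Fin m) F)) := by
            simp only [mul_assoc]
        _ = _ := by rw [hG2, one_mul]
    rw [hU₀] at haU
    have ha := mem_cen_of_comm u₀ haU
    have hKa : (k : Matrix (Fin m ⊕ Fin m) (Fin m ⊕ Fin m) F) = G₁ * a := by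
      rw [ha_def, ← mul_assoc, hG1, one_mul]
    have h1 : sig (k : Matrix (Fin m ⊕ Fin m) (Fin m ⊕ Fin m) F) * k = 1 := by
      rw [sig_coe]; exact coe_inv_mul k
    rw [hKa, sig_mul] at h1
    have h3 : sig a * a = c₁⁻¹ • (1 : Matrix (Fin m ⊕ Fin m) (Fin m ⊕ Fin m) F) := by
      have h4 : c₁ • (sig a * a) = 1 := by
        calc c₁ • (sig a * a) = sig a * (sig G₁ * G₁) * a := by
              rw [hsg]; simp only [smul_mul_assoc, mul_smul_comm, mul_one]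
          _ = 1 := by rw [← h1]; simp only [mul_assoc]
      calc sig a * a = c₁⁻¹ • (c₁ • (sig a * a)) := by
            rw [smul_smul, inv_mul_cancel₀ hc₁0, one_smul]
        _ = _ := by rw [h4]
    obtain ⟨e, he⟩ := D.scalar ha
    obtain ⟨ν, hν⟩ : ∃ ν : Matrix (Fin m ⊕ Fin m) (Fin m ⊕ Fin m) F,
        ν = a - e • (1 : Matrix (Fin m ⊕ Fin m) (Fin m ⊕ Fin m) F) := ⟨_, rfl⟩
    rw [← hν] at he
    have hνm : ν ∈ cen ((u₀ : Matrix (Fin m ⊕ Fin m) (Fin m ⊕ Fin m) F) -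
        ((u₀⁻¹ : Matrix.symplecticGroup (Fin m) F) :
          Matrix (Fin m ⊕ Fin m) (Fin m ⊕ Fin m) F)) := by
      rw [hν]; exact Subalgebra.sub_mem _ ha (Subalgebra.smul_mem _ (Subalgebra.one_mem _) e)
    have hσν : IsNilpotent (sig ν) := sig_nilp he
    have hσνm := D.sig_mem hνm
    have haν : a = ν + e • (1 : Matrix (Fin m ⊕ Fin m) (Fin m ⊕ Fin m) F) := by
      rw [hν]; abel
    have e3 : sig a * a - (e * e) • (1 : Matrix (Fin m ⊕ Fin m) (Fin m ⊕ Fin m) F) =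
        sig ν * ν + e • sig ν + e • ν := by
      rw [haν, sig_add, sig_smul, sig_one]
      simp only [add_mul, mul_add, smul_mul_assoc, mul_smul_comm, one_mul, mul_one, smul_smul]
      module
    have hnil : IsNilpotent (sig a * a -
        (e * e) • (1 : Matrix (Fin m ⊕ Fin m) (Fin m ⊕ Fin m) F)) := by
      rw [e3]
      have n1 : IsNilpotent (sig ν * ν) :=
        Commute.isNilpotent_mul_right (D.comm hσνm hνm) hσν
      have n2 : IsNilpotent (e • sig ν) := hσν.smul e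
      have n3 : IsNilpotent (e • ν) := he.smul e
      have m1 := (cen _).mul_mem hσνm hνm
      have m2 := (cen _).smul_mem hσνm e
      have m3 := (cen _).smul_mem hνm e
      exact Commute.isNilpotent_add (D.comm ((cen _).add_mem m1 m2) m3)
        (Commute.isNilpotent_add (D.comm m1 m2) n1 n2) n3
    rw [h3, ← sub_smul] at hnil
    have h5 := scalar_nilp D.hm hnil
    have h6 : c₁⁻¹ = e * e := sub_eq_zero.mp h5
    apply hc₁
    refine ⟨e⁻¹, ?_⟩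
    rw [← mul_inv, ← h6, inv_inv]
  rw [Nat.card_eq_two_iff]
  refine ⟨⟨ConjClasses.mk u₀, u₀, rfl, hn₀, hr₀⟩, ⟨ConjClasses.mk u₁, u₁, rfl, hn₁, hr₁⟩, ?_, ?_⟩
  · intro h
    have h1 := congrArg Subtype.val h
    exact claimB (ConjClasses.mk_eq_mk_iff_isConj.mp h1)
  · ext ⟨C, u, hu, hn, hr⟩
    simp only [Set.mem_insert_iff, Set.mem_singleton_iff, Set.mem_univ, iff_true]
    subst hu
    rcases claimA u hn hr with h | h
    · left; exact Subtype.ext (ConjClasses.mk_eq_mk_iff_isConj.mpr h)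
    · right; exact Subtype.ext (ConjClasses.mk_eq_mk_iff_isConj.mpr h)

end Cfsg.Agent.Helper14.SpReg
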