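import Mathlib
import Cfsg.Prelude.Def_ClassicalGeometry
set_option autoImplicit false
set_option linter.unusedSimpArgs false
open scoped MatrixGroups
open Matrix

namespace Cfsg.Agent.Helper14.SpTorus

/-- the pairing involution. -/
def tau (m : ℕ) : Equiv.Perm (Fin m ⊕ Fin m) := Equiv.sumComm (Fin m) (Fin m)

theorem tau_apply (m : ℕ) (i : Fin m ⊕ Fin m) : tau m i = i.swap := rfl

theorem tau_tau (m : ℕ) (i : Fin m ⊕ Fin m) : tau m (tau m i) = i := by
  cases i <;> rfl

theorem tau_ne (m : ℕ) (i : Fin m ⊕ Fin m) : tau m i ≠ i := by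
  cases i <;> simp [tau_apply]

theorem cycleType_tau (m : ℕ) : (tau m).cycleType = Multiset.replicate m 2 := by
  have hsq : tau m ^ 2 = 1 := by
    ext i
    rw [pow_two, Equiv.Perm.mul_apply, tau_tau]
    rfl
  have hall : ∀ n ∈ (tau m).cycleType, n = 2 := by
    intro n hn
    have h1 := Equiv.Perm.two_le_of_mem_cycleType hn
    have h2 := Equiv.Perm.dvd_of_mem_cycleType hn
    have h3 : orderOf (tau m) ∣ 2 := orderOf_dvd_of_pow_eq_one hsq
    have h4 := Nat.le_of_dvd (by norm_num) (h2.trans h3)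
    omega
  have hsum : (tau m).cycleType.sum = 2 * m := by
    rw [Equiv.Perm.sum_cycleType]
    have : (tau m).support = Finset.univ := by
      ext i
      simp [Equiv.Perm.mem_support, tau_ne]
    rw [this, Finset.card_univ, Fintype.card_sum, Fintype.card_fin]
    ring
  rw [Multiset.eq_replicate]
  refine ⟨?_, hall⟩
  have h5 : (tau m).cycleType = Multiset.replicate (Multiset.card (tau m).cycleType) 2 :=
    Multiset.eq_replicate_card.mpr hall
  rw [h5, Multiset.sum_replicate, smul_eq_mul] at hsum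
  omega

theorem card_centralizer_tau (m : ℕ) :
    Nat.card (Subgroup.centralizer {tau m}) = 2 ^ m * m.factorial := by
  rw [Equiv.Perm.nat_card_centralizer, cycleType_tau, Multiset.sum_replicate, Multiset.prod_replicate,
    Fintype.card_sum, Fintype.card_fin, smul_eq_mul]
  have h1 : m + m - m * 2 = 0 := by omega
  rw [h1, Nat.factorial_zero, one_mul]
  congr 1
  rcases Nat.eq_zero_or_pos m with rfl | hm
  · simp
  · rw [Multiset.toFinset_replicate, if_neg (by omega), Finset.prod_singleton,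
      Multiset.count_replicate_self]

variable {F : Type*} [Field F] {m : ℕ}

/-- sign of the form on a basis pair. -/
def sg (F : Type*) [Field F] {m : ℕ} : Fin m ⊕ Fin m → F
  | Sum.inl _ => -1
  | Sum.inr _ => 1

theorem sg_sq (i : Fin m ⊕ Fin m) : sg F i * sg F i = 1 := by
  cases i <;> simp [sg]

theorem sg_ne (i : Fin m ⊕ Fin m) : sg F i ≠ 0 := by
  cases i <;> simp [sg]

theorem sg_tau (i : Fin m ⊕ Fin m) : sg F (tau m i) = -sg F i := by
  cases i <;> simp [sg, tau_apply]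

theorem J_apply (i j : Fin m ⊕ Fin m) :
    Matrix.J (Fin m) F i j = if j = tau m i then sg F i else 0 := by
  rcases i with a | a <;> rcases j with b | b
  · simp [Matrix.J, tau_apply, sg]
  · simp only [Matrix.J, Matrix.fromBlocks_apply₁₂, Matrix.neg_apply, Matrix.one_apply, tau_apply,
      Sum.swap_inl, Sum.inr.injEq, sg]
    by_cases h : a = b
    · rw [if_pos h, if_pos h.symm]
    · rw [if_neg h, if_neg (fun h' => h h'.symm), neg_zero]
  · simp only [Matrix.J, Matrix.fromBlocks_apply₂₁, Matrix.one_apply, tau_apply,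
      Sum.swap_inr, Sum.inl.injEq, sg]
    by_cases h : a = b
    · rw [if_pos h, if_pos h.symm]
    · rw [if_neg h, if_neg (fun h' => h h'.symm)]
  · simp [Matrix.J, tau_apply, sg]

/-- monomial matrices. -/
def mon (σ : Equiv.Perm (Fin m ⊕ Fin m)) (c : Fin m ⊕ Fin m → F) :
    Matrix (Fin m ⊕ Fin m) (Fin m ⊕ Fin m) F :=
  Matrix.of fun k i => if k = σ i then c i else 0

theorem mon_apply (σ : Equiv.Perm (Fin m ⊕ Fin m)) (c : Fin m ⊕ Fin m → F) (k i : Fin m ⊕ Fin m) :
    mon σ c k i = if k = σ i then c i else 0 := rfl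

theorem mon_form (σ : Equiv.Perm (Fin m ⊕ Fin m)) (c : Fin m ⊕ Fin m → F) (i j : Fin m ⊕ Fin m) :
    ((mon σ c).transpose * Matrix.J (Fin m) F * mon σ c) i j =
      c i * Matrix.J (Fin m) F (σ i) (σ j) * c j := by
  simp only [Matrix.mul_apply, Matrix.transpose_apply, mon_apply, ite_mul, zero_mul, mul_ite,
    mul_zero, Finset.sum_ite_eq', Finset.mem_univ, if_true]

/-- the symplectic condition for a monomial matrix. -/
def valid (σ : Equiv.Perm (Fin m ⊕ Fin m)) (c : Fin m ⊕ Fin m → F) : Prop :=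
  ∀ i j, c i * Matrix.J (Fin m) F (σ i) (σ j) * c j = Matrix.J (Fin m) F i j

theorem mon_mem_iff (σ : Equiv.Perm (Fin m ⊕ Fin m)) (c : Fin m ⊕ Fin m → F) :
    mon σ c ∈ Matrix.symplecticGroup (Fin m) F ↔ valid σ c := by
  rw [SymplecticGroup.mem_iff']
  constructor
  · intro h i j
    rw [← mon_form, h]
  · intro h
    ext i j
    rw [mon_form, h]

theorem valid_iff (σ : Equiv.Perm (Fin m ⊕ Fin m)) (c : Fin m ⊕ Fin m → F) :
    valid σ c ↔ (∀ i, σ (tau m i) = tau m (σ i)) ∧
      ∀ i, c i * sg F (σ i) * c (tau m i) = sg F i := by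
  constructor
  · intro h
    have key : ∀ i, σ (tau m i) = tau m (σ i) ∧ c i * sg F (σ i) * c (tau m i) = sg F i := by
      intro i
      have h1 := h i (tau m i)
      rw [J_apply, J_apply, if_pos rfl] at h1
      by_cases h2 : σ (tau m i) = tau m (σ i)
      · rw [if_pos h2] at h1
        exact ⟨h2, h1⟩
      · rw [if_neg h2, mul_zero, zero_mul] at h1
        exact absurd h1.symm (sg_ne i)
    exact ⟨fun i => (key i).1, fun i => (key i).2⟩
  · rintro ⟨h1, h2⟩ i j
    rw [J_apply, J_apply]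
    by_cases hj : j = tau m i
    · subst hj
      rw [if_pos (h1 i), if_pos rfl]
      exact h2 i
    · have : ¬ σ j = tau m (σ i) := by
        intro h3
        rw [← h1 i] at h3
        exact hj (σ.injective h3)
      rw [if_neg this, if_neg hj, mul_zero, zero_mul]

theorem valid_ne (σ : Equiv.Perm (Fin m ⊕ Fin m)) (c : Fin m ⊕ Fin m → F) (h : valid σ c)
    (i : Fin m ⊕ Fin m) : c i ≠ 0 := by
  intro h0
  have := ((valid_iff σ c).mp h).2 i
  rw [h0, zero_mul, zero_mul] at this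
  exact sg_ne i this.symm

/-- the scalars of a monomial symplectic matrix, from those on the first half. -/
def cfun (σ : Equiv.Perm (Fin m ⊕ Fin m)) (u : Fin m → Fˣ) : Fin m ⊕ Fin m → F
  | Sum.inl a => (u a : F)
  | Sum.inr a => -(sg F (σ (Sum.inl a))) * ((u a : F))⁻¹

theorem cfun_valid (σ : Equiv.Perm (Fin m ⊕ Fin m)) (hσ : ∀ i, σ (tau m i) = tau m (σ i))
    (u : Fin m → Fˣ) : valid σ (cfun σ u) := by
  rw [valid_iff]
  refine ⟨hσ, ?_⟩
  rintro (a | a)
  · change (u a : F) * sg F (σ (Sum.inl a)) * (-(sg F (σ (Sum.inl a))) * ((u a : F))⁻¹) = -1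
    have h1 := sg_sq (F := F) (σ (Sum.inl a))
    have h2 : (u a : F) ≠ 0 := (u a).ne_zero
    have h4 : (u a : F) * sg F (σ (Sum.inl a)) * (-(sg F (σ (Sum.inl a))) * ((u a : F))⁻¹) =
        -((sg F (σ (Sum.inl a)) * sg F (σ (Sum.inl a))) * ((u a : F) * ((u a : F))⁻¹)) := by ring
    rw [h4, h1, mul_inv_cancel₀ h2, one_mul]
  · change (-(sg F (σ (Sum.inl a))) * ((u a : F))⁻¹) * sg F (σ (Sum.inr a)) * (u a : F) = 1
    have h3 : σ (Sum.inr a) = tau m (σ (Sum.inl a)) := hσ (Sum.inl a)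
    rw [h3, sg_tau]
    have h1 := sg_sq (F := F) (σ (Sum.inl a))
    have h2 : (u a : F) ≠ 0 := (u a).ne_zero
    have h4 : (-(sg F (σ (Sum.inl a))) * ((u a : F))⁻¹) * (-sg F (σ (Sum.inl a))) * (u a : F) =
        (sg F (σ (Sum.inl a)) * sg F (σ (Sum.inl a))) * ((u a : F) * ((u a : F))⁻¹) := by ring
    rw [h4, h1, mul_inv_cancel₀ h2, one_mul]

theorem cfun_of_valid (σ : Equiv.Perm (Fin m ⊕ Fin m)) (c : Fin m ⊕ Fin m → F) (h : valid σ c) :
    c = cfun σ (fun a => Units.mk0 (c (Sum.inl a)) (valid_ne σ c h _)) := by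
  funext i
  rcases i with a | a
  · rfl
  · change c (Sum.inr a) = -(sg F (σ (Sum.inl a))) * (c (Sum.inl a))⁻¹
    have h1 := ((valid_iff σ c).mp h).2 (Sum.inl a)
    change c (Sum.inl a) * sg F (σ (Sum.inl a)) * c (Sum.inr a) = -1 at h1
    have h2 := valid_ne σ c h (Sum.inl a)
    have h3 := sg_sq (F := F) (σ (Sum.inl a))
    have h4 : c (Sum.inr a) = (sg F (σ (Sum.inl a)) * sg F (σ (Sum.inl a))) *
        ((c (Sum.inl a)) * (c (Sum.inl a))⁻¹) * c (Sum.inr a) := by
      rw [h3, mul_inv_cancel₀ h2, one_mul, one_mul]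
    have h5 : (sg F (σ (Sum.inl a)) * sg F (σ (Sum.inl a))) *
        ((c (Sum.inl a)) * (c (Sum.inl a))⁻¹) * c (Sum.inr a) =
        sg F (σ (Sum.inl a)) * (c (Sum.inl a))⁻¹ *
          (c (Sum.inl a) * sg F (σ (Sum.inl a)) * c (Sum.inr a)) := by ring
    rw [h4, h5, h1]
    ring

theorem mon_inj (σ σ' : Equiv.Perm (Fin m ⊕ Fin m)) (c c' : Fin m ⊕ Fin m → F)
    (hc : ∀ i, c i ≠ 0) (h : mon σ c = mon σ' c') : σ = σ' ∧ c = c' := by
  have key : ∀ i, σ i = σ' i ∧ c i = c' i := by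
    intro i
    have h1 := congrFun (congrFun h (σ i)) i
    rw [mon_apply, mon_apply, if_pos rfl] at h1
    by_cases h2 : σ i = σ' i
    · rw [if_pos h2] at h1
      exact ⟨h2, h1⟩
    · rw [if_neg h2] at h1
      exact absurd h1 (hc i)
  exact ⟨Equiv.ext fun i => (key i).1, funext fun i => (key i).2⟩

theorem mul_mon (n : Matrix (Fin m ⊕ Fin m) (Fin m ⊕ Fin m) F) (σ : Equiv.Perm (Fin m ⊕ Fin m))
    (c : Fin m ⊕ Fin m → F) (k i : Fin m ⊕ Fin m) : (n * mon σ c) k i = n k (σ i) * c i := by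
  simp only [Matrix.mul_apply, mon_apply, mul_ite, mul_zero, Finset.sum_ite_eq', Finset.mem_univ,
    if_true]

theorem mon_mul (n : Matrix (Fin m ⊕ Fin m) (Fin m ⊕ Fin m) F) (σ : Equiv.Perm (Fin m ⊕ Fin m))
    (c : Fin m ⊕ Fin m → F) (k i : Fin m ⊕ Fin m) :
    (mon σ c * n) k i = c (σ⁻¹ k) * n (σ⁻¹ k) i := by
  rw [Matrix.mul_apply]
  rw [Finset.sum_eq_single (σ⁻¹ k)]
  · rw [mon_apply, if_pos (by simp)]
  · intro j _ hj
    rw [mon_apply, if_neg, zero_mul]
    intro h
    apply hj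
    rw [h]
    simp
  · intro h
    exact absurd (Finset.mem_univ _) h

/-- the diagonal torus, as in the statement. -/
def torus (m : ℕ) (F : Type*) [Field F] : Subgroup (Matrix.symplecticGroup (Fin m) F) :=
  ⨅ i : Fin m ⊕ Fin m, Cfsg.stabilizing (Cfsg.spToMat m F)
    ((Submodule.span F {(Pi.single i (1 : F) : Fin m ⊕ Fin m → F)} :
      Submodule F (Fin m ⊕ Fin m → F)) : Set (Fin m ⊕ Fin m → F))

theorem mem_span_single (i : Fin m ⊕ Fin m) (v : Fin m ⊕ Fin m → F) :
    v ∈ Submodule.span F {(Pi.single i (1 : F) : Fin m ⊕ Fin m → F)} ↔ ∀ j, j ≠ i → v j = 0 := by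
  rw [Submodule.mem_span_singleton]
  constructor
  · rintro ⟨c, rfl⟩ j hj
    simp [Pi.single_apply, hj]
  · intro h
    refine ⟨v i, ?_⟩
    funext j
    by_cases hj : j = i
    · subst hj; simp
    · simp [Pi.single_apply, hj, h j hj]

theorem mem_torus (g : Matrix.symplecticGroup (Fin m) F) :
    g ∈ torus m F ↔ ∀ i j, j ≠ i → (g : Matrix (Fin m ⊕ Fin m) (Fin m ⊕ Fin m) F) j i = 0 := by
  unfold torus
  rw [Subgroup.mem_iInf]
  constructor
  · intro h i j hj
    have h1 := (h i (Pi.single i 1)).mp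
      ((mem_span_single i _).mpr (fun j hj => by simp [Pi.single_apply, hj]))
    have h2 := (mem_span_single i _).mp h1 j hj
    change ((g : Matrix (Fin m ⊕ Fin m) (Fin m ⊕ Fin m) F) *ᵥ Pi.single i 1) j = 0 at h2
    rw [Matrix.mulVec_single_one] at h2
    exact h2
  · intro h i v
    have hdiag : (g : Matrix (Fin m ⊕ Fin m) (Fin m ⊕ Fin m) F) =
        mon 1 (fun j => (g : Matrix (Fin m ⊕ Fin m) (Fin m ⊕ Fin m) F) j j) := by
      ext k l
      rw [mon_apply]
      by_cases hkl : k = l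
      · subst hkl; simp
      · rw [if_neg (by simpa using hkl)]; exact h l k hkl
    have hval : valid 1 (fun j => (g : Matrix (Fin m ⊕ Fin m) (Fin m ⊕ Fin m) F) j j) := by
      rw [← mon_mem_iff, ← hdiag]; exact g.2
    have hne := valid_ne _ _ hval
    have hmv : ∀ j, ((g : Matrix (Fin m ⊕ Fin m) (Fin m ⊕ Fin m) F) *ᵥ v) j =
        (g : Matrix (Fin m ⊕ Fin m) (Fin m ⊕ Fin m) F) j j * v j := by
      intro j
      change ∑ k, (g : Matrix (Fin m ⊕ Fin m) (Fin m ⊕ Fin m) F) j k * v k = _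
      rw [Finset.sum_eq_single j]
      · intro k _ hk; rw [h k j (Ne.symm hk), zero_mul]
      · intro hj; exact absurd (Finset.mem_univ _) hj
    change v ∈ (Submodule.span F {(Pi.single i (1 : F) : Fin m ⊕ Fin m → F)} :
        Submodule F (Fin m ⊕ Fin m → F)) ↔
      (g : Matrix (Fin m ⊕ Fin m) (Fin m ⊕ Fin m) F) *ᵥ v ∈
        (Submodule.span F {(Pi.single i (1 : F) : Fin m ⊕ Fin m → F)} :
          Submodule F (Fin m ⊕ Fin m → F))
    rw [mem_span_single, mem_span_single]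
    constructor
    · intro hv j hj; rw [hmv, hv j hj, mul_zero]
    · intro hv j hj
      have h5 := hv j hj
      rw [hmv] at h5
      exact (mul_eq_zero.mp h5).resolve_left (hne j)

theorem exists_x [Fintype F] (hq : 4 ≤ Fintype.card F) : ∃ x : F, x ≠ 0 ∧ x * x ≠ 1 := by
  classical
  have h3 : ({0, 1, -1} : Finset F).card ≤ 3 := Finset.card_le_three
  obtain ⟨x, hx⟩ : ∃ x : F, x ∉ ({0, 1, -1} : Finset F) := by
    by_contra hcon
    push Not at hcon
    have h4 : (Finset.univ : Finset F) ⊆ {0, 1, -1} := fun x _ => hcon x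
    have h5 := Finset.card_le_card h4
    rw [Finset.card_univ] at h5
    omega
  simp only [Finset.mem_insert, Finset.mem_singleton, not_or] at hx
  refine ⟨x, hx.1, fun h => ?_⟩
  have h6 : (x - 1) * (x + 1) = 0 := by linear_combination h
  rcases mul_eq_zero.mp h6 with h1 | h1
  · exact hx.2.1 (sub_eq_zero.mp h1)
  · exact hx.2.2 (eq_neg_of_add_eq_zero_left h1)

/-- the diagonal of a special torus element. -/
def tc (k : Fin m ⊕ Fin m) (x : F) : Fin m ⊕ Fin m → F :=
  fun i => if i = k then x else if i = tau m k then x⁻¹ else 1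

theorem tc_valid (k : Fin m ⊕ Fin m) (x : F) (hx : x ≠ 0) : valid 1 (tc k x) := by
  rw [valid_iff]
  refine ⟨fun i => rfl, fun i => ?_⟩
  change tc k x i * sg F i * tc k x (tau m i) = sg F i
  have h0 : tc k x i * tc k x (tau m i) = 1 := by
    unfold tc
    by_cases h1 : i = k
    · subst h1
      rw [if_pos rfl, if_neg (tau_ne m i), if_pos rfl, mul_inv_cancel₀ hx]
    · by_cases h2 : i = tau m k
      · subst h2
        rw [if_neg h1, if_pos rfl, tau_tau, if_pos rfl, inv_mul_cancel₀ hx]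
      · have h3 : tau m i ≠ k := fun h => h2 (by rw [← h, tau_tau])
        have h4 : tau m i ≠ tau m k := fun h => h1 ((tau m).injective h)
        rw [if_neg h1, if_neg h2, if_neg h3, if_neg h4, one_mul]
  calc tc k x i * sg F i * tc k x (tau m i) = (tc k x i * tc k x (tau m i)) * sg F i := by ring
    _ = sg F i := by rw [h0, one_mul]

/-- a special torus element. -/
def tel (k : Fin m ⊕ Fin m) (x : F) (hx : x ≠ 0) : Matrix.symplecticGroup (Fin m) F :=
  ⟨mon 1 (tc k x), (mon_mem_iff _ _).mpr (tc_valid k x hx)⟩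

theorem tel_mem (k : Fin m ⊕ Fin m) (x : F) (hx : x ≠ 0) : tel k x hx ∈ torus m F := by
  rw [mem_torus]
  intro i j hj
  change mon 1 (tc k x) j i = 0
  rw [mon_apply, if_neg (by simpa using hj)]

theorem col_unique [Fintype F] (hq : 4 ≤ Fintype.card F) (g : Matrix.symplecticGroup (Fin m) F)
    (hg : g ∈ Subgroup.normalizer (torus m F : Set (Matrix.symplecticGroup (Fin m) F)))
    (i k l : Fin m ⊕ Fin m) (hk : (g : Matrix (Fin m ⊕ Fin m) (Fin m ⊕ Fin m) F) k i ≠ 0)
    (hl : (g : Matrix (Fin m ⊕ Fin m) (Fin m ⊕ Fin m) F) l i ≠ 0) : k = l := by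
  by_contra hkl
  obtain ⟨x, hx0, hx1⟩ := exists_x hq
  have ht := tel_mem k x hx0
  have ht' : g⁻¹ * tel k x hx0 * g ∈ torus m F := (Subgroup.mem_normalizer_iff''.mp hg _).mp ht
  rw [mem_torus] at ht'
  have heq : g * (g⁻¹ * tel k x hx0 * g) = tel k x hx0 * g := by group
  have heq' : (g : Matrix (Fin m ⊕ Fin m) (Fin m ⊕ Fin m) F) *
      ((g⁻¹ * tel k x hx0 * g : Matrix.symplecticGroup (Fin m) F) :
        Matrix (Fin m ⊕ Fin m) (Fin m ⊕ Fin m) F) =
      mon 1 (tc k x) * (g : Matrix (Fin m ⊕ Fin m) (Fin m ⊕ Fin m) F) :=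
    congrArg (fun z : Matrix.symplecticGroup (Fin m) F =>
      (z : Matrix (Fin m ⊕ Fin m) (Fin m ⊕ Fin m) F)) heq
  have entry : ∀ r, (g : Matrix (Fin m ⊕ Fin m) (Fin m ⊕ Fin m) F) r i *
      ((g⁻¹ * tel k x hx0 * g : Matrix.symplecticGroup (Fin m) F) :
        Matrix (Fin m ⊕ Fin m) (Fin m ⊕ Fin m) F) i i =
      tc k x r * (g : Matrix (Fin m ⊕ Fin m) (Fin m ⊕ Fin m) F) r i := by
    intro r
    have h1 := congrFun (congrFun heq' r) i
    rw [mon_mul, Matrix.mul_apply, Finset.sum_eq_single i] at h1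
    · simpa using h1
    · intro j _ hj
      rw [ht' i j hj, mul_zero]
    · intro hi; exact absurd (Finset.mem_univ _) hi
  have e1 := entry k
  have e2 := entry l
  have h5 : ((g⁻¹ * tel k x hx0 * g : Matrix.symplecticGroup (Fin m) F) :
        Matrix (Fin m ⊕ Fin m) (Fin m ⊕ Fin m) F) i i = tc k x k := by
    have : (g : Matrix (Fin m ⊕ Fin m) (Fin m ⊕ Fin m) F) k i *
        (((g⁻¹ * tel k x hx0 * g : Matrix.symplecticGroup (Fin m) F) :
        Matrix (Fin m ⊕ Fin m) (Fin m ⊕ Fin m) F) i i - tc k x k) = 0 := by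
      rw [mul_sub, e1]; ring
    exact sub_eq_zero.mp ((mul_eq_zero.mp this).resolve_left hk)
  have h6 : ((g⁻¹ * tel k x hx0 * g : Matrix.symplecticGroup (Fin m) F) :
        Matrix (Fin m ⊕ Fin m) (Fin m ⊕ Fin m) F) i i = tc k x l := by
    have : (g : Matrix (Fin m ⊕ Fin m) (Fin m ⊕ Fin m) F) l i *
        (((g⁻¹ * tel k x hx0 * g : Matrix.symplecticGroup (Fin m) F) :
        Matrix (Fin m ⊕ Fin m) (Fin m ⊕ Fin m) F) i i - tc k x l) = 0 := by
      rw [mul_sub, e2]; ring
    exact sub_eq_zero.mp ((mul_eq_zero.mp this).resolve_left hl)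
  have h7 : tc k x k = tc k x l := h5.symm.trans h6
  unfold tc at h7
  rw [if_pos rfl, if_neg (fun h => hkl h.symm)] at h7
  by_cases h8 : l = tau m k
  · rw [if_pos h8] at h7
    apply hx1
    calc x * x = x * x⁻¹ := by rw [← h7]
      _ = 1 := mul_inv_cancel₀ hx0
  · rw [if_neg h8] at h7
    apply hx1
    rw [h7, one_mul]

theorem inv_mul_coe (g : Matrix.symplecticGroup (Fin m) F) :
    ((g⁻¹ : Matrix.symplecticGroup (Fin m) F) : Matrix (Fin m ⊕ Fin m) (Fin m ⊕ Fin m) F) *
      (g : Matrix (Fin m ⊕ Fin m) (Fin m ⊕ Fin m) F) = 1 :=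
  congrArg (fun z : Matrix.symplecticGroup (Fin m) F =>
    (z : Matrix (Fin m ⊕ Fin m) (Fin m ⊕ Fin m) F)) (inv_mul_cancel g)

theorem col_exists (g : Matrix.symplecticGroup (Fin m) F) (i : Fin m ⊕ Fin m) :
    ∃ k, (g : Matrix (Fin m ⊕ Fin m) (Fin m ⊕ Fin m) F) k i ≠ 0 := by
  by_contra hcon
  push Not at hcon
  have h1 := congrFun (congrFun (inv_mul_coe g) i) i
  rw [Matrix.mul_apply, Matrix.one_apply_eq] at h1
  rw [Finset.sum_eq_zero (fun k _ => by rw [hcon k, mul_zero])] at h1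
  exact zero_ne_one h1

/-- elements of the normalizer are monomial. -/
theorem struct [Fintype F] (hq : 4 ≤ Fintype.card F) (g : Matrix.symplecticGroup (Fin m) F)
    (hg : g ∈ Subgroup.normalizer (torus m F : Set (Matrix.symplecticGroup (Fin m) F))) :
    ∃ σ : Equiv.Perm (Fin m ⊕ Fin m), ∃ c : Fin m ⊕ Fin m → F,
      (g : Matrix (Fin m ⊕ Fin m) (Fin m ⊕ Fin m) F) = mon σ c := by
  choose f hf using col_exists g
  have huniq : ∀ i k, (g : Matrix (Fin m ⊕ Fin m) (Fin m ⊕ Fin m) F) k i ≠ 0 → k = f i :=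
    fun i k hk => col_unique hq g hg i k (f i) hk (hf i)
  have hinj : Function.Injective f := by
    intro i j hij
    by_contra hne
    have h1 := congrFun (congrFun (inv_mul_coe g) i) i
    have h2 := congrFun (congrFun (inv_mul_coe g) i) j
    rw [Matrix.mul_apply, Matrix.one_apply_eq, Finset.sum_eq_single (f i)] at h1
    · rw [Matrix.mul_apply, Matrix.one_apply_ne hne, Finset.sum_eq_single (f i)] at h2
      · rw [hij] at h2
        have h3 := (mul_eq_zero.mp h2).resolve_right (hf j)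
        rw [hij, h3, zero_mul] at h1
        exact zero_ne_one h1
      · intro k _ hk
        by_cases h4 : (g : Matrix (Fin m ⊕ Fin m) (Fin m ⊕ Fin m) F) k j = 0
        · rw [h4, mul_zero]
        · exact absurd ((huniq j k h4).trans hij.symm) hk
      · intro h; exact absurd (Finset.mem_univ _) h
    · intro k _ hk
      by_cases h4 : (g : Matrix (Fin m ⊕ Fin m) (Fin m ⊕ Fin m) F) k i = 0
      · rw [h4, mul_zero]
      · exact absurd (huniq i k h4) hk
    · intro h; exact absurd (Finset.mem_univ _) h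
  refine ⟨Equiv.ofBijective f ⟨hinj, Finite.injective_iff_surjective.mp hinj⟩,
    fun i => (g : Matrix (Fin m ⊕ Fin m) (Fin m ⊕ Fin m) F) (f i) i, ?_⟩
  ext k i
  change (g : Matrix (Fin m ⊕ Fin m) (Fin m ⊕ Fin m) F) k i =
    if k = f i then (g : Matrix (Fin m ⊕ Fin m) (Fin m ⊕ Fin m) F) (f i) i else 0
  by_cases hk : k = f i
  · rw [if_pos hk, hk]
  · rw [if_neg hk]
    by_contra h4
    exact hk (huniq i k h4)

theorem mon_normalizes (σ : Equiv.Perm (Fin m ⊕ Fin m)) (c : Fin m ⊕ Fin m → F) (hv : valid σ c) :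
    (⟨mon σ c, (mon_mem_iff σ c).mpr hv⟩ : Matrix.symplecticGroup (Fin m) F) ∈
      Subgroup.normalizer (torus m F : Set (Matrix.symplecticGroup (Fin m) F)) := by
  rw [Subgroup.mem_normalizer_iff']
  intro n
  rw [mem_torus, mem_torus]
  have hne := valid_ne σ c hv
  constructor
  · intro h i j hj
    change (mon σ c * (n : Matrix (Fin m ⊕ Fin m) (Fin m ⊕ Fin m) F)) j i = 0
    rw [mon_mul]
    have h1 := h (σ⁻¹ i) (σ⁻¹ j) (fun h' => hj (by simpa using h'))
    change ((n : Matrix (Fin m ⊕ Fin m) (Fin m ⊕ Fin m) F) * mon σ c) (σ⁻¹ j) (σ⁻¹ i) = 0 at h1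
    rw [mul_mon] at h1
    have h2 : σ (σ⁻¹ i) = i := by simp
    rw [h2] at h1
    rw [(mul_eq_zero.mp h1).resolve_right (hne _), mul_zero]
  · intro h i j hj
    change ((n : Matrix (Fin m ⊕ Fin m) (Fin m ⊕ Fin m) F) * mon σ c) j i = 0
    rw [mul_mon]
    have h1 := h (σ i) (σ j) (fun h' => hj (σ.injective h'))
    change (mon σ c * (n : Matrix (Fin m ⊕ Fin m) (Fin m ⊕ Fin m) F)) (σ j) (σ i) = 0 at h1
    rw [mon_mul] at h1
    have h2 : σ⁻¹ (σ j) = j := by simp
    rw [h2] at h1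
    rw [(mul_eq_zero.mp h1).resolve_left (hne _), zero_mul]

/-- the order of the normalizer of the torus. -/
theorem card_normalizer [Fintype F] (hq : 4 ≤ Fintype.card F) (m : ℕ) :
    Nat.card (Subgroup.normalizer (torus m F : Set (Matrix.symplecticGroup (Fin m) F))) =
      2 ^ m * m.factorial * (Fintype.card F - 1) ^ m := by
  have hcomm : ∀ σ : Subgroup.centralizer {tau m}, ∀ i, σ.1 (tau m i) = tau m (σ.1 i) := by
    intro σ i
    have h1 := Subgroup.mem_centralizer_iff.mp σ.2 (tau m) rfl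
    have h2 := congrArg (fun p : Equiv.Perm (Fin m ⊕ Fin m) => p i) h1
    simp only [Equiv.Perm.mul_apply] at h2
    exact h2.symm
  let Φ : (Subgroup.centralizer {tau m}) × (Fin m → Fˣ) →
      Subgroup.normalizer (torus m F : Set (Matrix.symplecticGroup (Fin m) F)) :=
    fun p => ⟨⟨mon p.1.1 (cfun p.1.1 p.2),
      (mon_mem_iff _ _).mpr (cfun_valid _ (hcomm p.1) p.2)⟩,
      mon_normalizes _ _ (cfun_valid _ (hcomm p.1) p.2)⟩
  have hinj : Function.Injective Φ := by
    rintro ⟨σ, u⟩ ⟨σ', u'⟩ h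
    have h1 : mon σ.1 (cfun σ.1 u) = mon σ'.1 (cfun σ'.1 u') :=
      congrArg (fun z : Subgroup.normalizer (torus m F : Set (Matrix.symplecticGroup (Fin m) F)) =>
        ((z : Matrix.symplecticGroup (Fin m) F) : Matrix (Fin m ⊕ Fin m) (Fin m ⊕ Fin m) F)) h
    obtain ⟨h2, h3⟩ := mon_inj _ _ _ _ (valid_ne _ _ (cfun_valid _ (hcomm σ) u)) h1
    have h4 : σ = σ' := Subtype.ext h2
    subst h4
    have h5 : u = u' := by
      funext a
      apply Units.ext
      exact congrFun h3 (Sum.inl a)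
    rw [h5]
  have hsurj : Function.Surjective Φ := by
    rintro ⟨g, hg⟩
    obtain ⟨σ, c, hgc⟩ := struct hq g hg
    have hv : valid σ c := by rw [← mon_mem_iff, ← hgc]; exact g.2
    have hσ := ((valid_iff σ c).mp hv).1
    have hmem : σ ∈ Subgroup.centralizer {tau m} := by
      rw [Subgroup.mem_centralizer_iff]
      rintro _ rfl
      ext i
      simp only [Equiv.Perm.mul_apply]
      exact (hσ i).symm
    refine ⟨(⟨σ, hmem⟩, fun a => Units.mk0 (c (Sum.inl a)) (valid_ne σ c hv _)), ?_⟩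
    apply Subtype.ext
    apply Subtype.ext
    change mon σ (cfun σ _) = (g : Matrix (Fin m ⊕ Fin m) (Fin m ⊕ Fin m) F)
    rw [hgc, ← cfun_of_valid σ c hv]
  rw [← Nat.card_congr (Equiv.ofBijective Φ ⟨hinj, hsurj⟩), Nat.card_prod, card_centralizer_tau,
    Nat.card_fun, Nat.card_units, Nat.card_eq_fintype_card, Nat.card_eq_fintype_card,
    Fintype.card_fin]

/-- the same, with the torus written as an intersection of sets. -/
theorem card_normalizer' [Fintype F] (hq : 4 ≤ Fintype.card F) (m : ℕ) :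
    Nat.card ↥(Subgroup.normalizer (⨅ i : Fin m ⊕ Fin m, Cfsg.stabilizing (Cfsg.spToMat m F)
      ((Submodule.span F {(Pi.single i (1 : F) : Fin m ⊕ Fin m → F)} :
        Submodule F (Fin m ⊕ Fin m → F)) : Set (Fin m ⊕ Fin m → F)) :
          Set (Matrix.symplecticGroup (Fin m) F))) =
      2 ^ m * m.factorial * (Fintype.card F - 1) ^ m := by
  have e : (⨅ i : Fin m ⊕ Fin m, Cfsg.stabilizing (Cfsg.spToMat m F)
      ((Submodule.span F {(Pi.single i (1 : F) : Fin m ⊕ Fin m → F)} :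
        Submodule F (Fin m ⊕ Fin m → F)) : Set (Fin m ⊕ Fin m → F)) :
          Set (Matrix.symplecticGroup (Fin m) F)) =
      (torus m F : Set (Matrix.symplecticGroup (Fin m) F)) := by
    unfold torus
    rw [Subgroup.coe_iInf]
    rfl
  rw [e]
  exact card_normalizer hq m

end Cfsg.Agent.Helper14.SpTorus
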